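import Cfsg.Statements.S0971
import Mathlib
import Cfsg.Agent.Lib.Helper2_BlockFMT


set_option autoImplicit false
open Cfsg

namespace Cfsg.Agent.S0971

/-- Let Q be a normal p-subgroup of the finite group G, let N = Q ⊔ C_G(Q) (a normal subgroup) and let b be a block of N relative to a maximal ideal M of the algebraic integers containing p. Then b induces some block of G, and every block B of G containing a character whose restriction to N has a constituent in b is induced by b. -/
theorem result {G : Type*} [Group G] [Fintype G] (p : ℕ) [Fact p.Prime] (M : Ideal Cfsg.AlgInt) (hM : Cfsg.IsPModular p M) (Q : Subgroup G) [Q.Normal] (hQ : IsPGroup p Q) [Fintype ↥(Q ⊔ Subgroup.centralizer (Q : Set G))] (b : Set (Cfsg.IrrCharacter ↥(Q ⊔ Subgroup.centralizer (Q : Set G)))) (hb : Cfsg.IsPBlock M b) : Cfsg.InducedBlockDefined M (Q ⊔ Subgroup.centralizer (Q : Set G)) b ∧ ∀ B : Set (Cfsg.IrrCharacter G), Cfsg.IsPBlock M B → (∃ χ ∈ B, ∃ θ ∈ b, Cfsg.classInner (fun n : ↥(Q ⊔ Subgroup.centralizer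 (Q : Set G)) => (χ : G → ℂ) n) (θ : ↥(Q ⊔ Subgroup.centralizer (Q : Set G)) → ℂ) ≠ 0) → Cfsg.IsInducedBlock M (Q ⊔ Subgroup.centralizer (Q : Set G)) b B := by
  classical
  have hPr := Cfsg.Agent.Lib.Helper2_BlockLocal.isPrime_of_modular hM
  have hnorm : Subgroup.normalizer (Q : Set G) = ⊤ := Subgroup.normalizer_eq_top Q
  have hHN : Q ⊔ Subgroup.centralizer (Q : Set G) ≤ Subgroup.normalizer (Q : Set G) := by
    rw [hnorm]; exact le_top
  refine ⟨Cfsg.Agent.Lib.Helper2_BlockBrauer.inducedBlockDefined hM hQ le_sup_left le_sup_right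
    hHN hb, ?_⟩
  rintro B hB ⟨χ, hχ, θ, hθ, hne⟩
  have hNn : (Q ⊔ Subgroup.centralizer (Q : Set G)).Normal := inferInstance
  refine ⟨hb, hB, ?_⟩
  intro ξ hξ χ' hχ' g
  have h1 := Cfsg.Agent.Lib.Helper2_BlockInd.inducedCentralChar_congr hPr
    (Q ⊔ Subgroup.centralizer (Q : Set G))
    (Cfsg.Agent.Lib.Helper2_BlockOm.irr_classFunction ξ)
    (Cfsg.Agent.Lib.Helper2_BlockOm.irr_classFunction θ)
    (Cfsg.Agent.Lib.Helper2_BlockOm.sameBlock_of_mem hPr hb hξ hθ) g
  have h3 : Cfsg.MemLocalIdeal M (Cfsg.centralChar (χ : G → ℂ) g - Cfsg.centralChar (χ' : G → ℂ) g) :=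
    Cfsg.Agent.Lib.Helper2_BlockOm.sameBlock_of_mem hPr hB hχ hχ' g
  have h2 : Cfsg.MemLocalIdeal M (Cfsg.inducedCentralChar (Q ⊔ Subgroup.centralizer (Q : Set G))
      (θ : _ → ℂ) g - Cfsg.centralChar (χ : G → ℂ) g) := by
    by_cases hg : g ∈ Q ⊔ Subgroup.centralizer (Q : Set G)
    · have := Cfsg.Agent.Lib.Helper2_BlockNormal.centralChar_eq_induced_of_over
        (Q ⊔ Subgroup.centralizer (Q : Set G)) hNn χ.2 θ.2 hne ⟨g, hg⟩
      simp only at this
      rw [this, sub_self]
      exact Cfsg.Agent.Lib.Helper2_BlockLocal.ideal_zero hPr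
    · have e0 : Cfsg.inducedCentralChar (Q ⊔ Subgroup.centralizer (Q : Set G)) (θ : _ → ℂ) g = 0 := by
        unfold Cfsg.inducedCentralChar
        have : {h : ↥(Q ⊔ Subgroup.centralizer (Q : Set G)) | IsConj g (h : G)} = ∅ := by
          ext h
          simp only [Set.mem_setOf_eq, Set.mem_empty_iff_false, iff_false]
          intro hc
          obtain ⟨y, hy⟩ := isConj_iff.mp hc
          apply hg
          have := hNn.conj_mem h h.2 y⁻¹
          rw [← hy] at this
          simpa [mul_assoc] using this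
        rw [this]
        simp
      rw [e0, zero_sub]
      apply Cfsg.Agent.Lib.Helper2_BlockLocal.ideal_neg
      apply Cfsg.Agent.Lib.Helper2_BlockPCore.centralChar_ideal_of_not_centralizing hM Q
        inferInstance hQ
      intro hc
      exact hg (le_sup_right (a := Q) hc)
  exact Cfsg.Agent.Lib.Helper2_BlockLocal.ideal_sub_trans hPr
    (Cfsg.Agent.Lib.Helper2_BlockLocal.ideal_sub_trans hPr h1 h2) h3

end Cfsg.Agent.S0971
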