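import Cfsg.Statements.S3800

import Mathlib
import Cfsg.Agent.Lib.Helper1_Coprime
import Cfsg.Agent.Lib.Helper7_Conj
set_option autoImplicit false
open Cfsg

namespace Cfsg.Agent.S3800

open Cfsg.Agent.Lib.Helper7_Conj
open scoped Pointwise

theorem normalizer_lift {G : Type*} [Group G] [Finite G] {p : ℕ} [Fact p.Prime] (N : Subgroup G)
    [N.Normal] (hN : (Nat.card N).Coprime p) (P : Subgroup G) (hP : IsPGroup p P) (g : G)
    (hg : (QuotientGroup.mk' N g) ∈ Subgroup.normalizer ((P.map (QuotientGroup.mk' N)) : Set (G ⧸ N))) :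
    ∃ d ∈ N, d⁻¹ * g ∈ Subgroup.normalizer (P : Set G) := by
  have hp : p.Prime := Fact.out
  obtain ⟨k, hk⟩ := IsPGroup.iff_card.1 hP
  have hcop : (Nat.card P).Coprime (Nat.card N) := by
    rw [hk]; exact Nat.Coprime.pow_left k hN.symm
  have hsolv : Group.IsSolvable P := by
    haveI := hP.isNilpotent
    infer_instance
  have hB : MulAut.conj g • P ≤ P ⊔ N := by
    intro y hy
    rw [mem_smul_conj] at hy
    have h1 : QuotientGroup.mk' N (g⁻¹ * y * g) ∈ P.map (QuotientGroup.mk' N) :=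
      Subgroup.mem_map_of_mem _ hy
    have h2 := (Subgroup.mem_normalizer_iff.1 hg _).1 h1
    have h3 : QuotientGroup.mk' N y ∈ P.map (QuotientGroup.mk' N) := by
      have h4 : QuotientGroup.mk' N g * QuotientGroup.mk' N (g⁻¹ * y * g) * (QuotientGroup.mk' N g)⁻¹
          = QuotientGroup.mk' N y := by
        rw [← map_inv, ← map_mul, ← map_mul]
        congr 1
        group
      rw [← h4]; exact h2
    have h5 : y ∈ (P.map (QuotientGroup.mk' N)).comap (QuotientGroup.mk' N) := h3
    rwa [Subgroup.comap_map_eq, QuotientGroup.ker_mk'] at h5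
  obtain ⟨d, hd, hdP⟩ := Cfsg.Agent.Lib.Helper1_Coprime.conj_of_le_sup (A := P) (D := N)
    (B := MulAut.conj g • P)
    (by rw [Subgroup.normalizer_eq_top_iff.2 inferInstance]; exact le_top) hcop (Or.inl hsolv) hB
    (card_cj g P)
  refine ⟨d, hd, ?_⟩
  rw [mem_normalizer_iff_cj, cj_mul, cj_eq_smul g, ← hdP, ← cj_eq_smul, cj_inv_cj]

/-- Let G be a finite group, N a normal subgroup of G whose order is prime to p, and P a p-subgroup of G. Then in G/N the normalizer of the image of P is the image of N_G(P), and the centralizer of the image of P is the image of C_G(P). -/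
theorem result {G : Type*} [Group G] [Finite G] {p : ℕ} [Fact p.Prime] (N : Subgroup G) [N.Normal] (hN : (Nat.card N).Coprime p) (P : Subgroup G) (hP : IsPGroup p P) : Subgroup.normalizer ((P.map (QuotientGroup.mk' N)) : Set (G ⧸ N)) = (Subgroup.normalizer (P : Set G)).map (QuotientGroup.mk' N) ∧ Subgroup.centralizer ((P.map (QuotientGroup.mk' N)) : Set (G ⧸ N)) = (Subgroup.centralizer (P : Set G)).map (QuotientGroup.mk' N) := by
  have hp : p.Prime := Fact.out
  obtain ⟨k, hk⟩ := IsPGroup.iff_card.1 hP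
  have hcop : (Nat.card P).Coprime (Nat.card N) := by
    rw [hk]; exact Nat.Coprime.pow_left k hN.symm
  have hdisj : P ⊓ N = ⊥ := Subgroup.inf_eq_bot_of_coprime hcop
  have hnorm : Subgroup.normalizer ((P.map (QuotientGroup.mk' N)) : Set (G ⧸ N)) =
      (Subgroup.normalizer (P : Set G)).map (QuotientGroup.mk' N) := by
    apply le_antisymm
    · intro x hx
      obtain ⟨g, rfl⟩ := QuotientGroup.mk'_surjective N x
      obtain ⟨d, hd, hdg⟩ := normalizer_lift N hN P hP g hx
      refine ⟨d⁻¹ * g, hdg, ?_⟩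
      have hd1 : QuotientGroup.mk' N d = 1 := (QuotientGroup.eq_one_iff d).2 hd
      rw [map_mul, map_inv, hd1]
      simp
    · exact Subgroup.le_normalizer_map _
  refine ⟨hnorm, ?_⟩
  apply le_antisymm
  · intro x hx
    have hx' := Subgroup.centralizer_le_normalizer _ hx
    rw [hnorm] at hx'
    obtain ⟨g, hg, rfl⟩ := hx'
    refine ⟨g, ?_, rfl⟩
    rw [SetLike.mem_coe, Subgroup.mem_centralizer_iff]
    intro y hy
    have h1 : g * y * g⁻¹ * y⁻¹ ∈ P :=
      mul_mem ((Subgroup.mem_normalizer_iff.1 hg y).1 hy) (inv_mem hy)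
    have h2 : g * y * g⁻¹ * y⁻¹ ∈ N := by
      rw [← QuotientGroup.eq_one_iff]
      have h3 := (Subgroup.mem_centralizer_iff.1 hx) (QuotientGroup.mk' N y)
        (Subgroup.mem_map_of_mem _ hy)
      have h4 : (QuotientGroup.mk' N) (g * y * g⁻¹ * y⁻¹) = 1 := by
        rw [map_mul, map_mul, map_mul, map_inv, map_inv, ← h3]
        group
      exact h4
    have h5 : g * y * g⁻¹ * y⁻¹ ∈ P ⊓ N := Subgroup.mem_inf.2 ⟨h1, h2⟩
    rw [hdisj, Subgroup.mem_bot] at h5
    have h6 : g * y = (g * y * g⁻¹ * y⁻¹) * (y * g) := by group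
    rw [h6, h5, one_mul]
  · rintro _ ⟨g, hg, rfl⟩
    rw [Subgroup.mem_centralizer_iff]
    rintro _ ⟨y, hy, rfl⟩
    rw [← map_mul, ← map_mul, (Subgroup.mem_centralizer_iff.1 hg) y hy]

end Cfsg.Agent.S3800
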