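import Cfsg.Statements.S0189
import Cfsg.Agent.Lib.CharCount

set_option autoImplicit false
open Cfsg

namespace Cfsg.Agent.S0189

/-- If a complex character of a finite group vanishes at every non-identity element of a Sylow p-subgroup P, then |P| divides its degree. -/
theorem result {G : Type*} [Group G] [Finite G] (p : ℕ) [Fact p.Prime] (P : Sylow p G) (χ : G → ℂ) (hχ : Cfsg.IsCharacter G χ) (hvan : ∀ g : G, g ∈ P → g ≠ 1 → χ g = 0) : ∃ k : ℕ, χ 1 = (Nat.card P : ℂ) * k := by
  classical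
  haveI := Fintype.ofFinite G
  have hP : (Nat.card P : ℂ) ≠ 0 := by exact_mod_cast Nat.card_pos.ne'
  obtain ⟨k, hk⟩ := Cfsg.Agent.Lib.CharOrtho.classInner_char_nat
    (Cfsg.Agent.Lib.CharBasic.isCharacter_restrict (P : Subgroup G) hχ)
    (Cfsg.Agent.Lib.CharBasic.isCharacter_one (G := (P : Subgroup G)))
  refine ⟨k, ?_⟩
  rw [← hk]
  unfold Cfsg.classInner
  rw [Finset.sum_eq_single (1 : (P : Subgroup G))]
  · simp only [OneMemClass.coe_one, Pi.one_apply, map_one, mul_one]
    rw [← mul_assoc]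
    change χ 1 = (Nat.card P : ℂ) * (Nat.card P : ℂ)⁻¹ * χ 1
    rw [mul_inv_cancel₀ hP, one_mul]
  · intro b _ hb
    have : χ (b : G) = 0 := hvan b b.2 (fun h => hb (Subtype.ext h))
    simp only [this, zero_mul]
  · intro h; exact absurd (Finset.mem_univ _) h

end Cfsg.Agent.S0189
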