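import Cfsg.Statements.S0187
import Cfsg.Agent.Lib.CharCount

set_option autoImplicit false
open Cfsg

namespace Cfsg.Agent.S0187

/-- A finite group is commutative if and only if every irreducible complex character has degree 1. -/
theorem result {G : Type*} [Group G] [Finite G] : (∀ a b : G, a * b = b * a) ↔ ∀ χ : Cfsg.IrrCharacter G, (χ : G → ℂ) 1 = 1 := by
  classical
  haveI := Fintype.ofFinite G
  constructor
  · intro hcomm χ
    obtain ⟨χ, n, ρ, hρ, rfl⟩ := χ
    haveI := hρ
    haveI : IsMulCommutative G := ⟨⟨hcomm⟩⟩
    simp only [Representation.char_one]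
    rw [Representation.IsIrreducible.finrank_eq_one_of_isMulCommutative ρ]
    simp
  · intro hall
    have h1 := Cfsg.Agent.Lib.CharComplete.sum_sq_degree (G := G)
    simp only [hall, one_pow, Finset.sum_const, Finset.card_univ, nsmul_eq_mul, mul_one] at h1
    have h2 : Fintype.card (Cfsg.IrrCharacter G) = Nat.card G := by exact_mod_cast h1
    have h3 := Cfsg.Agent.Lib.CharComplete.card_irr_eq_card_conjClasses (G := G)
    rw [Nat.card_eq_fintype_card, h2, Nat.card_eq_fintype_card, Nat.card_eq_fintype_card] at h3
    have hinj : Function.Injective (ConjClasses.mk (α := G)) :=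
      (Fintype.bijective_iff_surjective_and_card _).mpr ⟨ConjClasses.mk_surjective, h3⟩ |>.1
    intro a b
    have h4 : ConjClasses.mk (a * b * a⁻¹) = ConjClasses.mk b :=
      ConjClasses.mk_eq_mk_iff_isConj.mpr (isConj_iff.mpr ⟨a⁻¹, by group⟩)
    have h5 := hinj h4
    calc a * b = a * b * a⁻¹ * a := by group
      _ = b * a := by rw [h5]

end Cfsg.Agent.S0187
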