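import Cfsg.Statements.S0860
import Mathlib
import Cfsg.Agent.Lib.CharPerm


set_option autoImplicit false
open Cfsg

namespace Cfsg.Agent.S0860

/-- Let a group A act on the set of irreducible characters and on the set of conjugacy classes of a finite group G in such a way that (a • χ) evaluated on the class a • C equals χ evaluated on C, for all a, χ and C. Then every element of A fixes exactly as many irreducible characters as it fixes conjugacy classes. -/
theorem result {G : Type*} [Group G] [Finite G] {A : Type*} [Group A] [MulAction A (Cfsg.IrrCharacter G)] [MulAction A (ConjClasses G)] (hcompat : ∀ (a : A) (χ : Cfsg.IrrCharacter G) (g g' : G), ConjClasses.mk g' = a • ConjClasses.mk g → ((a • χ : Cfsg.IrrCharacter G) : G → ℂ) g' = (χ : G → ℂ) g) (a : A) : Nat.card {χ : Cfsg.IrrCharacter G // a • χ = χ} = Nat.card {C : ConjClasses G // a • C = C} := by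
  classical
  haveI : Fintype G := Fintype.ofFinite G
  let α : G → G := fun g => Cfsg.Agent.Lib.CharPerm.rep (a⁻¹ • ConjClasses.mk g)
  have hmk : ∀ g, ConjClasses.mk (α g) = a⁻¹ • ConjClasses.mk g := fun g =>
    Cfsg.Agent.Lib.CharPerm.mk_rep _
  have hcomp : ∀ χ : Cfsg.IrrCharacter G, (χ : G → ℂ) ∘ α = ((a • χ : Cfsg.IrrCharacter G) : G → ℂ) := by
    intro χ
    ext g
    have := hcompat a χ (α g) g (by rw [hmk, smul_inv_smul])
    rw [this]
    rfl
  have h := Cfsg.Agent.Lib.CharPerm.card_fixed_irr_eq_card_fixed_classes α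
    (fun χ => by rw [hcomp]; exact (a • χ).2)
    (fun g y => by
      have e : ConjClasses.mk (y * g * y⁻¹) = ConjClasses.mk g := by
        rw [ConjClasses.mk_eq_mk_iff_isConj]
        exact (isConj_iff.mpr ⟨y, rfl⟩ : IsConj g (y * g * y⁻¹)).symm
      have : α (y * g * y⁻¹) = α g := by
        simp only [α, e]
      rw [this])
  have e1 : Nat.card {χ : Cfsg.IrrCharacter G // a • χ = χ} =
      Nat.card {χ : Cfsg.IrrCharacter G // (χ : G → ℂ) ∘ α = (χ : G → ℂ)} := by
    refine Nat.card_congr (Equiv.subtypeEquivRight fun χ => ?_)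
    rw [hcomp]
    exact Subtype.ext_iff
  have e2 : Nat.card {C : ConjClasses G // a • C = C} =
      Nat.card {c : ConjClasses G // IsConj (α (Cfsg.Agent.Lib.CharPerm.rep c)) (Cfsg.Agent.Lib.CharPerm.rep c)} := by
    refine Nat.card_congr (Equiv.subtypeEquivRight fun c => ?_)
    rw [← ConjClasses.mk_eq_mk_iff_isConj, hmk, Cfsg.Agent.Lib.CharPerm.mk_rep, inv_smul_eq_iff]
    exact eq_comm
  rw [e1, e2, h]

end Cfsg.Agent.S0860
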