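import Cfsg.Statements.S4505
import Cfsg.Agent.Lib.BlockCountDef

set_option autoImplicit false
open Cfsg

namespace Cfsg.Agent.S4505

/-- Let G be a finite group, p a prime and M a maximal ideal of the algebraic integers containing p. For every σ, the number of p-blocks of defect exactly σ is at most the number of conjugacy classes of p-regular elements whose centralizer has order divisible by p^σ but not by p^(σ+1). -/
theorem result {G : Type*} [Group G] [Finite G] (p : ℕ) [Fact p.Prime] (M : Ideal Cfsg.AlgInt) (hM : Cfsg.IsPModular p M) (σ : ℕ) : Nat.card {B : Set (Cfsg.IrrCharacter G) // Cfsg.IsPBlock M B ∧ Cfsg.blockDefect p B = σ} ≤ Nat.card {C : ConjClasses G // ∃ g : G, ConjClasses.mk g = C ∧ ¬ p ∣ orderOf g ∧ (Nat.card (Subgroup.centralizer ({g} : Set G))).factorization p = σ} := by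
  classical
  haveI : Fintype G := Fintype.ofFinite G
  have hPr := Cfsg.Agent.Lib.Helper2_BlockLocal.isPrime_of_modular hM
  apply Cfsg.Agent.Lib.BlockCountDef.card_blocks_le hM
    {B : Set (Cfsg.IrrCharacter G) | Cfsg.IsPBlock M B ∧ Cfsg.blockDefect p B = σ}
    (fun B hB => hB.1)
    {C : ConjClasses G | ∃ g : G, ConjClasses.mk g = C ∧ ¬ p ∣ orderOf g ∧
      (Nat.card (Subgroup.centralizer ({g} : Set G))).factorization p = σ}
  intro B hB B' hB' χ hχ C hC
  by_cases hr : p ∣ orderOf (Cfsg.Agent.Lib.CharPerm.rep C)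
  · rw [Cfsg.Agent.Lib.Helper2_BlockOrtho.blockCoeff_singular hM hB.1 hr, zero_mul]
    exact Cfsg.Agent.Lib.Helper2_BlockLocal.ideal_zero hPr
  · have hne : (Nat.card (Subgroup.centralizer
        ({Cfsg.Agent.Lib.CharPerm.rep C} : Set G))).factorization p ≠ σ := by
      intro h
      exact hC ⟨_, Cfsg.Agent.Lib.CharPerm.mk_rep C, hr, h⟩
    rcases lt_or_gt_of_ne hne with hlt | hgt
    · apply Cfsg.Agent.Lib.Helper2_BlockLocal.ideal_mul_left hPr
        (Cfsg.Agent.Lib.Helper2_BlockBasic.osima_block hPr hB.1 _)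
      by_contra hcon
      have := Cfsg.Agent.Lib.BlockCountDef.defect_le_of_unit hM hB'.1 _ ⟨χ, hχ, hcon⟩
      have h2 := hB'.2
      omega
    · apply Cfsg.Agent.Lib.Helper2_BlockLocal.ideal_mul_right hPr _
        (Cfsg.Agent.Lib.Helper2_BlockBasic.centralChar_ring hPr χ _)
      by_contra hcon
      have := Cfsg.Agent.Lib.BlockCountDef.le_defect_of_coeff hM hB.1 _ hcon
      have h2 := hB.2
      omega

end Cfsg.Agent.S4505
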