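import Cfsg.Statements.S0055
import Cfsg.Agent.S0026

set_option autoImplicit false
open Cfsg

namespace Cfsg.Agent.S0055

open scoped IsMulCommutative commutatorElement
open Subgroup

/-- If A normalises an abelian subgroup V of coprime order, then V is the internal direct product of its A-fixed points and its commutator with A: the two meet trivially and generate V. -/
theorem result {G : Type*} [Group G] [Finite G] (A V : Subgroup G) [IsMulCommutative V]
    (hAV : A ≤ Subgroup.normalizer (V : Set G)) (hcop : (Nat.card A).Coprime (Nat.card V)) :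
    (V ⊓ Subgroup.centralizer (A : Set G)) ⊓ ⁅V, A⁆ = ⊥ ∧ (V ⊓ Subgroup.centralizer (A : Set G)) ⊔ ⁅V, A⁆ = V := by
  classical
  constructor
  · have : Fintype A := Fintype.ofFinite A
    let c : A → (V →* V) := fun a => (V.normalizerMonoidHom ⟨a.1, hAV a.2⟩).toMonoidHom
    have hc : ∀ (a : A) (k : V), ((c a k : V) : G) = a.1 * k.1 * a.1⁻¹ := fun a k => rfl
    let θ : V →* V := ∏ a : A, c a
    have hθ : ∀ v : V, θ v = ∏ a : A, c a v := fun v => MonoidHom.finsetProd_apply _ _ _
    have hθc : ∀ (b : A) (v : V), θ (c b v) = θ v := by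
      intro b v
      rw [hθ, hθ]
      apply Fintype.prod_equiv (Equiv.mulRight b)
      intro a
      apply Subtype.ext
      rw [hc, hc, hc]
      simp [mul_assoc]
    have h1 : ⁅V, A⁆ ≤ (θ.ker).map V.subtype := by
      rw [commutator_le]
      intro v hv a ha
      refine ⟨⟨v, hv⟩ * (c ⟨a, ha⟩ ⟨v, hv⟩)⁻¹, ?_, ?_⟩
      · show _ ∈ θ.ker
        rw [MonoidHom.mem_ker, map_mul, map_inv, hθc, mul_inv_cancel]
      · simp [hc, commutatorElement_def, mul_assoc]
    rw [eq_bot_iff]
    rintro x ⟨⟨hxV, hxC⟩, hx⟩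
    obtain ⟨y, hy, rfl⟩ := h1 hx
    have hxC' : (y : G) ∈ centralizer (A : Set G) := hxC
    rw [mem_centralizer_iff] at hxC'
    have h2 : θ y = y ^ Nat.card A := by
      rw [hθ]
      have : ∀ a : A, c a y = y := by
        intro a
        apply Subtype.ext
        rw [hc, hxC' a.1 a.2]; simp
      simp [this, Nat.card_eq_fintype_card]
    have h3 : y ^ Nat.card A = 1 := by rw [← h2]; exact hy
    have h4 : y ^ Nat.card V = 1 := pow_card_eq_one'
    have h5 : y = 1 := by
      have := pow_gcd_eq_one.mpr ⟨h3, h4⟩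
      rwa [hcop.gcd_eq_one, pow_one] at this
    rw [h5]; exact one_mem _
  · rw [sup_comm]
    exact Cfsg.Agent.S0026.result A V hAV hcop (Or.inr (Group.isSolvable_of_comm (fun a b => mul_comm' a b)))

end Cfsg.Agent.S0055
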