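import Cfsg.Statements.S0088
import Mathlib

set_option autoImplicit false
open Cfsg

namespace Cfsg.Agent.S0088

open Subgroup
open scoped IsMulCommutative

/-- An abelian Hall subgroup meets G' ∩ Z(G) trivially. -/
theorem result {G : Type*} [Group G] [Finite G] (H : Subgroup G) (hc : IsMulCommutative H) (hHall : Nat.Coprime (Nat.card H) H.index) : H ⊓ commutator G ⊓ Subgroup.center G = ⊥ := by
  rw [eq_bot_iff]
  rintro z ⟨⟨hzH, hzc⟩, hzZ⟩
  rw [mem_bot]
  have hzZ' : z ∈ center G := hzZ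
  have key : ∀ (k : ℕ) (g₀ : G), g₀⁻¹ * z ^ k * g₀ ∈ H → g₀⁻¹ * z ^ k * g₀ = z ^ k := by
    intro k g₀ _
    have h1 : z ^ k ∈ center G := pow_mem hzZ' k
    rw [mem_center_iff] at h1
    rw [mul_assoc, ← h1 g₀]; group
  have h1 := MonoidHom.transfer_eq_pow (MonoidHom.id H) z key
  have h2 : MonoidHom.transfer (MonoidHom.id H) z = 1 :=
    Abelianization.commutator_subset_ker (MonoidHom.transfer (MonoidHom.id H)) hzc
  rw [h2] at h1
  have h3 : z ^ H.index = 1 := (congrArg Subtype.val h1).symm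
  have h4 : z ^ Nat.card H = 1 := by
    have := pow_card_eq_one' (x := (⟨z, hzH⟩ : H))
    exact congrArg Subtype.val this
  have h5 := pow_gcd_eq_one.mpr ⟨h4, h3⟩
  rwa [hHall.gcd_eq_one, pow_one] at h5

end Cfsg.Agent.S0088
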