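import Cfsg.Statements.S0090
import Mathlib
import Cfsg.Agent.S0055
import Cfsg.Agent.S0088

set_option autoImplicit false
open Cfsg

namespace Cfsg.Agent.S0090

/-- An abelian normal Hall subgroup A splits as the internal direct product of G' ∩ A and Z(G) ∩ A, and [A, G] = G' ∩ A. -/
theorem result {G : Type*} [Group G] [Finite G] (A : Subgroup G) [A.Normal] (hc : IsMulCommutative A) (hHall : Nat.Coprime (Nat.card A) A.index) : ⁅A, (⊤ : Subgroup G)⁆ = commutator G ⊓ A ∧ (commutator G ⊓ A) ⊓ (Subgroup.center G ⊓ A) = ⊥ ∧ (commutator G ⊓ A) ⊔ (Subgroup.center G ⊓ A) = A := by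
  obtain ⟨H, hH⟩ := Subgroup.exists_right_complement'_of_coprime hHall
  have hcardH : A.index = Nat.card H := hH.symm.index_eq_card
  have hHn : H ≤ Subgroup.normalizer (A : Set G) := by
    rw [Subgroup.normalizer_eq_top]; exact le_top
  have hcop : (Nat.card H).Coprime (Nat.card A) := by
    rw [← hcardH]; exact hHall.symm
  obtain ⟨-, h55⟩ := Cfsg.Agent.S0055.result H A hHn hcop
  have h88 := Cfsg.Agent.S0088.result A hc hHall
  have hcomm : ∀ x ∈ A, ∀ y ∈ A, x * y = y * x := by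
    intro x hx y hy
    have := hc.is_comm.comm (⟨x, hx⟩ : A) ⟨y, hy⟩
    exact congrArg Subtype.val this
  have h1 : A ⊓ Subgroup.centralizer (H : Set G) ≤ Subgroup.center G ⊓ A := by
    intro x hx
    obtain ⟨hxA, hxC⟩ := Subgroup.mem_inf.1 hx
    refine Subgroup.mem_inf.2 ⟨?_, hxA⟩
    rw [Subgroup.mem_center_iff]
    intro g
    have hg : g ∈ ((A ⊔ H : Subgroup G) : Set G) := by
      rw [hH.sup_eq_top]; trivial
    rw [Subgroup.normal_mul] at hg
    obtain ⟨a, ha, h, hh, rfl⟩ := Set.mem_mul.1 hg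
    rw [Subgroup.mem_centralizer_iff] at hxC
    have e1 := hxC h hh
    have e2 := hcomm a ha x hxA
    calc a * h * x = a * (h * x) := by group
      _ = a * (x * h) := by rw [e1]
      _ = (a * x) * h := by group
      _ = (x * a) * h := by rw [e2]
      _ = x * (a * h) := by group
  have h2 : ⁅A, H⁆ ≤ ⁅A, (⊤ : Subgroup G)⁆ := Subgroup.commutator_mono le_rfl le_top
  have h3 : ⁅A, (⊤ : Subgroup G)⁆ ≤ commutator G ⊓ A := by
    apply le_inf
    · rw [commutator_def]; exact Subgroup.commutator_mono le_top le_rfl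
    · exact Subgroup.commutator_le_left A ⊤
  have hbot : (commutator G ⊓ A) ⊓ (Subgroup.center G ⊓ A) = ⊥ := by
    rw [eq_bot_iff, ← h88]
    intro x hx
    obtain ⟨hx1, hx2⟩ := Subgroup.mem_inf.1 hx
    obtain ⟨hx3, hx4⟩ := Subgroup.mem_inf.1 hx1
    obtain ⟨hx5, -⟩ := Subgroup.mem_inf.1 hx2
    exact Subgroup.mem_inf.2 ⟨Subgroup.mem_inf.2 ⟨hx4, hx3⟩, hx5⟩
  refine ⟨le_antisymm h3 ?_, hbot, ?_⟩
  · intro x hx
    obtain ⟨hxc, hxA⟩ := Subgroup.mem_inf.1 hx
    have hsup : A ≤ (Subgroup.center G ⊓ A) ⊔ ⁅A, (⊤ : Subgroup G)⁆ := by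
      conv_lhs => rw [← h55]
      exact sup_le_sup h1 h2
    have hx' : x ∈ (((Subgroup.center G ⊓ A) ⊔ ⁅A, (⊤ : Subgroup G)⁆ : Subgroup G) : Set G) :=
      hsup hxA
    rw [Subgroup.mul_normal] at hx'
    obtain ⟨c, hcm, d, hd, rfl⟩ := Set.mem_mul.1 hx'
    have hd' := h3 hd
    have hc1 : c ∈ (commutator G ⊓ A) ⊓ (Subgroup.center G ⊓ A) := by
      refine Subgroup.mem_inf.2 ⟨?_, hcm⟩
      have : c = (c * d) * d⁻¹ := by group
      rw [this]
      exact mul_mem hx (inv_mem hd')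
    rw [hbot, Subgroup.mem_bot] at hc1
    rw [hc1, one_mul]
    exact hd
  · apply le_antisymm
    · exact sup_le inf_le_right inf_le_right
    · conv_lhs => rw [← h55]
      rw [sup_comm]
      exact sup_le_sup (h2.trans h3) h1

end Cfsg.Agent.S0090
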