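import Cfsg.Statements.S0238
import Cfsg.Agent.Lib.Helper1_Invol2
import Cfsg.Agent.S0236

set_option autoImplicit false
open Cfsg

namespace Cfsg.Agent.S0238

open Cfsg.Agent.Lib.Helper1_Invol Cfsg.Agent.Lib.Helper1_Invol2

/-- For every x in a finite group G, the number c of ordered pairs (u, v) of involutions with uv = x is at most |C_G(x)|; c = 0 when x is not conjugate to x⁻¹; and c + 2 ≤ |C_G(x)| when x is an involution. -/
theorem result {G : Type*} [Group G] [Finite G] (x : G) : Nat.card {p : G × G // orderOf p.1 = 2 ∧ orderOf p.2 = 2 ∧ p.1 * p.2 = x} ≤ Nat.card (Subgroup.centralizer ({x} : Set G)) ∧ (¬ IsConj x x⁻¹ → Nat.card {p : G × G // orderOf p.1 = 2 ∧ orderOf p.2 = 2 ∧ p.1 * p.2 = x} = 0) ∧ (orderOf x = 2 → Nat.card {p : G × G // orderOf p.1 = 2 ∧ orderOf p.2 = 2 ∧ p.1 * p.2 = x} + 2 ≤ Nat.card (Subgroup.centralizer ({x} : Set G))) := by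
  refine ⟨?_, ?_, ?_⟩
  · rw [Nat.card_congr (pairsEquiv x)]
    by_cases hne : Nonempty {t : G // orderOf t = 2 ∧ t * x * t⁻¹ = x⁻¹ ∧ t ≠ x}
    · obtain ⟨t0⟩ := hne
      rw [← card_inverting t0.2.2.1]
      exact Nat.card_le_card_of_injective
        (fun t : {t : G // orderOf t = 2 ∧ t * x * t⁻¹ = x⁻¹ ∧ t ≠ x} =>
          (⟨t.1, t.2.2.1⟩ : {h : G // h * x * h⁻¹ = x⁻¹}))
        (fun a b hab => Subtype.ext (congrArg (fun z : {h : G // h * x * h⁻¹ = x⁻¹} => z.1) hab))
    · rw [not_nonempty_iff] at hne
      rw [Nat.card_of_isEmpty]; exact Nat.zero_le _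
  · intro hnr
    rw [Nat.card_congr (pairsEquiv x)]
    haveI : IsEmpty {t : G // orderOf t = 2 ∧ t * x * t⁻¹ = x⁻¹ ∧ t ≠ x} :=
      ⟨fun t => hnr (isConj_iff.2 ⟨t.1, t.2.2.1⟩)⟩
    exact Nat.card_of_isEmpty
  · intro hx
    have h1 := Cfsg.Agent.S0236.result x hx
    have h2 : Nat.card {t : G // orderOf t = 2 ∧ Commute t x} + 1 ≤
        Nat.card (Subgroup.centralizer ({x} : Set G)) := by
      rw [← Finite.card_option]
      refine Nat.card_le_card_of_injective
        (fun o : Option {t : G // orderOf t = 2 ∧ Commute t x} => match o with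
          | none => (1 : Subgroup.centralizer ({x} : Set G))
          | some t => ⟨t.1, Subgroup.mem_centralizer_singleton_iff.2 t.2.2.eq⟩) ?_
      intro a b hab
      cases a with
      | none =>
        cases b with
        | none => rfl
        | some t =>
          exfalso
          have := congrArg Subtype.val hab
          exact ne_one_of_order t.2.1 this.symm
      | some s =>
        cases b with
        | none =>
          exfalso
          have := congrArg Subtype.val hab
          exact ne_one_of_order s.2.1 this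
        | some t =>
          have := congrArg Subtype.val hab
          exact congrArg some (Subtype.ext this)
    omega

end Cfsg.Agent.S0238
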