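import Mathlib
import Cfsg.Statements.S3383

set_option autoImplicit false
open Cfsg
open scoped Pointwise

namespace Cfsg.Agent.S3383

theorem mem_conj_smul {G : Type*} [Group G] (H : Subgroup G) (g y : G) :
    y ∈ MulAut.conj g • H ↔ g⁻¹ * y * g ∈ H := by
  rw [Subgroup.mem_pointwise_smul_iff_inv_smul_mem]
  simp [MulAut.smul_def]

/-- Let H be a Frobenius complement in a finite group L and K the Frobenius kernel (as a subgroup). Then K is characteristic in L, and every normal subgroup of L either contains K or is contained in K. -/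
theorem result {L : Type*} [Group L] [Finite L]
    (H : Subgroup L) (hH : Cfsg.IsFrobeniusComplement H)
    (K : Subgroup L) (hK : (K : Set L) = Cfsg.frobeniusKernel H) :
    K.Characteristic ∧ ∀ N : Subgroup L, N.Normal → K ≤ N ∨ N ≤ K := by
  classical
  obtain ⟨hH1, hH2, hfrob⟩ := hH
  have hKmem : ∀ x, x ∈ K ↔ (x = 1 ∨ ∀ g : L, ¬ (g⁻¹ * x * g ∈ H)) := by
    intro x
    have : x ∈ K ↔ x ∈ frobeniusKernel H := by rw [← hK]; rfl
    rw [this]
    simp only [frobeniusKernel, Set.mem_ofPred_eq, mem_conj_smul]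
  have hKnorm : K.Normal := by
    refine ⟨fun x hx g => ?_⟩
    rw [hKmem] at hx ⊢
    rcases hx with rfl | hx
    · left; simp
    · right
      intro h hh
      apply hx (g⁻¹ * h)
      convert hh using 1
      group
  have hKH : ∀ x, x ∈ K → x ∈ H → x = 1 := by
    intro x hx hxH
    rcases (hKmem x).1 hx with h | h
    · exact h
    · exact absurd (by simpa using hxH) (h 1)
  have hcent : ∀ x ∈ H, x ≠ 1 → ∀ g : L, g * x = x * g → g ∈ H := by
    intro x hx hx1 g hg
    by_contra hgH
    have h1 := hfrob g hgH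
    have h2 : x ∈ H ⊓ (MulAut.conj g • H) := by
      refine Subgroup.mem_inf.2 ⟨hx, ?_⟩
      rw [mem_conj_smul]
      have : g⁻¹ * x * g = x := by rw [mul_assoc, ← hg]; group
      rw [this]; exact hx
    rw [h1, Subgroup.mem_bot] at h2
    exact hx1 h2
  have part2 : ∀ N : Subgroup L, N.Normal → K ≤ N ∨ N ≤ K := by
    intro N hN
    by_cases hNK : N ≤ K
    · exact Or.inr hNK
    · left
      rw [SetLike.not_le_iff_exists] at hNK
      obtain ⟨y, hyN, hyK⟩ := hNK
      rw [hKmem] at hyK
      push Not at hyK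
      obtain ⟨hy1, g, hg⟩ := hyK
      set x := g⁻¹ * y * g with hx
      have hxN : x ∈ N := by
        have := hN.conj_mem y hyN g⁻¹
        simpa [hx] using this
      have hx1 : x ≠ 1 := by
        intro h
        apply hy1
        have : y = g * x * g⁻¹ := by rw [hx]; group
        rw [this, h]; group
      let f : K → K := fun k => ⟨k * (x * (k : L)⁻¹ * x⁻¹), K.mul_mem k.2 (hKnorm.conj_mem _ (K.inv_mem k.2) x)⟩
      have hf : Function.Injective f := by
        intro a b hab
        have hab' : (a : L) * (x * (a : L)⁻¹ * x⁻¹) = b * (x * (b : L)⁻¹ * x⁻¹) := congrArg Subtype.val hab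
        have h1 : ((b : L)⁻¹ * a) * x = x * ((b : L)⁻¹ * a) := by
          have e1 : (a : L) * x * (a : L)⁻¹ = b * x * (b : L)⁻¹ := by
            have := congrArg (· * x) hab'
            calc (a : L) * x * (a : L)⁻¹ = (a : L) * (x * (a : L)⁻¹ * x⁻¹) * x := by group
              _ = b * (x * (b : L)⁻¹ * x⁻¹) * x := this
              _ = b * x * (b : L)⁻¹ := by group
          calc ((b : L)⁻¹ * a) * x = (b : L)⁻¹ * (a * x * (a : L)⁻¹) * a := by group
            _ = (b : L)⁻¹ * (b * x * (b : L)⁻¹) * a := by rw [e1]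
            _ = x * ((b : L)⁻¹ * a) := by group
        have h2 := hcent x hg hx1 _ h1
        have h3 := hKH _ (K.mul_mem (K.inv_mem b.2) a.2) h2
        exact Subtype.ext (inv_mul_eq_one.1 h3).symm
      have hsurj := Finite.surjective_of_injective hf
      intro k hk
      obtain ⟨a, ha⟩ := hsurj ⟨k, hk⟩
      have ha' : (a : L) * (x * (a : L)⁻¹ * x⁻¹) = k := congrArg Subtype.val ha
      rw [← ha']
      have : (a : L) * (x * (a : L)⁻¹ * x⁻¹) = ((a : L) * x * (a : L)⁻¹) * x⁻¹ := by group
      rw [this]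
      exact N.mul_mem (hN.conj_mem x hxN a) (N.inv_mem hxN)
  refine ⟨?_, part2⟩
  rw [Subgroup.characteristic_iff_map_eq]
  intro φ
  have hnorm : (K.map φ.toMonoidHom).Normal := hKnorm.map _ φ.surjective
  have hcard : Nat.card (K.map φ.toMonoidHom) = Nat.card K :=
    Subgroup.card_map_of_injective φ.injective
  rcases part2 _ hnorm with h | h
  · exact (Subgroup.eq_of_le_of_card_ge h hcard.le).symm
  · exact Subgroup.eq_of_le_of_card_ge h hcard.ge

end Cfsg.Agent.S3383
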