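import Cfsg.Statements.S0037
import Cfsg.Agent.Lib.Helper1_FrobThm
import Cfsg.Agent.Lib.Helper1_FrobConj
import Cfsg.Agent.S3383

set_option autoImplicit false
open Pointwise
open Cfsg

namespace Cfsg.Agent.S0037

open Subgroup Cfsg.Agent.Lib.Helper1_Basic
open scoped Pointwise

/-- a subgroup meeting the kernel trivially is conjugate into the complement -/
theorem conj_le_of_disjoint {G : Type*} [Group G] [Finite G] (H : Subgroup G)
    (hTI : ∀ g : G, g ∉ H → H ⊓ (MulAut.conj g • H) = ⊥) (L : Subgroup G)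
    (hL : ∀ x ∈ L, x ∈ Cfsg.frobeniusKernel H → x = 1) : ∃ g : G, L ≤ MulAut.conj g • H := by
  apply Cfsg.Agent.Lib.Helper1_FrobConj.le_conj_of_covered hTI L
  intro x hx hx1
  by_contra hcon
  push Not at hcon
  exact hx1 (hL x hx (Or.inr hcon))

/-- the kernel for the larger complement is contained in the kernel for the smaller one -/
theorem kernel_le {G : Type*} [Group G] [Finite G] (H H₀ : Subgroup G)
    (hH : Cfsg.IsFrobeniusComplement H) (hle : Nat.card H₀ ≤ Nat.card H)
    (N N₀ : Subgroup G) (hN : (N : Set G) = Cfsg.frobeniusKernel H) (hNc : IsComplement' N H)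
    (hN₀n : N₀.Normal) (hN₀c : IsComplement' N₀ H₀) : N ≤ N₀ := by
  have hdich := (Cfsg.Agent.S3383.result H hH N hN).2 N₀ hN₀n
  have hcard : Nat.card N * Nat.card H = Nat.card G := hNc.card_mul_card
  have hcard₀ : Nat.card N₀ * Nat.card H₀ = Nat.card G := hN₀c.card_mul_card
  have hpos : 0 < Nat.card H₀ := Nat.card_pos
  have hle' : Nat.card N ≤ Nat.card N₀ := by
    by_contra hlt
    push Not at hlt
    have h1 : Nat.card N₀ * Nat.card H₀ < Nat.card N * Nat.card H₀ :=
      Nat.mul_lt_mul_of_pos_right hlt hpos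
    have h2 : Nat.card N * Nat.card H₀ ≤ Nat.card N * Nat.card H := Nat.mul_le_mul_left _ hle
    omega
  rcases hdich with h | h
  · exact h
  · exact (Subgroup.eq_of_le_of_card_ge h hle').ge

/-- Of two Frobenius complements in one finite group, the one of smaller (or equal) order is conjugate to a subgroup of the other. -/
theorem result {G : Type*} [Group G] [Finite G] (H H₀ : Subgroup G)
    (hH : Cfsg.IsFrobeniusComplement H) (hH₀ : Cfsg.IsFrobeniusComplement H₀) (hle : Nat.card H₀ ≤ Nat.card H) :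
    ∃ g : G, MulAut.conj g • H₀ ≤ H := by
  obtain ⟨N, hN, hNn, hNc⟩ := Cfsg.Agent.Lib.Helper1_FrobThm.exists_kernel H hH.2.2
  obtain ⟨N₀, hN₀, hN₀n, hN₀c⟩ := Cfsg.Agent.Lib.Helper1_FrobThm.exists_kernel H₀ hH₀.2.2
  have hNN := kernel_le H H₀ hH hle N N₀ hN hNc hN₀n hN₀c
  obtain ⟨g, hg⟩ := conj_le_of_disjoint H hH.2.2 H₀ (by
    intro x hx hxk
    rw [← hN] at hxk
    have : x ∈ N₀ ⊓ H₀ := ⟨hNN hxk, hx⟩
    rwa [hN₀c.isCompl.inf_eq_bot, mem_bot] at this)
  refine ⟨g⁻¹, ?_⟩
  intro x hx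
  rw [mem_conj_smul, inv_inv] at hx
  have h1 := hg hx
  rw [mem_conj_smul] at h1
  have : g⁻¹ * (g * x * g⁻¹) * g = x := by group
  rwa [this] at h1

end Cfsg.Agent.S0037
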