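import Cfsg.Statements.S4687
import Mathlib
import Mathlib
import Cfsg.Agent.Lib.Helper2_AbDef


set_option autoImplicit false
open Cfsg

namespace Cfsg.Agent.S4687

/-- Fix a prime p and a maximal ideal M of the algebraic integers containing p, and a p-block B of the finite group G with maximal Brauer pair (P, e), P abelian. Then B is nilpotent if and only if its inertial quotient is trivial: every element of N_G(P) stabilizing e centralizes P. -/
theorem result {G : Type*} [Group G] [Fintype G] (p : ℕ) [Fact p.Prime] (M : Ideal Cfsg.AlgInt) (hM : Cfsg.IsPModular p M) (B : Set (Cfsg.IrrCharacter G)) (P : Subgroup G) (e : Set (Cfsg.IrrCharacter (Subgroup.centralizer (P : Set G)))) (hmax : Cfsg.IsMaximalBrauerPair p M B P e) (hab : ∀ x ∈ P, ∀ y ∈ P, x * y = y * x) : Cfsg.IsNilpotentBlock p M B ↔ ∀ x : G, x ∈ Subgroup.normalizer (P : Set G) → Cfsg.StabilizesBlock (Subgroup.centralizer (P : Set G)) e x → x ∈ Subgroup.centralizer (P : Set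 G) := by
  classical
  have hPr := Cfsg.Agent.Lib.Helper2_BlockLocal.isPrime_of_modular hM
  have hp : p.Prime := Fact.out
  have hno := Cfsg.Agent.Lib.Helper2_BP8.noExt_of_maximal hM hmax
  have hBe := hmax.1
  have hPe := hBe.1
  have hPC : P ≤ Subgroup.centralizer (P : Set G) := by
    intro u hu
    rw [Subgroup.mem_centralizer_iff]
    intro r hr
    exact hab r hr u hu
  constructor
  · intro hnil x hxN hxS
    obtain ⟨T, hT⟩ := Cfsg.Agent.Lib.Helper2_MaxPair2.exists_isStab P e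
    have hxT : x ∈ T := (hT x).mpr ⟨hxN, hxS⟩
    obtain ⟨a, b, s, h1, h2, h3⟩ := Cfsg.Agent.Lib.Helper2_PPart.exists_parts hp x
    have ha := (hT _).mp (T.pow_mem hxT a)
    have hb := (hT _).mp (T.pow_mem hxT b)
    have hb' := hnil.2 P e hBe _ hb.1 hb.2 h3
    have ha' := Cfsg.Agent.Lib.Helper2_MaxPair2.mem_of_noExt hM hPe hno ha.1 ha.2
      (Cfsg.Agent.Lib.Helper2_PPart.orderOf_eq_pow_of_pow_eq_one hp h2)
    rw [sup_eq_right.mpr hPC] at ha'
    rw [← h1]
    exact Subgroup.mul_mem _ ha' hb'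
  · intro h
    refine ⟨hBe.2.1, ?_⟩
    intro Q f hQf x hxN hxS _
    obtain ⟨g, hg⟩ := Cfsg.Agent.Lib.Helper2_BP10.conj_into_noExt hM hBe hno (a := ⟨Q, f⟩) hQf
    have hx : Cfsg.Agent.Lib.Helper2_BP9.cjPair x ⟨Q, f⟩ = ⟨Q, f⟩ :=
      Cfsg.Agent.Lib.Helper2_AbDef.cjPair_eq_self_iff.mpr ⟨hxN, hxS⟩
    have hx' : Cfsg.Agent.Lib.Helper2_BP9.cjPair (g * x * g⁻¹)
        (Cfsg.Agent.Lib.Helper2_BP9.cjPair g ⟨Q, f⟩) =
        Cfsg.Agent.Lib.Helper2_BP9.cjPair g ⟨Q, f⟩ := by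
      rw [Cfsg.Agent.Lib.Helper2_BP9.cjPair_mul]
      have : g * x * g⁻¹ * g = g * x := by group
      rw [this, ← Cfsg.Agent.Lib.Helper2_BP9.cjPair_mul, hx]
    obtain ⟨y, hy, c, hc, e1⟩ := Cfsg.Agent.Lib.Helper2_AbDef.factor_of_abelian hM hBe hno
      (Q := Q.map (MulAut.conj g).toMonoidHom) (f := conjBlock Q g f) hg hab hx'
    have hy' := Cfsg.Agent.Lib.Helper2_AbDef.cjPair_eq_self_iff.mp hy
    have hyC := h y hy'.1 hy'.2
    have hQP : Q.map (MulAut.conj g).toMonoidHom ≤ P := Cfsg.Agent.Lib.Helper2_BP5.rtg_le hg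
    have h2 : g * x * g⁻¹ ∈ Subgroup.centralizer
        ((Q.map (MulAut.conj g).toMonoidHom : Subgroup G) : Set G) := by
      rw [e1]
      exact Subgroup.mul_mem _ (Subgroup.centralizer_le hQP hyC) hc
    exact Cfsg.Agent.Lib.Helper2_BP9.conj_mem_centralizer_map.mp h2

end Cfsg.Agent.S4687
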