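import Cfsg.Statements.S2330
import Cfsg.Agent.Lib.Helper5_GL2

set_option autoImplicit false
open Cfsg

namespace Cfsg.Agent.S2330

open Cfsg.Agent.Lib.Helper5_GL2 Matrix

variable {F : Type*} [Field F]

noncomputable def param : (F × Fˣ) ⊕ Fˣ → ConjClasses (GL (Fin 2) F)
  | Sum.inl x => ConjClasses.mk (compGL x.1 x.2)
  | Sum.inr c => ConjClasses.mk (Matrix.GeneralLinearGroup.scalar (Fin 2) c)

theorem scalar_val (c : Fˣ) : ((Matrix.GeneralLinearGroup.scalar (Fin 2) c : GL (Fin 2) F) : Matrix (Fin 2) (Fin 2) F) =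
    (c : F) • (1 : Matrix (Fin 2) (Fin 2) F) := by
  ext i j
  simp [Matrix.GeneralLinearGroup.scalar, Matrix.one_apply, Matrix.scalar_apply, Matrix.diagonal_apply]

theorem param_bijective : Function.Bijective (param : (F × Fˣ) ⊕ Fˣ → ConjClasses (GL (Fin 2) F)) := by
  constructor
  · rintro (⟨τ, δ⟩ | c) (⟨τ', δ'⟩ | c') h
    · simp only [param, ConjClasses.mk_eq_mk_iff_isConj] at h
      have h1 := isConj_trace h
      have h2 := isConj_det h
      simp only [compGL_val, comp_trace] at h1
      have h3 : δ = δ' := by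
        apply Units.ext
        have := congrArg Units.val h2
        simpa using this
      rw [h1, h3]
    · simp only [param, ConjClasses.mk_eq_mk_iff_isConj] at h
      exact absurd ⟨_, isConj_scalar h.symm c' (scalar_val c')⟩ (comp_not_scalar τ δ)
    · simp only [param, ConjClasses.mk_eq_mk_iff_isConj] at h
      exact absurd ⟨_, isConj_scalar h c (scalar_val c)⟩ (comp_not_scalar τ' δ')
    · simp only [param, ConjClasses.mk_eq_mk_iff_isConj] at h
      have h1 := isConj_scalar h c (scalar_val c)
      rw [scalar_val] at h1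
      have h2 := congrFun (congrFun h1 0) 0
      simp at h2
      congr 1
      exact (Units.ext h2).symm
  · intro C
    obtain ⟨g, rfl⟩ := ConjClasses.mk_surjective C
    by_cases hg : ∃ c : F, (g : Matrix (Fin 2) (Fin 2) F) = c • (1 : Matrix (Fin 2) (Fin 2) F)
    · obtain ⟨c, hc⟩ := hg
      have hc0 : c ≠ 0 := by
        rintro rfl
        have := g.isUnit
        rw [hc, zero_smul] at this
        exact not_isUnit_zero this
      refine ⟨Sum.inr (Units.mk0 c hc0), ?_⟩
      simp only [param]
      congr 1
      apply Units.ext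
      rw [scalar_val, hc]; rfl
    · refine ⟨Sum.inl ((g : Matrix (Fin 2) (Fin 2) F).trace, Matrix.GeneralLinearGroup.det g), ?_⟩
      simp only [param, ConjClasses.mk_eq_mk_iff_isConj]
      exact gl_conj_comp g hg

theorem result {F : Type*} [Field F] [Fintype F] :
    Nat.card (ConjClasses (Matrix.GeneralLinearGroup (Fin 2) F)) = Fintype.card F ^ 2 - 1 := by
  classical
  rw [← Nat.card_congr (Equiv.ofBijective _ (param_bijective (F := F))), Nat.card_eq_fintype_card, Fintype.card_sum,
    Fintype.card_prod, Fintype.card_units]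
  have hq : 1 ≤ Fintype.card F := Fintype.card_pos
  obtain ⟨k, hk⟩ : ∃ k, Fintype.card F = k + 1 := ⟨Fintype.card F - 1, by omega⟩
  rw [hk]
  simp only [Nat.add_sub_cancel]
  have : (k + 1) ^ 2 = (k + 1) * k + k + 1 := by ring
  rw [this]
  omega

end Cfsg.Agent.S2330
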