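import Cfsg.Statements.S0263
import Mathlib

set_option autoImplicit false
open Cfsg

namespace Cfsg.Agent.S0263

/-- A Sylow p-subgroup of GL_n(q), p the characteristic, has order q^(n(n-1)/2). -/
theorem result {F : Type*} [Field F] [Fintype F] {q : ℕ} (hF : Fintype.card F = q) (p : ℕ) [Fact p.Prime] [CharP F p] (n : ℕ) (P : Sylow p (Matrix.GeneralLinearGroup (Fin n) F)) : Nat.card P = q ^ (n * (n - 1) / 2) := by
  subst hF
  have hp : p.Prime := Fact.out
  obtain ⟨f, _, hq⟩ := FiniteField.card F p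
  have hpq : p ∣ Fintype.card F := by
    rw [hq]; exact dvd_pow_self p f.ne_zero
  have hq1 : 1 ≤ Fintype.card F := Fintype.card_pos
  have hG : Nat.card (Matrix.GeneralLinearGroup (Fin n) F) =
      Fintype.card F ^ (n * (n - 1) / 2) * ∏ i : Fin n, (Fintype.card F ^ (n - (i : ℕ)) - 1) := by
    rw [Matrix.card_GL_field, ← Finset.sum_range_id, ← Fin.sum_univ_eq_sum_range (fun i => i) n,
      ← Finset.prod_pow_eq_pow_sum, ← Finset.prod_mul_distrib]
    apply Finset.prod_congr rfl
    intro i _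
    rw [Nat.mul_sub, mul_one, ← pow_add]
    congr 2
    have := i.2
    omega
  have hm : ¬ p ∣ ∏ i : Fin n, (Fintype.card F ^ (n - (i : ℕ)) - 1) := by
    intro hd
    rw [Prime.dvd_finsetProd_iff hp.prime] at hd
    obtain ⟨i, _, hi⟩ := hd
    have h1 : p ∣ Fintype.card F ^ (n - (i : ℕ)) := by
      apply dvd_pow hpq
      have := i.2
      omega
    have h2 : 1 ≤ Fintype.card F ^ (n - (i : ℕ)) := Nat.one_le_pow _ _ hq1
    have h3 : p ∣ 1 := by
      have := Nat.dvd_sub h1 hi
      rwa [Nat.sub_sub_self h2] at this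
    exact hp.one_lt.ne' (Nat.dvd_one.1 h3)
  have hm0 : ∏ i : Fin n, (Fintype.card F ^ (n - (i : ℕ)) - 1) ≠ 0 := by
    intro h0
    apply hm
    rw [h0]; exact dvd_zero p
  rw [Sylow.card_eq_multiplicity, hG, Nat.factorization_mul (pow_ne_zero _ (by omega)) hm0]
  simp only [Finsupp.coe_add, Pi.add_apply]
  rw [Nat.factorization_eq_zero_of_not_dvd hm, add_zero, hq, ← pow_mul,
    hp.factorization_pow]
  simp

end Cfsg.Agent.S0263
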