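import Cfsg.Statements.S0751

set_option autoImplicit false

open Cfsg

namespace Cfsg.Agent.S0751

variable {F V : Type*} [Field F] [AddCommGroup V] [Module F V] {σ : F →+* F}

/-- the map `z ↦ z + c B(d,z) d` -/
def qr (B : V →ₛₗ[σ] V →ₗ[F] F) (d : V) (c : F) : V →ₗ[F] V :=
  LinearMap.id + (c • (B d)).smulRight d

theorem qr_apply (B : V →ₛₗ[σ] V →ₗ[F] F) (d : V) (c : F) (z : V) :
    qr B d c z = z + (c * B d z) • d := by
  simp [qr]

theorem qr_form (B : V →ₛₗ[σ] V →ₗ[F] F) (hS : B.IsSymm) (d : V) (c : F) (z w : V) :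
    B (qr B d c z) (qr B d c w) = B z w + B z d * B d w * (c + σ c + c * σ c * B d d) := by
  rw [qr_apply, qr_apply]
  simp only [map_add, LinearMap.add_apply, map_smul, LinearMap.map_smulₛₗ, LinearMap.smul_apply,
    smul_eq_mul, map_mul, hS.eq d z]
  ring

theorem exists_equiv [FiniteDimensional F V] (B : V →ₛₗ[σ] V →ₗ[F] F) (hB : B.Nondegenerate)
    (T : V →ₗ[F] V) (hT : ∀ z w, B (T z) (T w) = B z w) :
    ∃ g : V ≃ₗ[F] V, ∀ z, g z = T z := by
  have hinj : Function.Injective T := by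
    rw [injective_iff_map_eq_zero]
    intro z hz
    apply hB.1
    intro w
    rw [← hT, hz, map_zero, LinearMap.zero_apply]
  exact ⟨LinearEquiv.ofInjectiveEndo T hinj, fun z => rfl⟩

theorem move1 [FiniteDimensional F V] (B : V →ₛₗ[σ] V →ₗ[F] F) (hS : B.IsSymm) (hB : B.Nondegenerate)
    (u v : V) (huv : B u u = B v v) (ht : B (u - v) u ≠ 0) :
    ∃ g : V ≃ₗ[F] V, (∀ z w, B (g z) (g w) = B z w) ∧ g u = v ∧ ∀ z, B u z = B v z → g z = z := by
  set t := B (u - v) u with htdef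
  have hst : σ t = B u (u - v) := by rw [htdef, hS.eq]
  have hdd : B (u - v) (u - v) = t + σ t := by
    rw [hst, htdef]
    simp only [map_sub, LinearMap.sub_apply]
    rw [huv]
    ring
  have hσt : σ t ≠ 0 := by
    intro h
    apply ht
    exact (map_eq_zero σ).1 h
  have hform : ∀ z w, B (qr B (u - v) (-t⁻¹) z) (qr B (u - v) (-t⁻¹) w) = B z w := by
    intro z w
    rw [qr_form B hS, hdd, map_neg, map_inv₀]
    have : -t⁻¹ + -(σ t)⁻¹ + -t⁻¹ * -(σ t)⁻¹ * (t + σ t) = 0 := by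
      field_simp
      ring
    rw [this, mul_zero, add_zero]
  obtain ⟨g, hg⟩ := exists_equiv B hB _ hform
  refine ⟨g, fun z w => by rw [hg, hg, hform], ?_, fun z hz => ?_⟩
  · rw [hg, qr_apply, ← htdef, neg_mul, inv_mul_cancel₀ ht, neg_smul, one_smul]
    abel
  · rw [hg, qr_apply, map_sub, LinearMap.sub_apply, hz, sub_self, mul_zero, zero_smul, add_zero]

theorem pi_surjective [FiniteDimensional F V] (hσ2 : ∀ a : F, σ (σ a) = a)
    (B : V →ₛₗ[σ] V →ₗ[F] F) (hB : B.Nondegenerate)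
    {κ : Type*} [Fintype κ] (u : κ → V) (hu : LinearIndependent F u) :
    Function.Surjective (LinearMap.pi (fun i => B (u i)) : V →ₗ[F] (κ → F)) := by
  classical
  rw [← LinearMap.dualMap_injective_iff, injective_iff_map_eq_zero]
  intro ψ hψ
  have h1 : ∀ y, ψ (LinearMap.pi (fun i => B (u i)) y) = 0 := fun y => LinearMap.congr_fun hψ y
  have h2 : ∑ i, σ (ψ (Pi.single i 1)) • u i = 0 := by
    apply hB.1
    intro y
    have := h1 y
    rw [LinearMap.pi_apply_eq_sum_univ] at this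
    rw [map_sum, LinearMap.sum_apply, ← this]
    apply Finset.sum_congr rfl
    intro i _
    rw [LinearMap.map_smulₛₗ, LinearMap.smul_apply, hσ2, smul_eq_mul, smul_eq_mul, LinearMap.pi_apply,
      mul_comm]
    congr 2
    funext j
    simp [Pi.single_apply, eq_comm]
  have h3 := Fintype.linearIndependent_iff.1 hu _ h2
  apply LinearMap.ext
  intro x
  rw [LinearMap.pi_apply_eq_sum_univ, LinearMap.zero_apply]
  apply Finset.sum_eq_zero
  intro i _
  have : (fun j => if i = j then (1 : F) else 0) = Pi.single i 1 := by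
    funext j
    simp [Pi.single_apply, eq_comm]
  rw [this, (map_eq_zero σ).1 (h3 i), smul_zero]

theorem exists_perp [FiniteDimensional F V] (hσ2 : ∀ a : F, σ (σ a) = a)
    (B : V →ₛₗ[σ] V →ₗ[F] F) (hB : B.Nondegenerate) {k : ℕ}
    (y : Fin k → V) (x : V) (h : LinearIndependent F (Fin.snoc y x : Fin (k + 1) → V)) :
    ∃ w, (∀ i, B (y i) w = 0) ∧ B x w ≠ 0 := by
  obtain ⟨w, hw⟩ := pi_surjective hσ2 B hB _ h (Pi.single (Fin.last k) 1)
  refine ⟨w, fun i => ?_, ?_⟩
  · have := congrFun hw i.castSucc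
    rw [LinearMap.pi_apply, Fin.snoc_castSucc, Pi.single_apply,
      if_neg (Fin.castSucc_lt_last i).ne] at this
    exact this
  · have := congrFun hw (Fin.last k)
    rw [LinearMap.pi_apply, Fin.snoc_last, Pi.single_eq_same] at this
    rw [this]; exact one_ne_zero

/-- a scalar multiple `a = s b` with `B(a,a) + B(x,a) + B(a,x) = 0` -/
theorem exists_scale (hσ : σ ≠ RingHom.id F) (hσ2 : ∀ a : F, σ (σ a) = a)
    (B : V →ₛₗ[σ] V →ₗ[F] F) (hS : B.IsSymm) (x b : V) (hxb : B x b ≠ 0) :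
    ∃ s : F, s ≠ 0 ∧ B (s • b) (s • b) + B x (s • b) + B (s • b) x = 0 := by
  obtain ⟨z, hz⟩ : ∃ z, σ z ≠ z := by
    by_contra hcon
    push Not at hcon
    exact hσ (RingHom.ext hcon)
  have hz0 : z ≠ 0 := by
    rintro rfl
    exact hz (map_zero σ)
  have hσz0 : σ z ≠ 0 := fun h => hz0 ((map_eq_zero σ).1 h)
  set γ := B x b with hγ
  have hγ' : B b x = σ γ := by rw [hγ, hS.eq]
  have hσγ : σ γ ≠ 0 := fun h => hxb ((map_eq_zero σ).1 h)
  have hββ : σ (B b b) = B b b := hS.eq b b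
  have key : ∀ s : F, B (s • b) (s • b) + B x (s • b) + B (s • b) x =
      σ s * s * B b b + s * γ + σ s * σ γ := by
    intro s
    simp only [map_smul, LinearMap.map_smulₛₗ, LinearMap.smul_apply, smul_eq_mul, hγ']
    ring
  by_cases hβ : B b b = 0
  · refine ⟨(z - σ z) / γ, div_ne_zero (sub_ne_zero.2 (Ne.symm hz)) hxb, ?_⟩
    rw [key, hβ, map_div₀, map_sub, hσ2]
    field_simp
    ring
  · refine ⟨(z / σ z - 1) * σ γ / B b b, ?_, ?_⟩
    · apply div_ne_zero (mul_ne_zero ?_ hσγ) hβ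
      intro h
      apply hz
      have h1 : z / σ z = 1 := sub_eq_zero.1 h
      rw [div_eq_one_iff_eq hσz0] at h1
      exact h1.symm
    · rw [key, map_div₀, map_mul, map_sub, map_div₀, hσ2, hσ2, map_one, hββ]
      field_simp
      ring

theorem step [FiniteDimensional F V] (hσ : σ ≠ RingHom.id F) (hσ2 : ∀ a : F, σ (σ a) = a)
    (B : V →ₛₗ[σ] V →ₗ[F] F) (hS : B.IsSymm) (hB : B.Nondegenerate)
    {k : ℕ} (y : Fin k → V) (x x' : V)
    (h : LinearIndependent F (Fin.snoc y x : Fin (k + 1) → V))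
    (h' : LinearIndependent F (Fin.snoc y x' : Fin (k + 1) → V))
    (hxx : ∀ i, B (y i) x = B (y i) x') (hn : B x x = B x' x') :
    ∃ t : V ≃ₗ[F] V, (∀ u v, B (t u) (t v) = B u v) ∧ t x = x' ∧ ∀ i, t (y i) = y i := by
  have hsw : ∀ a b : V, B a b = 0 → B b a = 0 := fun a b hab => hS.isRefl a b hab
  have hxx' : ∀ i, B x (y i) = B x' (y i) := by
    intro i
    rw [← hS.eq, ← hS.eq (y i) x', hxx]
  by_cases h0 : B (x - x') x = 0
  · obtain ⟨w1, hw1, hw1'⟩ := exists_perp hσ2 B hB y x h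
    obtain ⟨w2, hw2, hw2'⟩ := exists_perp hσ2 B hB y x' h'
    obtain ⟨b, hb, hbx, hbx'⟩ : ∃ w, (∀ i, B (y i) w = 0) ∧ B x w ≠ 0 ∧ B x' w ≠ 0 := by
      by_cases h3 : B x' w1 = 0
      · by_cases h4 : B x w2 = 0
        · refine ⟨w1 + w2, fun i => by rw [map_add, hw1, hw2, add_zero], ?_, ?_⟩
          · rw [map_add, h4, add_zero]; exact hw1'
          · rw [map_add, h3, zero_add]; exact hw2'
        · exact ⟨w2, hw2, h4, hw2'⟩
      · exact ⟨w1, hw1, hw1', h3⟩
    obtain ⟨s, hs0, hs⟩ := exists_scale hσ hσ2 B hS x b hbx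
    obtain ⟨a, ha⟩ : ∃ a, a = s • b := ⟨_, rfl⟩
    rw [← ha] at hs
    have hay : ∀ i, B (y i) a = 0 := by
      intro i
      rw [ha, map_smul, hb, smul_zero]
    have hya : ∀ i, B a (y i) = 0 := fun i => hsw _ _ (hay i)
    have hxa : B x a ≠ 0 := by
      rw [ha, map_smul, smul_eq_mul]
      exact mul_ne_zero hs0 hbx
    have hx'a : B x' a ≠ 0 := by
      rw [ha, map_smul, smul_eq_mul]
      exact mul_ne_zero hs0 hbx'
    have hax : B a x ≠ 0 := fun hh => hxa (hsw _ _ hh)
    have hax' : B a x' ≠ 0 := fun hh => hx'a (hsw _ _ hh)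
    have n1 : B x x = B (x + a) (x + a) := by
      simp only [map_add, LinearMap.add_apply]
      linear_combination -hs
    have e1 : B (x - (x + a)) x ≠ 0 := by
      have : x - (x + a) = -a := by abel
      rw [this, map_neg, LinearMap.neg_apply]
      exact neg_ne_zero.2 hax
    have h0' : B x (x - x') = 0 := hsw _ _ h0
    have e2 : B ((x + a) - x') (x + a) ≠ 0 := by
      have h5 : B ((x + a) - x') (x + a) = - B x' a := by
        simp only [map_add, map_sub, LinearMap.add_apply, LinearMap.sub_apply] at h0 h0' ⊢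
        linear_combination h0 + hs
      rw [h5]
      exact neg_ne_zero.2 hx'a
    obtain ⟨t1, ht1, ht1x, ht1f⟩ := move1 B hS hB x (x + a) n1 e1
    obtain ⟨t2, ht2, ht2x, ht2f⟩ := move1 B hS hB (x + a) x' (by rw [← n1, hn]) e2
    refine ⟨t1.trans t2, fun u v => ?_, ?_, fun i => ?_⟩
    · rw [LinearEquiv.trans_apply, LinearEquiv.trans_apply, ht2, ht1]
    · rw [LinearEquiv.trans_apply, ht1x, ht2x]
    · rw [LinearEquiv.trans_apply, ht1f _ (by rw [map_add, LinearMap.add_apply, hya, add_zero]),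
        ht2f _ (by rw [map_add, LinearMap.add_apply, hya, add_zero, hxx'])]
  · obtain ⟨t, ht, htx, htf⟩ := move1 B hS hB x x' hn h0
    exact ⟨t, ht, htx, fun i => htf _ (hxx' i)⟩

theorem witt_fam [FiniteDimensional F V] (hσ : σ ≠ RingHom.id F) (hσ2 : ∀ a : F, σ (σ a) = a)
    (B : V →ₛₗ[σ] V →ₗ[F] F) (hS : B.IsSymm) (hB : B.Nondegenerate)
    (k : ℕ) (x y : Fin k → V) (hx : LinearIndependent F x) (hy : LinearIndependent F y)
    (hxy : ∀ i j, B (x i) (x j) = B (y i) (y j)) :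
    ∃ g : V ≃ₗ[F] V, (∀ u v, B (g u) (g v) = B u v) ∧ ∀ i, g (x i) = y i := by
  induction k with
  | zero => exact ⟨LinearEquiv.refl F V, fun _ _ => rfl, fun i => i.elim0⟩
  | succ k ih =>
    have hx0 : LinearIndependent F (Fin.init x : Fin k → V) :=
      hx.comp _ (Fin.castSucc_injective k)
    have hy0 : LinearIndependent F (Fin.init y : Fin k → V) :=
      hy.comp _ (Fin.castSucc_injective k)
    obtain ⟨g0, hg0, hg0x⟩ := ih (Fin.init x) (Fin.init y) hx0 hy0
      (fun i j => hxy i.castSucc j.castSucc)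
    have h1 : LinearIndependent F (Fin.snoc (Fin.init y) (g0 (x (Fin.last k))) : Fin (k + 1) → V) := by
      have h2 : (Fin.snoc (Fin.init y) (g0 (x (Fin.last k))) : Fin (k + 1) → V) = g0 ∘ x := by
        funext i
        refine Fin.lastCases ?_ (fun i => ?_) i
        · rw [Fin.snoc_last]; rfl
        · rw [Fin.snoc_castSucc, ← hg0x i]; rfl
      rw [h2]
      exact hx.map' g0.toLinearMap (LinearEquiv.ker g0)
    have h2 : LinearIndependent F (Fin.snoc (Fin.init y) (y (Fin.last k)) : Fin (k + 1) → V) := by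
      rw [Fin.snoc_init_self]; exact hy
    obtain ⟨t, ht, htx, htf⟩ := step hσ hσ2 B hS hB (Fin.init y) _ _ h1 h2 (by
      intro i
      have e1 : B (Fin.init y i) (g0 (x (Fin.last k))) = B (x i.castSucc) (x (Fin.last k)) := by
        rw [← hg0x i, hg0]; rfl
      rw [e1]
      exact hxy i.castSucc (Fin.last k)) (by rw [hg0]; exact hxy _ _)
    refine ⟨g0.trans t, fun u v => ?_, fun i => ?_⟩
    · rw [LinearEquiv.trans_apply, LinearEquiv.trans_apply, ht, hg0]
    · refine Fin.lastCases ?_ (fun i => ?_) i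
      · rw [LinearEquiv.trans_apply, htx]
      · have := hg0x i
        rw [LinearEquiv.trans_apply]
        change g0 (x i.castSucc) = y i.castSucc at this
        rw [this]
        exact htf i

theorem result {F V : Type*} [Field F] [Finite F] [AddCommGroup V] [Module F V] [FiniteDimensional F V] (σ : F →+* F) (hσ : σ ≠ RingHom.id F) (hσ2 : ∀ a : F, σ (σ a) = a) (B : V →ₛₗ[σ] V →ₗ[F] F) (hS : B.IsSymm) (hB : B.Nondegenerate) (X Y : Submodule F V) (φ : X ≃ₗ[F] Y) (hφ : ∀ x x' : X, B (φ x : V) (φ x' : V) = B (x : V) (x' : V)) : ∃ g : V ≃ₗ[F] V, (∀ u v : V, B (g u) (g v) = B u v) ∧ ∀ x : X, g (x : V) = (φ x : V) := by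
  set bX := Module.finBasis F X
  have hx : LinearIndependent F (fun i => (bX i : V)) :=
    bX.linearIndependent.map' X.subtype (Submodule.ker_subtype X)
  have hy : LinearIndependent F (fun i => (φ (bX i) : V)) := by
    have h1 : LinearIndependent F (fun i => φ (bX i)) :=
      bX.linearIndependent.map' φ.toLinearMap (LinearEquiv.ker φ)
    exact h1.map' Y.subtype (Submodule.ker_subtype Y)
  obtain ⟨g, hg, hgx⟩ := witt_fam hσ hσ2 B hS hB _ _ _ hx hy (fun i j => (hφ _ _).symm)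
  refine ⟨g, hg, ?_⟩
  have h3 : g.toLinearMap.comp X.subtype = Y.subtype.comp φ.toLinearMap := by
    apply bX.ext
    intro i
    exact hgx i
  intro x
  exact LinearMap.congr_fun h3 x

end Cfsg.Agent.S0751
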