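import Cfsg.Statements.S0755

set_option autoImplicit false

open Cfsg

namespace Cfsg.Agent.S0755

variable {F V : Type*} [Field F] [AddCommGroup V] [Module F V] {σ : F →+* F}

theorem exists_norm [Finite F] (hσ : σ ≠ RingHom.id F) (hσ2 : ∀ a : F, σ (σ a) = a)
    (a : F) (ha : a ≠ 0) (hfix : σ a = a) : ∃ x : F, x * σ x = a := by
  classical
  let S : Fˣ →* Fˣ := Units.map (σ : F →* F)
  have hS : ∀ x : Fˣ, ((S x : Fˣ) : F) = σ x := fun x => rfl
  have hSS : ∀ x : Fˣ, S (S x) = x := fun x => Units.ext (by rw [hS, hS, hσ2])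
  let N : Fˣ →* Fˣ :=
    { toFun := fun x => x * S x
      map_one' := by simp
      map_mul' := fun x y => by simp [mul_mul_mul_comm] }
  let ψ : Fˣ →* Fˣ :=
    { toFun := fun x => x * (S x)⁻¹
      map_one' := by simp
      map_mul' := fun x y => by simp [mul_mul_mul_comm, mul_comm] }
  have hN : ∀ x, N x = x * S x := fun x => rfl
  have hψ : ∀ x, ψ x = x * (S x)⁻¹ := fun x => rfl
  have h90 : N.ker = ψ.range := by
    apply le_antisymm
    · intro y hy
      rw [MonoidHom.mem_ker, hN] at hy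
      have hy' : (y : F) * σ y = 1 := by
        have := congrArg Units.val hy
        simpa [hS] using this
      obtain ⟨z, hz⟩ : ∃ z : F, z + y * σ z ≠ 0 := by
        by_contra hcon
        push Not at hcon
        have h1 := hcon 1
        rw [map_one, mul_one] at h1
        have hy1 : (y : F) = -1 := by linear_combination h1
        apply hσ
        ext z
        have := hcon z
        rw [hy1] at this
        rw [RingHom.id_apply]
        linear_combination -this
      refine ⟨Units.mk0 _ hz, ?_⟩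
      rw [hψ, mul_inv_eq_iff_eq_mul]
      apply Units.ext
      rw [Units.val_mul, hS, Units.val_mk0, map_add, map_mul, hσ2]
      linear_combination (-z) * hy'
    · rintro _ ⟨x, rfl⟩
      rw [MonoidHom.mem_ker, hN, hψ, map_mul, map_inv, hSS]
      group
  have c1 : Nat.card N.ker * Nat.card N.range = Nat.card Fˣ := by
    rw [← Subgroup.index_ker, Subgroup.card_mul_index]
  have c2 : Nat.card ψ.ker * Nat.card ψ.range = Nat.card Fˣ := by
    rw [← Subgroup.index_ker, Subgroup.card_mul_index]
  have c3 : Nat.card N.range = Nat.card ψ.ker := by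
    rw [h90, ← c2, mul_comm] at c1
    exact Nat.eq_of_mul_eq_mul_right Nat.card_pos c1
  have hle : N.range ≤ ψ.ker := by
    rintro _ ⟨x, rfl⟩
    rw [MonoidHom.mem_ker, hψ, hN, map_mul, hSS, mul_comm (S x) x, mul_inv_cancel]
  have heq : N.range = ψ.ker := Subgroup.eq_of_le_of_card_ge hle (by rw [c3])
  have hmem : Units.mk0 a ha ∈ ψ.ker := by
    rw [MonoidHom.mem_ker, hψ, mul_inv_eq_one]
    apply Units.ext
    rw [hS, Units.val_mk0, hfix]
  rw [← heq] at hmem
  obtain ⟨x, hx⟩ := hmem
  refine ⟨x, ?_⟩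
  have := congrArg Units.val hx
  simpa [hN, hS] using this

theorem polar (hσ : σ ≠ RingHom.id F) (B : V →ₛₗ[σ] V →ₗ[F] F) (hS : B.IsSymm)
    (U : Submodule F V) (h0 : ∀ v ∈ U, B v v = 0) : ∀ u ∈ U, ∀ w ∈ U, B u w = 0 := by
  intro u hu w hw
  by_contra ht
  have key : ∀ d : F, d + σ d = 0 := by
    intro d
    have h1 := h0 (u + (d / B u w) • w) (U.add_mem hu (U.smul_mem _ hw))
    simp only [map_add, LinearMap.add_apply, map_smul, LinearMap.map_smulₛₗ, LinearMap.smul_apply,
      smul_eq_mul, h0 u hu, h0 w hw, mul_zero, add_zero, zero_add] at h1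
    rw [← hS.eq u w, ← map_mul, div_mul_cancel₀ _ ht] at h1
    rw [add_comm]
    exact h1
  apply hσ
  ext d
  have h1 := key 1
  rw [map_one] at h1
  have h2 := key d
  rw [RingHom.id_apply]
  linear_combination h2 - d * h1

theorem extend [Finite F] [FiniteDimensional F V] (hσ : σ ≠ RingHom.id F)
    (hσ2 : ∀ a : F, σ (σ a) = a) (B : V →ₛₗ[σ] V →ₗ[F] F) (hS : B.IsSymm)
    (hB : B.Nondegenerate) (k : ℕ) (f : Fin k → V)
    (hf : ∀ i j, B (f i) (f j) = if i = j then 1 else 0) (hk : k < Module.finrank F V) :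
    ∃ v, B v v = 1 ∧ ∀ i, B (f i) v = 0 := by
  classical
  set P : V →ₗ[F] (Fin k → F) := LinearMap.pi (fun i => B (f i)) with hP
  set U := LinearMap.ker P with hU
  have hmemU : ∀ v, v ∈ U ↔ ∀ i, B (f i) v = 0 := by
    intro v
    rw [hU, LinearMap.mem_ker, hP]
    constructor
    · intro h i
      exact congrFun h i
    · intro h
      ext i
      exact h i
  have hdim : 0 < Module.finrank F U := by
    have h1 := LinearMap.finrank_range_add_finrank_ker P
    have h2 : Module.finrank F (LinearMap.range P) ≤ k := by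
      have := Submodule.finrank_le (LinearMap.range P)
      simpa using this
    rw [hU]
    omega
  obtain ⟨w, hwU, hw0⟩ : ∃ w ∈ U, w ≠ 0 := by
    have : U ≠ ⊥ := by
      intro h
      rw [h, finrank_bot] at hdim
      exact lt_irrefl _ hdim
    exact Submodule.exists_mem_ne_zero_of_ne_bot this
  by_cases hex : ∃ v ∈ U, B v v ≠ 0
  · obtain ⟨v, hvU, hv⟩ := hex
    obtain ⟨x, hx⟩ := exists_norm hσ hσ2 (B v v)⁻¹ (inv_ne_zero hv) (by rw [map_inv₀, hS.eq])
    refine ⟨x • v, ?_, fun i => ?_⟩
    · simp only [LinearMap.map_smulₛₗ, LinearMap.smul_apply, map_smul, smul_eq_mul]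
      rw [← mul_assoc, hx, inv_mul_cancel₀ hv]
    · rw [map_smul, (hmemU v).1 hvU i, smul_zero]
  · exfalso
    push Not at hex
    have hpol := polar hσ B hS U hex
    apply hw0
    apply hB.1
    intro y
    have hy' : y - ∑ i, B (f i) y • f i ∈ U := by
      rw [hmemU]
      intro j
      rw [map_sub, map_sum]
      simp only [map_smul, hf, smul_eq_mul, mul_ite, mul_one, mul_zero, Finset.sum_ite_eq,
        Finset.mem_univ, if_true, sub_self]
    have h1 := hpol w hwU _ hy'
    rw [map_sub, map_sum, sub_eq_zero] at h1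
    rw [h1]
    apply Finset.sum_eq_zero
    intro i _
    rw [map_smul, ← hS.eq (f i) w, (hmemU w).1 hwU i, map_zero, smul_zero]

theorem exists_fam [Finite F] [FiniteDimensional F V] (hσ : σ ≠ RingHom.id F)
    (hσ2 : ∀ a : F, σ (σ a) = a) (B : V →ₛₗ[σ] V →ₗ[F] F) (hS : B.IsSymm)
    (hB : B.Nondegenerate) : ∀ k : ℕ, k ≤ Module.finrank F V →
    ∃ f : Fin k → V, ∀ i j, B (f i) (f j) = if i = j then 1 else 0 := by
  intro k
  induction k with
  | zero => exact fun _ => ⟨Fin.elim0, fun i => i.elim0⟩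
  | succ k ih =>
    intro hk
    obtain ⟨f, hf⟩ := ih (by omega)
    obtain ⟨v, hv1, hv⟩ := extend hσ hσ2 B hS hB k f hf (by omega)
    refine ⟨Fin.cons v f, ?_⟩
    intro i j
    refine Fin.cases ?_ (fun i => ?_) i <;> refine Fin.cases ?_ (fun j => ?_) j
    · simpa using hv1
    · simp only [Fin.cons_zero, Fin.cons_succ]
      rw [← hS.eq (f j) v, hv j, map_zero, if_neg (Fin.succ_ne_zero j).symm]
    · simp only [Fin.cons_zero, Fin.cons_succ]
      rw [hv i, if_neg (Fin.succ_ne_zero i)]
    · simp only [Fin.cons_succ, hf, Fin.succ_inj]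

theorem result {F V : Type*} [Field F] [Finite F] [AddCommGroup V] [Module F V] [FiniteDimensional F V] (σ : F →+* F) (hσ : σ ≠ RingHom.id F) (hσ2 : ∀ a : F, σ (σ a) = a) (B : V →ₛₗ[σ] V →ₗ[F] F) (hS : B.IsSymm) (hB : B.Nondegenerate) : ∃ b : Module.Basis (Fin (Module.finrank F V)) F V, ∀ i j, B (b i) (b j) = if i = j then 1 else 0 := by
  classical
  obtain ⟨f, hf⟩ := exists_fam hσ hσ2 B hS hB _ le_rfl
  have hli : LinearIndependent F f := by
    rw [Fintype.linearIndependent_iff]
    intro g hg j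
    have := congrArg (B (f j)) hg
    rw [map_sum, map_zero] at this
    simpa [hf] using this
  have hsp := hli.span_eq_top_of_card_eq_finrank' (by simp)
  refine ⟨Module.Basis.mk hli hsp.ge, ?_⟩
  intro i j
  rw [Module.Basis.mk_apply, Module.Basis.mk_apply, hf]

end Cfsg.Agent.S0755
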