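import Cfsg.Statements.S0768
import Cfsg.Agent.Lib.Helper5_SympPrim

set_option autoImplicit false
open Cfsg

namespace Cfsg.Agent.S0768

open Matrix Cfsg.Agent.Lib.Helper5_Symp Cfsg.Agent.Lib.Helper5_SympGen Cfsg.Agent.Lib.Helper5_SympTv
  Cfsg.Agent.Lib.Helper5_SympPrim
open scoped LinearAlgebra.Projectivization

variable {F : Type*} [Field F] {m : ℕ}

/-- the symplectic group inside `GL` -/
def toGL : Matrix.symplecticGroup (Fin m) F →* Matrix.GeneralLinearGroup (Fin m ⊕ Fin m) F :=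
  (Units.map (Matrix.symplecticGroup (Fin m) F).subtype).comp toUnits.toMonoidHom

theorem toGL_val (t : Matrix.symplecticGroup (Fin m) F) :
    ((toGL t : Matrix.GeneralLinearGroup (Fin m ⊕ Fin m) F) :
      Matrix (Fin m ⊕ Fin m) (Fin m ⊕ Fin m) F) = (t : Matrix (Fin m ⊕ Fin m) (Fin m ⊕ Fin m) F) := rfl

theorem toGL_mem (t : Matrix.symplecticGroup (Fin m) F) : toGL t ∈ Cfsg.spGL m F := by
  intro u v
  have := sB_mulVec t u v
  rw [sB_apply, sB_apply] at this
  exact this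

theorem result {F : Type*} [Field F] [Finite F] (m : ℕ) (hm : 1 ≤ m) : MulAction.IsPreprimitive ↥(Cfsg.spGL m F) (ℙ F (Fin m ⊕ Fin m → F)) := by
  apply prim_of
  intro t
  refine ⟨⟨toGL t, toGL_mem t⟩, ?_⟩
  intro v hv
  exact Projectivization.smul_mk (⟨toGL t, toGL_mem t⟩ : ↥(Cfsg.spGL m F)) hv

end Cfsg.Agent.S0768
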