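import Cfsg.Statements.S0749

set_option autoImplicit false
open Cfsg

namespace Cfsg.Agent.S0749

open Module

variable {F V : Type*} [Field F] [AddCommGroup V] [Module F V]

theorem swap (B : LinearMap.BilinForm F V) (hA : B.IsAlt) (x y : V) : B x y = - B y x := by
  have h := hA (x + y)
  simp only [map_add, LinearMap.add_apply, hA x, hA y, zero_add, add_zero] at h
  exact eq_neg_of_add_eq_zero_right h

/-- the linear map underlying a transvection -/
def tvLin (B : LinearMap.BilinForm F V) (w : V) (c : F) : V →ₗ[F] V :=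
  LinearMap.id + (c • (LinearMap.flip B w)).smulRight w

theorem tvLin_apply (B : LinearMap.BilinForm F V) (w : V) (c : F) (x : V) :
    tvLin B w c x = x + (c * B x w) • w := by
  simp [tvLin]

/-- transvections as linear equivalences -/
def tv (B : LinearMap.BilinForm F V) (hA : B.IsAlt) (w : V) (c : F) : V ≃ₗ[F] V :=
  LinearEquiv.ofLinear (tvLin B w c) (tvLin B w (-c))
    (by
      apply LinearMap.ext
      intro x
      simp only [LinearMap.comp_apply, tvLin_apply, map_add, map_smul, LinearMap.add_apply,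
        LinearMap.smul_apply, hA w, smul_eq_mul, mul_zero, add_zero, LinearMap.id_apply]
      module)
    (by
      apply LinearMap.ext
      intro x
      simp only [LinearMap.comp_apply, tvLin_apply, map_add, map_smul, LinearMap.add_apply,
        LinearMap.smul_apply, hA w, smul_eq_mul, mul_zero, add_zero, LinearMap.id_apply]
      module)

theorem tv_apply (B : LinearMap.BilinForm F V) (hA : B.IsAlt) (w : V) (c : F) (x : V) :
    tv B hA w c x = x + (c * B x w) • w := tvLin_apply B w c x

theorem tv_isom (B : LinearMap.BilinForm F V) (hA : B.IsAlt) (w : V) (c : F) (x y : V) :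
    B (tv B hA w c x) (tv B hA w c y) = B x y := by
  simp only [tv_apply, map_add, map_smul, LinearMap.add_apply, LinearMap.smul_apply, hA w,
    smul_eq_mul, mul_zero, add_zero]
  rw [swap B hA w y]
  ring

theorem exists_tv (B : LinearMap.BilinForm F V) (hA : B.IsAlt) (x y : V) (h : B x y ≠ 0) :
    ∃ t : V ≃ₗ[F] V, (∀ u v, B (t u) (t v) = B u v) ∧ t x = y ∧ ∀ v, B v x = B v y → t v = v := by
  refine ⟨tv B hA (y - x) (B x y)⁻¹, tv_isom B hA _ _, ?_, ?_⟩
  · rw [tv_apply, map_sub, hA x, sub_zero, inv_mul_cancel₀ h, one_smul]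
    abel
  · intro v hv
    rw [tv_apply, map_sub, hv, sub_self, mul_zero, zero_smul, add_zero]

theorem pi_surjective (B : LinearMap.BilinForm F V) (hb : ∀ x, (∀ y, B x y = 0) → x = 0)
    {κ : Type*} [Fintype κ] (u : κ → V) (hu : LinearIndependent F u) :
    Function.Surjective (LinearMap.pi (fun i => B (u i)) : V →ₗ[F] (κ → F)) := by
  classical
  rw [← LinearMap.dualMap_injective_iff, injective_iff_map_eq_zero]
  intro ψ hψ
  have h1 : ∀ y, ψ (LinearMap.pi (fun i => B (u i)) y) = 0 := fun y => LinearMap.congr_fun hψ y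
  have h2 : ∑ i, ψ (Pi.single i 1) • u i = 0 := by
    apply hb
    intro y
    have := h1 y
    rw [LinearMap.pi_apply_eq_sum_univ] at this
    rw [map_sum, LinearMap.sum_apply, ← this]
    apply Finset.sum_congr rfl
    intro i _
    rw [map_smul, LinearMap.smul_apply, smul_eq_mul, smul_eq_mul, LinearMap.pi_apply, mul_comm]
    congr 2
    funext j
    simp [Pi.single_apply, eq_comm]
  have h3 := Fintype.linearIndependent_iff.1 hu _ h2
  apply LinearMap.ext
  intro x
  rw [LinearMap.pi_apply_eq_sum_univ, LinearMap.zero_apply]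
  apply Finset.sum_eq_zero
  intro i _
  have : (fun j => if i = j then (1 : F) else 0) = Pi.single i 1 := by
    funext j
    simp [Pi.single_apply, eq_comm]
  rw [this, h3 i, smul_zero]

/-- given independent `y` and `x ∉ span y`, a vector orthogonal to all `y i` but not to `x` -/
theorem exists_perp (B : LinearMap.BilinForm F V) (hb : ∀ x, (∀ y, B x y = 0) → x = 0) {k : ℕ}
    (y : Fin k → V) (x : V) (h : LinearIndependent F (Fin.snoc y x : Fin (k + 1) → V)) :
    ∃ w, (∀ i, B (y i) w = 0) ∧ B x w ≠ 0 := by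
  obtain ⟨w, hw⟩ := pi_surjective B hb _ h (Pi.single (Fin.last k) 1)
  refine ⟨w, fun i => ?_, ?_⟩
  · have := congrFun hw i.castSucc
    rw [LinearMap.pi_apply, Fin.snoc_castSucc, Pi.single_apply,
      if_neg (Fin.castSucc_lt_last i).ne] at this
    exact this
  · have := congrFun hw (Fin.last k)
    rw [LinearMap.pi_apply, Fin.snoc_last, Pi.single_eq_same] at this
    rw [this]; exact one_ne_zero

theorem step (B : LinearMap.BilinForm F V) (hA : B.IsAlt) (hb : ∀ x, (∀ y, B x y = 0) → x = 0)
    {k : ℕ} (y : Fin k → V) (x x' : V)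
    (h : LinearIndependent F (Fin.snoc y x : Fin (k + 1) → V))
    (h' : LinearIndependent F (Fin.snoc y x' : Fin (k + 1) → V))
    (hxx : ∀ i, B (y i) x = B (y i) x') :
    ∃ t : V ≃ₗ[F] V, (∀ u v, B (t u) (t v) = B u v) ∧ t x = x' ∧ ∀ i, t (y i) = y i := by
  by_cases h0 : B x x' = 0
  · obtain ⟨w1, hw1, hw1'⟩ := exists_perp B hb y x h
    obtain ⟨w2, hw2, hw2'⟩ := exists_perp B hb y x' h'
    obtain ⟨w, hw, hwx, hwx'⟩ : ∃ w, (∀ i, B (y i) w = 0) ∧ B x w ≠ 0 ∧ B x' w ≠ 0 := by
      by_cases h3 : B x' w1 = 0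
      · by_cases h4 : B x w2 = 0
        · refine ⟨w1 + w2, fun i => by rw [map_add, hw1, hw2, add_zero], ?_, ?_⟩
          · rw [map_add, h4, add_zero]; exact hw1'
          · rw [map_add, h3, zero_add]; exact hw2'
        · exact ⟨w2, hw2, h4, hw2'⟩
      · exact ⟨w1, hw1, hw1', h3⟩
    have e1 : B x (x + w) ≠ 0 := by rw [map_add, hA x, zero_add]; exact hwx
    have e2 : B (x + w) x' ≠ 0 := by
      rw [map_add, LinearMap.add_apply, h0, zero_add, swap B hA]
      exact neg_ne_zero.2 hwx'
    obtain ⟨t1, ht1, ht1x, ht1f⟩ := exists_tv B hA x (x + w) e1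
    obtain ⟨t2, ht2, ht2x, ht2f⟩ := exists_tv B hA (x + w) x' e2
    refine ⟨t1.trans t2, fun u v => ?_, ?_, fun i => ?_⟩
    · rw [LinearEquiv.trans_apply, LinearEquiv.trans_apply, ht2, ht1]
    · rw [LinearEquiv.trans_apply, ht1x, ht2x]
    · rw [LinearEquiv.trans_apply, ht1f _ (by rw [map_add, hw, add_zero]),
        ht2f _ (by rw [map_add, hw, add_zero, hxx])]
  · obtain ⟨t, ht, htx, htf⟩ := exists_tv B hA x x' h0
    exact ⟨t, ht, htx, fun i => htf _ (hxx i)⟩

theorem witt_fam (B : LinearMap.BilinForm F V) (hA : B.IsAlt) (hb : ∀ x, (∀ y, B x y = 0) → x = 0)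
    (k : ℕ) (x y : Fin k → V) (hx : LinearIndependent F x) (hy : LinearIndependent F y)
    (hxy : ∀ i j, B (x i) (x j) = B (y i) (y j)) :
    ∃ g : V ≃ₗ[F] V, (∀ u v, B (g u) (g v) = B u v) ∧ ∀ i, g (x i) = y i := by
  induction k with
  | zero => exact ⟨LinearEquiv.refl F V, fun _ _ => rfl, fun i => i.elim0⟩
  | succ k ih =>
    have hx0 : LinearIndependent F (Fin.init x : Fin k → V) :=
      hx.comp _ (Fin.castSucc_injective k)
    have hy0 : LinearIndependent F (Fin.init y : Fin k → V) :=
      hy.comp _ (Fin.castSucc_injective k)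
    obtain ⟨g0, hg0, hg0x⟩ := ih (Fin.init x) (Fin.init y) hx0 hy0
      (fun i j => hxy i.castSucc j.castSucc)
    have h1 : LinearIndependent F (Fin.snoc (Fin.init y) (g0 (x (Fin.last k))) : Fin (k + 1) → V) := by
      have h2 : (Fin.snoc (Fin.init y) (g0 (x (Fin.last k))) : Fin (k + 1) → V) = g0 ∘ x := by
        funext i
        refine Fin.lastCases ?_ (fun i => ?_) i
        · rw [Fin.snoc_last]; rfl
        · rw [Fin.snoc_castSucc, ← hg0x i]; rfl
      rw [h2]
      exact hx.map' g0.toLinearMap (LinearEquiv.ker g0)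
    have h2 : LinearIndependent F (Fin.snoc (Fin.init y) (y (Fin.last k)) : Fin (k + 1) → V) := by
      rw [Fin.snoc_init_self]; exact hy
    obtain ⟨t, ht, htx, htf⟩ := step B hA hb (Fin.init y) _ _ h1 h2 (by
      intro i
      have e1 : B (Fin.init y i) (g0 (x (Fin.last k))) = B (x i.castSucc) (x (Fin.last k)) := by
        rw [← hg0x i, hg0]; rfl
      rw [e1]
      exact hxy i.castSucc (Fin.last k))
    refine ⟨g0.trans t, fun u v => ?_, fun i => ?_⟩
    · rw [LinearEquiv.trans_apply, LinearEquiv.trans_apply, ht, hg0]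
    · refine Fin.lastCases ?_ (fun i => ?_) i
      · rw [LinearEquiv.trans_apply, htx]
      · have := hg0x i
        rw [LinearEquiv.trans_apply]
        change g0 (x i.castSucc) = y i.castSucc at this
        rw [this]
        exact htf i

theorem result {F V : Type*} [Field F] [AddCommGroup V] [Module F V] [FiniteDimensional F V] (B : LinearMap.BilinForm F V) (hB : B.Nondegenerate) (hA : B.IsAlt) (X Y : Submodule F V) (φ : X ≃ₗ[F] Y) (hφ : ∀ x x' : X, B (φ x : V) (φ x' : V) = B (x : V) (x' : V)) : ∃ g : V ≃ₗ[F] V, (∀ u v : V, B (g u) (g v) = B u v) ∧ ∀ x : X, g (x : V) = (φ x : V) := by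
  have hb : ∀ x, (∀ y, B x y = 0) → x = 0 := hB.1
  set bX := Module.finBasis F X
  have hx : LinearIndependent F (fun i => (bX i : V)) :=
    bX.linearIndependent.map' X.subtype (Submodule.ker_subtype X)
  have hy : LinearIndependent F (fun i => (φ (bX i) : V)) := by
    have h1 : LinearIndependent F (fun i => φ (bX i)) :=
      bX.linearIndependent.map' φ.toLinearMap (LinearEquiv.ker φ)
    exact h1.map' Y.subtype (Submodule.ker_subtype Y)
  obtain ⟨g, hg, hgx⟩ := witt_fam B hA hb _ _ _ hx hy (fun i j => (hφ _ _).symm)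
  refine ⟨g, hg, ?_⟩
  have h3 : g.toLinearMap.comp X.subtype = Y.subtype.comp φ.toLinearMap := by
    apply bX.ext
    intro i
    exact hgx i
  intro x
  exact LinearMap.congr_fun h3 x

end Cfsg.Agent.S0749
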