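import Cfsg.Statements.S0752

set_option autoImplicit false
open Cfsg

namespace Cfsg.Agent.S0752

open Module

variable {F V : Type*} [Field F] [AddCommGroup V] [Module F V]

theorem swap (B : LinearMap.BilinForm F V) (hA : B.IsAlt) (x y : V) : B x y = - B y x := by
  have h := hA (x + y)
  simp only [map_add, LinearMap.add_apply, hA x, hA y, zero_add, add_zero] at h
  exact eq_neg_of_add_eq_zero_right h

/-- hyperbolic families -/
def Hyp (B : LinearMap.BilinForm F V) (m : ℕ) (e f : Fin m → V) : Prop :=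
  (∀ i j, B (e i) (f j) = if i = j then 1 else 0) ∧ (∀ i j, B (e i) (e j) = 0) ∧
    ∀ i j, B (f i) (f j) = 0

/-- the orthogonal complement of a family -/
def perp (B : LinearMap.BilinForm F V) {m : ℕ} (e f : Fin m → V) : Submodule F V :=
  ⨅ i, (LinearMap.ker (B (e i)) ⊓ LinearMap.ker (B (f i)))

theorem mem_perp (B : LinearMap.BilinForm F V) {m : ℕ} (e f : Fin m → V) (v : V) :
    v ∈ perp B e f ↔ ∀ i, B (e i) v = 0 ∧ B (f i) v = 0 := by
  simp [perp, Submodule.mem_iInf]

theorem sum_e (B : LinearMap.BilinForm F V) {m : ℕ} (e f : Fin m → V) (h : Hyp B m e f)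
    (a : Fin m → F) (j : Fin m) : B (∑ i, a i • e i) (f j) = a j := by
  simp only [map_sum, LinearMap.sum_apply, map_smul, LinearMap.smul_apply, h.1, smul_eq_mul,
    mul_ite, mul_one, mul_zero, Finset.sum_ite_eq', Finset.mem_univ, if_true]

theorem hyp_fe (B : LinearMap.BilinForm F V) (hA : B.IsAlt) {m : ℕ} (e f : Fin m → V)
    (h : Hyp B m e f) (i j : Fin m) : B (f i) (e j) = if i = j then -1 else 0 := by
  rw [swap B hA, h.1]
  by_cases hij : i = j
  · rw [if_pos hij, if_pos hij.symm]
  · rw [if_neg hij, if_neg (Ne.symm hij), neg_zero]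

/-- the full family is independent -/
theorem indep (B : LinearMap.BilinForm F V) (hA : B.IsAlt) {m k : ℕ} (e f : Fin m → V)
    (h : Hyp B m e f) (w : Fin k → V) (hw : LinearIndependent F w)
    (hwp : ∀ j, w j ∈ perp B e f) :
    LinearIndependent F (Sum.elim (Sum.elim e f) w) := by
  rw [Fintype.linearIndependent_iff]
  intro g hg
  rw [Fintype.sum_sum_type, Fintype.sum_sum_type] at hg
  simp only [Sum.elim_inl, Sum.elim_inr] at hg
  have hwe : ∀ j i, B (w j) (e i) = 0 := fun j i => by
    rw [swap B hA, ((mem_perp B e f _).1 (hwp j) i).1, neg_zero]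
  have hwf : ∀ j i, B (w j) (f i) = 0 := fun j i => by
    rw [swap B hA, ((mem_perp B e f _).1 (hwp j) i).2, neg_zero]
  have ha : ∀ i, g (Sum.inl (Sum.inl i)) = 0 := by
    intro i0
    have h1 := congrArg (fun x => B x (f i0)) hg
    simp only [map_add, LinearMap.add_apply, map_sum, LinearMap.sum_apply, map_smul,
      LinearMap.smul_apply, h.1, h.2.2, hwf, smul_eq_mul, mul_ite, mul_one, mul_zero,
      Finset.sum_ite_eq', Finset.mem_univ, if_true, Finset.sum_const_zero, add_zero, map_zero,
      LinearMap.zero_apply] at h1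
    exact h1
  have hbb : ∀ i, g (Sum.inl (Sum.inr i)) = 0 := by
    intro i0
    have h1 := congrArg (fun x => B x (e i0)) hg
    simp only [map_add, LinearMap.add_apply, map_sum, LinearMap.sum_apply, map_smul,
      LinearMap.smul_apply, hyp_fe B hA e f h, h.2.1, hwe, smul_eq_mul, mul_ite, mul_neg, mul_one,
      mul_zero, Finset.sum_ite_eq', Finset.mem_univ, if_true, Finset.sum_const_zero, add_zero,
      zero_add, map_zero, LinearMap.zero_apply, neg_eq_zero] at h1
    exact h1
  have hc : ∑ j, g (Sum.inr j) • w j = 0 := by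
    rw [← hg]
    simp [ha, hbb]
  have hc' := Fintype.linearIndependent_iff.1 hw _ hc
  rintro ((i | i) | j)
  · exact ha i
  · exact hbb i
  · exact hc' j

/-- the projection to the orthogonal complement -/
theorem proj_mem (B : LinearMap.BilinForm F V) (hA : B.IsAlt) {m : ℕ} (e f : Fin m → V)
    (h : Hyp B m e f) (v : V) :
    v - ∑ i, B v (f i) • e i + ∑ i, B v (e i) • f i ∈ perp B e f := by
  rw [mem_perp]
  intro j
  constructor
  · simp only [map_add, map_sub, map_sum, map_smul, h.1, h.2.1, smul_eq_mul, mul_zero,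
      Finset.sum_const_zero, sub_zero, mul_ite, mul_one, Finset.sum_ite_eq, Finset.mem_univ, if_true]
    rw [swap B hA v (e j)]; ring
  · simp only [map_add, map_sub, map_sum, map_smul, hyp_fe B hA e f h, h.2.2, smul_eq_mul, mul_zero,
      Finset.sum_const_zero, add_zero, mul_ite, mul_neg, mul_one, Finset.sum_ite_eq, Finset.mem_univ,
      if_true]
    rw [swap B hA v (f j)]; ring

theorem hyp_snoc (B : LinearMap.BilinForm F V) (hA : B.IsAlt) {m : ℕ} (e f : Fin m → V)
    (h : Hyp B m e f) (x y : V) (hx : x ∈ perp B e f) (hy : y ∈ perp B e f) (hxy : B x y = 1) :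
    Hyp B (m + 1) (Fin.snoc e x : Fin (m + 1) → V) (Fin.snoc f y : Fin (m + 1) → V) := by
  rw [mem_perp] at hx hy
  refine ⟨fun i j => ?_, fun i j => ?_, fun i j => ?_⟩
  · refine Fin.lastCases ?_ (fun i => ?_) i <;> refine Fin.lastCases ?_ (fun j => ?_) j
    · rw [Fin.snoc_last, Fin.snoc_last, hxy, if_pos rfl]
    · rw [Fin.snoc_last, Fin.snoc_castSucc, swap B hA, (hx j).2, neg_zero,
        if_neg (Fin.castSucc_lt_last j).ne']
    · rw [Fin.snoc_last, Fin.snoc_castSucc, (hy i).1, if_neg (Fin.castSucc_lt_last i).ne]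
    · rw [Fin.snoc_castSucc, Fin.snoc_castSucc, h.1]
      simp only [Fin.castSucc_inj]
  · refine Fin.lastCases ?_ (fun i => ?_) i <;> refine Fin.lastCases ?_ (fun j => ?_) j
    · rw [Fin.snoc_last, hA]
    · rw [Fin.snoc_last, Fin.snoc_castSucc, swap B hA, (hx j).1, neg_zero]
    · rw [Fin.snoc_last, Fin.snoc_castSucc, (hx i).1]
    · rw [Fin.snoc_castSucc, Fin.snoc_castSucc, h.2.1]
  · refine Fin.lastCases ?_ (fun i => ?_) i <;> refine Fin.lastCases ?_ (fun j => ?_) j
    · rw [Fin.snoc_last, hA]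
    · rw [Fin.snoc_last, Fin.snoc_castSucc, swap B hA, (hy j).2, neg_zero]
    · rw [Fin.snoc_last, Fin.snoc_castSucc, (hy i).2]
    · rw [Fin.snoc_castSucc, Fin.snoc_castSucc, h.2.2]

theorem main [FiniteDimensional F V] (B : LinearMap.BilinForm F V) (hA : B.IsAlt) (d : ℕ) :
    ∀ (m : ℕ) (e f : Fin m → V), Hyp B m e f → finrank F V - 2 * m = d →
    ∃ (m k : ℕ) (b : Module.Basis ((Fin m ⊕ Fin m) ⊕ Fin k) F V), (∀ i j : Fin m, B (b (Sum.inl (Sum.inl i))) (b (Sum.inl (Sum.inr j))) = if i = j then 1 else 0) ∧ (∀ i j : Fin m, B (b (Sum.inl (Sum.inl i))) (b (Sum.inl (Sum.inl j))) = 0) ∧ (∀ i j : Fin m, B (b (Sum.inl (Sum.inr i))) (b (Sum.inl (Sum.inr j))) = 0) ∧ (∀ (j : Fin k) (v : V), B (b (Sum.inr j)) v = 0) := by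
  induction d using Nat.strong_induction_on with
  | _ d ih =>
  intro m e f h hd
  by_cases hW : ∀ x ∈ perp B e f, ∀ y ∈ perp B e f, B x y = 0
  · -- finish
    set bw := Module.finBasis F (perp B e f) with hbw
    have hwli : LinearIndependent F (fun j => (bw j : V)) :=
      bw.linearIndependent.map' (perp B e f).subtype (Submodule.ker_subtype _)
    have hli := indep B hA e f h (fun j => (bw j : V)) hwli (fun j => (bw j).2)
    have hsp : ⊤ ≤ Submodule.span F (Set.range (Sum.elim (Sum.elim e f) (fun j => (bw j : V)))) := by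
      intro v _
      have hmem : ∀ s, Sum.elim (Sum.elim e f) (fun j => (bw j : V)) s ∈
          Submodule.span F (Set.range (Sum.elim (Sum.elim e f) (fun j => (bw j : V)))) :=
        fun s => Submodule.subset_span ⟨s, rfl⟩
      have hperp : perp B e f ≤
          Submodule.span F (Set.range (Sum.elim (Sum.elim e f) (fun j => (bw j : V)))) := by
        intro x hx
        have h1 : (⟨x, hx⟩ : perp B e f) ∈ Submodule.span F (Set.range bw) := by
          rw [bw.span_eq]; exact Submodule.mem_top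
        have h2 := Submodule.mem_map_of_mem (f := (perp B e f).subtype) h1
        rw [Submodule.map_span, ← Set.range_comp] at h2
        refine Submodule.span_mono ?_ h2
        rintro _ ⟨j, rfl⟩
        exact ⟨Sum.inr j, rfl⟩
      have h3 := hperp (proj_mem B hA e f h v)
      have h4 : v = (v - ∑ i, B v (f i) • e i + ∑ i, B v (e i) • f i) + ∑ i, B v (f i) • e i -
          ∑ i, B v (e i) • f i := by abel
      rw [h4]
      refine Submodule.sub_mem _ (Submodule.add_mem _ h3 ?_) ?_
      · exact Submodule.sum_mem _ (fun i _ => Submodule.smul_mem _ _ (hmem (Sum.inl (Sum.inl i))))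
      · exact Submodule.sum_mem _ (fun i _ => Submodule.smul_mem _ _ (hmem (Sum.inl (Sum.inr i))))
    refine ⟨m, _, Module.Basis.mk hli hsp, ?_, ?_, ?_, ?_⟩
    · intro i j
      rw [Module.Basis.mk_apply, Module.Basis.mk_apply]
      exact h.1 i j
    · intro i j
      rw [Module.Basis.mk_apply, Module.Basis.mk_apply]
      exact h.2.1 i j
    · intro i j
      rw [Module.Basis.mk_apply, Module.Basis.mk_apply]
      exact h.2.2 i j
    · intro j v
      rw [Module.Basis.mk_apply]
      change B (bw j : V) v = 0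
      have hx := (mem_perp B e f _).1 (bw j).2
      have h4 : v = (v - ∑ i, B v (f i) • e i + ∑ i, B v (e i) • f i) + ∑ i, B v (f i) • e i -
          ∑ i, B v (e i) • f i := by abel
      rw [h4, map_sub, map_add, hW _ (bw j).2 _ (proj_mem B hA e f h v), map_sum, map_sum]
      simp only [map_smul, smul_eq_mul]
      rw [Finset.sum_eq_zero, Finset.sum_eq_zero]
      · simp
      · intro i _
        rw [swap B hA (bw j : V), (hx i).2, neg_zero, mul_zero]
      · intro i _
        rw [swap B hA (bw j : V), (hx i).1, neg_zero, mul_zero]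
  · push Not at hW
    obtain ⟨x, hx, y, hy, hxy⟩ := hW
    have h' := hyp_snoc B hA e f h ((B x y)⁻¹ • x) y (Submodule.smul_mem _ _ hx) hy
      (by rw [map_smul, LinearMap.smul_apply, smul_eq_mul, inv_mul_cancel₀ hxy])
    have hli := indep B hA _ _ h' (fun j : Fin 0 => j.elim0) linearIndependent_empty_type
      (fun j => j.elim0)
    have hcard := hli.fintype_card_le_finrank
    simp only [Fintype.card_sum, Fintype.card_fin] at hcard
    exact ih (finrank F V - 2 * (m + 1)) (by omega) (m + 1) _ _ h' rfl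

theorem result {F V : Type*} [Field F] [AddCommGroup V] [Module F V] [FiniteDimensional F V] (B : LinearMap.BilinForm F V) (hA : B.IsAlt) : ∃ (m k : ℕ) (b : Module.Basis ((Fin m ⊕ Fin m) ⊕ Fin k) F V), (∀ i j : Fin m, B (b (Sum.inl (Sum.inl i))) (b (Sum.inl (Sum.inr j))) = if i = j then 1 else 0) ∧ (∀ i j : Fin m, B (b (Sum.inl (Sum.inl i))) (b (Sum.inl (Sum.inl j))) = 0) ∧ (∀ i j : Fin m, B (b (Sum.inl (Sum.inr i))) (b (Sum.inl (Sum.inr j))) = 0) ∧ (∀ (j : Fin k) (v : V), B (b (Sum.inr j)) v = 0) :=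
  main B hA _ 0 (fun i => i.elim0) (fun i => i.elim0)
    ⟨fun i => i.elim0, fun i => i.elim0, fun i => i.elim0⟩ rfl

end Cfsg.Agent.S0752
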