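import Cfsg.Statements.S5646
import Cfsg.Agent.Lib.Helper5_SympMax

set_option autoImplicit false

open Cfsg

namespace Cfsg.Agent.S5646

open Module Matrix Cfsg.Agent.Lib.Helper5_Symp Cfsg.Agent.Lib.Helper5_SympCard
  Cfsg.Agent.Lib.Helper5_SympTv Cfsg.Agent.Lib.Helper5_SympGen Cfsg.Agent.S0768
  Cfsg.Agent.Lib.Helper5_SympMax

variable {F : Type*} [Field F] {m : ℕ}

/-- one step: moving `a` to `b` when `B(a,b) ≠ 0` -/
theorem move1 (U : Submodule F (Fin m ⊕ Fin m → F))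
    (K : Subgroup (Matrix.symplecticGroup (Fin m) F)) (hK : ∀ u ∈ U, ∀ c, tv u c ∈ K)
    (a b : Fin m ⊕ Fin m → F) (ha : a ∈ U) (hb : b ∈ U) (hab : sB m F a b ≠ 0) :
    ∃ p ∈ K, (p : Matrix (Fin m ⊕ Fin m) (Fin m ⊕ Fin m) F) *ᵥ a = b ∧
      ∀ z, (∀ u ∈ U, sB m F u z = 0) →
        (p : Matrix (Fin m ⊕ Fin m) (Fin m ⊕ Fin m) F) *ᵥ z = z := by
  refine ⟨tv (b - a) (sB m F a b)⁻¹, hK _ (U.sub_mem hb ha) _, ?_, fun z hz => ?_⟩
  · rw [tv_mulVec, map_sub, sB_self, sub_zero, inv_mul_cancel₀ hab, one_smul, add_sub_cancel]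
  · rw [tv_mulVec, sB_swap m F z (b - a), hz _ (U.sub_mem hb ha), neg_zero, mul_zero, zero_smul,
      add_zero]

theorem move (U : Submodule F (Fin m ⊕ Fin m → F))
    (hU : ∀ w ∈ U, w ≠ 0 → ∃ x ∈ U, sB m F x w ≠ 0)
    (K : Subgroup (Matrix.symplecticGroup (Fin m) F)) (hK : ∀ u ∈ U, ∀ c, tv u c ∈ K)
    (a b : Fin m ⊕ Fin m → F) (ha : a ∈ U) (hb : b ∈ U) (ha0 : a ≠ 0) (hb0 : b ≠ 0) :
    ∃ p ∈ K, (p : Matrix (Fin m ⊕ Fin m) (Fin m ⊕ Fin m) F) *ᵥ a = b ∧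
      ∀ z, (∀ u ∈ U, sB m F u z = 0) →
        (p : Matrix (Fin m ⊕ Fin m) (Fin m ⊕ Fin m) F) *ᵥ z = z := by
  by_cases hab : sB m F a b = 0
  · obtain ⟨d1, hd1, h1⟩ := hU a ha ha0
    obtain ⟨d2, hd2, h2⟩ := hU b hb hb0
    obtain ⟨d, hd, hda, hdb⟩ : ∃ d ∈ U, sB m F d a ≠ 0 ∧ sB m F d b ≠ 0 := by
      by_cases h3 : sB m F d1 b = 0
      · by_cases h4 : sB m F d2 a = 0
        · refine ⟨d1 + d2, U.add_mem hd1 hd2, ?_, ?_⟩
          · rw [map_add, LinearMap.add_apply, h4, add_zero]; exact h1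
          · rw [map_add, LinearMap.add_apply, h3, zero_add]; exact h2
        · exact ⟨d2, hd2, h4, h2⟩
      · exact ⟨d1, hd1, h1, h3⟩
    have had : sB m F a d ≠ 0 := by rw [sB_swap]; exact neg_ne_zero.2 hda
    obtain ⟨p1, hp1, hp1a, hp1z⟩ := move1 U K hK a d ha hd had
    obtain ⟨p2, hp2, hp2a, hp2z⟩ := move1 U K hK d b hd hb hdb
    refine ⟨p2 * p1, K.mul_mem hp2 hp1, by rw [mul_mulVec, hp1a, hp2a], fun z hz => ?_⟩
    rw [mul_mulVec, hp1z z hz, hp2z z hz]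
  · exact move1 U K hK a b ha hb hab

theorem coatom [Finite F] (W : Submodule F (Fin m ⊕ Fin m → F)) (hW0 : W ≠ ⊥)
    (hW : ∀ w ∈ W, w ≠ 0 → ∃ x ∈ W, sB m F x w ≠ 0) (hdim : finrank F W < m) :
    IsCoatom (Cfsg.stabilizing (Cfsg.spToMat m F) (W : Set (Fin m ⊕ Fin m → F))) := by
  classical
  have hrefl : (sB m F).IsRefl := fun x y h => by rw [sB_swap, h, neg_zero]
  have hnd : ((sB m F).restrict W).Nondegenerate := by
    constructor
    · intro x hx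
      by_contra hx0
      obtain ⟨y, hy, hyx⟩ := hW x.1 x.2 (fun h => hx0 (Subtype.ext h))
      apply hyx
      rw [sB_swap]
      have := hx ⟨y, hy⟩
      change sB m F x.1 y = 0 at this
      rw [this, neg_zero]
    · intro x hx
      by_contra hx0
      obtain ⟨y, hy, hyx⟩ := hW x.1 x.2 (fun h => hx0 (Subtype.ext h))
      exact hyx (hx ⟨y, hy⟩)
  have hc := LinearMap.BilinForm.isCompl_orthogonal_of_restrict_nondegenerate hrefl hnd
  set Wp := (sB m F).orthogonal W with hWp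
  have hmemp : ∀ z, z ∈ Wp ↔ ∀ u ∈ W, sB m F u z = 0 := fun z => Iff.rfl
  have hfr := Submodule.finrank_add_eq_of_isCompl hc
  rw [finrank_V] at hfr
  have hdec : ∀ v, ∃ v1 ∈ W, ∃ v2 ∈ Wp, v1 + v2 = v := by
    intro v
    have : v ∈ W ⊔ Wp := by rw [hc.sup_eq_top]; trivial
    exact Submodule.mem_sup.1 this
  have hdisj : ∀ v, v ∈ W → v ∈ Wp → v = 0 := by
    intro v h1 h2
    have : v ∈ W ⊓ Wp := ⟨h1, h2⟩
    rw [hc.inf_eq_bot] at this
    exact (Submodule.mem_bot F).1 this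
  have hWpnd : ∀ w ∈ Wp, w ≠ 0 → ∃ x ∈ Wp, sB m F x w ≠ 0 := by
    intro w hw hw0
    obtain ⟨z, hz⟩ := exists_ne_left w hw0
    obtain ⟨z1, hz1, z2, hz2, rfl⟩ := hdec z
    refine ⟨z2, hz2, ?_⟩
    rw [map_add, LinearMap.add_apply, (hmemp w).1 hw z1 hz1, zero_add] at hz
    exact hz
  have hWpp : ∀ w ∈ W, ∀ u ∈ Wp, sB m F u w = 0 := by
    intro w hw u hu
    rw [sB_swap, (hmemp u).1 hu w hw, neg_zero]
  have hWp0 : Wp ≠ ⊥ := by
    intro h
    rw [h, finrank_bot] at hfr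
    omega
  have hP1 : ∀ u ∈ W, ∀ c, tv u c ∈
      Cfsg.stabilizing (Cfsg.spToMat m F) (W : Set (Fin m ⊕ Fin m → F)) := by
    intro u hu c
    apply mem_stab_of_maps
    intro w hw
    rw [tv_mulVec]
    exact W.add_mem hw (W.smul_mem _ hu)
  have hP2 : ∀ u ∈ Wp, ∀ c, tv u c ∈
      Cfsg.stabilizing (Cfsg.spToMat m F) (W : Set (Fin m ⊕ Fin m → F)) := by
    intro u hu c
    apply mem_stab_of_maps
    intro w hw
    rw [tv_mulVec, (hmemp u).1 hu w hw, mul_zero, zero_smul, add_zero]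
    exact hw
  constructor
  · intro htop
    obtain ⟨x1, hx1, hx10⟩ := Submodule.exists_mem_ne_zero_of_ne_bot hW0
    obtain ⟨x2, hx2, hx20⟩ := Submodule.exists_mem_ne_zero_of_ne_bot hWp0
    obtain ⟨w, hw, hwx⟩ := hW x1 hx1 hx10
    have h1 : tv (x1 + x2) (1 : F) ∈
        Cfsg.stabilizing (Cfsg.spToMat m F) (W : Set (Fin m ⊕ Fin m → F)) := by
      rw [htop]; trivial
    have h2 : (tv (x1 + x2) (1 : F) : Matrix (Fin m ⊕ Fin m) (Fin m ⊕ Fin m) F) *ᵥ w ∈ W :=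
      (h1 w).1 hw
    rw [tv_mulVec, one_mul, map_add, (hmemp x2).1 hx2 w hw, add_zero] at h2
    have h3 : sB m F w x1 • (x1 + x2) ∈ W := by
      have := W.sub_mem h2 hw
      rwa [add_sub_cancel_left] at this
    have h4 : x1 + x2 ∈ W := (W.smul_mem_iff hwx).1 h3
    have h5 : x2 ∈ W := by
      have := W.sub_mem h4 hx1
      rwa [add_sub_cancel_left] at this
    exact hx20 (hdisj x2 h5 hx2)
  · intro H hPH
    -- some element of H moves a vector of W ∪ Wp to a mixed vector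
    have hmix : ∃ g ∈ H, ∃ v, (v ∈ W ∨ v ∈ Wp) ∧
        (g : Matrix (Fin m ⊕ Fin m) (Fin m ⊕ Fin m) F) *ᵥ v ∉ W ∧
        (g : Matrix (Fin m ⊕ Fin m) (Fin m ⊕ Fin m) F) *ᵥ v ∉ Wp := by
      by_contra hcon
      push Not at hcon
      obtain ⟨h, hhH, hhP⟩ := SetLike.exists_of_lt hPH
      have hun : ∀ U : Submodule F (Fin m ⊕ Fin m → F), (∀ v ∈ U, v ∈ W ∨ v ∈ Wp) →
          (∀ v ∈ U, (h : Matrix (Fin m ⊕ Fin m) (Fin m ⊕ Fin m) F) *ᵥ v ∈ W) ∨
          (∀ v ∈ U, (h : Matrix (Fin m ⊕ Fin m) (Fin m ⊕ Fin m) F) *ᵥ v ∈ Wp) := by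
        intro U hU
        by_contra hno
        push Not at hno
        obtain ⟨⟨a, haU, ha⟩, ⟨b, hbU, hb⟩⟩ := hno
        have ha' := hcon h hhH a (hU a haU) ha
        have hb' : (h : Matrix (Fin m ⊕ Fin m) (Fin m ⊕ Fin m) F) *ᵥ b ∈ W := by
          by_contra hb''
          exact hb (hcon h hhH b (hU b hbU) hb'')
        by_cases hab : (h : Matrix (Fin m ⊕ Fin m) (Fin m ⊕ Fin m) F) *ᵥ (a + b) ∈ W
        · rw [Matrix.mulVec_add] at hab
          apply ha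
          have := W.sub_mem hab hb'
          rwa [add_sub_cancel_right] at this
        · have h6 := hcon h hhH (a + b) (hU _ (U.add_mem haU hbU)) hab
          rw [Matrix.mulVec_add] at h6
          apply hb
          have := Wp.sub_mem h6 ha'
          rwa [add_sub_cancel_left] at this
      have h1 : ∀ v ∈ W, (h : Matrix (Fin m ⊕ Fin m) (Fin m ⊕ Fin m) F) *ᵥ v ∈ Wp := by
        rcases hun W (fun v hv => Or.inl hv) with h2 | h2
        · exact absurd (mem_stab_of_maps h _ h2) hhP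
        · exact h2
      have h2 : ∀ v ∈ Wp, (h : Matrix (Fin m ⊕ Fin m) (Fin m ⊕ Fin m) F) *ᵥ v ∈ Wp := by
        rcases hun Wp (fun v hv => Or.inr hv) with h3 | h3
        · exfalso
          let φ : Wp →ₗ[F] W :=
            (Matrix.mulVecLin (h : Matrix (Fin m ⊕ Fin m) (Fin m ⊕ Fin m) F)).restrict h3
          have hφ : Function.Injective φ := by
            intro a b hab
            have h4 : (h : Matrix (Fin m ⊕ Fin m) (Fin m ⊕ Fin m) F) *ᵥ a.1 =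
                (h : Matrix (Fin m ⊕ Fin m) (Fin m ⊕ Fin m) F) *ᵥ b.1 := congrArg Subtype.val hab
            apply Subtype.ext
            rw [← inv_mulVec h a.1, h4, inv_mulVec]
          have := LinearMap.finrank_le_finrank_of_injective hφ
          omega
        · exact h3
      obtain ⟨u, huW, hu0⟩ := Submodule.exists_mem_ne_zero_of_ne_bot hW0
      obtain ⟨z1, hz1, z2, hz2, hz⟩ := hdec
        (((h⁻¹ : Matrix.symplecticGroup (Fin m) F) : Matrix (Fin m ⊕ Fin m) (Fin m ⊕ Fin m) F) *ᵥ u)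
      have h5 : u ∈ Wp := by
        rw [← mulVec_inv h u, ← hz, Matrix.mulVec_add]
        exact Wp.add_mem (h1 z1 hz1) (h2 z2 hz2)
      exact hu0 (hdisj u huW h5)
    obtain ⟨g0, hg0, v0, hv0, hy1, hy2⟩ := hmix
    obtain ⟨y1, hy1W, y2, hy2W, hy⟩ := hdec ((g0 : Matrix (Fin m ⊕ Fin m) (Fin m ⊕ Fin m) F) *ᵥ v0)
    have hy10 : y1 ≠ 0 := by
      rintro rfl
      rw [zero_add] at hy
      exact hy2 (hy ▸ hy2W)
    have hy20 : y2 ≠ 0 := by
      rintro rfl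
      rw [add_zero] at hy
      exact hy1 (hy ▸ hy1W)
    have hv0H : ∀ c, tv v0 c ∈ H := by
      intro c
      rcases hv0 with h | h
      · exact hPH.le (hP1 v0 h c)
      · exact hPH.le (hP2 v0 h c)
    apply eq_top_of_tv
    intro x c
    obtain ⟨x1, hx1, x2, hx2, rfl⟩ := hdec x
    by_cases hx10 : x1 = 0
    · subst hx10
      rw [zero_add]
      exact hPH.le (hP2 x2 hx2 c)
    by_cases hx20 : x2 = 0
    · subst hx20
      rw [add_zero]
      exact hPH.le (hP1 x1 hx1 c)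
    obtain ⟨p1, hp1, hp1a, hp1z⟩ := move W hW H (fun u hu c => hPH.le (hP1 u hu c)) y1 x1 hy1W hx1
      hy10 hx10
    obtain ⟨p2, hp2, hp2a, hp2z⟩ := move Wp hWpnd H (fun u hu c => hPH.le (hP2 u hu c)) y2 x2 hy2W hx2
      hy20 hx20
    have h7 : ((p1 * p2 * g0 : Matrix.symplecticGroup (Fin m) F) :
        Matrix (Fin m ⊕ Fin m) (Fin m ⊕ Fin m) F) *ᵥ v0 = x1 + x2 := by
      rw [mul_mulVec, mul_mulVec, ← hy, Matrix.mulVec_add, hp2a, hp2z y1 (hWpp y1 hy1W),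
        Matrix.mulVec_add, hp1a, hp1z x2 ((hmemp x2).1 hx2)]
    rw [← h7]
    exact tv_mem_of_conj H _ (H.mul_mem (H.mul_mem hp1 hp2) hg0) v0 c (hv0H c)

theorem result {F : Type*} [Field F] [Fintype F] (m : ℕ) (hm : 7 ≤ m) (W : Submodule F (Fin m ⊕ Fin m → F)) (hW0 : W ≠ ⊥) (hW : Cfsg.Geo.IsNondegenerateOn (Cfsg.sympForm m F) W) (hdim : Module.finrank F W < m) : Cfsg.Geo.IsMaximalIn (Cfsg.spGL m F) (Cfsg.Geo.subspaceStabilizer W ⊓ Cfsg.spGL m F) := by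
  apply maximal_of_coatom
  refine coatom W hW0 (fun w hw hw0 => ?_) hdim
  obtain ⟨x, hx, hxw⟩ := (hW w hw hw0).1
  exact ⟨x, hx, by rw [sB_apply]; exact hxw⟩

end Cfsg.Agent.S5646
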