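import Cfsg.Statements.S5649
import Cfsg.Agent.Lib.Helper5_SpPair

set_option autoImplicit false

open Cfsg

namespace Cfsg.Agent.S5649

open Module Matrix Cfsg.Agent.Lib.Helper5_Symp Cfsg.Agent.Lib.Helper5_SympCard
  Cfsg.Agent.Lib.Helper5_SympTv Cfsg.Agent.Lib.Helper5_SympGen Cfsg.Agent.S0768
  Cfsg.Agent.Lib.Helper5_SympMax Cfsg.Agent.Lib.Helper5_SpPair

variable {F : Type*} [Field F] {m : ℕ}

theorem map_eq (g : Matrix.symplecticGroup (Fin m) F) (X Y : Submodule F (Fin m ⊕ Fin m → F))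
    (hfr : finrank F X = finrank F Y)
    (h : ∀ x ∈ X, (g : Matrix (Fin m ⊕ Fin m) (Fin m ⊕ Fin m) F) *ᵥ x ∈ Y) :
    X.map (Matrix.toLin' (g : Matrix (Fin m ⊕ Fin m) (Fin m ⊕ Fin m) F)) = Y := by
  have hinj : Function.Injective
      (Matrix.toLin' (g : Matrix (Fin m ⊕ Fin m) (Fin m ⊕ Fin m) F)) := by
    intro x y hxy
    rw [Matrix.toLin'_apply, Matrix.toLin'_apply] at hxy
    rw [← inv_mulVec g x, hxy, inv_mulVec]
  apply Submodule.eq_of_le_of_finrank_eq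
  · rintro _ ⟨x, hx, rfl⟩
    rw [Matrix.toLin'_apply]
    exact h x hx
  · rw [← hfr]
    exact (LinearEquiv.finrank_eq (Submodule.equivMapOfInjective _ hinj X)).symm

theorem mem_same (D : Fin 2 → Submodule F (Fin m ⊕ Fin m → F))
    (g : Matrix.symplecticGroup (Fin m) F)
    (h0 : ∀ x ∈ D 0, (g : Matrix (Fin m ⊕ Fin m) (Fin m ⊕ Fin m) F) *ᵥ x ∈ D 0)
    (h1 : ∀ x ∈ D 1, (g : Matrix (Fin m ⊕ Fin m) (Fin m ⊕ Fin m) F) *ᵥ x ∈ D 1) :
    g ∈ (Cfsg.Geo.decompositionStabilizer D).comap (toGL (F := F) (m := m)) := by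
  refine ⟨1, fun i => ?_⟩
  fin_cases i
  · exact map_eq g _ _ rfl h0
  · exact map_eq g _ _ rfl h1

theorem mem_swap (D : Fin 2 → Submodule F (Fin m ⊕ Fin m → F))
    (hfr : finrank F (D 0) = finrank F (D 1))
    (g : Matrix.symplecticGroup (Fin m) F)
    (h0 : ∀ x ∈ D 0, (g : Matrix (Fin m ⊕ Fin m) (Fin m ⊕ Fin m) F) *ᵥ x ∈ D 1)
    (h1 : ∀ x ∈ D 1, (g : Matrix (Fin m ⊕ Fin m) (Fin m ⊕ Fin m) F) *ᵥ x ∈ D 0) :
    g ∈ (Cfsg.Geo.decompositionStabilizer D).comap (toGL (F := F) (m := m)) := by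
  refine ⟨Equiv.swap 0 1, fun i => ?_⟩
  fin_cases i
  · exact map_eq g _ _ hfr h0
  · exact map_eq g _ _ hfr.symm h1

theorem exists_swap {W W' : Submodule F (Fin m ⊕ Fin m → F)} (h : Pair W W')
    (hW : finrank F W = m) (hW' : finrank F W' = m) :
    ∃ π : Matrix.symplecticGroup (Fin m) F,
      (∀ x ∈ W, (π : Matrix (Fin m ⊕ Fin m) (Fin m ⊕ Fin m) F) *ᵥ x ∈ W') ∧
      (∀ x ∈ W', (π : Matrix (Fin m ⊕ Fin m) (Fin m ⊕ Fin m) F) *ᵥ x ∈ W) := by
  classical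
  let bW := Module.finBasisOfFinrankEq F W hW
  let e : Fin m → (Fin m ⊕ Fin m → F) := fun i => (bW i : Fin m ⊕ Fin m → F)
  have heW : ∀ i, e i ∈ W := fun i => (bW i).2
  have hsumW : ∀ x (hx : x ∈ W), x = ∑ i, bW.repr ⟨x, hx⟩ i • e i := by
    intro x hx
    have := congrArg Subtype.val (bW.sum_repr ⟨x, hx⟩)
    simp only [Submodule.coe_sum, Submodule.coe_smul] at this
    exact this.symm
  let Ψ : W' →ₗ[F] (Fin m → F) := (LinearMap.pi fun i => sB m F (e i)).domRestrict W'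
  have hΨ : ∀ (w : W') i, Ψ w i = sB m F (e i) (w : Fin m ⊕ Fin m → F) := fun w i => rfl
  have hΨinj : Function.Injective Ψ := by
    rw [injective_iff_map_eq_zero]
    intro w hw
    apply Subtype.ext
    apply h.inf _ _ w.2
    apply h.max
    intro x hx
    rw [hsumW x hx, map_sum, LinearMap.sum_apply]
    apply Finset.sum_eq_zero
    intro i _
    rw [map_smul, LinearMap.smul_apply, ← hΨ, hw]
    simp
  have hΨsurj : Function.Surjective Ψ :=
    (LinearMap.injective_iff_surjective_of_finrank_eq_finrank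
      (by rw [hW', Module.finrank_fin_fun])).1 hΨinj
  choose f' hf' using fun j : Fin m => hΨsurj (Pi.single j 1)
  let f : Fin m → (Fin m ⊕ Fin m → F) := fun j => (f' j : Fin m ⊕ Fin m → F)
  have hfW' : ∀ j, f j ∈ W' := fun j => (f' j).2
  have hef : ∀ i j, sB m F (e i) (f j) = if (i : ℕ) = (j : ℕ) then 1 else 0 := by
    intro i j
    have : sB m F (e i) (f j) = Ψ (f' j) i := rfl
    rw [this, hf', Pi.single_apply]
    simp only [Fin.ext_iff]
  have hsumW' : ∀ x (hx : x ∈ W'), x = ∑ j, Ψ ⟨x, hx⟩ j • f j := by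
    intro x hx
    have h1 : (⟨x, hx⟩ : W') = ∑ j, Ψ ⟨x, hx⟩ j • f' j := by
      apply hΨinj
      rw [map_sum]
      funext k
      simp only [map_smul, hf', Finset.sum_apply, Pi.smul_apply, Pi.single_apply, smul_eq_mul,
        mul_ite, mul_one, mul_zero, Finset.sum_ite_eq, Finset.mem_univ, if_true]
    have := congrArg Subtype.val h1
    simp only [Submodule.coe_sum, Submodule.coe_smul] at this
    exact this
  have hfe : ∀ i j, sB m F (f i) (-e j) = if (i : ℕ) = (j : ℕ) then 1 else 0 := by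
    intro i j
    rw [map_neg, ← sB_swap, hef]
    simp only [eq_comm]
  have hp1 : FrP (e, f) :=
    ⟨⟨indep_of_dual e f hef, fun i j => h.ti _ (heW i) _ (heW j)⟩, hef,
      fun i j => h.ti' _ (hfW' i) _ (hfW' j)⟩
  have hp2 : FrP (f, fun j => -e j) :=
    ⟨⟨indep_of_dual f (fun j => -e j) hfe, fun i j => h.ti' _ (hfW' i) _ (hfW' j)⟩, hfe,
      fun i j => by
        change sB m F (-e i) (-e j) = 0
        rw [map_neg, map_neg, LinearMap.neg_apply, h.ti _ (heW i) _ (heW j)]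
        simp⟩
  obtain ⟨g1, hg1⟩ : ∃ g1, frameEquiv g1 = ⟨(e, f), hp1⟩ := ⟨_, frameEquiv.apply_symm_apply _⟩
  obtain ⟨g2, hg2⟩ : ∃ g2, frameEquiv g2 = ⟨(f, fun j => -e j), hp2⟩ :=
    ⟨_, frameEquiv.apply_symm_apply _⟩
  have hg1' := congrArg Subtype.val hg1
  have hg2' := congrArg Subtype.val hg2
  have a1 : ∀ i, (g1 : Matrix (Fin m ⊕ Fin m) (Fin m ⊕ Fin m) F) *ᵥ Pi.single (Sum.inr i) 1 = e i :=
    fun i => congrFun (congrArg Prod.fst hg1') i
  have a2 : ∀ i, (g1 : Matrix (Fin m ⊕ Fin m) (Fin m ⊕ Fin m) F) *ᵥ Pi.single (Sum.inl i) 1 = f i :=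
    fun i => congrFun (congrArg Prod.snd hg1') i
  have a3 : ∀ i, (g2 : Matrix (Fin m ⊕ Fin m) (Fin m ⊕ Fin m) F) *ᵥ Pi.single (Sum.inr i) 1 = f i :=
    fun i => congrFun (congrArg Prod.fst hg2') i
  have a4 : ∀ i, (g2 : Matrix (Fin m ⊕ Fin m) (Fin m ⊕ Fin m) F) *ᵥ Pi.single (Sum.inl i) 1 = -e i :=
    fun i => congrFun (congrArg Prod.snd hg2') i
  have b1 : ∀ i, ((g2 * g1⁻¹ : Matrix.symplecticGroup (Fin m) F) :
      Matrix (Fin m ⊕ Fin m) (Fin m ⊕ Fin m) F) *ᵥ e i = f i := by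
    intro i
    rw [mul_mulVec, ← a1, inv_mulVec, a3]
  have b2 : ∀ i, ((g2 * g1⁻¹ : Matrix.symplecticGroup (Fin m) F) :
      Matrix (Fin m ⊕ Fin m) (Fin m ⊕ Fin m) F) *ᵥ f i = -e i := by
    intro i
    rw [mul_mulVec, ← a2, inv_mulVec, a4]
  refine ⟨g2 * g1⁻¹, fun x hx => ?_, fun x hx => ?_⟩
  · rw [hsumW x hx, ← Matrix.mulVecLin_apply, map_sum]
    apply Submodule.sum_mem
    intro i _
    rw [map_smul, Matrix.mulVecLin_apply, b1]
    exact W'.smul_mem _ (hfW' i)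
  · rw [hsumW' x hx, ← Matrix.mulVecLin_apply, map_sum]
    apply Submodule.sum_mem
    intro i _
    rw [map_smul, Matrix.mulVecLin_apply, b2]
    exact W.smul_mem _ (W.neg_mem (heW i))

theorem dich {W W' : Submodule F (Fin m ⊕ Fin m → F)} (g : Matrix.symplecticGroup (Fin m) F)
    (Z : Submodule F (Fin m ⊕ Fin m → F))
    (hZ : ∀ β, (g : Matrix (Fin m ⊕ Fin m) (Fin m ⊕ Fin m) F) *ᵥ β ∈ Z → β ∈ W ∨ β ∈ W') :
    (∀ β, (g : Matrix (Fin m ⊕ Fin m) (Fin m ⊕ Fin m) F) *ᵥ β ∈ Z → β ∈ W) ∨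
    (∀ β, (g : Matrix (Fin m ⊕ Fin m) (Fin m ⊕ Fin m) F) *ᵥ β ∈ Z → β ∈ W') := by
  by_contra hc
  push Not at hc
  obtain ⟨⟨β₁, h1, h1'⟩, ⟨β₂, h2, h2'⟩⟩ := hc
  have b1 : β₁ ∈ W' := (hZ β₁ h1).resolve_left h1'
  have b2 : β₂ ∈ W := (hZ β₂ h2).resolve_right h2'
  rcases hZ (β₁ + β₂) (by rw [mulVec_add]; exact Z.add_mem h1 h2) with h3 | h3
  · exact h1' (by have := W.sub_mem h3 b2; rwa [add_sub_cancel_right] at this)
  · exact h2' (by have := W'.sub_mem h3 b1; rwa [add_sub_cancel_left] at this)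

theorem all_in {W W' : Submodule F (Fin m ⊕ Fin m → F)} (h : Pair W W')
    (hW' : 1 ≤ finrank F W') (g : Matrix.symplecticGroup (Fin m) F)
    (h1 : ∀ β, (g : Matrix (Fin m ⊕ Fin m) (Fin m ⊕ Fin m) F) *ᵥ β ∈ W → β ∈ W)
    (h2 : ∀ β, (g : Matrix (Fin m ⊕ Fin m) (Fin m ⊕ Fin m) F) *ᵥ β ∈ W' → β ∈ W) : False := by
  obtain ⟨r, hr, -, hr0⟩ := exK W' ⊥ (k := 0) Fin.elim0 (by rw [finrank_bot]; omega)
  apply hr0
  have hall : ∀ v, v ∈ W := by
    intro v
    obtain ⟨u, hu, u', hu', hsum⟩ := h.sup ((g : Matrix (Fin m ⊕ Fin m) (Fin m ⊕ Fin m) F) *ᵥ v)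
    have e1 := h1 (((g⁻¹ : Matrix.symplecticGroup (Fin m) F) :
      Matrix (Fin m ⊕ Fin m) (Fin m ⊕ Fin m) F) *ᵥ u) (by rw [mulVec_inv]; exact hu)
    have e2 := h2 (((g⁻¹ : Matrix.symplecticGroup (Fin m) F) :
      Matrix (Fin m ⊕ Fin m) (Fin m ⊕ Fin m) F) *ᵥ u') (by rw [mulVec_inv]; exact hu')
    have : v = ((g⁻¹ : Matrix.symplecticGroup (Fin m) F) :
      Matrix (Fin m ⊕ Fin m) (Fin m ⊕ Fin m) F) *ᵥ u + ((g⁻¹ : Matrix.symplecticGroup (Fin m) F) :
      Matrix (Fin m ⊕ Fin m) (Fin m ⊕ Fin m) F) *ᵥ u' := by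
      rw [← mulVec_add, ← hsum, inv_mulVec]
    rw [this]
    exact W.add_mem e1 e2
  rw [h.inf r (hall r) hr]
  exact Submodule.zero_mem _

theorem coatom [Fintype F] (hodd : Odd (Fintype.card F)) (h2 : (2 : F) ≠ 0) (hm : 7 ≤ m)
    (D : Fin 2 → Submodule F (Fin m ⊕ Fin m → F)) (h : Pair (D 0) (D 1))
    (h0 : finrank F (D 0) = m) (h1 : finrank F (D 1) = m) :
    IsCoatom ((Cfsg.Geo.decompositionStabilizer D).comap (toGL (F := F) (m := m))) := by
  classical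
  constructor
  · intro htop
    obtain ⟨w', hw', -, hw'0⟩ := exK (D 1) ⊥ (k := 0) Fin.elim0 (by rw [finrank_bot]; omega)
    have hw'0' : w' ≠ 0 := fun hh => hw'0 (by rw [hh]; exact Submodule.zero_mem _)
    have hw'W : w' ∉ D 0 := fun hh => hw'0' (h.inf w' hh hw')
    obtain ⟨w0, hw0, hw'w0⟩ := exists_rep (D 0) w' hw'W
    have hw0W : w0 ∈ D 0 := h.max w0 hw0
    have hmem : tv w' (1 : F) ∈
        (Cfsg.Geo.decompositionStabilizer D).comap (toGL (F := F) (m := m)) := by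
      rw [htop]; trivial
    obtain ⟨σ, hσ⟩ := hmem
    have h3 : (tv w' (1 : F) : Matrix (Fin m ⊕ Fin m) (Fin m ⊕ Fin m) F) *ᵥ w0 ∈ D (σ 0) := by
      rw [← hσ 0]
      exact ⟨w0, hw0W, rfl⟩
    rw [tv_mulVec, one_mul, sB_swap, hw'w0, neg_smul, one_smul] at h3
    have hcases : σ 0 = 0 ∨ σ 0 = 1 := by
      generalize σ 0 = k
      fin_cases k <;> simp
    rcases hcases with hc | hc
    · rw [hc] at h3
      apply hw'W
      have := (D 0).sub_mem hw0W h3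
      rwa [sub_add_cancel_left, neg_neg] at this
    · rw [hc] at h3
      have h4 : w0 ∈ D 1 := by
        have := (D 1).add_mem h3 hw'
        rwa [neg_add_cancel_right] at this
      have := h.inf w0 hw0W h4
      rw [this, map_zero] at hw'w0
      exact zero_ne_one hw'w0
  · intro H hlt
    have hM : ∀ a ∈ D 0, ∀ b ∈ D 1, sB m F a b = 0 → sieg a b ∈ H := by
      intro a ha b hb hab
      apply hlt.le
      apply mem_same
      · intro z hz
        rw [sieg_mulVec a b hab, h.ti z hz a ha, zero_smul, add_zero]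
        exact (D 0).add_mem hz ((D 0).smul_mem _ ha)
      · intro z hz
        rw [sieg_mulVec a b hab, h.ti' z hz b hb, zero_smul, add_zero]
        exact (D 1).add_mem hz ((D 1).smul_mem _ hb)
    have hM' : ∀ a ∈ D 1, ∀ b ∈ D 0, sB m F a b = 0 → sieg a b ∈ H := by
      intro a ha b hb hab
      apply hlt.le
      apply mem_same
      · intro z hz
        rw [sieg_mulVec a b hab, h.ti z hz b hb, zero_smul, add_zero]
        exact (D 0).add_mem hz ((D 0).smul_mem _ hb)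
      · intro z hz
        rw [sieg_mulVec a b hab, h.ti' z hz a ha, zero_smul, add_zero]
        exact (D 1).add_mem hz ((D 1).smul_mem _ ha)
    obtain ⟨π, hπ0, hπ1⟩ := exists_swap h h0 h1
    have hπH : π ∈ H := hlt.le (mem_swap D (by rw [h0, h1]) π hπ0 hπ1)
    have htrans : ∀ (X Y : Submodule F (Fin m ⊕ Fin m → F)),
        (∀ x ∈ Y, (π : Matrix (Fin m ⊕ Fin m) (Fin m ⊕ Fin m) F) *ᵥ x ∈ X) →
        (∀ x ∈ X, ∀ c : F, tv x c ∈ H) → ∀ x ∈ Y, ∀ c : F, tv x c ∈ H := by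
      intro X Y hXY hX x hx c
      have := tv_mem_of_conj H π⁻¹ (H.inv_mem hπH) _ c (hX _ (hXY x hx) c)
      rwa [inv_mulVec] at this
    obtain ⟨g, hgH, hgO⟩ := SetLike.exists_of_lt hlt
    obtain ⟨β, hβ0, hβ1, hβ⟩ : ∃ β, β ∉ D 0 ∧ β ∉ D 1 ∧
        ((g : Matrix (Fin m ⊕ Fin m) (Fin m ⊕ Fin m) F) *ᵥ β ∈ D 1 ∨
          (g : Matrix (Fin m ⊕ Fin m) (Fin m ⊕ Fin m) F) *ᵥ β ∈ D 0) := by
      by_contra hcon
      push Not at hcon
      have hZ0 : ∀ β, (g : Matrix (Fin m ⊕ Fin m) (Fin m ⊕ Fin m) F) *ᵥ β ∈ D 0 →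
          β ∈ D 0 ∨ β ∈ D 1 := by
        intro β hβ
        by_contra hc
        push Not at hc
        exact (hcon β hc.1 hc.2).2 hβ
      have hZ1 : ∀ β, (g : Matrix (Fin m ⊕ Fin m) (Fin m ⊕ Fin m) F) *ᵥ β ∈ D 1 →
          β ∈ D 0 ∨ β ∈ D 1 := by
        intro β hβ
        by_contra hc
        push Not at hc
        exact (hcon β hc.1 hc.2).1 hβ
      apply hgO
      have hinv : g⁻¹ ∈ (Cfsg.Geo.decompositionStabilizer D).comap (toGL (F := F) (m := m)) := by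
        rcases dich g (D 0) hZ0 with c0 | c0 <;> rcases dich g (D 1) hZ1 with c1 | c1
        · exact (all_in h (by omega) g c0 c1).elim
        · exact mem_same D _ (fun x hx => c0 _ (by rw [mulVec_inv]; exact hx))
            (fun x hx => c1 _ (by rw [mulVec_inv]; exact hx))
        · exact mem_swap D (by rw [h0, h1]) _ (fun x hx => c0 _ (by rw [mulVec_inv]; exact hx))
            (fun x hx => c1 _ (by rw [mulVec_inv]; exact hx))
        · exact (all_in h.symm (by omega) g c1 c0).elim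
      have := Subgroup.inv_mem _ hinv
      rwa [inv_inv] at this
    rcases hβ with hβ | hβ
    · obtain ⟨a, haW, ha0, κ, hκ, haM⟩ := h.exists_tv h2 (by omega) H hM g hgH β hβ0 hβ1 hβ
      have f0 := h.fill hodd (by omega) H hM a haW ha0 κ hκ haM
      exact h.closure H f0 (htrans _ _ hπ1 f0)
    · obtain ⟨a, haW, ha0, κ, hκ, haM⟩ := h.symm.exists_tv h2 (by omega) H hM' g hgH β hβ1 hβ0 hβ
      have f1 := h.symm.fill hodd (by omega) H hM' a haW ha0 κ hκ haM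
      exact h.closure H (htrans _ _ hπ0 f1) f1

theorem result {F : Type*} [Field F] [Fintype F] (m : ℕ) (hm : 7 ≤ m) (hodd : Odd (Fintype.card F)) (D : Fin 2 → Submodule F (Fin m ⊕ Fin m → F)) (hD : Cfsg.Geo.IsMDecomposition m D) (hts : ∀ i, Cfsg.Geo.IsTotallySingularFor (Cfsg.sympForm m F) (D i)) : Cfsg.Geo.IsMaximalIn (Cfsg.spGL m F) (Cfsg.Geo.decompositionStabilizer D ⊓ Cfsg.spGL m F) := by
  apply maximal_of_coatom
  have h2 : (2 : F) ≠ 0 := by
    apply Ring.two_ne_zero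
    intro hch
    have := FiniteField.even_card_of_char_two hch
    rw [Nat.odd_iff] at hodd
    omega
  apply coatom hodd h2 hm D _ (hD.finrank_eq 0) (hD.finrank_eq 1)
  refine ⟨fun u hu v hv => by rw [sB_apply]; exact hts 0 u hu v hv,
    fun u hu v hv => by rw [sB_apply]; exact hts 1 u hu v hv, fun v => ?_⟩
  have hle : iSup D ≤ D 0 ⊔ D 1 := by
    apply iSup_le
    intro i
    fin_cases i
    · exact le_sup_left
    · exact le_sup_right
  have hv : v ∈ D 0 ⊔ D 1 := hle (by rw [hD.iSup_eq_top]; trivial)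
  obtain ⟨w, hw, w', hw', hsum⟩ := Submodule.mem_sup.1 hv
  exact ⟨w, hw, w', hw', hsum.symm⟩

end Cfsg.Agent.S5649
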