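import Cfsg.Statements.S0029
import Cfsg.Agent.Lib.Helper1_CoprimeSylow

set_option autoImplicit false
open Cfsg

namespace Cfsg.Agent.S0029

open Subgroup Cfsg.Agent.Lib.Helper1_Basic Cfsg.Agent.Lib.Helper1_SZ Cfsg.Agent.Lib.Helper1_Coprime
open scoped Pointwise

/-- An action that is trivial on the Frattini quotient and coprime on the Frattini subgroup is trivial: if A normalises K, the orders of A and of the Frattini subgroup of K are coprime, and every commutator of an element of A with an element of K lies in the Frattini subgroup of K, then A centralises K. -/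
theorem result {G : Type*} [Group G] [Finite G] (A K : Subgroup G)
    (hAK : A ≤ Subgroup.normalizer (K : Set G))
    (hcop : (Nat.card A).Coprime (Nat.card (frattini K)))
    (htriv : ∀ a ∈ A, ∀ k ∈ K, a * k * a⁻¹ * k⁻¹ ∈ (frattini K).map K.subtype) :
    A ≤ Subgroup.centralizer (K : Set G) := by
  set Φ := (frattini K).map K.subtype with hΦ
  have hΦK : Φ ≤ K := map_subtype_le _
  have hAΦ : A ≤ normalizer (Φ : Set G) := by
    rw [le_normalizer_iff]
    intro a ha f hf
    have h1 := Φ.mul_mem (htriv a ha f (hΦK hf)) hf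
    simpa using h1
  have hnil : Group.IsNilpotent (frattini K) := frattini_nilpotent
  have hsolΦ : Group.IsSolvable Φ := isSolvable_map _ _
  have hcop' : (Nat.card A).Coprime (Nat.card Φ) := by rw [hΦ, card_map_subtype]; exact hcop
  -- Frattini argument
  have hKN : K ≤ normalizer (A : Set G) := by
    have htop : ((normalizer (A : Set G)).subgroupOf K) ⊔ frattini K = ⊤ := by
      rw [eq_top_iff]
      intro k _
      have hB : MulAut.conj (k : G) • A ≤ A ⊔ Φ := by
        intro x hx
        rw [mem_conj_smul] at hx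
        set a := (k : G)⁻¹ * x * k with ha
        have hx' : x = (a * (k : G) * a⁻¹ * (k : G)⁻¹)⁻¹ * a := by
          rw [ha]; group
        rw [hx']
        exact (A ⊔ Φ).mul_mem
          ((A ⊔ Φ).inv_mem (mem_sup_right (htriv a hx _ k.2))) (mem_sup_left hx)
      obtain ⟨d, hd, hdA⟩ := conj_of_le_sup hAΦ hcop' (Or.inr hsolΦ) hB (card_conj_smul _ _)
      obtain ⟨d', hd', rfl⟩ := hd
      have h1 : d'⁻¹ * k ∈ (normalizer (A : Set G)).subgroupOf K := by
        rw [mem_subgroupOf]
        have h2 : MulAut.conj ((d' : G)⁻¹ * k) • A = A := by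
          rw [map_mul, mul_smul, ← hdA, ← mul_smul, ← map_mul]
          simp
        have h3 := (Cfsg.Agent.Lib.Helper1_CoprimeSylow.conj_smul_eq_self_iff).mp h2
        simpa using h3
      have h4 : k = d' * (d'⁻¹ * k) := by group
      rw [h4]
      exact mul_mem (mem_sup_right hd') (mem_sup_left h1)
    have := frattini_nongenerating htop
    rwa [subgroupOf_eq_top] at this
  have hdisj : Disjoint A Φ := disjoint_of_coprime_natCard hcop'
  intro a ha
  rw [mem_centralizer_iff]
  intro k hk
  have h1 : a * k * a⁻¹ * k⁻¹ ∈ A := by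
    have := (le_normalizer_iff.mp hKN) k hk a⁻¹ (A.inv_mem ha)
    have h2 := A.mul_mem ha this
    simpa [mul_assoc] using h2
  have h2 : a * k * a⁻¹ * k⁻¹ ∈ A ⊓ Φ := ⟨h1, htriv a ha k hk⟩
  rw [disjoint_iff.mp hdisj, mem_bot] at h2
  have h3 : a * k = k * a := by
    have : a * k * a⁻¹ * k⁻¹ * (k * a) = k * a := by rw [h2, one_mul]
    rw [← this]; group
  exact h3.symm

end Cfsg.Agent.S0029
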