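import Cfsg.Statements.S0944
import Mathlib
import Cfsg.Agent.Lib.CharComplete


set_option autoImplicit false
open Cfsg

namespace Cfsg.Agent.S0944

/-- Let χ be an irreducible character of the finite group G and u an involution. Then χ u is a rational integer n with n ≡ χ 1 (mod 2). -/
theorem result {G : Type*} [Group G] [Finite G] (χ : Cfsg.IrrCharacter G) (u : G) (hu : orderOf u = 2) : ∃ n : ℤ, (χ : G → ℂ) u = (n : ℂ) ∧ (2 : ℤ) ∣ (Cfsg.charDegree (χ : G → ℂ) : ℤ) - n := by
  classical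
  obtain ⟨χ, n, ρ, hρ, rfl⟩ := χ
  obtain ⟨b, μ, hμ, hb⟩ := Cfsg.Agent.Lib.CharBasic.exists_eigen ρ u
  rw [hu] at hμ
  have hval : ρ.character u = ∑ i, μ i :=
    Cfsg.Agent.Lib.CharBasic.trace_eq_sum_of_eigenbasis (ρ u) b μ hb
  have hμ' : ∀ i, μ i = 1 ∨ μ i = -1 := fun i => by
    have := hμ i
    rw [pow_two] at this
    exact mul_self_eq_one_iff.mp this
  let ε : Fin (Module.finrank ℂ (Fin n → ℂ)) → ℤ := fun i => if μ i = 1 then 1 else -1
  have hε : ∀ i, (ε i : ℂ) = μ i := by
    intro i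
    simp only [ε]
    rcases hμ' i with h | h
    · simp [h]
    · have : ¬ ((-1 : ℂ) = 1) := by norm_num
      simp [h, this]
  refine ⟨∑ i, ε i, ?_, ?_⟩
  · simp only
    rw [hval]
    push_cast
    exact Finset.sum_congr rfl (fun i _ => (hε i).symm)
  · have hdeg : Cfsg.charDegree ρ.character = Module.finrank ℂ (Fin n → ℂ) := by
      unfold Cfsg.charDegree
      rw [Representation.char_one]
      simp
    simp only
    rw [hdeg]
    have h1 : ((Module.finrank ℂ (Fin n → ℂ) : ℕ) : ℤ) =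
        ∑ i : Fin (Module.finrank ℂ (Fin n → ℂ)), (1 : ℤ) := by simp
    rw [h1, ← Finset.sum_sub_distrib]
    apply Finset.dvd_sum
    intro i _
    simp only [ε]
    split_ifs <;> norm_num

end Cfsg.Agent.S0944
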