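import Cfsg.Statements.S0840
import Mathlib
import Cfsg.Agent.Lib.CharCount
import Cfsg.Agent.Lib.CharIntegral


set_option autoImplicit false
open scoped ComplexConjugate
open Cfsg

namespace Cfsg.Agent.S0840

/-- Class multiplication coefficients from the character table: for elements a, b, c of a finite group G, the number of ordered pairs (x, y) with x conjugate to a, y conjugate to b and x * y = c equals the product of the sizes of the conjugacy classes of a and b, divided by the order of G, times the sum over the irreducible characters χ of χ a * χ b * conj (χ c) / χ 1. -/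
theorem result {G : Type*} [Group G] [Finite G] (a b c : G) : (Nat.card {p : G × G // IsConj a p.1 ∧ IsConj b p.2 ∧ p.1 * p.2 = c} : ℂ) = (Nat.card {x : G // IsConj a x} : ℂ) * (Nat.card {x : G // IsConj b x} : ℂ) / (Nat.card G : ℂ) * ∑ᶠ χ : Cfsg.IrrCharacter G, (χ : G → ℂ) a * (χ : G → ℂ) b * conj ((χ : G → ℂ) c) / (χ : G → ℂ) 1 := by
  classical
  haveI : Fintype G := Fintype.ofFinite G
  have hN := Cfsg.Agent.Lib.CharCount.count_class_product a b c
  rw [finsum_eq_sum_of_fintype]
  set S := ∑ χ : Cfsg.IrrCharacter G, (χ : G → ℂ) a * (χ : G → ℂ) b * conj ((χ : G → ℂ) c) / (χ : G → ℂ) 1 with hS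
  set ca := Nat.card (Subgroup.centralizer ({a} : Set G)) with hca
  set cb := Nat.card (Subgroup.centralizer ({b} : Set G)) with hcb
  set K := Nat.card {p : G × G // IsConj a p.1 ∧ IsConj b p.2 ∧ p.1 * p.2 = c} with hK
  have hKsum : K = ∑ x ∈ Finset.univ.filter (IsConj a), ∑ y ∈ Finset.univ.filter (IsConj b),
      (if x * y = c then 1 else 0) := by
    rw [hK, Nat.card_eq_fintype_card, Fintype.card_subtype, Finset.card_filter,
      Fintype.sum_prod_type, Finset.sum_filter]
    refine Finset.sum_congr rfl fun x _ => ?_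
    rw [Finset.sum_filter]
    by_cases hx : IsConj a x
    · simp only [hx, true_and, if_true]
      refine Finset.sum_congr rfl fun y _ => ?_
      by_cases hy : IsConj b y <;> simp only [hy, true_and, false_and, if_true, if_false]
    · simp only [hx, false_and, if_false, Finset.sum_const_zero]
  have hcount : (Finset.univ.filter fun uv : G × G => uv.1 * a * uv.1⁻¹ * (uv.2 * b * uv.2⁻¹) = c).card
      = ca * (cb * K) := by
    rw [Finset.card_filter, Fintype.sum_prod_type]
    have h1 : ∀ u : G, ∑ v : G, (if u * a * u⁻¹ * (v * b * v⁻¹) = c then 1 else 0) =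
        cb • ∑ y ∈ Finset.univ.filter (IsConj b), (if u * a * u⁻¹ * y = c then 1 else 0) := by
      intro u
      exact Cfsg.Agent.Lib.CharIntegral.sum_conj_eq b (fun y => if u * a * u⁻¹ * y = c then 1 else 0)
    rw [Finset.sum_congr rfl (fun u _ => h1 u)]
    have h2 := Cfsg.Agent.Lib.CharIntegral.sum_conj_eq a
      (fun x => cb • ∑ y ∈ Finset.univ.filter (IsConj b), (if x * y = c then 1 else 0))
    rw [h2, ← Finset.smul_sum, ← hKsum]
    simp only [smul_eq_mul]
    rfl
  have hia : Nat.card {x : G // IsConj a x} = (Subgroup.centralizer ({a} : Set G)).index := by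
    rw [Nat.card_eq_fintype_card, Fintype.card_subtype]
    exact Cfsg.Agent.Lib.CharIntegral.card_class_eq_index a
  have hib : Nat.card {x : G // IsConj b x} = (Subgroup.centralizer ({b} : Set G)).index := by
    rw [Nat.card_eq_fintype_card, Fintype.card_subtype]
    exact Cfsg.Agent.Lib.CharIntegral.card_class_eq_index b
  have hGa : (Nat.card G : ℂ) = (ca : ℂ) * ((Subgroup.centralizer ({a} : Set G)).index : ℂ) := by
    exact_mod_cast ((Subgroup.centralizer ({a} : Set G)).card_mul_index).symm
  have hGb : (Nat.card G : ℂ) = (cb : ℂ) * ((Subgroup.centralizer ({b} : Set G)).index : ℂ) := by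
    exact_mod_cast ((Subgroup.centralizer ({b} : Set G)).card_mul_index).symm
  have hca0 : (ca : ℂ) ≠ 0 := by exact_mod_cast Nat.card_pos.ne'
  have hcb0 : (cb : ℂ) ≠ 0 := by exact_mod_cast Nat.card_pos.ne'
  have hG0 : (Nat.card G : ℂ) ≠ 0 := by exact_mod_cast Nat.card_pos.ne'
  rw [hcount] at hN
  push_cast at hN
  rw [hia, hib]
  set ia := ((Subgroup.centralizer ({a} : Set G)).index : ℂ)
  set ib := ((Subgroup.centralizer ({b} : Set G)).index : ℂ)
  have hia' : ia = (Nat.card G : ℂ) / ca := by rw [hGa]; field_simp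
  have hib' : ib = (Nat.card G : ℂ) / cb := by rw [hGb]; field_simp
  rw [hia', hib']
  have hK' : (K : ℂ) = (Nat.card G : ℂ) * S / (ca * cb) := by
    rw [← hN]; field_simp
  rw [hK']
  field_simp

end Cfsg.Agent.S0840
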