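import Cfsg.Statements.S0007
import Cfsg.Agent.Lib.Helper1_Prod

set_option autoImplicit false
open Cfsg

namespace Cfsg.Agent.S0007

open Subgroup

/-- Subgroups of coprime index: the intersection has index equal to the product of the indices, and every element is a product of an element of the first subgroup and an element of the second. -/
theorem result {G : Type*} [Group G] [Finite G] (H K : Subgroup G)
    (h : H.index.Coprime K.index) :
    (H ⊓ K).index = H.index * K.index ∧ ∀ g : G, ∃ x ∈ H, ∃ y ∈ K, g = x * y := by
  have h1 : (H ⊓ K).index = H.index * K.index := by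
    apply le_antisymm index_inf_le
    apply Nat.le_of_dvd (Nat.pos_of_ne_zero (index_ne_zero_of_finite))
    exact Nat.Coprime.mul_dvd_of_dvd_of_dvd h (index_dvd_of_le inf_le_left) (index_dvd_of_le inf_le_right)
  refine ⟨h1, ?_⟩
  have h2 : K.relIndex H = K.index := by
    have h3 := relIndex_mul_index (inf_le_left : H ⊓ K ≤ H)
    rw [inf_relIndex_left, h1, mul_comm] at h3
    exact Nat.eq_of_mul_eq_mul_left (Nat.pos_of_ne_zero (index_ne_zero_of_finite)) h3
  intro g
  exact Cfsg.Agent.Lib.Helper1_Prod.exists_mul_of_relIndex_le (Z := K) (W := H) (P := ⊤) le_top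
    (by rw [relIndex_top_right, h2]) g (mem_top g)

end Cfsg.Agent.S0007
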