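import Cfsg.Statements.S0019
import Cfsg.Agent.Lib.Helper1_MinNormal
import Cfsg.Agent.Lib.Helper1_Coprime
import Cfsg.Agent.S0001

set_option autoImplicit false
open Cfsg

namespace Cfsg.Agent.S0019

open Subgroup Cfsg.Agent.Lib.Helper1_Basic Cfsg.Agent.Lib.Helper1_MinNormal
  Cfsg.Agent.Lib.Helper1_Coprime
open scoped Pointwise

universe u

/-- If `G = H₁ H`, `N ≠ 1` is a `p`-subgroup normalised by `H₁` and `p ∤ |G:H|`, `H` solvable, then
`G` has a nontrivial solvable normal subgroup. -/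
theorem key {G : Type u} [Group G] [Finite G] (H₁ H : Subgroup G) (hs : Group.IsSolvable H)
    (hprod : ∀ g : G, ∃ x ∈ H₁, ∃ y ∈ H, g = x * y) (p : ℕ) (hp : p.Prime)
    (N : Subgroup G) (hN : IsPGroup p N) (hne : N ≠ ⊥) (hH₁N : H₁ ≤ normalizer (N : Set G))
    (hpH : ¬ p ∣ H.index) : ∃ M : Subgroup G, M.Normal ∧ M ≠ ⊥ ∧ Group.IsSolvable M := by
  have : Fact p.Prime := ⟨hp⟩
  obtain ⟨P0⟩ : Nonempty (Sylow p H) := inferInstance
  have hPp : IsPGroup p ((P0 : Subgroup H).map H.subtype) := P0.isPGroup'.map _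
  have hidx : ¬ p ∣ ((P0 : Subgroup H).map H.subtype).index := by
    rw [index_map_subtype]
    exact hp.not_dvd_mul P0.not_dvd_index hpH
  let P : Sylow p G := hPp.toSylow hidx
  have hPH : (P : Subgroup G) ≤ H := map_subtype_le _
  obtain ⟨Q, hQ⟩ := hN.exists_le_sylow
  obtain ⟨g, hg⟩ := MulAction.exists_smul_eq G P Q
  have hg' : MulAut.conj g • (P : Subgroup G) = Q := by rw [← hg]; rfl
  obtain ⟨x, hx, y, hy, rfl⟩ := hprod g
  have hNH : N ≤ H := by
    intro n hn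
    have h1 : x * n * x⁻¹ ∈ N := (le_normalizer_iff.mp hH₁N) x hx n hn
    have h2 : x * n * x⁻¹ ∈ (Q : Subgroup G) := hQ h1
    rw [← hg', mem_conj_smul] at h2
    have h4 := H.mul_mem (H.mul_mem hy (hPH h2)) (H.inv_mem hy)
    have h5 : y * ((x * y)⁻¹ * (x * n * x⁻¹) * (x * y)) * y⁻¹ = n := by group
    rwa [h5] at h4
  have hM : normalClosure (N : Set G) ≤ H := by
    rw [normalClosure, closure_le]
    intro z hz
    rw [Group.mem_conjugatesOfSet_iff] at hz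
    obtain ⟨n, hn, hc⟩ := hz
    obtain ⟨c, rfl⟩ := isConj_iff.mp hc
    obtain ⟨x, hx, y, hy, hxy⟩ := hprod c⁻¹
    have hc' : c = y⁻¹ * x⁻¹ := by rw [← mul_inv_rev, ← hxy, inv_inv]
    have h1 : x⁻¹ * n * (x⁻¹)⁻¹ ∈ N := (le_normalizer_iff.mp hH₁N) x⁻¹ (H₁.inv_mem hx) n hn
    have h2 := H.mul_mem (H.mul_mem (H.inv_mem hy) (hNH h1)) hy
    have h3 : c * n * c⁻¹ = y⁻¹ * (x⁻¹ * n * (x⁻¹)⁻¹) * y := by rw [hc']; group
    rw [h3]; exact h2
  refine ⟨normalClosure (N : Set G), normalClosure_normal, ?_, isSolvable_of_le hM⟩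
  intro h
  apply hne
  rw [eq_bot_iff, ← h]
  exact le_normalClosure

theorem aux : ∀ (n : ℕ) (G : Type u) [Group G] [Finite G], Nat.card G = n →
    ∀ (H₁ H₂ H₃ : Subgroup G), Group.IsSolvable H₁ → Group.IsSolvable H₂ → Group.IsSolvable H₃ →
    (∀ g : G, ∃ x ∈ H₁, ∃ y ∈ H₂, g = x * y) → (∀ g : G, ∃ x ∈ H₁, ∃ y ∈ H₃, g = x * y) →
    H₂.index.Coprime H₃.index → Group.IsSolvable G := by
  intro n
  induction n using Nat.strong_induction_on with
  | _ n ih =>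
    intro G _ _ hcard H₁ H₂ H₃ h₁ h₂ h₃ h12 h13 hcop
    by_cases hbot : H₁ = ⊥
    · have htop : H₂ = ⊤ := by
        rw [eq_top_iff]
        intro g _
        obtain ⟨x, hx, y, hy, rfl⟩ := h12 g
        rw [hbot, mem_bot] at hx
        rw [hx, one_mul]; exact hy
      rw [htop] at h₂
      exact Group.isSolvable_of_surjective (f := (⊤ : Subgroup G).subtype)
        (fun g => ⟨⟨g, mem_top g⟩, rfl⟩)
    have hnt : Nontrivial H₁ := (nontrivial_iff_ne_bot H₁).mpr hbot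
    obtain ⟨p, N0, hp, hN0n, hN0, -, hpow, -⟩ := exists_normal_elementary_abelian (G := H₁)
    set N := N0.map H₁.subtype with hN
    have hNp : IsPGroup p N := (isPGroup_of_pow_eq_one hpow).map _
    have hNne : N ≠ ⊥ := by
      intro h
      apply hN0
      rwa [hN, map_eq_bot_iff_of_injective _ H₁.subtype_injective] at h
    have hH₁N : H₁ ≤ normalizer (N : Set G) := by
      rw [le_normalizer_iff]
      rintro x hx _ ⟨n, hn, rfl⟩
      exact ⟨⟨x, hx⟩ * n * ⟨x, hx⟩⁻¹, hN0n.conj_mem n hn _, rfl⟩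
    have hex : ∃ M : Subgroup G, M.Normal ∧ M ≠ ⊥ ∧ Group.IsSolvable M := by
      by_cases h2 : p ∣ H₂.index
      · have h3 : ¬ p ∣ H₃.index := fun h3 => by
          have := Nat.dvd_gcd h2 h3
          rw [hcop.gcd_eq_one] at this
          exact hp.one_lt.ne' (Nat.dvd_one.mp this)
        exact key H₁ H₃ h₃ h13 p hp N hNp hNne hH₁N h3
      · exact key H₁ H₂ h₂ h12 p hp N hNp hNne hH₁N h2
    obtain ⟨M, hMn, hMne, hMs⟩ := hex
    rw [Group.isSolvable_iff_subgroup_quotient M]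
    refine ⟨hMs, ?_⟩
    have hs := QuotientGroup.mk'_surjective M
    refine ih _ (hcard ▸ Cfsg.Agent.S0001.card_quotient_lt M hMne) (G ⧸ M) rfl
      (H₁.map (QuotientGroup.mk' M)) (H₂.map (QuotientGroup.mk' M)) (H₃.map (QuotientGroup.mk' M))
      (isSolvable_map _ _) (isSolvable_map _ _) (isSolvable_map _ _) ?_ ?_ ?_
    · intro g
      obtain ⟨g, rfl⟩ := hs g
      obtain ⟨x, hx, y, hy, rfl⟩ := h12 g
      exact ⟨_, mem_map_of_mem _ hx, _, mem_map_of_mem _ hy, map_mul _ _ _⟩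
    · intro g
      obtain ⟨g, rfl⟩ := hs g
      obtain ⟨x, hx, y, hy, rfl⟩ := h13 g
      exact ⟨_, mem_map_of_mem _ hx, _, mem_map_of_mem _ hy, map_mul _ _ _⟩
    · exact Nat.Coprime.of_dvd (index_map_dvd _ hs) (index_map_dvd _ hs) hcop

/-- A finite group that factorises as H₁H₂ and as H₁H₃ with all three subgroups solvable and the indices of H₂ and H₃ coprime is solvable. -/
theorem result {G : Type*} [Group G] [Finite G] (H₁ H₂ H₃ : Subgroup G)
    (h₁ : Group.IsSolvable H₁) (h₂ : Group.IsSolvable H₂) (h₃ : Group.IsSolvable H₃)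
    (h12 : ∀ g : G, ∃ x ∈ H₁, ∃ y ∈ H₂, g = x * y) (h13 : ∀ g : G, ∃ x ∈ H₁, ∃ y ∈ H₃, g = x * y)
    (hcop : H₂.index.Coprime H₃.index) : Group.IsSolvable G := by
  exact aux _ G rfl H₁ H₂ H₃ h₁ h₂ h₃ h12 h13 hcop

end Cfsg.Agent.S0019
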