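import Cfsg.Statements.S0006
import Cfsg.Agent.S0144
import Cfsg.Agent.S0007
import Cfsg.Agent.S0019

set_option autoImplicit false
open Cfsg

namespace Cfsg.Agent.S0006

open Subgroup

universe u

theorem not_dvd_card {G : Type u} [Group G] [Finite G] (H : Subgroup G) (r : ℕ) (hr : r.Prime)
    (hidx : H.index = r ^ (Nat.card G).factorization r) : ¬ r ∣ Nat.card H := by
  intro h
  have h1 := card_mul_index H
  rw [hidx] at h1
  apply Nat.pow_succ_factorization_not_dvd (Nat.card_pos (α := G)).ne' hr
  rw [pow_succ, mul_comm]
  conv_rhs => rw [← h1]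
  exact Nat.mul_dvd_mul_right h _

theorem relIndex_eq_index {G : Type u} [Group G] [Finite G] (H K : Subgroup G)
    (h : H.index.Coprime K.index) : K.relIndex H = K.index := by
  have h1 := (Cfsg.Agent.S0007.result H K h).1
  have h3 := relIndex_mul_index (inf_le_left : H ⊓ K ≤ H)
  rw [inf_relIndex_left, h1, mul_comm] at h3
  exact Nat.eq_of_mul_eq_mul_left (Nat.pos_of_ne_zero (index_ne_zero_of_finite)) h3

theorem hered {G : Type u} [Group G] [Finite G]
    (h : ∀ p : ℕ, p.Prime → ∃ H : Subgroup G, H.index = p ^ (Nat.card G).factorization p)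
    (H : Subgroup G) (r : ℕ) (hr : r.Prime) (hidx : H.index = r ^ (Nat.card G).factorization r) :
    ∀ p : ℕ, p.Prime → ∃ K : Subgroup H, K.index = p ^ (Nat.card H).factorization p := by
  intro p hp
  by_cases hpr : p = r
  · refine ⟨⊤, ?_⟩
    rw [index_top, hpr, Nat.factorization_eq_zero_of_not_dvd (not_dvd_card H r hr hidx), pow_zero]
  · obtain ⟨K, hK⟩ := h p hp
    refine ⟨K.subgroupOf H, ?_⟩
    have hcop : H.index.Coprime K.index := by
      rw [hidx, hK]
      exact Nat.Coprime.pow _ _ ((Nat.coprime_primes hr hp).mpr (Ne.symm hpr))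
    have h1 : (K.subgroupOf H).index = K.index := relIndex_eq_index H K hcop
    rw [h1, hK]
    congr 1
    have h2 := card_mul_index H
    rw [hidx] at h2
    rw [← h2, Nat.factorization_mul (Nat.card_pos (α := H)).ne' (pow_ne_zero _ hr.ne_zero),
      hr.factorization_pow]
    simp [Ne.symm hpr]

theorem aux : ∀ (n : ℕ) (G : Type u) [Group G] [Finite G], Nat.card G = n →
    (∀ p : ℕ, p.Prime → ∃ H : Subgroup G, H.index = p ^ (Nat.card G).factorization p) →
    Group.IsSolvable G := by
  intro n
  induction n using Nat.strong_induction_on with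
  | _ n ih =>
    intro G _ _ hcard h
    -- complements of primes dividing `|G|` are solvable
    have hsolv : ∀ (r : ℕ) (hr : r.Prime) (H : Subgroup G), r ∣ Nat.card G →
        H.index = r ^ (Nat.card G).factorization r → Group.IsSolvable H := by
      intro r hr H hdvd hidx
      refine ih (Nat.card H) ?_ H rfl (hered h H r hr hidx)
      rw [← hcard, ← card_mul_index H, hidx]
      have h1 : 1 < r ^ (Nat.card G).factorization r := by
        apply Nat.one_lt_pow _ hr.one_lt
        exact (hr.factorization_pos_of_dvd (Nat.card_pos (α := G)).ne' hdvd).ne'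
      exact lt_mul_of_one_lt_right Nat.card_pos h1
    by_cases hG1 : Nat.card G = 1
    · have : Subsingleton G := (Nat.card_eq_one_iff_unique.mp hG1).1
      infer_instance
    have hp := Nat.minFac_prime hG1
    set p := (Nat.card G).minFac with hpdef
    have hpd : p ∣ Nat.card G := Nat.minFac_dvd _
    obtain ⟨H, hH⟩ := h p hp
    by_cases hH1 : Nat.card H = 1
    · have e : Nat.card G = H.index := by rw [← card_mul_index H, hH1, one_mul]
      exact Cfsg.Agent.S0144.result p p ((Nat.card G).factorization p) 0 hp hp
        (e.trans (by rw [hH, pow_zero, mul_one]))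
    have hq := Nat.minFac_prime hH1
    set q := (Nat.card H).minFac with hqdef
    have hqd : q ∣ Nat.card H := Nat.minFac_dvd _
    have hqG : q ∣ Nat.card G := hqd.trans (card_subgroup_dvd_card H)
    have hpq : p ≠ q := fun e => not_dvd_card H p hp hH (e ▸ hqd)
    obtain ⟨K, hK⟩ := h q hq
    have hHK : H.index.Coprime K.index := by
      rw [hH, hK]; exact Nat.Coprime.pow _ _ ((Nat.coprime_primes hp hq).mpr hpq)
    have h7 := Cfsg.Agent.S0007.result H K hHK
    by_cases hD1 : Nat.card (H ⊓ K : Subgroup G) = 1
    · have e : Nat.card G = (H ⊓ K).index := by rw [← card_mul_index (H ⊓ K), hD1, one_mul]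
      exact Cfsg.Agent.S0144.result p q ((Nat.card G).factorization p)
        ((Nat.card G).factorization q) hp hq (e.trans (by rw [h7.1, hH, hK]))
    have hr := Nat.minFac_prime hD1
    set r := (Nat.card (H ⊓ K : Subgroup G)).minFac with hrdef
    have hrd : r ∣ Nat.card (H ⊓ K : Subgroup G) := Nat.minFac_dvd _
    have hrG : r ∣ Nat.card G := hrd.trans (card_subgroup_dvd_card _)
    have hpr : p ≠ r := fun e =>
      not_dvd_card H p hp hH (e ▸ hrd.trans (card_dvd_of_le inf_le_left))
    have hqr : q ≠ r := fun e =>
      not_dvd_card K q hq hK (e ▸ hrd.trans (card_dvd_of_le inf_le_right))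
    obtain ⟨L, hL⟩ := h r hr
    have hHL : H.index.Coprime L.index := by
      rw [hH, hL]; exact Nat.Coprime.pow _ _ ((Nat.coprime_primes hp hr).mpr hpr)
    have hKL : K.index.Coprime L.index := by
      rw [hK, hL]; exact Nat.Coprime.pow _ _ ((Nat.coprime_primes hq hr).mpr hqr)
    exact Cfsg.Agent.S0019.result H K L (hsolv p hp H hpd hH) (hsolv q hq K hqG hK)
      (hsolv r hr L hrG hL) h7.2 (Cfsg.Agent.S0007.result H L hHL).2 hKL

/-- Converse of Hall's Theorem: if for every prime p a finite group has a subgroup of index equal to the p-part of the group order (a Hall p-complement), then the group is solvable. -/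
theorem result {G : Type*} [Group G] [Finite G]
    (h : ∀ p : ℕ, p.Prime → ∃ H : Subgroup G, H.index = p ^ (Nat.card G).factorization p) :
    Group.IsSolvable G := by
  exact aux _ G rfl h

end Cfsg.Agent.S0006
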