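import Cfsg.Statements.S0009
import Cfsg.Agent.Lib.Helper3_Comp
import Cfsg.Agent.Lib.Helper4_Core

set_option autoImplicit false
open Cfsg

namespace Cfsg.Agent.S0009

open Cfsg.Agent.Lib.Helper3_Comp Cfsg.Agent.Lib.Helper3_Core Cfsg.Agent.Lib.Helper4_Core

theorem pCore_normal (p : ℕ) (G : Type*) [Group G] : (Cfsg.pCore p G).Normal :=
  Subgroup.sSup_normal _ (fun _ h => h.1)

theorem pCore_le_fitting {G : Type*} [Group G] [Finite G] (p : ℕ) [Fact p.Prime] :
    Cfsg.pCore p G ≤ Cfsg.fittingSubgroup G :=
  le_sSup ⟨pCore_normal p G, (pCore_isPGroup p G).isNilpotent⟩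

/-- The Fitting subgroup of a finite group is generated by the p-cores, p ranging over the primes. -/
theorem result {G : Type*} [Group G] [Finite G] :
    Cfsg.fittingSubgroup G = ⨆ p : Nat.Primes, Cfsg.pCore (p : ℕ) G := by
  apply le_antisymm
  · set F := Cfsg.fittingSubgroup G with hF
    set J := ⨆ p : Nat.Primes, Cfsg.pCore (p : ℕ) G with hJ
    have hFn : Group.IsNilpotent F := fittingSubgroup_isNilpotent G
    have hFc : F.Characteristic := fittingSubgroup_characteristic G
    have hdvd : Nat.card F ∣ Nat.card (J.subgroupOf F) := by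
      rw [Nat.dvd_iff_prime_pow_dvd_dvd]
      intro p k hp hpk
      have : Fact p.Prime := ⟨hp⟩
      obtain ⟨P⟩ : Nonempty (Sylow p F) := inferInstance
      have h1 : p ^ k ∣ Nat.card P := P.pow_dvd_card_of_pow_dvd_card hpk
      refine h1.trans (Subgroup.card_dvd_of_le ?_)
      have hPn : (P : Subgroup F).Normal := inferInstance
      have hPc : (P : Subgroup F).Characteristic := P.characteristic_of_normal hPn
      have hPG : ((P : Subgroup F).map F.subtype).Characteristic := inferInstance
      have hle : (P : Subgroup F).map F.subtype ≤ Cfsg.pCore p G := by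
        apply le_pCore inferInstance
        exact P.isPGroup'.map _
      have hle2 : Cfsg.pCore p G ≤ J := le_iSup (fun p : Nat.Primes => Cfsg.pCore (p : ℕ) G) ⟨p, hp⟩
      intro x hx
      rw [Subgroup.mem_subgroupOf]
      exact hle2 (hle (Subgroup.mem_map_of_mem _ hx))
    have htop : J.subgroupOf F = ⊤ := by
      apply Subgroup.eq_top_of_card_eq
      exact Nat.dvd_antisymm (Subgroup.card_subgroup_dvd_card _) hdvd
    rwa [Subgroup.subgroupOf_eq_top] at htop
  · apply iSup_le
    intro p
    have : Fact (p : ℕ).Prime := ⟨p.2⟩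
    exact pCore_le_fitting (p : ℕ)

end Cfsg.Agent.S0009
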