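import Cfsg.Statements.S0011
import Mathlib

set_option autoImplicit false
open Cfsg

namespace Cfsg.Agent.S0011

open Subgroup

/-- If the Frattini quotient of a finite group is nilpotent then the group is nilpotent. -/
theorem result {G : Type*} [Group G] [Finite G]
    (h : Group.IsNilpotent (G ⧸ frattini G)) : Group.IsNilpotent G := by
  apply ((Group.isNilpotent_of_finite_tfae (G := G)).out 0 3).mpr
  intro p hp P
  have hs := QuotientGroup.mk'_surjective (frattini G)
  have h1 : ((P.mapSurjective hs : Sylow p (G ⧸ frattini G)) : Subgroup (G ⧸ frattini G)).Normal :=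
    inferInstance
  rw [Sylow.coe_mapSurjective] at h1
  have h2 := h1.comap (QuotientGroup.mk' (frattini G))
  rw [Subgroup.comap_map_eq, QuotientGroup.ker_mk'] at h2
  have h3 := P.normalizer_sup_eq_top' (N := (P : Subgroup G) ⊔ frattini G) le_sup_left
  have h3' : normalizer ((P : Subgroup G) : Set G) ⊔ frattini G = ⊤ := by
    rw [eq_top_iff, ← h3]
    exact sup_le le_sup_left (sup_le (le_normalizer.trans le_sup_left) le_sup_right)
  have h4 := frattini_nongenerating h3'
  exact normalizer_eq_top_iff.mp h4

end Cfsg.Agent.S0011
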