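import Cfsg.Statements.S0017
import Cfsg.Agent.S0009
import Cfsg.Agent.S0044

set_option autoImplicit false
open Cfsg

namespace Cfsg.Agent.S0017

open Cfsg.Agent.Lib.Helper3_Comp Cfsg.Agent.Lib.Helper3_Core Cfsg.Agent.Lib.Helper4_Core

/-- In a finite solvable group whose largest normal subgroup of order prime to p is trivial, the centralizer of the p-core is contained in the p-core. -/
theorem result {G : Type*} [Group G] [Finite G] [Group.IsSolvable G] (p : ℕ) [Fact p.Prime]
    (h : Cfsg.pPrimeCore p G = ⊥) :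
    Subgroup.centralizer (Cfsg.pCore p G : Set G) ≤ Cfsg.pCore p G := by
  have hF : Cfsg.fittingSubgroup G = Cfsg.pCore p G := by
    apply le_antisymm _ (Cfsg.Agent.S0009.pCore_le_fitting p)
    rw [Cfsg.Agent.S0009.result]
    apply iSup_le
    intro q
    by_cases hqp : (q : ℕ) = p
    · rw [hqp]
    · have h1 : Cfsg.pCore (q : ℕ) G ≤ Cfsg.pPrimeCore p G := by
        apply le_pPrimeCore (Cfsg.Agent.S0009.pCore_normal _ _)
        have : Fact (q : ℕ).Prime := ⟨q.2⟩
        obtain ⟨n, hn⟩ := (IsPGroup.iff_card.mp (pCore_isPGroup (q : ℕ) G))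
        rw [hn]
        apply Nat.Coprime.pow_left
        exact (Nat.coprime_primes q.2 Fact.out).mpr hqp
      rw [h] at h1
      exact h1.trans bot_le
  have := Cfsg.Agent.S0044.result (G := G)
  rwa [hF] at this

end Cfsg.Agent.S0017
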