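import Cfsg.Statements.S0018
import Cfsg.Agent.S0017
import Cfsg.Agent.Lib.Helper1_SZ

set_option autoImplicit false
open Cfsg

namespace Cfsg.Agent.S0018

open Cfsg.Agent.Lib.Helper3_Comp Cfsg.Agent.Lib.Helper3_Core Cfsg.Agent.Lib.Helper4_Core

theorem pPrimeCore_normal (p : ℕ) (G : Type*) [Group G] : (Cfsg.pPrimeCore p G).Normal :=
  Subgroup.sSup_normal _ (fun _ h => h.1)

theorem pPrimeCore_quotient {G : Type*} [Group G] [Finite G] (p : ℕ)
    [(Cfsg.pPrimeCore p G).Normal] :
    Cfsg.pPrimeCore p (G ⧸ Cfsg.pPrimeCore p G) = ⊥ := by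
  set N := Cfsg.pPrimeCore p G with hN
  set M := Cfsg.pPrimeCore p (G ⧸ N) with hM
  have hMn : M.Normal := pPrimeCore_normal p _
  have h1 : M.comap (QuotientGroup.mk' N) ≤ N := by
    apply le_pPrimeCore (hMn.comap _)
    rw [Cfsg.Agent.Lib.Helper1_SZ.card_comap_mk']
    exact Nat.Coprime.mul_left (pPrimeCore_coprime p) (pPrimeCore_coprime p)
  rw [eq_bot_iff]
  intro x hx
  obtain ⟨g, rfl⟩ := QuotientGroup.mk'_surjective N x
  have : g ∈ N := h1 hx
  rw [Subgroup.mem_bot]
  exact (QuotientGroup.eq_one_iff g).mpr this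

/-- A finite solvable group whose Sylow p-subgroups are abelian has p-length one: a Sylow p-subgroup together with the largest normal subgroup of order prime to p generates a normal subgroup. -/
theorem result {G : Type*} [Group G] [Finite G] [Group.IsSolvable G]
    (p : ℕ) [Fact p.Prime] (P : Sylow p G) (hP : IsMulCommutative P) :
    ((P : Subgroup G) ⊔ Cfsg.pPrimeCore p G).Normal := by
  have hNn : (Cfsg.pPrimeCore p G).Normal := pPrimeCore_normal p G
  set N := Cfsg.pPrimeCore p G with hN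
  have hs := QuotientGroup.mk'_surjective N
  have h1 : Cfsg.pPrimeCore p (G ⧸ N) = ⊥ := pPrimeCore_quotient p
  have h2 := Cfsg.Agent.S0017.result (G := G ⧸ N) p h1
  have h3 : Cfsg.pCore p (G ⧸ N) ≤ (P : Subgroup G).map (QuotientGroup.mk' N) :=
    pCore_le_sylow (P.mapSurjective hs)
  have h4 : (P : Subgroup G).map (QuotientGroup.mk' N) ≤ Cfsg.pCore p (G ⧸ N) := by
    refine le_trans ?_ h2
    intro x hx
    rw [Subgroup.mem_centralizer_iff]
    intro y hy
    obtain ⟨a, ha, rfl⟩ := hx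
    obtain ⟨b, hb, rfl⟩ := h3 hy
    rw [← map_mul, ← map_mul]
    congr 1
    exact setLike_mul_comm hb ha
  have h5 : (P : Subgroup G).map (QuotientGroup.mk' N) = Cfsg.pCore p (G ⧸ N) := le_antisymm h4 h3
  have h6 : ((P : Subgroup G).map (QuotientGroup.mk' N)).Normal := by
    rw [h5]; exact Cfsg.Agent.S0009.pCore_normal _ _
  have h7 := h6.comap (QuotientGroup.mk' N)
  rwa [Subgroup.comap_map_eq, QuotientGroup.ker_mk'] at h7

end Cfsg.Agent.S0018
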