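import Cfsg.Statements.S0020
import Cfsg.Agent.S0003
import Cfsg.Agent.S0007
import Cfsg.Agent.Lib.Helper1_Prod
import Cfsg.Agent.Lib.Helper1_SZ

set_option autoImplicit false
open Pointwise
open Cfsg

namespace Cfsg.Agent.S0020

open Subgroup Cfsg.Agent.Lib.Helper1_Prod Cfsg.Agent.Lib.Helper1_SZ
open scoped Pointwise

theorem mul_prod_erase' (T : Finset ℕ) (f : ℕ → ℕ) (p : ℕ) (h : p ∉ T → f p = 1) :
    f p * ∏ x ∈ T.erase p, f x = ∏ x ∈ T, f x := by
  by_cases hp : p ∈ T
  · exact Finset.mul_prod_erase T f hp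
  · rw [Finset.erase_eq_of_notMem hp, h hp, one_mul]

theorem index_inf {G : Type*} [Group G] [Finite G] (Hc : ℕ → Subgroup G)
    (hHc : ∀ r : ℕ, r.Prime → (Hc r).index = r ^ (Nat.card G).factorization r) (T : Finset ℕ)
    (hT : ∀ r ∈ T, r.Prime) :
    (T.inf Hc).index = ∏ r ∈ T, r ^ (Nat.card G).factorization r := by
  classical
  induction T using Finset.induction_on with
  | empty => simp
  | insert r T hr ih =>
    have ih' := ih (fun x hx => hT x (Finset.mem_insert_of_mem hx))
    have hrp := hT r (Finset.mem_insert_self r T)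
    rw [Finset.inf_insert, Finset.prod_insert hr]
    have hcop : (Hc r).index.Coprime (T.inf Hc).index := by
      rw [ih', hHc r hrp]
      apply Nat.Coprime.prod_right
      intro x hx
      apply Nat.Coprime.pow
      rw [Nat.coprime_primes hrp (hT x (Finset.mem_insert_of_mem hx))]
      rintro rfl
      exact hr hx
    rw [(Cfsg.Agent.S0007.result _ _ hcop).1, ih', hHc r hrp]

/-- A finite solvable group admits a Sylow system: Sylow subgroups, one for each prime, that pairwise permute as sets. -/
theorem result {G : Type*} [Group G] [Finite G] [Group.IsSolvable G] :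
    ∃ S : (p : Nat.Primes) → Sylow (p : ℕ) G,
      ∀ p q : Nat.Primes, (S p : Set G) * (S q : Set G) = (S q : Set G) * (S p : Set G) := by
  classical
  have hG0 : Nat.card G ≠ 0 := (Nat.card_pos (α := G)).ne'
  have hex : ∀ r : ℕ, ∃ H : Subgroup G, r.Prime → H.index = r ^ (Nat.card G).factorization r := by
    intro r
    by_cases hr : r.Prime
    · obtain ⟨H, hH⟩ := Cfsg.Agent.S0003.result (G := G) (ordCompl[r] (Nat.card G))
        (r ^ (Nat.card G).factorization r)
        (by rw [mul_comm]; exact (Nat.ordProj_mul_ordCompl_eq_self _ _).symm)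
        ((Nat.coprime_ordCompl hr hG0).pow_left _).symm
      refine ⟨H, fun _ => ?_⟩
      have h1 := card_mul_index H
      have h2 := Nat.ordProj_mul_ordCompl_eq_self (Nat.card G) r
      rw [hH] at h1
      rw [mul_comm] at h2
      exact Nat.eq_of_mul_eq_mul_left (Nat.ordCompl_pos _ hG0) (h1.trans h2.symm)
    · exact ⟨⊤, fun h => absurd h hr⟩
  choose Hc hHc using hex
  set PF := (Nat.card G).primeFactors with hPF
  let f : ℕ → ℕ := fun r => r ^ (Nat.card G).factorization r
  have hf1 : ∀ r, r ∉ PF → f r = 1 := by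
    intro r hr
    have : (Nat.card G).factorization r = 0 := by
      rw [← Finsupp.notMem_support_iff, Nat.support_factorization]; exact hr
    simp [f, this]
  have hprod : ∏ r ∈ PF, f r = Nat.card G := Nat.prod_factorization_pow_eq_self hG0
  have hPFp : ∀ r ∈ PF, r.Prime := fun r hr => Nat.prime_of_mem_primeFactors hr
  have hcard : ∀ T : Finset ℕ, T ⊆ PF → Nat.card (T.inf Hc : Subgroup G) * ∏ r ∈ T, f r = Nat.card G := by
    intro T hT
    rw [← index_inf Hc hHc T (fun r hr => hPFp r (hT hr)), card_mul_index]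
  have hfpos : ∀ T : Finset ℕ, T ⊆ PF → 0 < ∏ r ∈ T, f r := by
    intro T hT
    apply Finset.prod_pos
    intro r hr
    exact pow_pos (hPFp r (hT hr)).pos _
  -- the Sylow subgroups
  have hS : ∀ p : ℕ, Nat.card ((PF.erase p).inf Hc : Subgroup G) = f p := by
    intro p
    have h1 := hcard (PF.erase p) (Finset.erase_subset _ _)
    have h2 := mul_prod_erase' PF f p (hf1 p)
    rw [hprod] at h2
    exact Nat.eq_of_mul_eq_mul_right (hfpos _ (Finset.erase_subset _ _)) (h1.trans h2.symm)
  have hE : ∀ p q : ℕ, p ≠ q → Nat.card (((PF.erase p).erase q).inf Hc : Subgroup G) = f p * f q := by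
    intro p q hpq
    have hsub : (PF.erase p).erase q ⊆ PF := (Finset.erase_subset _ _).trans (Finset.erase_subset _ _)
    have h1 := hcard _ hsub
    have h2 := mul_prod_erase' PF f p (hf1 p)
    have h3 := mul_prod_erase' (PF.erase p) f q (fun h => hf1 q (fun h' => h (Finset.mem_erase.mpr ⟨hpq.symm, h'⟩)))
    rw [hprod, ← h3, ← mul_assoc] at h2
    exact Nat.eq_of_mul_eq_mul_right (hfpos _ hsub) (h1.trans h2.symm)
  have key : ∀ p q : ℕ, p.Prime → q.Prime → p ≠ q →
      (((PF.erase p).inf Hc : Subgroup G) : Set G) * (((PF.erase q).inf Hc : Subgroup G) : Set G) =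
        ((((PF.erase p).erase q).inf Hc : Subgroup G) : Set G) := by
    intro p q hp hq hpq
    have hle1 : (PF.erase p).inf Hc ≤ ((PF.erase p).erase q).inf Hc :=
      Finset.inf_mono (Finset.erase_subset _ _)
    have hle2 : (PF.erase q).inf Hc ≤ ((PF.erase p).erase q).inf Hc := by
      rw [Finset.erase_right_comm]
      exact Finset.inf_mono (Finset.erase_subset _ _)
    apply Set.Subset.antisymm
    · rintro _ ⟨x, hx, y, hy, rfl⟩
      exact mul_mem (hle1 hx) (hle2 hy)
    · intro x hx
      have hcop : (Nat.card ((PF.erase p).inf Hc : Subgroup G)).Coprime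
          (Nat.card ((PF.erase q).inf Hc : Subgroup G)) := by
        rw [hS, hS]
        exact Nat.Coprime.pow _ _ ((Nat.coprime_primes hp hq).mpr hpq)
      have h1 : ((PF.erase q).inf Hc).relIndex ((PF.erase p).inf Hc) = f p := by
        rw [relIndex_eq_card_of_disjoint (disjoint_of_coprime_natCard hcop), hS]
      have h2 : ((PF.erase q).inf Hc).relIndex (((PF.erase p).erase q).inf Hc) = f p := by
        have h3 := card_mul_relIndex hle2
        rw [hS, hE p q hpq, mul_comm (f p)] at h3
        exact Nat.eq_of_mul_eq_mul_left (pow_pos hq.pos _) h3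
      obtain ⟨w, hw, c, hc, rfl⟩ := exists_mul_of_relIndex_le hle1 (by rw [h1, h2]) x hx
      exact ⟨w, hw, c, hc, rfl⟩
  refine ⟨fun p => by
    have : Fact (p : ℕ).Prime := ⟨p.2⟩
    exact Sylow.ofCard ((PF.erase (p : ℕ)).inf Hc) (hS p), ?_⟩
  intro p q
  by_cases hpq : (p : ℕ) = q
  · have : p = q := Subtype.ext hpq
    rw [this]
  · have h1 := key p q p.2 q.2 hpq
    have h2 := key q p q.2 p.2 (Ne.symm hpq)
    rw [Finset.erase_right_comm] at h2
    exact h1.trans h2.symm

end Cfsg.Agent.S0020
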