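import Cfsg.Statements.S0021
import Cfsg.Agent.S0006
import Cfsg.Agent.Lib.Helper1_Perm

set_option autoImplicit false
open Pointwise
open Cfsg

namespace Cfsg.Agent.S0021

open Subgroup Cfsg.Agent.Lib.Helper1_Perm
open scoped Pointwise

theorem join_prop {G : Type*} [Group G] [Finite G]
    (S : (p : Nat.Primes) → Sylow (p : ℕ) G)
    (hS : ∀ p q : Nat.Primes, (S p : Set G) * (S q : Set G) = (S q : Set G) * (S p : Set G))
    (T : Finset Nat.Primes) :
    (∀ q : Nat.Primes, ((S q : Subgroup G) : Set G) * ((T.sup fun r => (S r : Subgroup G) : Subgroup G) : Set G)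
      = ((T.sup fun r => (S r : Subgroup G) : Subgroup G) : Set G) * ((S q : Subgroup G) : Set G)) ∧
    Nat.card (T.sup fun r => (S r : Subgroup G) : Subgroup G) ∣ ∏ r ∈ T, Nat.card (S r) := by
  classical
  induction T using Finset.induction_on with
  | empty =>
    refine ⟨fun q => ?_, ?_⟩
    · simp
    · simp
  | insert r T hr ih =>
    obtain ⟨ih1, ih2⟩ := ih
    rw [Finset.sup_insert, Finset.prod_insert hr]
    refine ⟨fun q => ?_, ?_⟩
    · exact perm_sup (ih1 r) (hS q r) (ih1 q)
    · exact (card_sup_dvd_of_perm (ih1 r)).trans (Nat.mul_dvd_mul_left _ ih2)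

/-- A finite group with a family of pairwise permuting Sylow subgroups, one for each prime, is solvable (this direction rests on Burnside's two-prime Theorem). -/
theorem result {G : Type*} [Group G] [Finite G]
    (S : (p : Nat.Primes) → Sylow (p : ℕ) G)
    (hS : ∀ p q : Nat.Primes, (S p : Set G) * (S q : Set G) = (S q : Set G) * (S p : Set G)) :
    Group.IsSolvable G := by
  classical
  apply Cfsg.Agent.S0006.result
  intro p hp
  have : Fact p.Prime := ⟨hp⟩
  let T : Finset Nat.Primes := ((Nat.card G).primeFactors.erase p).subtype Nat.Prime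
  have hT : ∀ q : Nat.Primes, q ∈ T ↔ (q : ℕ) ≠ p ∧ (q : ℕ) ∣ Nat.card G := by
    intro q
    have h0 : q ∈ T ↔ (q : ℕ) ∈ (Nat.card G).primeFactors.erase p := Finset.mem_subtype
    rw [h0, Finset.mem_erase, Nat.mem_primeFactors]
    constructor
    · rintro ⟨h1, _, h2, _⟩; exact ⟨h1, h2⟩
    · rintro ⟨h1, h2⟩; exact ⟨h1, q.2, h2, (Nat.card_pos (α := G)).ne'⟩
  set H : Subgroup G := T.sup fun r => (S r : Subgroup G) with hH
  obtain ⟨-, hcard⟩ := join_prop S hS T
  rw [← hH] at hcard
  refine ⟨H, ?_⟩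
  have hcopH : (Nat.card H).Coprime p := by
    apply Nat.Coprime.coprime_dvd_left hcard
    apply Nat.Coprime.prod_left
    intro r hr
    have : Fact (r : ℕ).Prime := ⟨r.2⟩
    rw [(S r).card_eq_multiplicity]
    apply Nat.Coprime.pow_left
    exact (Nat.coprime_primes r.2 hp).mpr ((hT r).mp hr).1
  have hG := card_mul_index H
  set v := (Nat.card G).factorization p with hv
  apply Nat.dvd_antisymm
  · -- index ∣ p ^ v
    have hm : ordCompl[p] (Nat.card G) ∣ Nat.card H := by
      rw [Nat.dvd_iff_prime_pow_dvd_dvd]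
      intro q k hq hqk
      rcases Nat.eq_zero_or_pos k with rfl | hk
      · simp
      have : Fact q.Prime := ⟨hq⟩
      have hqm : q ∣ ordCompl[p] (Nat.card G) := (dvd_pow_self q hk.ne').trans hqk
      have hqp : q ≠ p := by
        rintro rfl
        exact Nat.not_dvd_ordCompl hp (Nat.card_pos (α := G)).ne' hqm
      have hqG : q ^ k ∣ Nat.card G := hqk.trans (Nat.ordCompl_dvd _ _)
      have h1 : q ^ k ∣ Nat.card (S ⟨q, hq⟩) := (S ⟨q, hq⟩).pow_dvd_card_of_pow_dvd_card hqG
      refine h1.trans (card_dvd_of_le ?_)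
      exact Finset.le_sup (f := fun r => (S r : Subgroup G))
        ((hT ⟨q, hq⟩).mpr ⟨hqp, hqm.trans (Nat.ordCompl_dvd _ _)⟩)
    obtain ⟨k, hk⟩ := hm
    have h2 : p ^ v * ordCompl[p] (Nat.card G) = Nat.card G :=
      Nat.ordProj_mul_ordCompl_eq_self (Nat.card G) p
    have hmpos : 0 < ordCompl[p] (Nat.card G) := Nat.ordCompl_pos _ (Nat.card_pos (α := G)).ne'
    have h3 : ordCompl[p] (Nat.card G) * (k * H.index) = ordCompl[p] (Nat.card G) * p ^ v := by
      rw [← mul_assoc, ← hk, hG, mul_comm, h2]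
    have h4 := Nat.eq_of_mul_eq_mul_left hmpos h3
    exact Dvd.intro_left k h4
  · -- p ^ v ∣ index
    have h1 : p ^ v ∣ Nat.card H * H.index := by rw [hG]; exact Nat.ordProj_dvd _ _
    exact (Nat.Coprime.pow_left v hcopH.symm).dvd_of_dvd_mul_left h1

end Cfsg.Agent.S0021
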