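import Cfsg.Statements.S0031
import Cfsg.Agent.Lib.Helper1_Basic

set_option autoImplicit false
open Cfsg

namespace Cfsg.Agent.S0031

open Subgroup Cfsg.Agent.Lib.Helper1_Basic
open scoped Pointwise

/-- A fixed-point-free automorphism of a finite group maps some Sylow p-subgroup to itself. -/
theorem result {G : Type*} [Group G] [Finite G] (φ : G ≃* G)
    (hφ : MonoidHom.FixedPointFree (φ : G →* G)) (p : ℕ) [Fact p.Prime] :
    ∃ P : Sylow p G, (P : Subgroup G).map (φ : G →* G) = P := by
  obtain ⟨P⟩ : Nonempty (Sylow p G) := inferInstance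
  have hs : Function.Surjective (φ : G →* G) := φ.surjective
  obtain ⟨g, hg⟩ := MulAction.exists_smul_eq G P (P.mapSurjective hs)
  have hg' : MulAut.conj g • (P : Subgroup G) = (P : Subgroup G).map (φ : G →* G) := by
    rw [← Sylow.coe_mapSurjective hs, ← hg]; rfl
  obtain ⟨y, hy⟩ := hφ.commutatorMap_surjective g⁻¹
  rw [MonoidHom.commutatorMap_apply] at hy
  refine ⟨y⁻¹ • P, ?_⟩
  have h1 : ((y⁻¹ • P : Sylow p G) : Subgroup G) = MulAut.conj y⁻¹ • (P : Subgroup G) := rfl
  rw [h1, map_conj_smul, ← hg', ← mul_smul, ← map_mul]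
  congr 2
  have : g = (φ : G →* G) y * y⁻¹ := by
    rw [div_eq_mul_inv] at hy
    rw [← inv_inv g, ← hy]; simp
  rw [this, map_inv]; simp

end Cfsg.Agent.S0031
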