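import Cfsg.Statements.S0032
import Mathlib

set_option autoImplicit false
open Cfsg

namespace Cfsg.Agent.S0032

/-- If an automorphism of a finite group fixes only the identity and maps a normal subgroup N into itself, then the only cosets of N it fixes are those in N: a fixed coset xN forces x ∈ N. -/
theorem result {G : Type*} [Group G] [Finite G] (φ : G ≃* G)
    (hφ : MonoidHom.FixedPointFree (φ : G →* G)) (N : Subgroup G) [N.Normal] (hN : ∀ n ∈ N, φ n ∈ N)
    (x : G) (hx : (φ x)⁻¹ * x ∈ N) : x ∈ N := by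
  classical
  -- the map `n ↦ (φ n)⁻¹ * n` is injective on `G`
  have hinj : Function.Injective (fun g : G => (φ g)⁻¹ * g) := by
    intro a b hab
    have h1 : φ (a * b⁻¹) = a * b⁻¹ := by
      have h2 : (φ a)⁻¹ * a = (φ b)⁻¹ * b := hab
      rw [map_mul, map_inv]
      have h3 : φ a = a * b⁻¹ * φ b := by
        have : a = φ a * ((φ b)⁻¹ * b) := by rw [← h2]; simp
        calc φ a = φ a * ((φ b)⁻¹ * b) * b⁻¹ * φ b := by group
          _ = a * b⁻¹ * φ b := by rw [← this]
      rw [h3]; group
    have h4 := hφ (a * b⁻¹) h1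
    exact mul_inv_eq_one.mp h4
  let f : N → N := fun n => ⟨(φ n)⁻¹ * n, N.mul_mem (N.inv_mem (hN n n.2)) n.2⟩
  have hf : Function.Injective f := by
    intro a b hab
    apply Subtype.ext
    apply hinj
    exact congrArg Subtype.val hab
  have hsurj : Function.Surjective f := Finite.surjective_of_injective hf
  obtain ⟨n, hn⟩ := hsurj ⟨_, hx⟩
  have : (φ n)⁻¹ * (n : G) = (φ x)⁻¹ * x := congrArg Subtype.val hn
  have h5 : (n : G) = x := hinj this
  rw [← h5]; exact n.2

end Cfsg.Agent.S0032
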