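import Cfsg.Statements.S0038
import Cfsg.Agent.Lib.Helper1_FrobInv

set_option autoImplicit false
open Pointwise
open Cfsg

namespace Cfsg.Agent.S0038

open Subgroup Cfsg.Agent.Lib.Helper1_Basic Cfsg.Agent.Lib.Helper1_Frob
  Cfsg.Agent.Lib.Helper1_FrobAct Cfsg.Agent.Lib.Helper1_FrobInv
open scoped Pointwise

theorem conj_frob {G : Type*} [Group G] [Finite G] {H : Subgroup G}
    (hH : Cfsg.IsFrobeniusComplement H) (g : G) :
    Cfsg.IsFrobeniusComplement (MulAut.conj g • H) := by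
  refine ⟨?_, ?_, ?_⟩
  · intro h
    apply hH.1
    have h1 := card_conj_smul g H
    rw [h, Subgroup.card_bot] at h1
    exact Subgroup.card_eq_one.mp h1.symm
  · intro h
    apply hH.2.1
    have h1 := card_conj_smul g H
    rw [h, Subgroup.card_top] at h1
    exact Subgroup.eq_top_of_card_eq H h1.symm
  · intro x hx
    rw [eq_bot_iff]
    rintro z ⟨hz1, hz2⟩
    rw [mem_bot]
    by_contra hz
    apply hx
    have hz2' : z ∈ MulAut.conj x • MulAut.conj g • H := hz2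
    rw [← mul_smul, ← map_mul] at hz2'
    have h3 := mem_of_conj_inter hH.2.2 hz hz1 hz2'
    rw [mem_conj_smul]
    have : g⁻¹ * x * g = g⁻¹ * (x * g) := by group
    rw [this]; exact h3

/-- nested Frobenius complements coincide -/
theorem eq_of_le {G : Type*} [Group G] [Finite G] {H H₀ : Subgroup G}
    (hH : Cfsg.IsFrobeniusComplement H) (hH₀ : Cfsg.IsFrobeniusComplement H₀) (hle : H₀ ≤ H) :
    H₀ = H := by
  classical
  obtain ⟨N, hN, hNn, hNc⟩ := Cfsg.Agent.Lib.Helper1_FrobThm.exists_kernel H hH.2.2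
  obtain ⟨N₀, hN₀, hN₀n, hN₀c⟩ := Cfsg.Agent.Lib.Helper1_FrobThm.exists_kernel H₀ hH₀.2.2
  haveI := hNn
  haveI := hN₀n
  have hbot : ∀ (N H : Subgroup G), IsComplement' N H → H ≠ ⊤ → N ≠ ⊥ := by
    intro N H hc hH h
    apply hH
    have := hc.isCompl.sup_eq_top
    rwa [h, bot_sup_eq] at this
  have hNbot := hbot N H hNc hH.2.1
  have hN₀bot := hbot N₀ H₀ hN₀c hH₀.2.1
  have h39 := (Cfsg.Agent.S0039.result N H hNc hNbot hH.1).mp hH
  have h39₀ := (Cfsg.Agent.S0039.result N₀ H₀ hN₀c hN₀bot hH₀.1).mp hH₀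
  obtain ⟨V, hVN, hVbot, hVab, hHV⟩ := exists_invariant_abelian N H hNc hNbot h39
  haveI := hVab
  have hfpfV : ∀ a ∈ H, a ≠ 1 → V ⊓ centralizer {a} = ⊥ := by
    intro a ha ha1
    rw [eq_bot_iff, ← h39 a ha ha1]
    exact inf_le_inf_right _ hVN
  by_contra hne
  obtain ⟨h, hhH, hhH₀⟩ : ∃ h ∈ H, h ∉ H₀ := by
    by_contra hcon
    push Not at hcon
    exact hne (le_antisymm hle hcon)
  obtain ⟨n₀, hn₀, h₀, hh₀, hdec⟩ := Cfsg.Agent.S0039.exists_mul hN₀c h
  have hn₀H : n₀ ∈ H := by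
    have : n₀ = h * h₀⁻¹ := by rw [hdec]; group
    rw [this]; exact H.mul_mem hhH (H.inv_mem (hle hh₀))
  have hn₀1 : n₀ ≠ 1 := by
    intro h1
    rw [h1, one_mul] at hdec
    exact hhH₀ (hdec ▸ hh₀)
  apply hVbot
  apply eq_bot_of_frob_act H V hHV hfpfV (N₀.subgroupOf H) (H₀.subgroupOf H)
  · intro hb
    have : (⟨n₀, hn₀H⟩ : H) ∈ N₀.subgroupOf H := by rw [mem_subgroupOf]; exact hn₀
    rw [hb, mem_bot] at this
    exact hn₀1 (congrArg Subtype.val this)
  · intro hb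
    obtain ⟨x, hx⟩ := Subgroup.ne_bot_iff_exists_ne_one.mp hH₀.1
    have : (⟨x.1, hle x.2⟩ : H) ∈ H₀.subgroupOf H := by rw [mem_subgroupOf]; exact x.2
    rw [hb, mem_bot] at this
    have h2 : (x : G) = 1 := congrArg Subtype.val this
    exact hx (Subtype.ext h2)
  · intro c hc hc1 k hk hcomm
    rw [mem_subgroupOf] at hc hk
    have hc1' : (c : G) ≠ 1 := fun h => hc1 (Subtype.ext h)
    have : (k : G) ∈ N₀ ⊓ centralizer {(c : G)} := by
      refine ⟨hk, ?_⟩
      show (k : G) ∈ centralizer {(c : G)}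
      rw [mem_centralizer_singleton_iff]
      exact congrArg Subtype.val hcomm
    rw [h39₀ c hc hc1', mem_bot] at this
    exact Subtype.ext this

/-- All Frobenius complements of a finite group are conjugate to one another. -/
theorem result {G : Type*} [Group G] [Finite G] (H H₀ : Subgroup G)
    (hH : Cfsg.IsFrobeniusComplement H) (hH₀ : Cfsg.IsFrobeniusComplement H₀) :
    ∃ g : G, MulAut.conj g • H₀ = H := by
  rcases le_total (Nat.card H₀) (Nat.card H) with hle | hle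
  · obtain ⟨g, hg⟩ := Cfsg.Agent.S0037.result H H₀ hH hH₀ hle
    exact ⟨g, eq_of_le hH (conj_frob hH₀ g) hg⟩
  · obtain ⟨g, hg⟩ := Cfsg.Agent.S0037.result H₀ H hH₀ hH hle
    have h1 := eq_of_le hH₀ (conj_frob hH g) hg
    refine ⟨g⁻¹, ?_⟩
    rw [← h1, ← mul_smul, ← map_mul, inv_mul_cancel, map_one, one_smul]

end Cfsg.Agent.S0038
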