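import Cfsg.Statements.S0040
import Cfsg.Agent.Lib.Helper1_AbCyc
import Cfsg.Agent.Lib.Helper1_FrobInv
import Cfsg.Agent.S0041
import Cfsg.Agent.S0016

set_option autoImplicit false
open Cfsg

namespace Cfsg.Agent.S0040

open Subgroup Cfsg.Agent.Lib.Helper1_AbCyc Cfsg.Agent.Lib.Helper1_FrobInv

/-- the complement acts fixed-point-freely on a nontrivial abelian subgroup -/
theorem exists_module {G : Type*} [Group G] [Finite G] (K H : Subgroup G) [K.Normal]
    (hc : Subgroup.IsComplement' K H) (hK : K ≠ ⊥)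
    (hfpf : ∀ h ∈ H, h ≠ 1 → K ⊓ Subgroup.centralizer {h} = ⊥) :
    ∃ V : Subgroup G, V ≠ ⊥ ∧ IsMulCommutative V ∧ H ≤ normalizer (V : Set G) ∧
      ∀ h ∈ H, h ≠ 1 → V ⊓ Subgroup.centralizer {h} = ⊥ := by
  obtain ⟨V, hVK, hVbot, hVab, hHV⟩ := exists_invariant_abelian K H hc hK hfpf
  refine ⟨V, hVbot, hVab, hHV, ?_⟩
  intro a ha ha1
  rw [eq_bot_iff, ← hfpf a ha ha1]
  exact inf_le_inf_right _ hVK

/-- abelian subgroups of a Frobenius complement are cyclic -/
theorem abelian_cyclic {G : Type*} [Group G] [Finite G] (K H : Subgroup G) [K.Normal]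
    (hc : Subgroup.IsComplement' K H) (hK : K ≠ ⊥)
    (hfpf : ∀ h ∈ H, h ≠ 1 → K ⊓ Subgroup.centralizer {h} = ⊥)
    (B : Subgroup G) (hB : B ≤ H) (hBab : IsMulCommutative B) : IsCyclic B := by
  obtain ⟨V, hVbot, hVab, hHV, hfpfV⟩ := exists_module K H hc hK hfpf
  haveI := hVab
  exact Cfsg.Agent.S0041.result B V hVbot (hB.trans hHV)
    (fun a ha ha1 => hfpfV a (hB ha) ha1) (Or.inl hBab)

/-- the same for subgroups of subgroups of `H` -/
theorem abelian_cyclic' {G : Type*} [Group G] [Finite G] (K H : Subgroup G) [K.Normal]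
    (hc : Subgroup.IsComplement' K H) (hK : K ≠ ⊥)
    (hfpf : ∀ h ∈ H, h ≠ 1 → K ⊓ Subgroup.centralizer {h} = ⊥)
    (P : Subgroup H) (B : Subgroup P) (hBab : IsMulCommutative B) : IsCyclic B := by
  let f : P →* G := H.subtype.comp P.subtype
  have hf : Function.Injective f := H.subtype_injective.comp P.subtype_injective
  have h1 : IsCyclic (B.map f) := by
    apply abelian_cyclic K H hc hK hfpf
    · rintro _ ⟨b, _, rfl⟩
      exact (b : H).2
    · constructor
      constructor
      rintro ⟨_, ⟨a, ha, rfl⟩⟩ ⟨_, ⟨b, hb, rfl⟩⟩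
      apply Subtype.ext
      show f a * f b = f b * f a
      have := mul_comm' (⟨a, ha⟩ : B) ⟨b, hb⟩
      have h2 : a * b = b * a := congrArg Subtype.val this
      rw [← map_mul, ← map_mul, h2]
  exact (B.equivMapOfInjective f hf).isCyclic.mpr h1

/-- Sylow subgroups of Frobenius complements: if H complements a nontrivial normal subgroup K and every nonidentity element of H has trivial centraliser in K, then each Sylow subgroup of H is cyclic or isomorphic to a generalized quaternion group. -/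
theorem result {G : Type*} [Group G] [Finite G] (K H : Subgroup G) [K.Normal]
    (hc : Subgroup.IsComplement' K H) (hK : K ≠ ⊥) (hfpf : ∀ h ∈ H, h ≠ 1 → K ⊓ Subgroup.centralizer {h} = ⊥)
    (p : ℕ) [Fact p.Prime] (P : Sylow p H) :
    IsCyclic P ∨ ∃ n : ℕ, Nonempty (P ≃* QuaternionGroup (2 ^ n)) := by
  have huniq := unique_of_abelian_cyclic (p := p) P.isPGroup'
    (fun B hB => abelian_cyclic' K H hc hK hfpf (P : Subgroup H) B hB)
  rcases Cfsg.Agent.S0016.result p P.isPGroup' huniq with h | ⟨_, n, hn⟩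
  · exact Or.inl h
  · exact Or.inr ⟨n, hn⟩

end Cfsg.Agent.S0040
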