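import Cfsg.Statements.S0046
import Cfsg.Agent.Lib.Helper1_Frob
import Cfsg.Agent.Lib.Helper7_Union
import Cfsg.Agent.S0001
import Cfsg.Agent.Lib.Helper1_CoprimeSylow

set_option autoImplicit false
open Cfsg

namespace Cfsg.Agent.S0046

open Subgroup Cfsg.Agent.Lib.Helper1_Basic Cfsg.Agent.Lib.Helper1_Frob
open scoped Pointwise

universe u

theorem exists_mem_normalizer_of_lt {G : Type*} [Group G] {D M : Subgroup G}
    (hM : Group.IsNilpotent M) (hlt : D < M) :
    ∃ x ∈ M, x ∈ normalizer (D : Set G) ∧ x ∉ D := by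
  have hnc := Group.normalizerCondition_of_isNilpotent (G := M)
  have h1 : D.subgroupOf M < ⊤ := by
    rw [lt_top_iff_ne_top, Ne, subgroupOf_eq_top]; exact not_le_of_gt hlt
  have h2 := hnc _ h1
  rw [← subgroupOf_normalizer_eq hlt.le] at h2
  obtain ⟨x, hx1, hx2⟩ := SetLike.exists_of_lt h2
  exact ⟨x.1, x.2, hx1, hx2⟩

theorem isNilpotent_of_le {G : Type*} [Group G] {H K : Subgroup G} (h : H ≤ K)
    (hK : Group.IsNilpotent K) : Group.IsNilpotent H :=
  Group.nilpotent_of_mulEquiv (subgroupOfEquivOfLe h)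

theorem isCoatom_conj {G : Type*} [Group G] {M : Subgroup G} (hM : IsCoatom M) (g : G) :
    IsCoatom (MulAut.conj g • M) :=
  (OrderIso.isCoatom_iff ((MulAut.conj g).mapSubgroup) M).mpr hM

theorem simple_case {G : Type u} [Group G] [Finite G]
    (h : ∀ M : Subgroup G, IsCoatom M → Group.IsNilpotent M)
    (hsimple : ∀ N : Subgroup G, N.Normal → N = ⊥ ∨ N = ⊤) : Group.IsSolvable G := by
  classical
  by_contra hns
  have hnc : ∀ x : G, zpowers x ≠ ⊤ := by
    intro x hx
    apply hns
    have : IsCyclic G := ⟨x, fun y => by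
      have : y ∈ zpowers x := by rw [hx]; trivial
      exact this⟩
    exact Group.isSolvable_of_comm (fun a b => IsCyclic.commGroup.mul_comm a b)
  have hnt : Nontrivial G := by
    by_contra hc
    rw [not_nontrivial_iff_subsingleton] at hc
    exact hns inferInstance
  -- coatoms are nontrivial and self-normalising
  have hco_ne : ∀ M : Subgroup G, IsCoatom M → M ≠ ⊥ := by
    rintro M hM rfl
    obtain ⟨x, hx⟩ := exists_ne (1 : G)
    have h1 : (⊥ : Subgroup G) < zpowers x := by
      rw [bot_lt_iff_ne_bot, Ne, zpowers_eq_bot]; exact hx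
    exact hnc x (hM.2 _ h1)
  have hco_norm : ∀ M : Subgroup G, IsCoatom M → normalizer (M : Set G) = M := by
    intro M hM
    by_contra hne
    have h1 : M < normalizer (M : Set G) := lt_of_le_of_ne le_normalizer (Ne.symm hne)
    have h2 := hM.2 _ h1
    rcases hsimple M (normalizer_eq_top_iff.mp h2) with h3 | h3
    · exact hco_ne M hM h3
    · exact hM.1 h3
  -- distinct coatoms meet trivially
  have hTI : ∀ M L : Subgroup G, IsCoatom M → IsCoatom L → M ≠ L → M ⊓ L = ⊥ := by
    by_contra hcon
    push Not at hcon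
    obtain ⟨M₀, L₀, hM₀, hL₀, hne₀, hD₀⟩ := hcon
    let S := {z : Subgroup G × Subgroup G // IsCoatom z.1 ∧ IsCoatom z.2 ∧ z.1 ≠ z.2}
    have : Nonempty S := ⟨⟨(M₀, L₀), hM₀, hL₀, hne₀⟩⟩
    obtain ⟨⟨⟨M, L⟩, hM, hL, hne⟩, hmax⟩ :=
      Finite.exists_max (fun z : S => Nat.card (z.1.1 ⊓ z.1.2 : Subgroup G))
    simp only at hM hL hne hmax
    set D := M ⊓ L with hD
    have hDbot : D ≠ ⊥ := by
      intro hb
      have h1 := hmax ⟨(M₀, L₀), hM₀, hL₀, hne₀⟩
      simp only at h1
      rw [hb, card_bot] at h1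
      apply hD₀
      exact card_eq_one.mp (le_antisymm h1 Nat.card_pos)
    have hDM : D < M := by
      refine lt_of_le_of_ne inf_le_left ?_
      intro he
      have h1 : M ≤ L := by rw [← he]; exact inf_le_right
      rcases h1.eq_or_lt with h2 | h2
      · exact hne h2
      · exact hL.1 (hM.2 _ h2)
    have hDL : D < L := by
      refine lt_of_le_of_ne inf_le_right ?_
      intro he
      have h1 : L ≤ M := by rw [← he]; exact inf_le_left
      rcases h1.eq_or_lt with h2 | h2
      · exact hne h2.symm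
      · exact hM.1 (hL.2 _ h2)
    have hN : normalizer (D : Set G) ≠ ⊤ := by
      intro ht
      rcases hsimple D (normalizer_eq_top_iff.mp ht) with h3 | h3
      · exact hDbot h3
      · rw [h3] at hDM; exact not_top_lt hDM
    obtain ⟨K, hK, hNK⟩ := (eq_top_or_exists_le_coatom (normalizer (D : Set G))).resolve_left hN
    have hgrow : ∀ X : Subgroup G, IsCoatom X → D < X → K = X := by
      intro X hX hDX
      by_contra hKX
      obtain ⟨x, hxX, hxN, hxD⟩ := exists_mem_normalizer_of_lt (h X hX) hDX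
      have h1 := hmax ⟨(K, X), hK, hX, hKX⟩
      simp only at h1
      have h2 : D < K ⊓ X := by
        refine lt_of_le_of_ne (le_inf (le_normalizer.trans hNK) hDX.le) ?_
        intro he
        apply hxD
        rw [he]
        exact ⟨hNK hxN, hxX⟩
      have h3 : Nat.card D < Nat.card (K ⊓ X : Subgroup G) :=
        Set.ncard_lt_ncard (show (D : Set G) ⊂ (K ⊓ X : Subgroup G) from h2) (Set.toFinite _)
      omega
    exact hne ((hgrow M hM hDM).symm.trans (hgrow L hL hDL))
  have hFrob : ∀ M : Subgroup G, IsCoatom M → Cfsg.IsFrobeniusComplement M := by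
    intro M hM
    refine ⟨hco_ne M hM, hM.1, ?_⟩
    intro g hg
    apply hTI M _ hM (isCoatom_conj hM g)
    intro he
    apply hg
    rw [← hco_norm M hM]
    exact (Cfsg.Agent.Lib.Helper1_CoprimeSylow.conj_smul_eq_self_iff).mp he.symm
  obtain ⟨M, hM⟩ : ∃ M : Subgroup G, IsCoatom M := by
    obtain ⟨M, hM, -⟩ := (eq_top_or_exists_le_coatom (⊥ : Subgroup G)).resolve_left bot_ne_top
    exact ⟨M, hM⟩
  obtain ⟨x, hx⟩ := Cfsg.Agent.Lib.Helper7_Union.exists_not_mem_conj M hM.1
  obtain ⟨L, hL, hxL⟩ := (eq_top_or_exists_le_coatom (zpowers x)).resolve_left (hnc x)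
  obtain ⟨g, hg⟩ := exists_conj_inter_ne_bot (hFrob M hM) (hFrob L hL)
  have h1 : M = MulAut.conj g • L := by
    by_contra hne
    exact hg (hTI M _ hM (isCoatom_conj hL g) hne)
  have h2 : g * x * g⁻¹ ∈ M := by
    rw [h1]; exact conj_mem_conj_smul (hxL (mem_zpowers x))
  have h3 := hx g⁻¹
  rw [inv_inv] at h3
  exact h3 h2

theorem aux : ∀ (n : ℕ) (G : Type u) [Group G] [Finite G], Nat.card G = n →
    (∀ M : Subgroup G, IsCoatom M → Group.IsNilpotent M) → Group.IsSolvable G := by
  intro n
  induction n using Nat.strong_induction_on with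
  | _ n ih =>
    intro G _ _ hcard h
    by_cases hsimple : ∀ N : Subgroup G, N.Normal → N = ⊥ ∨ N = ⊤
    · exact simple_case h hsimple
    push Not at hsimple
    obtain ⟨N, hNn, hNbot, hNtop⟩ := hsimple
    obtain ⟨M, hM, hNM⟩ := (eq_top_or_exists_le_coatom N).resolve_left hNtop
    have hNnil : Group.IsNilpotent N := isNilpotent_of_le hNM (h M hM)
    rw [Group.isSolvable_iff_subgroup_quotient N]
    refine ⟨inferInstance, ?_⟩
    refine ih _ (hcard ▸ Cfsg.Agent.S0001.card_quotient_lt N hNbot) (G ⧸ N) rfl ?_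
    intro M' hM'
    have hs := QuotientGroup.mk'_surjective N
    have h1 := h _ (isCoatom_comap_of_surjective hs hM')
    have h2 : (M'.comap (QuotientGroup.mk' N)).map (QuotientGroup.mk' N) = M' :=
      map_comap_eq_self_of_surjective hs M'
    rw [← h2]
    exact Group.nilpotent_of_surjective _
      ((QuotientGroup.mk' N).subgroupMap_surjective (M'.comap (QuotientGroup.mk' N)))

/-- Schmidt's Theorem on minimal non-nilpotent groups: a finite group in which every maximal subgroup is nilpotent is solvable. -/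
theorem result {G : Type*} [Group G] [Finite G]
    (h : ∀ M : Subgroup G, IsCoatom M → Group.IsNilpotent M) : Group.IsSolvable G := by
  exact aux _ G rfl h

end Cfsg.Agent.S0046
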