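import Cfsg.Statements.S0048
import Cfsg.Agent.Lib.Helper1_MinNormal
import Cfsg.Agent.Lib.Helper1_Prod
import Cfsg.Agent.S0001

set_option autoImplicit false
open Cfsg

namespace Cfsg.Agent.S0048

open Subgroup Cfsg.Agent.Lib.Helper1_MinNormal Cfsg.Agent.Lib.Helper1_Prod

universe u

theorem isCoatom_map_of_ker_le {G G' : Type*} [Group G] [Group G'] (f : G →* G')
    (hf : Function.Surjective f) {M : Subgroup G} (hM : IsCoatom M) (hker : f.ker ≤ M) :
    IsCoatom (M.map f) := by
  have hcm : (M.map f).comap f = M := by rw [comap_map_eq, sup_eq_left.mpr hker]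
  constructor
  · intro h
    apply hM.1
    rw [← hcm, h, comap_top]
  · intro L hL
    have h1 : M < L.comap f := by
      rw [← hcm]
      refine lt_of_le_of_ne (comap_mono hL.le) ?_
      intro h
      exact hL.ne (comap_injective hf h)
    have h2 := hM.2 _ h1
    rw [← map_comap_eq_self_of_surjective hf L, h2, map_top_of_surjective f hf]

theorem aux : ∀ (n : ℕ) (G : Type u) [Group G] [Finite G], Nat.card G = n → Group.IsSolvable G →
    ∀ M : Subgroup G, IsCoatom M → IsPrimePow M.index := by
  intro n
  induction n using Nat.strong_induction_on with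
  | _ n ih =>
    intro G _ _ hcard hsol M hM
    have hnt : Nontrivial G := by
      by_contra hc
      rw [not_nontrivial_iff_subsingleton] at hc
      exact hM.1 (Subsingleton.elim _ _)
    obtain ⟨p, N, hp, hNn, hNbot, -, hpow, -⟩ := exists_normal_elementary_abelian (G := G)
    by_cases hNM : N ≤ M
    · have hs := QuotientGroup.mk'_surjective N
      have hker : (QuotientGroup.mk' N).ker ≤ M := by rw [QuotientGroup.ker_mk']; exact hNM
      have h1 := ih _ (hcard ▸ Cfsg.Agent.S0001.card_quotient_lt N hNbot) (G ⧸ N) rfl inferInstance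
        _ (isCoatom_map_of_ker_le _ hs hM hker)
      rwa [index_map_eq _ hs hker] at h1
    · have hsup : N ⊔ M = ⊤ := by
        apply hM.2
        exact lt_of_le_of_ne le_sup_right (fun h => hNM (h ▸ le_sup_left))
      have h1 : M.relIndex N = M.index := by
        rw [← relIndex_top_right]
        apply relIndex_eq_of_exists_mul le_top
        intro x _
        have hx : x ∈ ((N ⊔ M : Subgroup G) : Set G) := by rw [hsup]; trivial
        rw [normal_mul] at hx
        obtain ⟨w, hw, c, hc, rfl⟩ := hx
        exact ⟨w, hw, c, hc, rfl⟩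
      have : Fact p.Prime := ⟨hp⟩
      obtain ⟨k, hk⟩ := IsPGroup.iff_card.mp (isPGroup_of_pow_eq_one hpow)
      have h2 : M.index ∣ p ^ k := by rw [← h1, ← hk]; exact relIndex_dvd_card M N
      obtain ⟨j, _, hj⟩ := (Nat.dvd_prime_pow hp).mp h2
      rw [isPrimePow_nat_iff]
      refine ⟨p, j, hp, ?_, hj.symm⟩
      rcases Nat.eq_zero_or_pos j with rfl | h
      · rw [pow_zero, index_eq_one] at hj
        exact absurd hj hM.1
      · exact h

/-- In a finite solvable group every maximal subgroup has index a prime power. -/
theorem result {G : Type*} [Group G] [Finite G] [Group.IsSolvable G]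
    (M : Subgroup G) (hM : IsCoatom M) : IsPrimePow M.index := by
  exact aux _ G rfl inferInstance M hM

end Cfsg.Agent.S0048
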