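import Cfsg.Statements.S0049
import Mathlib

set_option autoImplicit false
open Cfsg

namespace Cfsg.Agent.S0049

open Subgroup

/-- A prime divisor of the order of a finite group also divides the index of the Frattini subgroup. -/
theorem result {G : Type*} [Group G] [Finite G] (p : ℕ) (hp : p.Prime) (hdvd : p ∣ Nat.card G) :
    p ∣ (frattini G).index := by
  by_contra hnd
  have : Fact p.Prime := ⟨hp⟩
  have hnil : Group.IsNilpotent (frattini G) := frattini_nilpotent
  obtain ⟨P⟩ : Nonempty (Sylow p (frattini G)) := inferInstance
  have hPn : (P : Subgroup (frattini G)).Normal := inferInstance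
  have hPc : (P : Subgroup (frattini G)).Characteristic := P.characteristic_of_normal hPn
  have hPG : ((P : Subgroup (frattini G)).map (frattini G).subtype).Characteristic := inferInstance
  set Q := (P : Subgroup (frattini G)).map (frattini G).subtype with hQ
  have hidx : ¬ p ∣ Q.index := by
    rw [hQ, index_map_subtype]
    exact hp.not_dvd_mul P.not_dvd_index hnd
  have hQp : IsPGroup p Q := P.isPGroup'.map _
  have hcop : Nat.Coprime (Nat.card Q) Q.index := by
    obtain ⟨k, hk⟩ := IsPGroup.iff_card.mp hQp
    rw [hk]
    exact Nat.Coprime.pow_left k ((Nat.Prime.coprime_iff_not_dvd hp).mpr hidx)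
  obtain ⟨H, hH⟩ := exists_right_complement'_of_coprime hcop
  have h1 : H ⊔ frattini G = ⊤ := by
    rw [eq_top_iff, ← hH.sup_eq_top]
    exact sup_le ((map_subtype_le _).trans le_sup_right) le_sup_left
  have h2 := frattini_nongenerating h1
  rw [h2, isComplement'_top_right] at hH
  have h3 := card_mul_index Q
  rw [hH, card_bot, one_mul] at h3
  rw [hH] at hidx
  exact hidx (h3 ▸ hdvd)

end Cfsg.Agent.S0049
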