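import Cfsg.Statements.S0050
import Cfsg.Agent.S0004
import Cfsg.Agent.Lib.Helper1_CoprimeSylow

set_option autoImplicit false
open Pointwise
open Cfsg

namespace Cfsg.Agent.S0050

open Subgroup Cfsg.Agent.Lib.Helper1_Basic Cfsg.Agent.Lib.Helper1_SZ Cfsg.Agent.Lib.Helper1_CoprimeSylow

/-- Hall conjugacy, relative form: two Hall subgroups of the same order of a solvable subgroup `L`
are conjugate by an element of `L`. -/
theorem hall_conj_rel {G : Type*} [Group G] [Finite G] {L H K : Subgroup G} [Group.IsSolvable L]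
    (hHL : H ≤ L) (hKL : K ≤ L) (hHall : (Nat.card H).Coprime (H.relIndex L))
    (hcard : Nat.card K = Nat.card H) : ∃ l ∈ L, MulAut.conj l • H = K := by
  obtain ⟨l, hl⟩ := Cfsg.Agent.S0004.result (G := L) (Nat.card H) (H.relIndex L)
    (card_mul_relIndex hHL).symm hHall (H.subgroupOf L) (K.subgroupOf L)
    (card_subgroupOf_of_le hHL) (by rw [card_subgroupOf_of_le hKL, hcard])
  refine ⟨l, l.2, ?_⟩
  rw [conj_smul_subgroupOf hHL, subgroupOf_inj, inf_eq_left.mpr (conj_smul_le_of_le hHL l),
    inf_eq_left.mpr hKL] at hl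
  exact hl

/-- Frattini argument for Hall subgroups: if L is a solvable normal subgroup and H a subgroup of L of order coprime to its index in L, then L together with the normaliser of H generates the whole group. -/
theorem result {G : Type*} [Group G] [Finite G] (L : Subgroup G) [L.Normal] (hL : Group.IsSolvable L)
    (H : Subgroup G) (hHL : H ≤ L) (hHall : (Nat.card H).Coprime (H.relIndex L)) :
    L ⊔ Subgroup.normalizer (H : Set G) = ⊤ := by
  rw [eq_top_iff]
  intro g _
  have h1 : MulAut.conj g • H ≤ L := by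
    rw [← Normal.conj_smul_eq_self g L]
    exact pointwise_smul_le_pointwise_smul_iff.mpr hHL
  obtain ⟨l, hl, hlH⟩ := hall_conj_rel hHL h1 hHall (card_conj_smul g H)
  have h2 : l⁻¹ * g ∈ normalizer (H : Set G) := by
    rw [← conj_smul_eq_self_iff, map_mul, mul_smul, ← hlH, ← mul_smul, ← map_mul]
    simp
  have h3 : g = l * (l⁻¹ * g) := by group
  rw [h3]
  exact mul_mem (mem_sup_left hl) (mem_sup_right h2)

end Cfsg.Agent.S0050
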