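import Cfsg.Statements.S0053
import Mathlib

set_option autoImplicit false
open Cfsg

namespace Cfsg.Agent.S0053

open Subgroup

/-- An abelian minimal normal subgroup N of a finite group is complemented exactly when N is not inside the Frattini subgroup. -/
theorem result {G : Type*} [Group G] [Finite G]
    (N : Subgroup G) [N.Normal] [IsMulCommutative N] (hN : N ≠ ⊥)
    (hmin : ∀ M : Subgroup G, M.Normal → M ≤ N → M = ⊥ ∨ M = N) :
    (∃ H : Subgroup G, Subgroup.IsComplement' N H) ↔ ¬ N ≤ frattini G := by
  constructor
  · rintro ⟨H, hH⟩ hle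
    have hHtop : H ≠ ⊤ := by
      rintro rfl
      exact hN (isComplement'_top_right.mp hH)
    apply hHtop
    apply frattini_nongenerating
    rw [eq_top_iff, ← hH.sup_eq_top]
    exact sup_le (hle.trans le_sup_right) le_sup_left
  · intro hle
    have : ∃ M : Subgroup G, IsCoatom M ∧ ¬ N ≤ M := by
      by_contra hcon
      push Not at hcon
      apply hle
      rw [frattini, Order.radical]
      exact le_iInf₂ hcon
    obtain ⟨M, hM, hNM⟩ := this
    have hsup : N ⊔ M = ⊤ := by
      apply hM.2
      exact lt_of_le_of_ne le_sup_right (fun h => hNM (h ▸ le_sup_left))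
    have hinf : (N ⊓ M).Normal := by
      rw [← normalizer_eq_top_iff, eq_top_iff, ← hsup]
      apply sup_le
      · rw [le_normalizer_iff]
        intro n hn x hx
        have : n * x * n⁻¹ = x := by rw [setLike_mul_comm hn hx.1]; group
        rw [this]; exact hx
      · rw [le_normalizer_iff]
        intro m hm x hx
        exact ⟨‹N.Normal›.conj_mem x hx.1 m, M.mul_mem (M.mul_mem hm hx.2) (M.inv_mem hm)⟩
    refine ⟨M, ?_⟩
    apply isComplement'_of_disjoint_and_mul_eq_univ
    · rw [disjoint_iff]
      rcases hmin _ hinf inf_le_left with h | h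
      · exact h
      · exact absurd (h ▸ inf_le_right) hNM
    · rw [← normal_mul, hsup]; rfl

end Cfsg.Agent.S0053
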