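import Cfsg.Statements.S0054
import Cfsg.Agent.Lib.Helper1_RegNormal

set_option autoImplicit false
open Cfsg

namespace Cfsg.Agent.S0054

/-- A regular normal subgroup of a finite 2-transitive group is elementary abelian: it is commutative and all its elements have order dividing one prime. -/
theorem result {G : Type*} [Group G] [Finite G]
    {X : Type*} [Nonempty X] [MulAction G X] (h2 : MulAction.IsMultiplyPretransitive G X 2)
    (N : Subgroup G) [N.Normal] (htrans : MulAction.IsPretransitive N X) (hreg : ∀ x : X, MulAction.stabilizer N x = ⊥) :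
    IsMulCommutative N ∧ ∃ p : ℕ, p.Prime ∧ ∀ n ∈ N, n ^ p = 1 := by
  obtain ⟨h1, p, hp, hpow, -⟩ := Cfsg.Agent.Lib.Helper1_RegNormal.elementary_of_two h2 N hreg
  exact ⟨h1, p, hp, hpow⟩

end Cfsg.Agent.S0054
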