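import Cfsg.Statements.S0056
import Cfsg.Agent.S0055
import Cfsg.Agent.Lib.Helper1_Comm

set_option autoImplicit false
open Cfsg

namespace Cfsg.Agent.S0056

open Subgroup

/-- A coprime action on an abelian group that fixes all elements of prime order is trivial. -/
theorem result {G : Type*} [Group G] [Finite G] (A V : Subgroup G) [IsMulCommutative V]
    (hAV : A ≤ Subgroup.normalizer (V : Set G)) (hcop : (Nat.card A).Coprime (Nat.card V))
    (hΩ : ∀ v ∈ V, (orderOf v).Prime → ∀ a ∈ A, a * v = v * a) : A ≤ Subgroup.centralizer (V : Set G) := by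
  rw [le_centralizer_iff, ← commutator_eq_bot_iff_le_centralizer]
  by_contra hW
  have hnt : Nontrivial (⁅V, A⁆ : Subgroup G) := (nontrivial_iff_ne_bot _).mpr hW
  have hcard : Nat.card (⁅V, A⁆ : Subgroup G) ≠ 1 := by
    rw [Ne, Nat.card_eq_one_iff_unique]
    rintro ⟨h, _⟩
    exact not_subsingleton _ h
  obtain ⟨p, hp, hpd⟩ := Nat.exists_prime_and_dvd hcard
  have : Fact p.Prime := ⟨hp⟩
  obtain ⟨w, hw⟩ := exists_prime_orderOf_dvd_card' p hpd
  have hwV : (w : G) ∈ V := Cfsg.Agent.Lib.Helper1_Comm.commutator_le_left hAV w.2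
  have hwo : orderOf (w : G) = p := by rw [Subgroup.orderOf_coe, hw]
  have h1 : (w : G) ∈ (V ⊓ Subgroup.centralizer (A : Set G)) ⊓ ⁅V, A⁆ := by
    refine ⟨⟨hwV, ?_⟩, w.2⟩
    show (w : G) ∈ centralizer (A : Set G)
    rw [mem_centralizer_iff]
    intro a ha
    exact hΩ w hwV (hwo ▸ hp) a ha
  rw [(Cfsg.Agent.S0055.result A V hAV hcop).1, mem_bot] at h1
  rw [h1, orderOf_one] at hwo
  exact hp.one_lt.ne hwo

end Cfsg.Agent.S0056
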