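import Cfsg.Statements.S0057
import Cfsg.Agent.Lib.Helper1_Prod
import Cfsg.Agent.Lib.Helper1_SZ
import Cfsg.Agent.S0055
import Cfsg.Agent.S0027
import Cfsg.Agent.S0023

set_option autoImplicit false
open Cfsg

namespace Cfsg.Agent.S0057

open scoped commutatorElement
open Subgroup Cfsg.Agent.Lib.Helper1_Prod Cfsg.Agent.Lib.Helper1_Comm Cfsg.Agent.Lib.Helper1_SZ

/-- Under coprime action, if the centraliser of A in K has prime index p in K then the commutator subgroup [K, A] has order exactly p. -/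
theorem result {G : Type*} [Group G] [Finite G] (A K : Subgroup G) (hAK : A ≤ Subgroup.normalizer (K : Set G))
    (hcop : (Nat.card A).Coprime (Nat.card K)) (hsolv : Group.IsSolvable A ∨ Group.IsSolvable K)
    (p : ℕ) (hp : p.Prime) (hidx : (K ⊓ Subgroup.centralizer (A : Set G)).relIndex K = p) :
    Nat.card (⁅K, A⁆ : Subgroup G) = p := by
  have : Fact p.Prime := ⟨hp⟩
  set Z := centralizer (A : Set G) with hZ
  rw [inf_relIndex_left] at hidx
  obtain ⟨P0, hAP⟩ := Cfsg.Agent.S0023.result A K hAK hcop hsolv p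
  set P := (P0 : Subgroup K).map K.subtype with hP
  have hPK : P ≤ K := map_subtype_le _
  have hPp : IsPGroup p P := P0.isPGroup'.map _
  have hPnil : Group.IsNilpotent P := hPp.isNilpotent
  have hPsol : Group.IsSolvable P := inferInstance
  have hcopP : (Nat.card A).Coprime (Nat.card P) :=
    Nat.Coprime.coprime_dvd_right (card_dvd_of_le hPK) hcop
  -- `P` is not contained in `Z`
  have hPZ : ¬ P ≤ Z := by
    intro h
    have h1 : (P0 : Subgroup K) ≤ Z.subgroupOf K := by
      intro x hx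
      rw [mem_subgroupOf]
      exact h (mem_map_of_mem _ hx)
    have h2 := index_dvd_of_le h1
    have h3 : (Z.subgroupOf K).index = p := hidx
    rw [h3] at h2
    exact P0.not_dvd_index h2
  have hZP : p ≤ Z.relIndex P := by
    obtain ⟨n, hn⟩ := IsPGroup.iff_card.mp hPp
    have h1 : Z.relIndex P ∣ p ^ n := hn ▸ relIndex_dvd_card Z P
    obtain ⟨j, _, hj⟩ := (Nat.dvd_prime_pow hp).mp h1
    have hj0 : j ≠ 0 := by
      rintro rfl
      rw [pow_zero, relIndex_eq_one] at hj
      exact hPZ hj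
    rw [hj]
    exact Nat.le_self_pow hj0 p
  have hZP' : Z.relIndex P = p := le_antisymm (hidx ▸ relIndex_le_of_le Z hPK) hZP
  have hprod := exists_mul_of_relIndex_le (Z := Z) hPK (hidx.symm ▸ hZP)
  -- `[K,A] = [P,A]`
  have hKP : ⁅K, A⁆ = ⁅P, A⁆ := by
    apply le_antisymm _ (commutator_mono hPK le_rfl)
    rw [commutator_le]
    intro k hk a ha
    obtain ⟨x, hx, c, hc, rfl⟩ := hprod k hk
    have h1 : ⁅x * c, a⁆ = ⁅x, a⁆ := by
      rw [hZ, mem_centralizer_iff] at hc
      have := hc a ha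
      simp only [commutatorElement_def, mul_inv_rev]
      calc x * c * a * (c⁻¹ * x⁻¹) * a⁻¹ = x * (c * a) * c⁻¹ * x⁻¹ * a⁻¹ := by group
        _ = x * (a * c) * c⁻¹ * x⁻¹ * a⁻¹ := by rw [this]
        _ = x * a * x⁻¹ * a⁻¹ := by group
    rw [h1]
    exact commutator_mem_commutator hx ha
  rw [hKP]
  set W := ⁅P, A⁆ with hW
  have hWW : ⁅W, A⁆ = W := Cfsg.Agent.S0027.result A P hAP hcopP (Or.inr hPsol)
  have hWP : W ≤ P := commutator_le_left hAP
  have hAW : A ≤ normalizer (W : Set G) := le_normalizer_commutator_right hAP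
  have hWp : IsPGroup p W := hPp.to_le hWP
  have hcopW : (Nat.card A).Coprime (Nat.card W) :=
    Nat.Coprime.coprime_dvd_right (card_dvd_of_le hWP) hcopP
  have hZW : Z.relIndex W = p := by
    rw [← hZP']
    apply relIndex_eq_of_exists_mul hWP
    intro x hx
    obtain ⟨n, hn, c, hc, h⟩ := Cfsg.Agent.S0026.decomp A P hAP hcopP (Or.inr hPsol) x hx
    exact ⟨n, hn, c, hc.2, h⟩
  set D := W ⊓ Z with hD
  have hDW : D ≤ W := inf_le_left
  have hDidx : (D.subgroupOf W).index = p := by
    have : D.relIndex W = p := by rw [hD, inf_relIndex_left, hZW]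
    exact this
  have hDn : (D.subgroupOf W).Normal := by
    apply normal_of_index_eq_minFac_card
    rw [hDidx]
    obtain ⟨n, hn⟩ := IsPGroup.iff_card.mp hWp
    have hn0 : n ≠ 0 := by
      rintro rfl
      rw [pow_zero] at hn
      have h1 := relIndex_dvd_card Z W
      rw [hn, hZW] at h1
      exact hp.one_lt.ne' (Nat.dvd_one.mp h1)
    rw [hn, hp.pow_minFac hn0]
  have hWD : W ≤ normalizer (D : Set G) := (normal_subgroupOf_iff_le_normalizer hDW).mp hDn
  have hDA : ⁅D, A⁆ = ⊥ := by
    rw [commutator_eq_bot_iff_le_centralizer]; exact inf_le_right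
  have hcomm : ⁅W, D⁆ = ⊥ := by
    have h1 : ⁅⁅A, D⁆, W⁆ = ⊥ := by rw [commutator_comm A D, hDA, commutator_bot_left]
    have h2 : ⁅⁅D, W⁆, A⁆ = ⊥ := by
      rw [eq_bot_iff, ← hDA]
      exact commutator_mono (commutator_le_left hWD) le_rfl
    have h3 := commutator_commutator_eq_bot_of_rotate h1 h2
    rwa [hWW] at h3
  have hWab : IsMulCommutative W := by
    have hcyc : IsCyclic (W ⧸ D.subgroupOf W) := isCyclic_of_prime_card (p := p) hDidx
    apply (QuotientGroup.mk' (D.subgroupOf W)).isMulCommutative_of_isCyclic_of_ker_le_center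
    rw [QuotientGroup.ker_mk']
    intro d hd
    rw [mem_subgroupOf] at hd
    rw [mem_center_iff]
    intro w
    apply Subtype.ext
    rw [commutator_eq_bot_iff_le_centralizer] at hcomm
    have := mem_centralizer_iff.mp (hcomm w.2) d.1 hd
    exact this.symm
  have h55 := (Cfsg.Agent.S0055.result A W hAW hcopW).1
  rw [hWW, ← hZ, ← hD, inf_eq_left.mpr hDW] at h55
  rw [← hZW, ← inf_relIndex_left, ← hD, h55, relIndex_bot_left]

end Cfsg.Agent.S0057
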