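import Cfsg.Statements.S0059
import Cfsg.Agent.Lib.Helper1_Coprime

set_option autoImplicit false
open Pointwise
open Cfsg

namespace Cfsg.Agent.S0059

open Subgroup Cfsg.Agent.Lib.Helper1_Coprime Cfsg.Agent.Lib.Helper1_Basic

theorem isSolvable_of_isComplement' {G : Type*} [Group G] {K H : Subgroup G} [K.Normal]
    (hc : Subgroup.IsComplement' K H) [Group.IsSolvable (G ⧸ K)] : Group.IsSolvable H := by
  let φ : H →* G ⧸ K := (QuotientGroup.mk' K).comp H.subtype
  refine Group.isSolvable_of_isSolvable_injective (f := φ) ?_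
  rw [injective_iff_map_eq_one]
  intro h hh
  have h1 : (h : G) ∈ K := (QuotientGroup.eq_one_iff (h : G)).mp hh
  have h2 : (h : G) ∈ K ⊓ H := ⟨h1, h.2⟩
  rw [disjoint_iff.mp hc.disjoint] at h2
  exact Subtype.ext h2

/-- Let a finite group act on a set on which a normal subgroup K of coprime order and index is transitive, with K or the quotient solvable. Then any complement H of K has a fixed point, and any two H-fixed points are interchanged by an element of K centralising H. -/
theorem result {G : Type*} [Group G] [Finite G] {X : Type*} [Nonempty X] [MulAction G X]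
    (K H : Subgroup G) [K.Normal] (hc : Subgroup.IsComplement' K H) (hcop : (Nat.card K).Coprime K.index)
    (hsolv : Group.IsSolvable K ∨ Group.IsSolvable (G ⧸ K)) (htrans : MulAction.IsPretransitive K X) :
    (∃ x : X, ∀ h ∈ H, h • x = x) ∧
    ∀ x y : X, (∀ h ∈ H, h • x = x) → (∀ h ∈ H, h • y = y) → ∃ k ∈ K ⊓ Subgroup.centralizer (H : Set G), k • x = y := by
  have hcop' : (Nat.card H).Coprime (Nat.card K) := by
    rw [card_eq_index_of_isComplement' hc]; exact hcop.symm
  have hsolv' : Group.IsSolvable H ∨ Group.IsSolvable K := by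
    rcases hsolv with h | h
    · exact Or.inr h
    · exact Or.inl (isSolvable_of_isComplement' hc)
  obtain ⟨h1, h2⟩ := glauberman (X := X) (A := H) (K := K) le_normalizer_of_normal hcop' hsolv'
    Set.univ Set.univ_nonempty (fun _ _ _ _ => Set.mem_univ _) (fun _ _ _ _ => Set.mem_univ _)
    (fun y _ z _ => by
      obtain ⟨k, hk⟩ := htrans.exists_smul_eq y z
      exact ⟨k, k.2, hk⟩)
  refine ⟨?_, fun x y hx hy => h2 x (Set.mem_univ _) y (Set.mem_univ _) hx hy⟩
  obtain ⟨y, -, hy⟩ := h1
  exact ⟨y, hy⟩

end Cfsg.Agent.S0059
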