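import Cfsg.Statements.S0060
import Cfsg.Agent.S0010
import Cfsg.Agent.Lib.Helper4_Syl

set_option autoImplicit false
open Pointwise
open Cfsg

namespace Cfsg.Agent.S0060

open Subgroup Cfsg.Agent.Lib.Helper4_Syl
open scoped Pointwise

/-- Brodkey's Theorem: in a finite group with abelian Sylow p-subgroups and no nontrivial normal p-subgroup, some conjugate of a Sylow p-subgroup meets it trivially. -/
theorem result {G : Type*} [Group G] [Finite G] (p : ℕ) [Fact p.Prime]
    (S : Sylow p G) (hS : IsMulCommutative S) (hOp : Cfsg.pCore p G = ⊥) :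
    ∃ g : G, (S : Subgroup G) ⊓ MulAut.conj g • (S : Subgroup G) = ⊥ := by
  classical
  obtain ⟨g, hg⟩ := Finite.exists_min
    (fun g : G => Nat.card ((S : Subgroup G) ⊓ MulAut.conj g • (S : Subgroup G) : Subgroup G))
  refine ⟨g, ?_⟩
  set T := MulAut.conj g • (S : Subgroup G) with hT
  set D := (S : Subgroup G) ⊓ T with hD
  set N := normalizer (D : Set G) with hN
  have hSN : (S : Subgroup G) ≤ N := by
    rw [hN, le_normalizer_iff]
    intro s hs d hd
    have : s * d * s⁻¹ = d := by
      rw [setLike_mul_comm hs hd.1]; group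
    rw [this]; exact hd
  have hTN : T ≤ N := by
    rw [hN, le_normalizer_iff]
    intro t ht d hd
    have : t * d * t⁻¹ = d := by
      have h1 := mem_conj_smul.mp ht
      have h2 := mem_conj_smul.mp hd.2
      have h3 := setLike_mul_comm h1 h2
      have h4 : t * d = d * t := by
        calc t * d = g * ((g⁻¹ * t * g) * (g⁻¹ * d * g)) * g⁻¹ := by group
          _ = g * ((g⁻¹ * d * g) * (g⁻¹ * t * g)) * g⁻¹ := by rw [h3]
          _ = d * t := by group
      rw [h4]; group
    rw [this]; exact hd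
  have hSyl : IsSylIn p (S : Subgroup G) N := (IsSylIn.of_sylow_top S).mono hSN le_top
  have key : ∀ P : Sylow p G, D ≤ P := by
    intro P
    obtain ⟨R, hR, hPR⟩ := exists_isSylIn_ge (Q := (P : Subgroup G) ⊓ N) (M := N) inf_le_right
      (P.isPGroup'.to_le inf_le_left)
    obtain ⟨x, hxN, hx⟩ := hR.conj hSyl
    have h1 : MulAut.conj x • (P : Subgroup G) ⊓ T ≤ D := by
      rintro y ⟨hy1, hy2⟩
      refine ⟨?_, hy2⟩
      have hy1' : y ∈ MulAut.conj x • (P : Subgroup G) := hy1
      show y ∈ (S : Subgroup G)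
      rw [← hx, mem_conj_smul]
      apply hPR
      refine ⟨mem_conj_smul.mp hy1', ?_⟩
      exact N.mul_mem (N.mul_mem (N.inv_mem hxN) (hTN hy2)) hxN
    obtain ⟨u', hu'⟩ := MulAction.exists_smul_eq G S P
    have hu : MulAut.conj u' • (S : Subgroup G) = P := by rw [← hu']; rfl
    have h2 : Nat.card D ≤ Nat.card (MulAut.conj x • (P : Subgroup G) ⊓ T : Subgroup G) := by
      have e : MulAut.conj x • (P : Subgroup G) ⊓ T =
          MulAut.conj (x * u') • ((S : Subgroup G) ⊓ MulAut.conj ((x * u')⁻¹ * g) • (S : Subgroup G)) := by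
        rw [smul_inf, ← mul_smul, ← map_mul, mul_inv_cancel_left, ← hu, ← mul_smul, ← map_mul]
      rw [e, card_conj_smul]
      exact hg _
    have h3 : MulAut.conj x • (P : Subgroup G) ⊓ T = D := eq_of_le_of_card_ge h1 h2
    intro d hd
    have h4 : x * d * x⁻¹ ∈ D := (le_normalizer_iff.mp (le_refl N)) x hxN d hd
    rw [← h3] at h4
    have h5 := mem_conj_smul.mp h4.1
    simpa [mul_assoc] using h5
  rw [eq_bot_iff, ← hOp, Cfsg.Agent.S0010.result]
  exact le_iInf key

end Cfsg.Agent.S0060
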