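import Cfsg.Statements.S0064

import Cfsg.Agent.Lib.Helper7_Subnormal
set_option autoImplicit false
open Cfsg

namespace Cfsg.Agent.S0064

open Cfsg.Agent.Lib.Helper7_Subnormal

/-- A finite group is nilpotent exactly when each of its subgroups is subnormal. -/
theorem result {G : Type*} [Group G] [Finite G] :
    Group.IsNilpotent G ↔ ∀ H : Subgroup G, H.IsSubnormal := by
  exact ⟨fun h H => isSubnormal_of_isNilpotent H, isNilpotent_of_forall_isSubnormal⟩

end Cfsg.Agent.S0064
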