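import Cfsg.Statements.S0067

import Cfsg.Agent.Lib.Helper7_Subnormal
import Cfsg.Agent.Lib.Helper7_BaerSuzuki
import Cfsg.Agent.Lib.Helper7_Nilp
import Cfsg.Agent.Lib.Helper3_Comp
set_option autoImplicit false
open Pointwise
open Cfsg

namespace Cfsg.Agent.S0067

open Cfsg.Agent.Lib.Helper7_Subnormal Cfsg.Agent.Lib.Helper7_BaerSuzuki Cfsg.Agent.Lib.Helper7_Nilp
open Cfsg.Agent.Lib.Helper4_Syl

/-- If the join of a subgroup A with each of its conjugates is nilpotent, then A is subnormal in the finite group and contained in the Fitting subgroup. -/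
theorem result {G : Type*} [Group G] [Finite G] (A : Subgroup G)
    (h : ∀ g : G, Group.IsNilpotent (A ⊔ MulAut.conj g • A : Subgroup G)) : A.IsSubnormal ∧ A ≤ Cfsg.fittingSubgroup G := by
  classical
  have hF : A ≤ Cfsg.fittingSubgroup G := by
    have key : ∀ y : A, y ∈ (Cfsg.fittingSubgroup G).subgroupOf A := by
      intro y
      apply mem_of_prime_power_parts ((Cfsg.fittingSubgroup G).subgroupOf A) (fun _ => True) ?_ y
        (fun _ _ _ => trivial)
      rintro y ⟨q, b, hq, -, hy⟩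
      haveI : Fact q.Prime := ⟨hq⟩
      let K : Set G := {x | (∃ k, orderOf x = q ^ k) ∧ ∃ g : G, x ∈ MulAut.conj g • A}
      have hKinv : ∀ g : G, ∀ x ∈ K, g * x * g⁻¹ ∈ K := by
        rintro g x ⟨⟨k, hk⟩, c, hc⟩
        refine ⟨⟨k, by rw [orderOf_conj_eq, hk]⟩, g * c, ?_⟩
        rw [conj_mul_smul]
        exact conj_mem_conj_smul hc
      have hK : ∀ x ∈ K, ∀ y ∈ K, IsPGroup q (Subgroup.closure ({x, y} : Set G)) := by
        rintro x ⟨⟨k, hk⟩, g, hxg⟩ y ⟨⟨l, hl⟩, g', hyg'⟩
        have hN : Group.IsNilpotent (MulAut.conj g • A ⊔ MulAut.conj g' • A : Subgroup G) := by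
          have h1 : (MulAut.conj g • A ⊔ MulAut.conj g' • A : Subgroup G) =
              MulAut.conj g • (A ⊔ MulAut.conj (g⁻¹ * g') • A) := by
            rw [Subgroup.smul_sup, ← conj_mul_smul, mul_inv_cancel_left]
          rw [h1]
          exact (Group.isNilpotent_congr (Subgroup.equivSMul (MulAut.conj g) _)).1 (h (g⁻¹ * g'))
        set N := (MulAut.conj g • A ⊔ MulAut.conj g' • A : Subgroup G) with hNdef
        obtain ⟨P⟩ : Nonempty (Sylow q N) := inferInstance
        have hPn : (P : Subgroup N).Normal := inferInstance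
        have hxN : x ∈ N := (le_sup_left : _ ≤ N) hxg
        have hyN : y ∈ N := (le_sup_right : _ ≤ N) hyg'
        have hx' : (⟨x, hxN⟩ : N) ∈ (P : Subgroup N) :=
          mem_sylow_of_orderOf_of_normal P hPn (a := k) (by rw [← hk, ← Subgroup.orderOf_coe])
        have hy' : (⟨y, hyN⟩ : N) ∈ (P : Subgroup N) :=
          mem_sylow_of_orderOf_of_normal P hPn (a := l) (by rw [← hl, ← Subgroup.orderOf_coe])
        apply (P.isPGroup'.map N.subtype).to_le
        rw [Subgroup.closure_le]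
        rintro z (rfl | rfl)
        · exact ⟨_, hx', rfl⟩
        · exact ⟨_, hy', rfl⟩
      obtain ⟨hn, hp⟩ := baer_suzuki_set K hKinv hK
      have h2 : Subgroup.closure K ≤ Cfsg.fittingSubgroup G := le_sSup ⟨hn, hp.isNilpotent⟩
      refine h2 (Subgroup.subset_closure ⟨⟨b, by rw [← hy]; exact Subgroup.orderOf_coe y⟩, 1, ?_⟩)
      simp
    exact fun a ha => key ⟨a, ha⟩
  refine ⟨?_, hF⟩
  haveI := Cfsg.Agent.Lib.Helper3_Comp.fittingSubgroup_isNilpotent G
  exact Subgroup.IsSubnormal.trans hF (isSubnormal_of_isNilpotent _)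
    (Cfsg.Agent.Lib.Helper3_Comp.fittingSubgroup_normal G).isSubnormal

end Cfsg.Agent.S0067
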