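import Cfsg.Statements.S0068
import Mathlib

set_option autoImplicit false
open Cfsg

namespace Cfsg.Agent.S0068

open Subgroup

theorem fpf_invol {G : Type*} [Group G] [Finite G] (K H : Subgroup G) [K.Normal]
    (hfpf : ∀ h ∈ H, h ≠ 1 → K ⊓ Subgroup.centralizer {h} = ⊥) (t : G) (ht : t ∈ H)
    (ho : orderOf t = 2) :
    MonoidHom.FixedPointFree (MulAut.conjNormal t : MulAut K) ∧
      Function.Involutive (MulAut.conjNormal t : MulAut K) := by
  have ht1 : t ≠ 1 := by
    rintro rfl
    rw [orderOf_one] at ho; omega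
  have ht2 : t * t = 1 := by
    have := pow_orderOf_eq_one t
    rwa [ho, pow_two] at this
  constructor
  · intro k hk
    have h1 : t * k.1 * t⁻¹ = k.1 := by
      have := congrArg Subtype.val hk
      rwa [MulAut.conjNormal_apply] at this
    have h2 : k.1 ∈ K ⊓ Subgroup.centralizer {t} := by
      refine ⟨k.2, ?_⟩
      show k.1 ∈ centralizer {t}
      rw [mem_centralizer_singleton_iff]
      calc k.1 * t = (t * k.1 * t⁻¹) * t := by rw [h1]
        _ = t * k.1 := by group
    rw [hfpf t ht ht1, mem_bot] at h2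
    exact Subtype.ext h2
  · intro k
    apply Subtype.ext
    rw [MulAut.conjNormal_apply, MulAut.conjNormal_apply]
    calc t * (t * k.1 * t⁻¹) * t⁻¹ = (t * t) * k.1 * (t * t)⁻¹ := by group
      _ = k.1 := by rw [ht2]; simp

theorem inverts {G : Type*} [Group G] [Finite G] (K H : Subgroup G) [K.Normal]
    (hfpf : ∀ h ∈ H, h ≠ 1 → K ⊓ Subgroup.centralizer {h} = ⊥) (t : G) (ht : t ∈ H)
    (ho : orderOf t = 2) : ∀ k ∈ K, t * k * t⁻¹ = k⁻¹ := by
  intro k hk
  obtain ⟨h1, h2⟩ := fpf_invol K H hfpf t ht ho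
  have h3 := congrFun (h1.coe_eq_inv_of_involutive h2) ⟨k, hk⟩
  have h4 := congrArg Subtype.val h3
  rwa [MulAut.conjNormal_apply] at h4

/-- Frobenius complements of even order: if H complements a nontrivial normal subgroup K, each nonidentity element of H has trivial centraliser in K, and H has even order, then H contains a unique involution s, K is abelian, and s inverts every element of K. -/
theorem result {G : Type*} [Group G] [Finite G] (K H : Subgroup G) [K.Normal]
    (hc : Subgroup.IsComplement' K H) (hK : K ≠ ⊥) (hfpf : ∀ h ∈ H, h ≠ 1 → K ⊓ Subgroup.centralizer {h} = ⊥)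
    (heven : 2 ∣ Nat.card H) :
    (∃ s ∈ H, orderOf s = 2 ∧ (∀ t ∈ H, orderOf t = 2 → t = s) ∧ ∀ k ∈ K, s * k * s⁻¹ = k⁻¹) ∧ IsMulCommutative K := by
  have : Fact (Nat.Prime 2) := ⟨Nat.prime_two⟩
  obtain ⟨s, hs⟩ := exists_prime_orderOf_dvd_card' 2 heven
  have hso : orderOf (s : G) = 2 := by rw [Subgroup.orderOf_coe, hs]
  refine ⟨⟨s.1, s.2, hso, ?_, inverts K H hfpf s.1 s.2 hso⟩, ?_⟩
  · intro t ht hto
    by_contra hne
    have h1 : s.1 * t ∈ H := H.mul_mem s.2 ht
    have hs2 : s.1 * s.1 = 1 := by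
      have := pow_orderOf_eq_one s.1
      rwa [hso, pow_two] at this
    have h2 : s.1 * t ≠ 1 := by
      intro h0
      apply hne
      calc t = (s.1 * s.1) * t := by rw [hs2, one_mul]
        _ = s.1 * (s.1 * t) := by group
        _ = s.1 := by rw [h0, mul_one]
    have h3 := hfpf _ h1 h2
    apply hK
    rw [eq_bot_iff, ← h3]
    intro k hk
    refine ⟨hk, ?_⟩
    show k ∈ centralizer {s.1 * t}
    rw [mem_centralizer_singleton_iff]
    have e1 := inverts K H hfpf t ht hto k hk
    have e2 := inverts K H hfpf s.1 s.2 hso k⁻¹ (K.inv_mem hk)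
    rw [inv_inv] at e2
    calc k * (s.1 * t) = (s.1 * k⁻¹ * s.1⁻¹) * (s.1 * t) := by rw [e2]
      _ = s.1 * (t * k * t⁻¹) * t := by rw [e1]; group
      _ = s.1 * t * k := by group
  · obtain ⟨h1, h2⟩ := fpf_invol K H hfpf s.1 s.2 hso
    exact ⟨⟨fun a b => h1.commute_all_of_involutive h2 a b⟩⟩

end Cfsg.Agent.S0068
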