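import Mathlib
import Cfsg.Statements.S3379

set_option autoImplicit false
open Cfsg

namespace Cfsg.Agent.S3379

/-- Let G be a finite group all of whose Sylow subgroups are cyclic. Then G is generated by two elements x and y of coprime orders n and m with x⁻¹yx = y^r, where gcd(r − 1, m) = 1 and r^n ≡ 1 (mod m). -/
theorem result {G : Type*} [Group G] [Finite G]
    (hZ : ∀ (p : ℕ) [Fact p.Prime] (P : Sylow p G), IsCyclic (P : Subgroup G)) :
    ∃ (x y : G) (n m r : ℕ), Subgroup.closure {x, y} = ⊤ ∧ orderOf x = n ∧ orderOf y = m ∧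
      x⁻¹ * y * x = y ^ r ∧ Nat.Coprime (r - 1) m ∧ Nat.Coprime n m ∧ 1 ≤ r ∧ r ^ n % m = 1 % m := by
  classical
  have hZG : IsZGroup G := ⟨fun p hp P => by
    have := Fact.mk hp
    exact hZ p P⟩
  have hNc : IsCyclic (commutator G) := IsZGroup.isCyclic_commutator G
  have hcop := IsZGroup.coprime_commutator_index G
  obtain ⟨H, hH⟩ := Subgroup.exists_right_complement'_of_coprime hcop
  have h1 : Abelianization G ≃* H := hH.symm.QuotientMulEquiv
  have hHc : IsCyclic H := isCyclic_of_surjective _ h1.surjective
  have hcardH : Nat.card H = (commutator G).index := (Nat.card_congr h1.toEquiv).symm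
  obtain ⟨y', hy'⟩ := IsCyclic.exists_generator (α := commutator G)
  obtain ⟨x', hx'⟩ := IsCyclic.exists_generator (α := H)
  have hyN : ∀ g ∈ commutator G, g ∈ Subgroup.zpowers (y' : G) := by
    intro g hg
    obtain ⟨k, hk⟩ := hy' ⟨g, hg⟩
    exact ⟨k, by simpa using congrArg Subtype.val hk⟩
  have hxH : ∀ g ∈ H, g ∈ Subgroup.zpowers (x' : G) := by
    intro g hg
    obtain ⟨k, hk⟩ := hx' ⟨g, hg⟩
    exact ⟨k, by simpa using congrArg Subtype.val hk⟩
  have hoy : orderOf (y' : G) = Nat.card (commutator G) := by
    rw [Subgroup.orderOf_coe]; exact orderOf_eq_card_of_forall_mem_zpowers hy'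
  have hox : orderOf (x' : G) = Nat.card H := by
    rw [Subgroup.orderOf_coe]; exact orderOf_eq_card_of_forall_mem_zpowers hx'
  set x : G := (x' : G) with hx
  set y : G := (y' : G) with hy
  set m := orderOf y with hm
  have hm0 : 0 < m := orderOf_pos y
  have hgen : Subgroup.closure {x, y} = ⊤ := by
    rw [eq_top_iff, ← hH.sup_eq_top]
    refine sup_le ?_ ?_
    · intro g hg
      have h2 : Subgroup.zpowers y ≤ Subgroup.closure {x, y} :=
        Subgroup.zpowers_le.2 (Subgroup.subset_closure (by simp))
      exact h2 (hyN g hg)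
    · intro g hg
      have h2 : Subgroup.zpowers x ≤ Subgroup.closure {x, y} :=
        Subgroup.zpowers_le.2 (Subgroup.subset_closure (by simp))
      exact h2 (hxH g hg)
  have hconjmem : ∀ g : G, ∃ k : ℕ, g * y * g⁻¹ = y ^ k := by
    intro g
    have h2 : g * y * g⁻¹ ∈ commutator G :=
      (inferInstance : (commutator G).Normal).conj_mem y y'.2 g
    have h3 := hyN _ h2
    rw [← mem_powers_iff_mem_zpowers] at h3
    obtain ⟨k, hk⟩ := h3
    exact ⟨k, hk.symm⟩
  obtain ⟨k, hk⟩ := hconjmem x⁻¹
  rw [inv_inv] at hk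
  have hr : x⁻¹ * y * x = y ^ (k + m) := by
    rw [hk, pow_add, pow_orderOf_eq_one, mul_one]
  set r := k + m with hrdef
  have hr1 : 1 ≤ r := by omega
  have hpow : ∀ j : ℕ, (x ^ j)⁻¹ * y * x ^ j = y ^ (r ^ j) := by
    intro j
    induction j with
    | zero => simp
    | succ j ih =>
      calc (x ^ (j + 1))⁻¹ * y * x ^ (j + 1) = x⁻¹ * ((x ^ j)⁻¹ * y * x ^ j) * x := by
            rw [pow_succ]; group
        _ = x⁻¹ * y ^ (r ^ j) * x := by rw [ih]
        _ = (x⁻¹ * y * x) ^ (r ^ j) := by
            have := conj_pow (a := x⁻¹) (b := y) (i := r ^ j)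
            rw [inv_inv] at this
            exact this.symm
        _ = y ^ (r ^ (j + 1)) := by rw [hr, ← pow_mul, pow_succ']
  refine ⟨x, y, orderOf x, m, r, hgen, rfl, rfl, hr, ?_, ?_, hr1, ?_⟩
  · -- coprimality of r - 1 and m
    let M : Subgroup G := Subgroup.zpowers (y ^ (r - 1))
    have hMn : M.Normal := by
      refine ⟨?_⟩
      rintro _ ⟨j, rfl⟩ g
      obtain ⟨l, hl⟩ := hconjmem g
      refine ⟨l * j, ?_⟩
      simp only
      rw [← conj_zpow, ← conj_pow, hl, ← pow_mul, mul_comm l, pow_mul, zpow_mul, zpow_natCast]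
    let π := QuotientGroup.mk' M
    have hπ : Function.Surjective π := QuotientGroup.mk'_surjective M
    have hc : Commute (π x) (π y) := by
      have e1 : π (y ^ (r - 1)) = 1 :=
        (QuotientGroup.eq_one_iff _).2 (Subgroup.mem_zpowers _)
      have e2 : π (x⁻¹ * y * x) = π y := by
        have : y ^ r = y * y ^ (r - 1) := by
          rw [← pow_succ']; congr 1; omega
        rw [hr, this, map_mul, e1, mul_one]
      rw [map_mul, map_mul, map_inv] at e2
      have : π y * π x = π x * π y := by
        calc π y * π x = π x * ((π x)⁻¹ * π y * π x) := by group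
          _ = π x * π y := by rw [e2]
      exact this.symm
    have htop : Subgroup.closure {π x, π y} = ⊤ := by
      have := congrArg (Subgroup.map π) hgen
      rw [MonoidHom.map_closure, Subgroup.map_top_of_surjective π hπ, Set.image_pair] at this
      exact this
    have hc1 : ∀ a : G ⧸ M, Commute a (π x) ∧ Commute a (π y) := by
      intro a
      have hle : Subgroup.closure {π x, π y} ≤
          Subgroup.centralizer {π x} ⊓ Subgroup.centralizer {π y} := by
        rw [Subgroup.closure_le]
        intro z hz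
        rcases hz with rfl | hz
        · exact Subgroup.mem_inf.2 ⟨Subgroup.mem_centralizer_singleton_iff.2 rfl,
            Subgroup.mem_centralizer_singleton_iff.2 hc.eq⟩
        · rw [Set.mem_singleton_iff] at hz
          rw [hz]
          exact Subgroup.mem_inf.2 ⟨Subgroup.mem_centralizer_singleton_iff.2 hc.symm.eq,
            Subgroup.mem_centralizer_singleton_iff.2 rfl⟩
      have ha : a ∈ Subgroup.closure {π x, π y} := htop ▸ Subgroup.mem_top a
      obtain ⟨h2, h3⟩ := Subgroup.mem_inf.1 (hle ha)
      exact ⟨Subgroup.mem_centralizer_singleton_iff.1 h2,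
        Subgroup.mem_centralizer_singleton_iff.1 h3⟩
    have hc2 : ∀ a b : G ⧸ M, a * b = b * a := by
      intro a b
      have hle : Subgroup.closure {π x, π y} ≤ Subgroup.centralizer {a} := by
        rw [Subgroup.closure_le]
        intro z hz
        rcases hz with rfl | hz
        · exact Subgroup.mem_centralizer_singleton_iff.2 (hc1 a).1.symm.eq
        · rw [Set.mem_singleton_iff] at hz
          rw [hz]
          exact Subgroup.mem_centralizer_singleton_iff.2 (hc1 a).2.symm.eq
      have hb : b ∈ Subgroup.closure {π x, π y} := htop ▸ Subgroup.mem_top b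
      exact (Subgroup.mem_centralizer_singleton_iff.1 (hle hb)).symm
    let _ : CommGroup (G ⧸ M) := { (inferInstance : Group (G ⧸ M)) with mul_comm := hc2 }
    have hle : commutator G ≤ M := by
      have := Abelianization.commutator_subset_ker (QuotientGroup.mk' M)
      rwa [QuotientGroup.ker_mk'] at this
    have hle2 : Subgroup.zpowers y ≤ M := Subgroup.zpowers_le.2 (hle y'.2)
    have h3 := Subgroup.card_le_of_le hle2
    rw [Nat.card_zpowers, Nat.card_zpowers, orderOf_pow] at h3
    change m ≤ m / Nat.gcd m (r - 1) at h3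
    by_contra hg
    have hg2 : 1 < Nat.gcd m (r - 1) := by
      have h0 : Nat.gcd m (r - 1) ≠ 0 := Nat.gcd_ne_zero_left hm0.ne'
      have h1 : Nat.gcd m (r - 1) ≠ 1 := fun h => hg (Nat.coprime_comm.1 h)
      omega
    have := Nat.div_lt_self hm0 hg2
    omega
  · rw [hox, hcardH]
    change (commutator G).index.Coprime m
    rw [hoy]
    exact Nat.coprime_comm.1 hcop
  · have h2 := hpow (orderOf x)
    rw [pow_orderOf_eq_one] at h2
    simp only [inv_one, one_mul, mul_one] at h2
    have h3 : y ^ 1 = y ^ (r ^ orderOf x) := by rw [pow_one]; exact h2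
    have := pow_eq_pow_iff_modEq.1 h3
    exact this.symm

end Cfsg.Agent.S3379
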