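import Cfsg.Statements.S0069
import Cfsg.Agent.Lib.Helper1_FrobPQ
import Cfsg.Agent.S0040
import Cfsg.Agent.S3379
import Cfsg.Agent.S0056

set_option autoImplicit false
open Cfsg

namespace Cfsg.Agent.S0069

open Subgroup Cfsg.Agent.Lib.Helper1_FrobPQ

/-- A Frobenius complement has nontrivial centre: if H ≠ 1 complements a nontrivial normal subgroup K and every nonidentity element of H has trivial centraliser in K, then the centre of H is nontrivial. -/
theorem result {G : Type*} [Group G] [Finite G] (K H : Subgroup G) [K.Normal]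
    (hc : Subgroup.IsComplement' K H) (hK : K ≠ ⊥) (hH : H ≠ ⊥) (hfpf : ∀ h ∈ H, h ≠ 1 → K ⊓ Subgroup.centralizer {h} = ⊥) :
    Subgroup.center H ≠ ⊥ := by
  classical
  obtain ⟨V, hVbot, hVab, hHV, hfpfV⟩ := Cfsg.Agent.S0040.exists_module K H hc hK hfpf
  haveI := hVab
  have hVcomm : ∀ a ∈ V, ∀ b ∈ V, a * b = b * a := by
    intro a ha b hb
    exact congrArg Subtype.val (mul_comm' (⟨a, ha⟩ : V) ⟨b, hb⟩)
  by_cases h2 : 2 ∣ Nat.card H
  · haveI : Fact (Nat.Prime 2) := ⟨Nat.prime_two⟩
    obtain ⟨t, ht⟩ := exists_prime_orderOf_dvd_card' 2 h2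
    have hinv : ∀ s ∈ H, s ^ 2 = 1 → s ≠ 1 → ∀ v ∈ V, s * v * s⁻¹ = v⁻¹ := by
      intro s hs hs2 hs1 v hv
      have hsv : s * v * s⁻¹ ∈ V := ((mem_normalizer_iff.mp (hHV hs)) v).mp hv
      have hmem : v * (s * v * s⁻¹) ∈ V ⊓ centralizer {s} := by
        refine ⟨V.mul_mem hv hsv, ?_⟩
        show _ ∈ centralizer {s}
        rw [mem_centralizer_singleton_iff]
        have e1 : s * s = 1 := by rw [← sq]; exact hs2
        have e2 : s⁻¹ = s := (eq_inv_of_mul_eq_one_left e1).symm
        have e3 := hVcomm v hv _ hsv
        calc v * (s * v * s⁻¹) * s = (s * v * s⁻¹) * v * s := by rw [e3]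
          _ = s * v * (s⁻¹ * v * s) := by group
          _ = s * v * (s * v * s⁻¹) := by
              have e4 : s⁻¹ * v * s = s * v * s⁻¹ := by rw [e2]
              rw [e4]
          _ = s * (v * (s * v * s⁻¹)) := by group
      rw [hfpfV s hs hs1, mem_bot] at hmem
      exact (eq_inv_of_mul_eq_one_right hmem)
    have ht2 : (t : G) ^ 2 = 1 := by
      have := pow_orderOf_eq_one t
      rw [ht] at this
      exact_mod_cast congrArg Subtype.val this
    have ht1 : (t : G) ≠ 1 := by
      intro h
      have : t = 1 := Subtype.ext h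
      rw [this, orderOf_one] at ht
      norm_num at ht
    have htc : t ∈ center H := by
      rw [mem_center_iff]
      intro h
      set s : G := (h : G) * t * (h : G)⁻¹ with hs
      have hsH : s ∈ H := H.mul_mem (H.mul_mem h.2 t.2) (H.inv_mem h.2)
      have hs2 : s ^ 2 = 1 := by rw [hs, conj_pow, ht2]; group
      have hs1 : s ≠ 1 := by
        intro e
        apply ht1
        have : (t : G) = (h : G)⁻¹ * s * h := by rw [hs]; group
        rw [this, e]; group
      have hd : (t : G)⁻¹ * s = 1 := by
        by_contra hd1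
        have hdH : (t : G)⁻¹ * s ∈ H := H.mul_mem (H.inv_mem t.2) hsH
        apply hVbot
        rw [eq_bot_iff, ← hfpfV _ hdH hd1]
        intro v hv
        refine ⟨hv, ?_⟩
        show v ∈ centralizer {(t : G)⁻¹ * s}
        rw [mem_centralizer_singleton_iff]
        have e1 := hinv s hsH hs2 hs1 v hv
        have e2 := hinv t t.2 ht2 ht1 v hv
        have e3 : s * v * s⁻¹ = (t : G) * v * (t : G)⁻¹ := e1.trans e2.symm
        calc v * ((t : G)⁻¹ * s) = (t : G)⁻¹ * ((t : G) * v * (t : G)⁻¹) * s := by group
          _ = (t : G)⁻¹ * (s * v * s⁻¹) * s := by rw [e3]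
          _ = (t : G)⁻¹ * s * v := by group
      have hst : s = t := by
        have := inv_mul_eq_one.mp hd
        exact this.symm
      apply Subtype.ext
      show (h : G) * t = t * h
      have e : (h : G) * t * (h : G)⁻¹ = t := hst
      exact mul_inv_eq_iff_eq_mul.mp e
    intro hbot
    rw [hbot, mem_bot] at htc
    exact ht1 (congrArg Subtype.val htc)
  · -- odd order: all Sylow subgroups are cyclic
    have hZ : ∀ (p : ℕ) [Fact p.Prime] (P : Sylow p H), IsCyclic (P : Subgroup H) := by
      intro p _ P
      rcases Cfsg.Agent.S0040.result K H hc hK hfpf p P with h | ⟨n, ⟨e⟩⟩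
      · exact h
      · exfalso
        apply h2
        haveI : NeZero (2 ^ n) := ⟨by positivity⟩
        have h1 : Nat.card P = 4 * 2 ^ n := by
          rw [Nat.card_congr e.toEquiv, Nat.card_eq_fintype_card, QuaternionGroup.card]
        have h3 : Nat.card P ∣ Nat.card H := Subgroup.card_subgroup_dvd_card _
        exact Dvd.dvd.trans ⟨2 * 2 ^ n, by rw [h1]; ring⟩ h3
    obtain ⟨x, y, n, m, r, hgen, hxo, hyo, hconj, -, hnm, -, -⟩ := Cfsg.Agent.S3379.result hZ
    have hcen : ∀ c : H, c * x = x * c → c * y = y * c → c ∈ center H := by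
      intro c hcx hcy
      have h1 : closure {x, y} ≤ centralizer {c} := by
        rw [closure_le]
        rintro g (rfl | rfl)
        · show g ∈ centralizer {c}
          rw [mem_centralizer_singleton_iff]; exact hcx.symm
        · show g ∈ centralizer {c}
          rw [mem_centralizer_singleton_iff]; exact hcy.symm
      rw [hgen] at h1
      rw [mem_center_iff]
      intro g
      have := h1 (mem_top g)
      rw [mem_centralizer_singleton_iff] at this
      exact this
    have hfin : ∀ c : H, c ∈ center H → c ≠ 1 → center H ≠ ⊥ := by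
      intro c hc hc1 hbot
      rw [hbot, mem_bot] at hc
      exact hc1 hc
    by_cases hx1 : x = 1
    · apply hfin y (hcen y (by rw [hx1]; simp) rfl)
      intro hy1
      apply hH
      have h1 : closure {x, y} ≤ (⊥ : Subgroup H) := by
        rw [closure_le]
        rintro g (rfl | rfl)
        · exact hx1
        · exact hy1
      rw [hgen] at h1
      rw [eq_bot_iff]
      intro g hg
      have := h1 (mem_top (⟨g, hg⟩ : H))
      rw [mem_bot] at this
      exact congrArg Subtype.val this
    · have hn1 : n ≠ 1 := by
        intro h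
        rw [h] at hxo
        exact hx1 (orderOf_eq_one_iff.mp hxo)
      obtain ⟨p, hp, hpn⟩ := Nat.exists_prime_and_dvd hn1
      set x₀ : H := x ^ (n / p) with hx₀
      have hx₀o : orderOf x₀ = p := by
        rw [hx₀, ← hxo]
        exact orderOf_pow_orderOf_div (orderOf_pos x).ne' (hxo ▸ hpn)
      have hx₀1 : x₀ ≠ 1 := by
        intro h; rw [h, orderOf_one] at hx₀o; exact hp.one_lt.ne hx₀o
      -- `x₀` normalises `⟨v⟩` for all `v ∈ ⟨y⟩`
      have hnorm : ∀ v ∈ zpowers y, x₀ ∈ normalizer (zpowers v : Set H) := by
        intro v hv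
        obtain ⟨i, rfl⟩ := mem_zpowers_iff.mp hv
        have h1 : x⁻¹ ∈ normalizer (zpowers (y ^ i) : Set H) := by
          apply mem_normalizer_zpowers
          rw [inv_inv]
          have : x⁻¹ * y ^ i * x = (y ^ i) ^ r := by
            have e : x⁻¹ * y ^ i * x = (x⁻¹ * y * x) ^ i := by
              have := conj_zpow (a := x⁻¹) (b := y) (i := i)
              rw [inv_inv] at this
              exact this.symm
            rw [e, hconj, ← zpow_natCast, ← zpow_natCast, ← zpow_mul, ← zpow_mul, mul_comm]
          rw [this]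
          exact pow_mem (mem_zpowers _) r
        have h2 : x ∈ normalizer (zpowers (y ^ i) : Set H) := by
          have := inv_mem h1
          rwa [inv_inv] at this
        exact pow_mem h2 _
      apply hfin x₀ _ hx₀1
      apply hcen
      · rw [hx₀, ← pow_succ, ← pow_succ']
      · have h56 := Cfsg.Agent.S0056.result (zpowers x₀) (zpowers y)
          (zpowers_le.mpr (hnorm y (mem_zpowers y)))
          (by
            rw [Nat.card_zpowers, Nat.card_zpowers, hx₀o, hyo]
            exact Nat.Coprime.coprime_dvd_left hpn hnm)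
          (by
            intro v hv hvo a ha
            have h1 : ((x₀ : H) : G) * (v : G) = (v : G) * ((x₀ : H) : G) := by
              apply commute_of_prime_orders H V hVbot hHV hfpfV x₀.2 v.2 hp hvo
                (by rw [Subgroup.orderOf_coe]; exact hx₀o) (by rw [Subgroup.orderOf_coe])
              have h3 := ((mem_normalizer_iff.mp (hnorm v hv)) v).mp (mem_zpowers v)
              obtain ⟨k, hk⟩ := mem_zpowers_iff.mp h3
              rw [mem_zpowers_iff]
              exact ⟨k, by have := congrArg Subtype.val hk; simpa using this⟩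
            have h2 : Commute x₀ v := Subtype.ext h1
            obtain ⟨k, rfl⟩ := mem_zpowers_iff.mp ha
            exact h2.zpow_left k)
        have h3 := h56 (mem_zpowers x₀)
        rw [mem_centralizer_iff] at h3
        exact (h3 y (mem_zpowers y)).symm

end Cfsg.Agent.S0069
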