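import Cfsg.Statements.S0070
import Cfsg.Agent.S0009

set_option autoImplicit false
open Cfsg

namespace Cfsg.Agent.S0070

open Subgroup Cfsg.Agent.Lib.Helper3_Comp Cfsg.Agent.Lib.Helper3_Core Cfsg.Agent.Lib.Helper4_Core

/-- The Fitting subgroup commutes with passing to the Frattini quotient: the Fitting subgroup of G modulo its Frattini subgroup is the image of the Fitting subgroup of G. -/
theorem result {G : Type*} [Group G] [Finite G] :
    Cfsg.fittingSubgroup (G ⧸ frattini G) = (Cfsg.fittingSubgroup G).map (QuotientGroup.mk' (frattini G)) := by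
  set Φ := frattini G with hΦ
  set π := QuotientGroup.mk' Φ with hπ
  have hs : Function.Surjective π := QuotientGroup.mk'_surjective Φ
  have hker : π.ker = Φ := QuotientGroup.ker_mk' Φ
  have hFn : (Cfsg.fittingSubgroup G).Normal := fittingSubgroup_normal G
  have hFnil : Group.IsNilpotent (Cfsg.fittingSubgroup G) := fittingSubgroup_isNilpotent G
  have hΦF : Φ ≤ Cfsg.fittingSubgroup G := le_sSup ⟨inferInstance, frattini_nilpotent⟩
  apply le_antisymm
  · rw [Cfsg.Agent.S0009.result]
    apply iSup_le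
    intro p
    have : Fact (p : ℕ).Prime := ⟨p.2⟩
    have hOn' : (Cfsg.pCore (p : ℕ) (G ⧸ Φ)).Normal := Cfsg.Agent.S0009.pCore_normal _ _
    set O := (Cfsg.pCore (p : ℕ) (G ⧸ Φ)).comap π with hO
    have hOn : O.Normal := hOn'.comap π
    have hΦO : Φ ≤ O := by rw [← hker]; exact ker_le_comap _ _
    have hOmap : O.map π = Cfsg.pCore (p : ℕ) (G ⧸ Φ) := map_comap_eq_self_of_surjective hs _
    obtain ⟨P₁⟩ : Nonempty (Sylow (p : ℕ) O) := inferInstance
    set P := (P₁ : Subgroup O).map O.subtype with hP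
    have hPO : P ≤ O := map_subtype_le _
    have hfr : normalizer (P : Set G) ⊔ O = ⊤ := P₁.normalizer_sup_eq_top
    have hle : O ≤ P ⊔ Φ := by
      rw [← relIndex_eq_one]
      have h1 : (P ⊔ Φ).relIndex O ∣ P.relIndex O := relIndex_dvd_of_le_left O le_sup_left
      have h2 : (P ⊔ Φ).relIndex O ∣ Φ.relIndex O := relIndex_dvd_of_le_left O le_sup_right
      have h3 : Φ.relIndex O = Nat.card (Cfsg.pCore (p : ℕ) (G ⧸ Φ)) := by
        have h0 := relIndex_ker (K := O) π
        rw [hker, hOmap] at h0
        exact h0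
      obtain ⟨k, hk⟩ := IsPGroup.iff_card.mp (pCore_isPGroup (p : ℕ) (G ⧸ Φ))
      have h4 : P.relIndex O = (P₁ : Subgroup O).index := by
        rw [relIndex, hP, subgroupOf, comap_map_eq_self_of_injective O.subtype_injective]
      have h5 : ((P ⊔ Φ).relIndex O).Coprime (p : ℕ) := by
        apply Nat.Coprime.coprime_dvd_left h1
        rw [h4, Nat.coprime_comm, Nat.Prime.coprime_iff_not_dvd p.2]
        exact P₁.not_dvd_index
      rw [h3, hk] at h2
      exact Nat.Coprime.eq_one_of_dvd (h5.pow_right k) h2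
    have htop : normalizer (P : Set G) ⊔ Φ = ⊤ := by
      rw [eq_top_iff, ← hfr]
      exact sup_le le_sup_left (hle.trans (sup_le (le_normalizer.trans le_sup_left) le_sup_right))
    have hPn : P.Normal := normalizer_eq_top_iff.mp (frattini_nongenerating htop)
    have hPF : P ≤ Cfsg.fittingSubgroup G :=
      (le_pCore hPn (P₁.isPGroup'.map _)).trans (Cfsg.Agent.S0009.pCore_le_fitting (p : ℕ))
    rw [← hOmap]
    exact map_mono (hle.trans (sup_le hPF hΦF))
  · apply le_sSup
    refine ⟨hFn.map π hs, ?_⟩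
    exact Group.nilpotent_of_surjective _ (π.subgroupMap_surjective (Cfsg.fittingSubgroup G))

end Cfsg.Agent.S0070
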