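import Cfsg.Statements.S0072
import Cfsg.Agent.Lib.Helper1_FrobPNil

set_option autoImplicit false
open Cfsg

namespace Cfsg.Agent.S0072

open Subgroup Cfsg.Agent.Lib.Helper1_PNil Cfsg.Agent.Lib.Helper1_FrobPNil

/-- A finite group has a normal p-complement if and only if every p-local subgroup (normalizer of a nontrivial p-subgroup) has one. -/
theorem result {G : Type*} [Group G] [Finite G] (p : ℕ) [Fact p.Prime] : Cfsg.HasNormalPComplement p G ↔ ∀ Q : Subgroup G, IsPGroup p Q → Q ≠ ⊥ → Cfsg.HasNormalPComplement p (Subgroup.normalizer (Q : Set G)) := by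
  constructor
  · intro h Q _ _
    rw [hasNormalPComplement_iff] at h ⊢
    obtain ⟨N, hN⟩ := h
    exact ⟨_, hN.subgroupOf _⟩
  · intro h
    rw [hasNormalPComplement_iff]
    apply Cfsg.Agent.Lib.Helper1_FrobPNil.frobenius
    intro Q hQ g hg ho
    by_cases hbot : Q = ⊥
    · rw [hbot, mem_centralizer_iff]
      intro q hq
      have : q = 1 := hq
      rw [this]; simp
    obtain ⟨K, hK⟩ := hasNormalPComplement_iff.mp (h Q hQ hbot)
    have hgK : (⟨g, hg⟩ : normalizer (Q : Set G)) ∈ K := by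
      rw [hK.mem_iff, ← Subgroup.orderOf_coe]; exact ho
    rw [mem_centralizer_iff]
    intro q hq
    have hqN : q ∈ normalizer (Q : Set G) := le_normalizer hq
    have h1 : (⟨g, hg⟩ : normalizer (Q : Set G)) * ⟨q, hqN⟩ * ⟨g, hg⟩⁻¹ * ⟨q, hqN⟩⁻¹ ∈ K := by
      have := K.mul_mem hgK (hK.1.conj_mem _ (K.inv_mem hgK) ⟨q, hqN⟩)
      rwa [← mul_assoc, ← mul_assoc] at this
    have h2 := (hK.mem_iff _).mp h1
    rw [← Subgroup.orderOf_coe] at h2
    have h3 : g * q * g⁻¹ * q⁻¹ ∈ Q :=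
      Q.mul_mem ((le_normalizer_iff.mp (le_refl _)) g hg q hq) (Q.inv_mem hq)
    have h4 : g * q * g⁻¹ * q⁻¹ = 1 :=
      Cfsg.Agent.Lib.Helper4_Cop.eq_one_of_isPGroup_of_coprime hQ h3 h2
    have : g * q * g⁻¹ * q⁻¹ * (q * g) = q * g := by rw [h4, one_mul]
    rw [← this]; group

end Cfsg.Agent.S0072
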