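import Cfsg.Statements.S0073
import Cfsg.Agent.Lib.Helper1_SmallAut

set_option autoImplicit false
open Cfsg

namespace Cfsg.Agent.S0073

open Cfsg.Agent.Lib.Helper1_SmallAut Cfsg.Agent.Lib.Helper1_PNil

/-- For a finite non-abelian simple group, either the cube of the least prime divisor of the order divides the order, or 12 does. -/
theorem result {G : Type*} [Group G] [Finite G] [IsSimpleGroup G] (hG : ∃ x y : G, x * y ≠ y * x) : (Nat.card G).minFac ^ 3 ∣ Nat.card G ∨ 12 ∣ Nat.card G := by
  by_contra hcon
  push Not at hcon
  obtain ⟨h3, h12⟩ := hcon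
  have hG1 : Nat.card G ≠ 1 := by
    intro h1
    have := Finite.one_lt_card (α := G)
    omega
  have hp : (Nat.card G).minFac.Prime := Nat.minFac_prime hG1
  set p := (Nat.card G).minFac with hpdef
  haveI : Fact p.Prime := ⟨hp⟩
  have hpG : p ∣ Nat.card G := Nat.minFac_dvd _
  have hj1 : ∀ r : ℕ, r.Prime → r ∣ Nat.card G → r ≠ p → ¬ r ∣ p - 1 := by
    intro r hr hrG hrp hd
    have h1 : p ≤ r := Nat.minFac_le_of_dvd hr.two_le hrG
    have h2 : r ≤ p - 1 := Nat.le_of_dvd (by have := hp.two_le; omega) hd
    have := hp.two_le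
    omega
  have hN : ∃ N : Subgroup G, IsNPC p N := by
    by_cases h2 : p ^ 2 ∣ Nat.card G
    · apply npc_of_small (n := 2) h3
      intro r hr hrG hrp j hj1' hj2 hd
      interval_cases j
      · rw [pow_one] at hd
        exact hj1 r hr hrG hrp hd
      · have e : p ^ 2 - 1 = (p - 1) * (p + 1) := by
          obtain ⟨k, hk⟩ : ∃ k, p = k + 1 := ⟨p - 1, by have := hp.two_le; omega⟩
          rw [hk]
          simp only [Nat.add_sub_cancel]
          have : (k + 1) ^ 2 = k * (k + 1 + 1) + 1 := by ring
          omega
        rw [e] at hd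
        rcases (Nat.Prime.dvd_mul hr).1 hd with hd | hd
        · exact hj1 r hr hrG hrp hd
        · have h1 : p ≤ r := Nat.minFac_le_of_dvd hr.two_le hrG
          have h4 : r ≤ p + 1 := Nat.le_of_dvd (by omega) hd
          have h5 : r = p + 1 := by omega
          have hp2 : p = 2 := by
            rcases hp.eq_two_or_odd' with h | h
            · exact h
            · exfalso
              rcases hr.eq_two_or_odd' with h' | h'
              · have := hp.two_le; omega
              · rw [h5] at h'
                rw [Nat.odd_iff] at h h'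
                omega
          apply h12
          have h6 : (4 : ℕ) ∣ Nat.card G := by rw [hp2] at h2; simpa using h2
          have h7 : (3 : ℕ) ∣ Nat.card G := by rw [h5, hp2] at hrG; simpa using hrG
          have : (4 * 3 : ℕ) ∣ Nat.card G := Nat.Coprime.mul_dvd_of_dvd_of_dvd (by norm_num) h6 h7
          simpa using this
    · apply npc_of_small (n := 1) h2
      intro r hr hrG hrp j hj1' hj2 hd
      interval_cases j
      rw [pow_one] at hd
      exact hj1 r hr hrG hrp hd
  obtain ⟨N, hNn, hcop, k, hk⟩ := hN
  rcases hNn.eq_bot_or_eq_top with rfl | rfl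
  · rw [Subgroup.index_bot] at hk
    have hPG : IsPGroup p G := IsPGroup.of_card hk
    have hc := hPG.center_nontrivial
    have hcn : (Subgroup.center G).Normal := inferInstance
    rcases hcn.eq_bot_or_eq_top with h | h
    · rw [Subgroup.nontrivial_iff_ne_bot] at hc
      exact hc h
    · obtain ⟨x, y, hxy⟩ := hG
      apply hxy
      have hx : y ∈ Subgroup.center G := by rw [h]; trivial
      exact (Subgroup.mem_center_iff.1 hx x)
  · rw [Subgroup.card_top] at hcop
    have : p ∣ Nat.gcd (Nat.card G) p := Nat.dvd_gcd hpG dvd_rfl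
    rw [hcop] at this
    exact hp.one_lt.ne' (Nat.dvd_one.1 this)

end Cfsg.Agent.S0073
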