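import Cfsg.Statements.S0077
import Cfsg.Agent.Lib.Helper4_Fusion

set_option autoImplicit false

open Cfsg

namespace Cfsg.Agent.S0077

open scoped Pointwise
open Cfsg.Agent.Lib.Helper4_Syl Cfsg.Agent.Lib.Helper4_Alperin Cfsg.Agent.Lib.Helper4_Control
  Cfsg.Agent.Lib.Helper4_Fusion

theorem result {G : Type*} [Group G] [Finite G] {p : ℕ} [Fact p.Prime] (P : Sylow p G) (Z : Subgroup G) (hZ : Z ≤ Subgroup.centralizer (P : Set G)) (hW : Cfsg.IsWeaklyClosed Z P) : commutator G ⊓ (P : Subgroup G) = ⁅Subgroup.normalizer (Z : Set G), Subgroup.normalizer (Z : Set G)⁆ ⊓ (P : Subgroup G) := by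
  obtain ⟨hZP, hwc⟩ := hW
  have hS := IsSylIn.of_sylow_top P
  have hPZ : (P : Subgroup G) ≤ Subgroup.centralizer (Z : Set G) := Subgroup.le_centralizer_iff.1 hZ
  have hZp : IsPGroup p Z := P.2.to_le hZP
  -- weak closure in any conjugate of P
  have hwc' : ∀ u g : G, Z ≤ lc u (P : Subgroup G) → lc g Z ≤ lc u (P : Subgroup G) → lc g Z = Z := by
    intro u g h1 h2
    have e1 : lc u⁻¹ Z = Z := hwc u⁻¹ (by
      show lc u⁻¹ Z ≤ _
      rw [lc_le_iff, inv_inv]; exact h1)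
    have e2 : lc (u⁻¹ * g) Z = Z := hwc (u⁻¹ * g) (by
      show lc (u⁻¹ * g) Z ≤ _
      rw [lc_mul, lc_le_iff, inv_inv]; exact h2)
    rw [lc_mul] at e2
    have := congrArg (lc u) e2
    rw [lc_lc_inv] at this
    rw [this]
    have := congrArg (lc u) e1
    rwa [lc_lc_inv, eq_comm] at this
  apply commutator_inf_eq_of_fusion P _ (hPZ.trans (Subgroup.centralizer_le_normalizer _))
  intro a ha g hga
  set C := Subgroup.centralizer ({a} : Set G) with hC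
  have hmemC : ∀ b ∈ (P : Subgroup G), Z ≤ Subgroup.centralizer ({b} : Set G) := by
    intro b hb z hz
    rw [Subgroup.mem_centralizer_singleton_iff]
    exact ((Subgroup.mem_centralizer_iff.1 (hZ hz)) b hb).symm
  have h1 : Z ≤ C := hmemC a ha
  have h2 : lc g⁻¹ Z ≤ C := by
    rw [lc_le_iff, inv_inv, hC]
    have := hmemC _ hga
    rw [centralizer_conj_singleton] at this
    exact this
  obtain ⟨R₁, hR₁, hZR₁⟩ := exists_isSylIn_ge h1 hZp
  obtain ⟨R₂, hR₂, hZR₂⟩ := exists_isSylIn_ge h2 (isPGroup_conj hZp _)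
  obtain ⟨c, hc, hcR⟩ := hR₂.conj hR₁
  obtain ⟨u, hu⟩ := exists_lc_le hS hR₁.isPGroup
  have hu' : R₁ ≤ lc u⁻¹ (P : Subgroup G) := lc_le_iff.1 hu
  have h3 : lc (c * g⁻¹) Z = Z := by
    apply hwc' u⁻¹ _ (hZR₁.trans hu')
    rw [lc_mul]
    refine le_trans ?_ hu'
    rw [← hcR]
    exact lc_mono c hZR₂
  refine ⟨(c * g⁻¹)⁻¹, Subgroup.inv_mem _ (mem_normalizer_iff_lc.2 h3), ?_⟩
  have hca : c * a = a * c := Subgroup.mem_centralizer_singleton_iff.1 hc
  have hca' : c⁻¹ * a * c = a := by rw [mul_assoc, ← hca]; group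
  calc (c * g⁻¹)⁻¹ * a * (c * g⁻¹)⁻¹⁻¹ = g * (c⁻¹ * a * c) * g⁻¹ := by group
    _ = g * a * g⁻¹ := by rw [hca']

end Cfsg.Agent.S0077
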