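import Cfsg.Statements.S0080

set_option autoImplicit false

open Cfsg

namespace Cfsg.Agent.S0080

open scoped commutatorElement IsMulCommutative

theorem result {G : Type*} [Group G] [Finite G] (H : Subgroup G) (h : Nat.Coprime H.index (⁅H, H⁆.relIndex H)) : Subgroup.focalSubgroup H = commutator G ⊓ H ∧ ∃ N : Subgroup G, N.Normal ∧ N ⊓ H = commutator G ⊓ H ∧ N ⊔ H = ⊤ := by
  set V := H.transferFocal with hV
  have hdvd : Nat.card (H ⧸ H.focalSubgroupOf) ∣ ⁅H, H⁆.relIndex H := by
    rw [← Subgroup.index_eq_card, Subgroup.relIndex]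
    apply Subgroup.index_dvd_of_le
    have : (⁅H, H⁆ : Subgroup G).subgroupOf H = commutator H := by
      rw [← Subgroup.map_subtype_commutator]
      exact Subgroup.comap_map_eq_self_of_injective H.subtype_injective _
    rw [this]
    exact H.commutator_le_focalSubgroupOf
  have hcop : (Nat.card (H ⧸ H.focalSubgroupOf)).Coprime H.index :=
    (Nat.Coprime.coprime_dvd_right hdvd h).symm
  have hker : V.ker ⊓ H = H.focalSubgroup := by
    ext x
    rw [Subgroup.mem_inf, MonoidHom.mem_ker]
    constructor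
    · rintro ⟨h1, hx⟩
      have h2 := H.transferFocal_eq_pow ⟨x, hx⟩
      rw [← hV] at h2
      have h3 : ((⟨x, hx⟩ : H) : H ⧸ H.focalSubgroupOf) ^ H.index = 1 := by rw [← h2]; exact h1
      have h4 : ((⟨x, hx⟩ : H) : H ⧸ H.focalSubgroupOf) = 1 := by
        apply (powCoprime hcop).injective
        simpa using h3
      rw [QuotientGroup.eq_one_iff, Subgroup.focalSubgroupOf_def, Subgroup.mem_subgroupOf] at h4
      exact h4
    · intro hx
      have hxH := H.focalSubgroup_le hx
      refine ⟨?_, hxH⟩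
      have h2 := H.transferFocal_eq_pow ⟨x, hxH⟩
      rw [← hV] at h2
      have h4 : ((⟨x, hxH⟩ : H) : H ⧸ H.focalSubgroupOf) = 1 := by
        rw [QuotientGroup.eq_one_iff, Subgroup.focalSubgroupOf_def, Subgroup.mem_subgroupOf]
        exact hx
      rw [h4, one_pow] at h2
      exact h2
  have hcomm : commutator G ≤ V.ker := Abelianization.commutator_subset_ker V
  have heq : H.focalSubgroup = commutator G ⊓ H := by
    apply le_antisymm
    · exact le_inf H.focalSubgroup_le_commutator H.focalSubgroup_le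
    · rw [← hker]; exact inf_le_inf_right _ hcomm
  refine ⟨heq, V.ker, inferInstance, by rw [hker, heq], ?_⟩
  rw [eq_top_iff]
  intro g _
  obtain ⟨y, hy⟩ := (powCoprime hcop).surjective (V g)
  obtain ⟨y, rfl⟩ := QuotientGroup.mk_surjective y
  have h2 := H.transferFocal_eq_pow y
  rw [← hV] at h2
  have h3 : V (y : G) = V g := by rw [h2, ← hy]; rfl
  have h4 : g * (y : G)⁻¹ ∈ V.ker := by
    rw [MonoidHom.mem_ker, map_mul, map_inv, h3, mul_inv_cancel]
  have := (V.ker ⊔ H).mul_mem ((le_sup_left : V.ker ≤ V.ker ⊔ H) h4) ((le_sup_right : H ≤ V.ker ⊔ H) y.2)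
  simpa using this

end Cfsg.Agent.S0080
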