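import Cfsg.Statements.S0082
import Cfsg.Agent.Lib.Helper1_AbSylow

set_option autoImplicit false
open Cfsg

namespace Cfsg.Agent.S0082

open Cfsg.Agent.Lib.Helper1_AbSylow Cfsg.Agent.Lib.Helper9_PResidual

/-- With a cyclic Sylow p-subgroup, either there is a normal p-complement or the elements of order prime to p generate the whole group. -/
theorem result {G : Type*} [Group G] [Finite G] {p : ℕ} [Fact p.Prime] (P : Sylow p G) (hP : IsCyclic P) : Cfsg.HasNormalPComplement p G ∨ Cfsg.pResidual p G = ⊤ := by
  have hc : IsMulCommutative P := inferInstance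
  obtain ⟨h1, h2⟩ := decomposition P hc
  have hle1 : ⁅(P : Subgroup G), Subgroup.normalizer (P : Set G)⁆ ≤ (P : Subgroup G) := by
    conv_rhs => rw [← h2]
    exact le_sup_left
  rcases eq_bot_or_eq_bot_of_isCyclic (p := p) hP P.isPGroup' hle1 inf_le_left h1 with h | h
  · left
    rw [h, bot_sup_eq] at h2
    have hN : Subgroup.normalizer (P : Set G) ≤ Subgroup.centralizer (P : Set G) := by
      have h3 : (P : Subgroup G) ≤ Subgroup.centralizer (Subgroup.normalizer (P : Set G) : Set G) := by
        conv_lhs => rw [← h2]
        exact inf_le_right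
      exact Subgroup.le_centralizer_iff.1 h3
    exact ⟨P, _, inferInstance, MonoidHom.ker_transferSylow_isComplement' P hN⟩
  · right
    rw [h, sup_bot_eq, ← inf_pResidual_eq_commutator P hc] at h2
    have h3 : (P : Subgroup G) ≤ Cfsg.pResidual p G := inf_eq_left.1 h2
    rw [← pResidual_sup_sylow P]
    exact (sup_eq_left.2 h3).symm

end Cfsg.Agent.S0082
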