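import Cfsg.Statements.S0083
import Mathlib
import Cfsg.Agent.Lib.Helper1_PNil

set_option autoImplicit false
open Cfsg

namespace Cfsg.Agent.S0083

open Cfsg.Agent.Lib.Helper1_PNil

/-- For an abelian Sylow p-subgroup P, a normal p-complement exists exactly when the normalizer of P is an internal direct product of P with some subgroup. -/
theorem result {G : Type*} [Group G] [Finite G] {p : ℕ} [Fact p.Prime] (P : Sylow p G) (hP : IsMulCommutative P) : Cfsg.HasNormalPComplement p G ↔ ∃ Q : Subgroup G, Q ≤ Subgroup.centralizer (P : Set G) ∧ Q ⊓ (P : Subgroup G) = ⊥ ∧ Q ⊔ (P : Subgroup G) = Subgroup.normalizer (P : Set G) := by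
  have hPN : (P : Subgroup G) ≤ Subgroup.normalizer (P : Set G) := Subgroup.le_normalizer
  constructor
  · intro h
    obtain ⟨K, hK⟩ := hasNormalPComplement_iff.1 h
    have hc := hK.isComplement' P
    haveI : K.Normal := hK.1
    have hdisj : K ⊓ (P : Subgroup G) = ⊥ := hc.disjoint.eq_bot
    refine ⟨K ⊓ Subgroup.normalizer (P : Set G), ?_, ?_, ?_⟩
    · intro q hq
      obtain ⟨hqK, hqN⟩ := Subgroup.mem_inf.1 hq
      rw [Subgroup.mem_centralizer_iff]
      intro x hx
      have hx' : x ∈ (P : Subgroup G) := hx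
      have h1 : q * x * q⁻¹ * x⁻¹ ∈ K ⊓ (P : Subgroup G) := by
        refine Subgroup.mem_inf.2 ⟨?_, ?_⟩
        · have : q * x * q⁻¹ * x⁻¹ = q * (x * q⁻¹ * x⁻¹) := by group
          rw [this]
          exact mul_mem hqK (hK.1.conj_mem _ (inv_mem hqK) x)
        · exact mul_mem ((Subgroup.mem_normalizer_iff.1 hqN x).1 hx') (inv_mem hx')
      rw [hdisj, Subgroup.mem_bot] at h1
      have : q * x = x * q := by
        calc q * x = (q * x * q⁻¹ * x⁻¹) * (x * q) := by group
          _ = x * q := by rw [h1, one_mul]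
      exact this.symm
    · rw [eq_bot_iff, ← hdisj]
      exact inf_le_inf_right _ inf_le_left
    · apply le_antisymm
      · exact sup_le inf_le_right hPN
      · intro n hn
        have hn' : n ∈ ((K ⊔ (P : Subgroup G) : Subgroup G) : Set G) := by
          rw [hc.sup_eq_top]; trivial
        rw [Subgroup.normal_mul] at hn'
        obtain ⟨k, hk, x, hx, rfl⟩ := Set.mem_mul.1 hn'
        have hkN : k ∈ Subgroup.normalizer (P : Set G) := by
          have : k = (k * x) * x⁻¹ := by group
          rw [this]
          exact mul_mem hn (inv_mem (hPN hx))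
        exact mul_mem (Subgroup.mem_sup_left (Subgroup.mem_inf.2 ⟨hk, hkN⟩))
          (Subgroup.mem_sup_right hx)
  · rintro ⟨Q, hQC, -, hQP⟩
    have hPC : (P : Subgroup G) ≤ Subgroup.centralizer (P : Set G) := by
      intro x hx
      rw [Subgroup.mem_centralizer_iff]
      intro y hy
      exact congrArg Subtype.val (hP.is_comm.comm (⟨y, hy⟩ : P) ⟨x, hx⟩)
    have hN : Subgroup.normalizer (P : Set G) ≤ Subgroup.centralizer (P : Set G) := by
      rw [← hQP]; exact sup_le hQC hPC
    exact ⟨P, _, inferInstance, MonoidHom.ker_transferSylow_isComplement' P hN⟩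

end Cfsg.Agent.S0083
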