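import Cfsg.Statements.S0085
import Cfsg.Agent.Lib.Helper1_SmallAut

set_option autoImplicit false
open Cfsg

namespace Cfsg.Agent.S0085

open Cfsg.Agent.Lib.Helper1_SmallAut Cfsg.Agent.Lib.Helper1_PNil

/-- A group whose Sylow 2-subgroups are elementary abelian of order 8 and whose order is prime to 3 and to 7 has a normal 2-complement. -/
theorem result {G : Type*} [Group G] [Finite G] (T : Sylow 2 G) (h8 : Nat.card T = 8) (he : ∀ x : T, x * x = 1) (h3 : ¬ 3 ∣ Nat.card G) (h7 : ¬ 7 ∣ Nat.card G) : Cfsg.HasNormalPComplement 2 G := by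
  rw [hasNormalPComplement_iff]
  apply npc_of_small (n := 3)
  · intro h16
    have := T.pow_dvd_card_of_pow_dvd_card h16
    rw [h8] at this
    omega
  · intro r hr hrG _ j hj1 hj2 hd
    interval_cases j
    · simp at hd
      exact hr.one_lt.ne' hd
    · have h3' : r = 3 := (Nat.prime_dvd_prime_iff_eq hr Nat.prime_three).1 (by simpa using hd)
      exact h3 (h3' ▸ hrG)
    · have h7' : r = 7 := (Nat.prime_dvd_prime_iff_eq hr (by norm_num)).1 (by simpa using hd)
      exact h7 (h7' ▸ hrG)

end Cfsg.Agent.S0085
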