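import Cfsg.Statements.S0581

import Cfsg.Agent.Lib.Helper7_Hall
import Cfsg.Agent.S0046
set_option autoImplicit false
open Pointwise
open Cfsg

namespace Cfsg.Agent.S0581

open Pointwise Cfsg.Agent.Lib.Helper1_PNil Cfsg.Agent.Lib.Helper4_Syl Cfsg.Agent.Lib.Helper7_Hall
  Cfsg.Agent.Lib.Helper7_Max

theorem step {G : Type*} [Group G] [Finite G] (H K : Subgroup G) (hH : Group.IsNilpotent H)
    (hHall : (Nat.card H).Coprime H.index) (p : ℕ) [hp : Fact p.Prime] (M : Subgroup K) [hMn : M.Normal]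
    (hidx : M.index = p) (hMH : M.map K.subtype ≤ H) (hpH : p ∣ Nat.card H) :
    ∃ x : G, K ≤ MulAut.conj x • H := by
  haveI : Group.IsNilpotent M := isNilpotent_of_map_le hH M hMH
  obtain ⟨N, hN⟩ := exists_isNPC_of_nilpotent (G := M) p
  have hA' : IsNPC p (N.map M.subtype) := hN.map_subtype hMn ⟨1, by rw [hidx, pow_one]⟩
  set A' : Subgroup K := N.map M.subtype with hA'def
  have hA'M : A' ≤ M := by
    rintro _ ⟨n, -, rfl⟩
    exact n.2
  set A : Subgroup G := A'.map K.subtype with hAdef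
  have hAH : A ≤ H := (Subgroup.map_mono hA'M).trans hMH
  have hpi : ¬ p ∣ H.index := fun h =>
    hp.out.one_lt.ne' (Nat.eq_one_of_dvd_coprimes hHall hpH h)
  obtain ⟨S, hS⟩ := exists_sylow_le_of_not_dvd_index (p := p) H hpi
  have hAord : ∀ a ∈ A, (orderOf a).Coprime p := by
    rintro _ ⟨a, ha, rfl⟩
    have := (hA'.mem_iff a).mp ha
    rwa [← Subgroup.orderOf_coe] at this
  have hKA : K ≤ Subgroup.normalizer (A : Set G) := by
    intro k hk
    apply mem_normalizer_of_conj_mem
    rintro _ ⟨a, ha, rfl⟩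
    exact ⟨⟨k, hk⟩ * a * ⟨k, hk⟩⁻¹, hA'.1.conj_mem a ha _, rfl⟩
  have hSA : (S : Subgroup G) ≤ Subgroup.normalizer (A : Set G) := by
    intro s hs
    apply mem_normalizer_of_conj_mem
    intro a ha
    obtain ⟨j, hj⟩ := (IsPGroup.iff_orderOf.mp S.isPGroup') ⟨s, hs⟩
    rw [Subgroup.orderOf_mk] at hj
    have hc : Commute s a := by
      apply commute_of_mem_nilpotent H hH (hS hs) (hAH ha)
      rw [hj]
      exact (Nat.Coprime.pow_right j (hAord a ha)).symm
    rw [hc.eq, mul_inv_cancel_right]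
    exact ha
  obtain ⟨P⟩ : Nonempty (Sylow p K) := inferInstance
  have hcompl := hA'.isComplement' P
  have hP1 : IsSylIn p ((P : Subgroup K).map K.subtype) K := IsSylIn.of_sylow K P
  obtain ⟨S2, hS2, hPS2⟩ := exists_isSylIn_ge (p := p) (hP1.le.trans hKA) hP1.isPGroup
  have hSL : IsSylIn p (S : Subgroup G) (Subgroup.normalizer (A : Set G)) :=
    (IsSylIn.of_sylow_top S).mono hSA le_top
  obtain ⟨n, hn, hnS⟩ := hSL.conj hS2
  refine ⟨n, ?_⟩
  intro k hk
  obtain ⟨⟨⟨a, ha⟩, ⟨b, hb⟩⟩, hab⟩ := hcompl.2 ⟨k, hk⟩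
  have hk' : k = (a : G) * (b : G) := by
    have := congrArg Subtype.val hab
    exact this.symm
  rw [hk']
  apply Subgroup.mul_mem
  · have h1 : (a : G) ∈ A := ⟨a, ha, rfl⟩
    have h2 : MulAut.conj n • A = A := mem_normalizer_iff_conj_smul.mp hn
    rw [← h2] at h1
    exact Subgroup.pointwise_smul_le_pointwise_smul_iff.mpr hAH h1
  · have h1 : (b : G) ∈ S2 := hPS2 ⟨b, hb, rfl⟩
    rw [← hnS] at h1
    exact Subgroup.pointwise_smul_le_pointwise_smul_iff.mpr hS h1

theorem aux {G : Type*} [Group G] [Finite G] (H : Subgroup G) (hH : Group.IsNilpotent H)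
    (hHall : (Nat.card H).Coprime H.index) : ∀ (n : ℕ) (K : Subgroup G), Nat.card K = n →
    (∀ p : ℕ, p.Prime → p ∣ Nat.card K → p ∣ Nat.card H) → ∃ x : G, K ≤ MulAut.conj x • H := by
  intro n
  induction n using Nat.strong_induction_on with
  | _ n ih =>
  intro K hKn hK
  by_cases hbot : K = ⊥
  · exact ⟨1, by rw [hbot]; exact bot_le⟩
  haveI : Nontrivial K := (Subgroup.nontrivial_iff_ne_bot K).mpr hbot
  have key : ∀ M : Subgroup K, M ≠ ⊤ → ∃ x : G, M.map K.subtype ≤ MulAut.conj x • H := by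
    intro M hM
    have hcard : Nat.card (M.map K.subtype) = Nat.card M :=
      Subgroup.card_map_of_injective K.subtype_injective
    have hlt : Nat.card M < Nat.card K := by
      have h1 := Subgroup.card_mul_index M
      have h2 : M.index ≠ 1 := fun h => hM (Subgroup.index_eq_one.mp h)
      have h3 : M.index ≠ 0 := Subgroup.index_ne_zero_of_finite
      have h4 : 0 < Nat.card M := Nat.card_pos
      nlinarith [Nat.two_le_iff M.index |>.mpr ⟨h3, h2⟩]
    apply ih (Nat.card M) (hKn ▸ hlt) _ hcard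
    intro p hp hpd
    apply hK p hp
    rw [hcard] at hpd
    exact hpd.trans (Subgroup.card_subgroup_dvd_card M)
  haveI : Group.IsSolvable K := by
    apply Cfsg.Agent.S0046.result
    intro M hM
    obtain ⟨x, hx⟩ := key M hM.1
    exact isNilpotent_of_map_le (isNilpotent_conj hH x) M hx
  obtain ⟨M, hMn, hMp⟩ := exists_normal_prime_index (G := K)
  obtain ⟨x, hx⟩ := key M (fun h => by rw [h, Subgroup.index_top] at hMp; exact Nat.not_prime_one hMp)
  haveI := Fact.mk hMp
  have hc : Nat.card (MulAut.conj x • H : Subgroup G) = Nat.card H := card_conj_smul x H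
  obtain ⟨y, hy⟩ := step (MulAut.conj x • H) K (isNilpotent_conj hH x)
    (by rw [hc, index_conj_smul]; exact hHall) M.index M rfl hx
    (by rw [hc]; exact hK _ hMp (Subgroup.index_dvd_card M))
  refine ⟨y * x, ?_⟩
  rw [conj_mul_smul]
  exact hy

/-- Let H be a nilpotent subgroup of a finite group G whose order is coprime to its index, and K a subgroup every prime divisor of whose order divides the order of H. Then K lies in some conjugate of H. -/
theorem result {G : Type*} [Group G] [Finite G] (H K : Subgroup G) (hH : Group.IsNilpotent H) (hHall : (Nat.card H).Coprime H.index) (hK : ∀ p : ℕ, p.Prime → p ∣ Nat.card K → p ∣ Nat.card H) : ∃ x : G, K ≤ MulAut.conj x • H := by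
  exact aux H hH hHall _ K rfl hK

end Cfsg.Agent.S0581
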