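import Cfsg.Statements.S0087

import Cfsg.Agent.S0581
import Cfsg.Agent.Lib.Helper7_Idx
import Cfsg.Agent.Lib.Helper7_Prim
set_option autoImplicit false
open Cfsg

namespace Cfsg.Agent.S0087

open Pointwise Cfsg.Agent.Lib.Helper4_Syl Cfsg.Agent.Lib.Helper7_Idx Cfsg.Agent.Lib.Helper7_Hall

theorem wielandt_rel {G : Type*} [Group G] [Finite G] (C H K : Subgroup G) (hHC : H ≤ C)
    (hKC : K ≤ C) (hH : Group.IsNilpotent H) (hHall : (Nat.card H).Coprime (H.relIndex C))
    (hK : ∀ p : ℕ, p.Prime → p ∣ Nat.card K → p ∣ Nat.card H) :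
    ∃ c ∈ C, K ≤ MulAut.conj c • H := by
  have e1 : Nat.card (H.subgroupOf C) = Nat.card H :=
    Cfsg.Agent.Lib.Helper1_Basic.card_subgroupOf_of_le hHC
  have e2 : Nat.card (K.subgroupOf C) = Nat.card K :=
    Cfsg.Agent.Lib.Helper1_Basic.card_subgroupOf_of_le hKC
  obtain ⟨c, hc⟩ := Cfsg.Agent.S0581.result (G := C) (H.subgroupOf C) (K.subgroupOf C)
    ((Group.isNilpotent_congr (Subgroup.subgroupOfEquivOfLe hHC)).mpr hH)
    (by rw [e1]; exact hHall) (by rw [e1, e2]; exact hK)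
  refine ⟨c, c.2, ?_⟩
  have := Subgroup.map_mono (f := C.subtype) hc
  rwa [map_subtype_conj_smul, Subgroup.map_subgroupOf_eq_of_le hHC,
    Subgroup.map_subgroupOf_eq_of_le hKC] at this

theorem no_fusion {G : Type*} [Group G] [Finite G] (H : Subgroup G)
    (hHall : Nat.Coprime (Nat.card H) H.index)
    (h : Subgroup.normalizer (H : Set G) ≤ Subgroup.centralizer (H : Set G)) (x : G) (hx : x ∈ H)
    (g₀ : G) (hy : g₀⁻¹ * x * g₀ ∈ H) : g₀⁻¹ * x * g₀ = x := by
  have hcomm : ∀ a ∈ H, ∀ b ∈ H, a * b = b * a := fun a ha b hb =>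
    (Subgroup.mem_centralizer_iff.mp (h (Subgroup.le_normalizer hb)) a ha)
  have hc : IsMulCommutative H := ⟨⟨fun a b => Subtype.ext (hcomm a a.2 b b.2)⟩⟩
  have hnil : Group.IsNilpotent H := by
    open scoped IsMulCommutative in infer_instance
  set y := g₀⁻¹ * x * g₀ with hydef
  set C := Subgroup.centralizer ({y} : Set G) with hC
  have hHC : H ≤ C := by
    intro a ha
    rw [hC, Subgroup.mem_centralizer_singleton_iff]
    exact hcomm a ha y hy
  have hH'C : MulAut.conj g₀⁻¹ • H ≤ C := by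
    intro a ha
    rw [mem_conj_smul] at ha
    rw [hC, Subgroup.mem_centralizer_singleton_iff]
    have h1 := hcomm _ ha x hx
    calc a * y = g₀⁻¹ * ((g₀⁻¹⁻¹ * a * g₀⁻¹) * x) * g₀ := by rw [hydef]; group
      _ = g₀⁻¹ * (x * (g₀⁻¹⁻¹ * a * g₀⁻¹)) * g₀ := by rw [h1]
      _ = y * a := by rw [hydef]; group
  obtain ⟨c, hcC, hle⟩ := wielandt_rel C H (MulAut.conj g₀⁻¹ • H) hHC hH'C hnil
    (Nat.Coprime.coprime_dvd_right (Subgroup.relIndex_dvd_index_of_le hHC) hHall)
    (by rw [card_conj_smul]; exact fun p _ hp => hp)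
  have heq : MulAut.conj g₀⁻¹ • H = MulAut.conj c • H :=
    Subgroup.eq_of_le_of_card_ge hle (by rw [card_conj_smul, card_conj_smul])
  have hn : c⁻¹ * g₀⁻¹ ∈ Subgroup.normalizer (H : Set G) := by
    rw [mem_normalizer_iff_conj_smul, conj_mul_smul, heq, conj_inv_smul_smul]
  have h2 := Subgroup.mem_centralizer_iff.mp (h hn) x hx
  rw [hC, Subgroup.mem_centralizer_singleton_iff] at hcC
  -- `x * (c⁻¹ g₀⁻¹) = (c⁻¹ g₀⁻¹) * x`
  calc y = c * (c⁻¹ * y) := by group
    _ = c * (c⁻¹ * g₀⁻¹ * x) * g₀ := by rw [hydef]; group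
    _ = c * (x * (c⁻¹ * g₀⁻¹)) * g₀ := by rw [h2]
    _ = c * x * c⁻¹ := by group
    _ = x := by
      have h3 : c * y * c⁻¹ = y := by rw [hcC]; group
      have h4 : y = c * x * c⁻¹ := by
        calc y = c * (c⁻¹ * g₀⁻¹ * x) * g₀ := by rw [hydef]; group
          _ = c * (x * (c⁻¹ * g₀⁻¹)) * g₀ := by rw [h2]
          _ = c * x * c⁻¹ := by group
      have h5 : c * y * c⁻¹ = c * (c * x * c⁻¹) * c⁻¹ := by rw [← h4]
      have h6 : c * x * c⁻¹ = c * (c * x * c⁻¹) * c⁻¹ := by rw [← h4, h3]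
      have h7 : x = c * x * c⁻¹ := by
        have := congrArg (fun t => c⁻¹ * t * c) h6
        simpa [mul_assoc] using this
      exact h7.symm

/-- A Hall subgroup that is central in its normalizer has a normal complement. -/
theorem result {G : Type*} [Group G] [Finite G] (H : Subgroup G) (hHall : Nat.Coprime (Nat.card H) H.index) (h : Subgroup.normalizer (H : Set G) ≤ Subgroup.centralizer (H : Set G)) : ∃ N : Subgroup G, N.Normal ∧ N.IsComplement' H := by
  have hcomm : ∀ a ∈ H, ∀ b ∈ H, a * b = b * a := fun a ha b hb =>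
    (Subgroup.mem_centralizer_iff.mp (h (Subgroup.le_normalizer hb)) a ha)
  haveI hc : IsMulCommutative H := ⟨⟨fun a b => Subtype.ext (hcomm a a.2 b b.2)⟩⟩
  open scoped IsMulCommutative in
  let V : G →* H := MonoidHom.transfer (MonoidHom.id H)
  have hV : ∀ x : H, V x = x ^ H.index := by
    intro x
    have key : ∀ (k : ℕ) (g₀ : G), g₀⁻¹ * (x : G) ^ k * g₀ ∈ H →
        g₀⁻¹ * (x : G) ^ k * g₀ = (x : G) ^ k :=
      fun k g₀ hk => no_fusion H hHall h _ (H.pow_mem x.2 k) g₀ hk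
    have := MonoidHom.transfer_eq_pow (MonoidHom.id H) (x : G) key
    apply Subtype.ext
    rw [show V x = _ from this]
    rfl
  refine ⟨V.ker, inferInstance, ?_⟩
  apply Cfsg.Agent.Lib.Helper7_Prim.isComplement'_of_inf_sup
  · rw [eq_bot_iff]
    intro x hx
    have h1 : V x = 1 := hx.1
    have h2 := hV ⟨x, hx.2⟩
    rw [show V ((⟨x, hx.2⟩ : H) : G) = 1 from h1] at h2
    have h3 : orderOf (⟨x, hx.2⟩ : H) ∣ H.index := orderOf_dvd_of_pow_eq_one h2.symm
    have h4 : orderOf (⟨x, hx.2⟩ : H) ∣ Nat.card H := orderOf_dvd_natCard _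
    have h5 := Nat.eq_one_of_dvd_coprimes hHall h4 h3
    rw [orderOf_eq_one_iff] at h5
    exact congrArg Subtype.val h5
  · rw [eq_top_iff]
    intro g _
    obtain ⟨y, hy⟩ := (powCoprime hHall).surjective (V g)
    have hy' : y ^ H.index = V g := hy
    have h1 : V (g * (y : G)⁻¹) = 1 := by
      rw [map_mul, map_inv, hV y, hy', mul_inv_cancel]
    have h2 : g = (g * (y : G)⁻¹) * y := by group
    rw [h2]
    exact Subgroup.mul_mem _ (Subgroup.mem_sup_left h1) (Subgroup.mem_sup_right y.2)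

end Cfsg.Agent.S0087
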