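import Cfsg.Statements.S0089
import Cfsg.Agent.S0088

set_option autoImplicit false
open Cfsg

namespace Cfsg.Agent.S0089

open Subgroup

/-- When all Sylow subgroups are abelian, the derived subgroup meets the centre trivially. -/
theorem result {G : Type*} [Group G] [Finite G] (h : ∀ p : ℕ, p.Prime → ∀ P : Sylow p G, IsMulCommutative P) : commutator G ⊓ Subgroup.center G = ⊥ := by
  by_contra hD
  have hnt : Nontrivial (commutator G ⊓ Subgroup.center G : Subgroup G) :=
    (nontrivial_iff_ne_bot _).mpr hD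
  have hcard : Nat.card (commutator G ⊓ Subgroup.center G : Subgroup G) ≠ 1 := by
    rw [Ne, Nat.card_eq_one_iff_unique]
    rintro ⟨h, _⟩
    exact not_subsingleton _ h
  obtain ⟨p, hp, hpd⟩ := Nat.exists_prime_and_dvd hcard
  have : Fact p.Prime := ⟨hp⟩
  obtain ⟨z, hz⟩ := exists_prime_orderOf_dvd_card' p hpd
  have hzo : orderOf (z : G) = p := by rw [Subgroup.orderOf_coe, hz]
  have hzp : IsPGroup p (zpowers (z : G)) := by
    apply IsPGroup.of_card (n := 1)
    rw [Nat.card_zpowers, hzo, pow_one]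
  obtain ⟨P, hP⟩ := hzp.exists_le_sylow
  have hHall : Nat.Coprime (Nat.card (P : Subgroup G)) (P : Subgroup G).index := by
    obtain ⟨k, hk⟩ := IsPGroup.iff_card.mp P.isPGroup'
    rw [hk]
    exact Nat.Coprime.pow_left k ((Nat.Prime.coprime_iff_not_dvd hp).mpr P.not_dvd_index)
  have h1 := Cfsg.Agent.S0088.result (P : Subgroup G) (h p hp P) hHall
  have h2 : (z : G) ∈ (P : Subgroup G) ⊓ commutator G ⊓ Subgroup.center G :=
    ⟨⟨hP (mem_zpowers _), z.2.1⟩, z.2.2⟩
  rw [h1, mem_bot] at h2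
  rw [h2, orderOf_one] at hzo
  exact hp.one_lt.ne hzo

end Cfsg.Agent.S0089
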