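import Cfsg.Statements.S0091
import Cfsg.Agent.S0074
import Cfsg.Agent.Lib.Helper1_MinNormal

set_option autoImplicit false
open Cfsg

namespace Cfsg.Agent.S0091

open Subgroup Cfsg.Agent.S0074
open scoped commutatorElement

/-- If a nontrivial Sylow p-subgroup controls its own fusion then it is not contained in the derived subgroup. -/
theorem result {G : Type*} [Group G] [Finite G] {p : ℕ} [Fact p.Prime] (P : Sylow p G) (hp : p ∣ Nat.card G) (h : ∀ x ∈ P, ∀ y ∈ P, (∃ g : G, g * x * g⁻¹ = y) → ∃ z ∈ P, z * x * z⁻¹ = y) : ¬ (P : Subgroup G) ≤ commutator G := by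
  intro hle
  have h1 : (P : Subgroup G).focalSubgroup = P := by
    rw [← commutator_inf_eq_focalSubgroup P, inf_eq_right.mpr hle]
  have h2 : (P : Subgroup G).focalSubgroup ≤ ⁅(P : Subgroup G), (P : Subgroup G)⁆ := by
    rw [focalSubgroup_def, closure_le]
    rintro g ⟨hg, x, hx, u, rfl⟩
    obtain ⟨z, hz, hzx⟩ := h x hx _ (conj_mem_of_comm_mem hx hg) ⟨u, rfl⟩
    rw [comm_eq_of_conj_eq hzx]
    exact commutator_mem_commutator hx hz
  have hPbot : (P : Subgroup G) ≠ ⊥ := by
    intro hb
    have h3 : p ^ 1 ∣ Nat.card P := P.pow_dvd_card_of_pow_dvd_card (by simpa using hp)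
    have h4 : Nat.card P = 1 := by
      show Nat.card (P : Subgroup G) = 1
      rw [hb, card_bot]
    rw [h4, pow_one] at h3
    exact (Fact.out : p.Prime).one_lt.ne' (Nat.dvd_one.mp h3)
  have hnil : Group.IsNilpotent (P : Subgroup G) := P.isPGroup'.isNilpotent
  have h5 := Cfsg.Agent.Lib.Helper1_MinNormal.commutator_lt_of_isSolvable hPbot
  rw [h1] at h2
  exact absurd h2 (not_le_of_gt h5)

end Cfsg.Agent.S0091
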