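import Cfsg.Statements.S0093
import Cfsg.Agent.S0013
import Cfsg.Agent.S0065

set_option autoImplicit false
open Cfsg

namespace Cfsg.Agent.S0093

open Subgroup
open scoped commutatorElement

/-- Every finite p-group has a critical subgroup: a characteristic subgroup H whose Frattini subgroup and whose commutator with the whole group lie in the centre of H, and whose centralizer is contained in H. -/
theorem result {P : Type*} [Group P] [Finite P] {p : ℕ} [Fact p.Prime] (hP : IsPGroup p P) : ∃ H : Subgroup P, H.Characteristic ∧ (frattini H).map H.subtype ≤ Subgroup.centralizer (H : Set P) ∧ ⁅H, (⊤ : Subgroup P)⁆ ≤ H ⊓ Subgroup.centralizer (H : Set P) ∧ Subgroup.centralizer (H : Set P) ≤ H := by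
  classical
  -- a maximal characteristic abelian subgroup
  let S : Set (Subgroup P) := {A | A.Characteristic ∧ ∀ x ∈ A, ∀ y ∈ A, x * y = y * x}
  have hS : (⊥ : Subgroup P) ∈ S := by
    refine ⟨inferInstance, ?_⟩
    intro x hx y hy
    rw [Subgroup.mem_bot] at hx hy
    rw [hx, hy]
  obtain ⟨D, hD⟩ := (Set.toFinite S).exists_maximal ⟨⊥, hS⟩
  obtain ⟨hDc, hDab⟩ := hD.prop
  haveI := hDc
  haveI hDn : D.Normal := inferInstance
  set M : Subgroup P := centralizer (D : Set P) with hM
  haveI hMc : M.Characteristic := by rw [hM]; infer_instance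
  let π := QuotientGroup.mk' D
  let Ω : Subgroup (P ⧸ D) :=
    { carrier := {z | z ∈ center (P ⧸ D) ∧ z ^ p = 1}
      one_mem' := ⟨one_mem _, one_pow _⟩
      mul_mem' := by
        rintro a b ⟨ha, ha'⟩ ⟨hb, hb'⟩
        refine ⟨mul_mem ha hb, ?_⟩
        have hc : Commute a b := (Subgroup.mem_center_iff.mp ha b).symm
        rw [hc.mul_pow, ha', hb', one_mul]
      inv_mem' := by
        rintro a ⟨ha, ha'⟩
        exact ⟨inv_mem ha, by rw [inv_pow, ha', inv_one]⟩ }
  set C : Subgroup P := M ⊓ Ω.comap π with hC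
  have memC : ∀ x : P, x ∈ C ↔ x ∈ M ∧ (∀ g : P, ⁅x, g⁆ ∈ D) ∧ x ^ p ∈ D := by
    intro x
    rw [hC, Subgroup.mem_inf, Subgroup.mem_comap]
    refine and_congr Iff.rfl ?_
    change (π x ∈ center (P ⧸ D) ∧ (π x) ^ p = 1) ↔ _
    refine and_congr ?_ ?_
    · rw [Subgroup.mem_center_iff]
      constructor
      · intro h g
        have h1 := h (π g)
        rw [← QuotientGroup.eq_one_iff]
        change π ⁅x, g⁆ = 1
        rw [map_commutatorElement, commutatorElement_eq_one_iff_mul_comm]
        exact h1.symm
      · intro h z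
        obtain ⟨g, rfl⟩ := QuotientGroup.mk'_surjective D z
        have h1 := h g
        rw [← QuotientGroup.eq_one_iff] at h1
        change π ⁅x, g⁆ = 1 at h1
        rw [map_commutatorElement, commutatorElement_eq_one_iff_mul_comm] at h1
        exact h1.symm
    · rw [← map_pow]
      exact QuotientGroup.eq_one_iff _
  have hDM : D ≤ M := by
    intro x hx
    rw [hM, Subgroup.mem_centralizer_iff]
    intro y hy
    exact hDab y hy x hx
  have hDC : D ≤ C := by
    intro x hx
    rw [memC]
    refine ⟨hDM hx, ?_, pow_mem hx p⟩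
    intro g
    rw [commutatorElement_def]
    have h1 : g * x⁻¹ * g⁻¹ ∈ D := hDn.conj_mem _ (inv_mem hx) g
    have h2 : x * g * x⁻¹ * g⁻¹ = x * (g * x⁻¹ * g⁻¹) := by group
    rw [h2]
    exact mul_mem hx h1
  haveI hCc : C.Characteristic := by
    rw [characteristic_iff_le_comap]
    intro φ x hx
    rw [Subgroup.mem_comap]
    rw [memC] at hx ⊢
    obtain ⟨h1, h2, h3⟩ := hx
    have hcharD : ∀ y ∈ D, φ y ∈ D := fun y hy =>
      (characteristic_iff_le_comap.mp hDc φ) hy
    refine ⟨(characteristic_iff_le_comap.mp hMc φ) h1, ?_, ?_⟩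
    · intro g
      have h4 := hcharD _ (h2 (φ.symm g))
      rw [map_commutatorElement] at h4
      simpa using h4
    · have h4 := hcharD _ h3
      rwa [map_pow] at h4
  set K : Subgroup P := centralizer (C : Set P) with hK
  haveI hKc : K.Characteristic := by rw [hK]; infer_instance
  haveI hKn : K.Normal := inferInstance
  have hDK : D ≤ K := by
    rw [hK, Subgroup.le_centralizer_iff]
    exact inf_le_left
  have hCK : C ⊓ K = D := by
    have hmem : C ⊓ K ∈ S := by
      refine ⟨inferInstance, ?_⟩
      intro x hx y hy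
      have := (Subgroup.mem_centralizer_iff.mp hy.2) x hx.1
      exact this
    exact le_antisymm (hD.le_of_ge hmem (le_inf hDC hDK)) (le_inf hDC hDK)
  have hKM : K ≤ M := Subgroup.centralizer_le hDC
  refine ⟨C, hCc, ?_, ?_, ?_⟩
  · -- Frattini
    have hpC : IsPGroup p C := hP.to_subgroup C
    haveI : (D.subgroupOf C).Normal := inferInstance
    have h1 : frattini C ≤ D.subgroupOf C := by
      refine Cfsg.Agent.S0013.result p hpC (D.subgroupOf C) ?_ ?_
      · rw [commutator_def, Subgroup.commutator_le]
        intro x _ y _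
        rw [Subgroup.mem_subgroupOf]
        have := ((memC x).mp x.2).2.1 y
        simpa [commutatorElement_def] using this
      · intro x
        rw [Subgroup.mem_subgroupOf]
        have := ((memC x).mp x.2).2.2
        simpa using this
    calc (frattini C).map C.subtype ≤ (D.subgroupOf C).map C.subtype := Subgroup.map_mono h1
      _ ≤ D := by rw [Subgroup.map_subgroupOf_eq_of_le hDC]
      _ ≤ K := hDK
  · rw [hCK, Subgroup.commutator_le]
    intro x hx g _
    exact ((memC x).mp hx).2.1 g
  · -- self-centralizing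
    suffices h : K ≤ D from h.trans hDC
    by_contra hKD
    have hpQ : IsPGroup p (P ⧸ D) := hP.to_quotient D
    haveI : Group.IsNilpotent (P ⧸ D) := hpQ.isNilpotent
    haveI : (K.map π).Normal := hKn.map π (QuotientGroup.mk'_surjective D)
    have hne : K.map π ≠ ⊥ := by
      intro h
      apply hKD
      intro x hx
      have h1 : π x ∈ K.map π := Subgroup.mem_map_of_mem π hx
      rw [h, Subgroup.mem_bot] at h1
      exact (QuotientGroup.eq_one_iff x).mp h1
    have h2 := Cfsg.Agent.S0065.result (K.map π) hne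
    set L : Subgroup (P ⧸ D) := K.map π ⊓ center (P ⧸ D) with hL
    have hpL : IsPGroup p L := hpQ.to_subgroup L
    have hdvd : p ∣ Nat.card L := by
      rcases hpL.card_eq_or_dvd with h | h
      · exact absurd (Subgroup.card_eq_one.mp h) h2
      · exact h
    obtain ⟨z, hz⟩ := exists_prime_orderOf_dvd_card' p hdvd
    obtain ⟨k, hkK, hkz⟩ := Subgroup.mem_map.mp z.2.1
    have hzp : (z : P ⧸ D) ^ p = 1 := by
      have := pow_orderOf_eq_one z
      rw [hz] at this
      exact_mod_cast congrArg Subtype.val this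
    have hkC : k ∈ C := by
      rw [hC, Subgroup.mem_inf, Subgroup.mem_comap]
      refine ⟨hKM hkK, ?_⟩
      change π k ∈ center (P ⧸ D) ∧ (π k) ^ p = 1
      rw [hkz]
      exact ⟨z.2.2, hzp⟩
    have hkD : k ∈ D := hCK ▸ (⟨hkC, hkK⟩ : k ∈ C ⊓ K)
    have hz1 : (z : P ⧸ D) = 1 := by
      rw [← hkz]
      exact (QuotientGroup.eq_one_iff k).mpr hkD
    have hz1' : z = 1 := Subtype.ext hz1
    rw [hz1', orderOf_one] at hz
    exact (Fact.out : p.Prime).one_lt.ne hz

end Cfsg.Agent.S0093
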