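import Cfsg.Statements.S0094
import Cfsg.Agent.Lib.Helper1_Class2
import Cfsg.Agent.S0012

set_option autoImplicit false
open Cfsg

namespace Cfsg.Agent.S0094

open Subgroup Cfsg.Agent.Lib.Helper1_Class2
open scoped commutatorElement

/-- In a special p-group every central element has order dividing p. -/
theorem result {P : Type*} [Group P] [Finite P] {p : ℕ} [Fact p.Prime] (h : Cfsg.IsSpecial p P) (z : P) (hz : z ∈ Subgroup.center P) : z ^ p = 1 := by
  obtain ⟨hP, hfr, hcom⟩ := h
  have hcl : Cl2 P := cl2_of_commutator_le_center hcom.le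
  have hpow := (Cfsg.Agent.S0012.result p hP).2
  rw [← hcom, commutator_eq_closure] at hz
  have hle : closure (commutatorSet P) ≤ center P := by
    rw [← commutator_eq_closure, hcom]
  induction hz using closure_induction with
  | mem w hw =>
    obtain ⟨x, y, rfl⟩ := hw
    rw [← comm_pow_left hcl, commutatorElement_eq_one_iff_mul_comm]
    have h1 : x ^ p ∈ center P := by rw [← hfr]; exact hpow x
    exact (mem_center_iff.1 h1 y).symm
  | one => simp
  | mul a b ha hb iha ihb =>
    have h1 : Commute a b := (mem_center_iff.1 (hle hb) a)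
    rw [h1.mul_pow, iha, ihb, one_mul]
  | inv a ha iha => rw [inv_pow, iha, inv_one]

end Cfsg.Agent.S0094
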