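import Cfsg.Statements.S0096
import Cfsg.Agent.Lib.Helper1_Class2

set_option autoImplicit false
open Cfsg

namespace Cfsg.Agent.S0096

open Subgroup Cfsg.Agent.Lib.Helper1_Class2
open scoped commutatorElement

/-- For odd p, in a p-group of class at most two the elements of order dividing p generate a subgroup of exponent dividing p. -/
theorem result {P : Type*} [Group P] [Finite P] {p : ℕ} [Fact p.Prime] (hp : p ≠ 2) (hP : IsPGroup p P) (h2 : ⁅commutator P, (⊤ : Subgroup P)⁆ = ⊥) (g : P) (hg : g ∈ Subgroup.closure {x : P | x ^ p = 1}) : g ^ p = 1 := by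
  have hcl : Cl2 P := cl2_of_commutator_eq_bot h2
  have hpp : p.Prime := Fact.out
  induction hg using closure_induction with
  | mem w hw => exact hw
  | one => simp
  | mul a b _ _ iha ihb =>
    rw [mul_pow_prime hcl hpp hp a b (by rw [← comm_pow_left hcl, ihb]; simp), iha, ihb, one_mul]
  | inv a _ iha => rw [inv_pow, iha, inv_one]

end Cfsg.Agent.S0096
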