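import Cfsg.Statements.S0097
import Cfsg.Agent.Lib.Helper1_Class2
import Cfsg.Agent.S0012

set_option autoImplicit false
open Cfsg

namespace Cfsg.Agent.S0097

open Subgroup Cfsg.Agent.Lib.Helper1_Class2
open scoped commutatorElement

/-- For odd p and E extraspecial, the subgroup generated by the elements of order dividing p has exponent dividing p and index at most p. -/
theorem result {E : Type*} [Group E] [Finite E] {p : ℕ} [Fact p.Prime] (hp : p ≠ 2) (h : Cfsg.IsExtraspecial p E) : (Subgroup.closure {x : E | x ^ p = 1}).index ≤ p ∧ ∀ g ∈ Subgroup.closure {x : E | x ^ p = 1}, g ^ p = 1 := by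
  obtain ⟨⟨hP, hfr, hcom⟩, hcard⟩ := h
  have hcl : Cl2 E := cl2_of_commutator_le_center hcom.le
  have hpp : p.Prime := Fact.out
  have hpow := (Cfsg.Agent.S0012.result p hP).2
  have hcp : ∀ x y : E, ⁅y, x⁆ ^ p = 1 := by
    intro x y
    have h1 := pow_card_eq_one' (G := center E) (x := ⟨⁅y, x⁆, hcl y x⟩)
    rw [hcard] at h1
    exact congrArg Subtype.val h1
  have hmul : ∀ x y : E, (x * y) ^ p = x ^ p * y ^ p :=
    fun x y => mul_pow_prime hcl hpp hp x y (hcp x y)
  constructor
  · let φ : E →* center E :=
      { toFun := fun x => ⟨x ^ p, by rw [← hfr]; exact hpow x⟩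
        map_one' := by apply Subtype.ext; simp
        map_mul' := by intro x y; apply Subtype.ext; exact hmul x y }
    have hker : φ.ker ≤ closure {x : E | x ^ p = 1} := by
      intro x hx
      apply Subgroup.subset_closure
      exact congrArg Subtype.val (MonoidHom.mem_ker.1 hx)
    have h1 : (closure {x : E | x ^ p = 1}).index ∣ φ.ker.index := index_dvd_of_le hker
    have h2 : φ.ker.index ≤ p := by
      rw [index_ker, ← hcard]
      exact card_le_card_group _
    exact (Nat.le_of_dvd (Nat.pos_of_ne_zero index_ne_zero_of_finite) h1).trans h2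
  · intro g hg
    induction hg using closure_induction with
    | mem w hw => exact hw
    | one => simp
    | mul a b _ _ iha ihb => rw [hmul, iha, ihb, one_mul]
    | inv a _ iha => rw [inv_pow, iha, inv_one]

end Cfsg.Agent.S0097
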