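import Cfsg.Statements.S0101
import Cfsg.Agent.S0012
import Cfsg.Agent.Lib.Helper7_Class

set_option autoImplicit false
open Cfsg

namespace Cfsg.Agent.S0101

/-- `Z(G) ∩ G' ∩ P ≤ P'` for a Sylow subgroup `P`. -/
theorem center_inf_commutator_le {G : Type*} [Group G] [Finite G] {p : ℕ} [Fact p.Prime]
    (P : Sylow p G) {z : G} (hzc : z ∈ Subgroup.center G) (hzG : z ∈ commutator G)
    (hzP : z ∈ (P : Subgroup G)) : (⟨z, hzP⟩ : (P : Subgroup G)) ∈ commutator (P : Subgroup G) := by
  let ϕ : (P : Subgroup G) →* Abelianization (P : Subgroup G) := Abelianization.of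
  have key : ∀ (k : ℕ) (g₀ : G), g₀⁻¹ * z ^ k * g₀ ∈ (P : Subgroup G) → g₀⁻¹ * z ^ k * g₀ = z ^ k := by
    intro k g₀ _
    have hc : z ^ k ∈ Subgroup.center G := pow_mem hzc k
    have := Subgroup.mem_center_iff.1 hc g₀
    rw [mul_assoc, ← this, inv_mul_cancel_left]
  have h1 := MonoidHom.transfer_eq_pow ϕ z key
  have h2 : MonoidHom.transfer ϕ z = 1 :=
    MonoidHom.mem_ker.1 (Abelianization.commutator_subset_ker _ hzG)
  rw [h2] at h1
  have h3 : (⟨z ^ (P : Subgroup G).index, MonoidHom.transfer_eq_pow_aux z key⟩ : (P : Subgroup G)) ∈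
      commutator (P : Subgroup G) := by
    rw [← Abelianization.ker_of, MonoidHom.mem_ker]
    exact h1.symm
  obtain ⟨k, hk⟩ := P.2 ⟨z, hzP⟩
  have hcop : ((P : Subgroup G).index).Coprime (p ^ k) := by
    apply Nat.Coprime.pow_right
    rw [Nat.coprime_comm, Nat.Prime.coprime_iff_not_dvd Fact.out]
    exact P.not_dvd_index
  apply Cfsg.Agent.Lib.Helper7_Class.mem_of_pow_mem_of_coprime _ _ hcop
  · have : (⟨z, hzP⟩ : (P : Subgroup G)) ^ (P : Subgroup G).index =
        ⟨z ^ (P : Subgroup G).index, MonoidHom.transfer_eq_pow_aux z key⟩ := Subtype.ext (by simp)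
    rw [this]; exact h3
  · rw [hk]; exact one_mem _

/-- In a perfect central extension, the kernel meets each Sylow p-subgroup P inside the Frattini subgroup of P. -/
theorem result {H : Type*} {G : Type*} [Group H] [Group G] [Finite H] (σ : H →* G) (hσ : Function.Surjective σ) (hc : σ.ker ≤ Subgroup.center H) (hH : commutator H = ⊤) {p : ℕ} [Fact p.Prime] (P : Sylow p H) : σ.ker ⊓ (P : Subgroup H) ≤ (frattini P).map (P : Subgroup H).subtype := by
  intro z hz
  obtain ⟨hzk, hzP⟩ := Subgroup.mem_inf.1 hz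
  have h1 := center_inf_commutator_le P (hc hzk) (by rw [hH]; trivial) hzP
  exact ⟨⟨z, hzP⟩, (Cfsg.Agent.S0012.result p P.2).1 h1, rfl⟩

end Cfsg.Agent.S0101
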