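import Cfsg.Statements.S0102
import Cfsg.Agent.S0101

set_option autoImplicit false
open Cfsg

namespace Cfsg.Agent.S0102

/-- A finite perfect group with cyclic Sylow p-subgroups has no perfect central extension whose kernel has order divisible by p. -/
theorem result {G : Type*} {H : Type*} [Group G] [Group H] [Finite G] [Finite H] (hG : commutator G = ⊤) {p : ℕ} [Fact p.Prime] (hcyc : ∀ P : Sylow p G, IsCyclic P) (σ : H →* G) (hσ : Function.Surjective σ) (hz : σ.ker ≤ Subgroup.center H) (hH : commutator H = ⊤) : ¬ p ∣ Nat.card σ.ker := by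
  intro hdvd
  obtain ⟨z, hzz⟩ := exists_prime_orderOf_dvd_card' (G := σ.ker) p hdvd
  have hzo : orderOf (z : H) = p := by rw [Subgroup.orderOf_coe]; exact hzz
  have hpz : IsPGroup p (Subgroup.zpowers (z : H)) := by
    apply IsPGroup.of_card (n := 1)
    rw [Nat.card_zpowers, hzo, pow_one]
  obtain ⟨P, hP⟩ := hpz.exists_le_sylow
  have hzP : (z : H) ∈ (P : Subgroup H) := hP (Subgroup.mem_zpowers _)
  have h1 := Cfsg.Agent.S0101.center_inf_commutator_le P (hz z.2) (by rw [hH]; trivial) hzP
  -- P is abelian
  haveI := hcyc (P.mapSurjective hσ)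
  let f : (P : Subgroup H) →* ((P.mapSurjective hσ : Sylow p G) : Subgroup G) :=
    (σ.comp (P : Subgroup H).subtype).codRestrict _ (fun x => by
      rw [Sylow.coe_mapSurjective]
      exact ⟨x.1, x.2, rfl⟩)
  have hker : f.ker ≤ Subgroup.center (P : Subgroup H) := by
    intro x hx
    rw [MonoidHom.mem_ker] at hx
    have hx' : σ x.1 = 1 := congrArg Subtype.val hx
    have hxc : x.1 ∈ Subgroup.center H := hz (MonoidHom.mem_ker.2 hx')
    rw [Subgroup.mem_center_iff]
    intro y
    exact Subtype.ext (Subgroup.mem_center_iff.1 hxc y.1)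
  have hcomm : IsMulCommutative (P : Subgroup H) :=
    MonoidHom.isMulCommutative_of_isCyclic_of_ker_le_center f hker
  let _ : CommGroup (P : Subgroup H) := { mul_comm := fun a b => mul_comm' a b }
  have h2 := Abelianization.commutator_subset_ker (MonoidHom.id (P : Subgroup H)) h1
  rw [MonoidHom.mem_ker, MonoidHom.id_apply] at h2
  have h3 : (z : H) = 1 := congrArg Subtype.val h2
  rw [h3, orderOf_one] at hzo
  exact (Fact.out : p.Prime).one_lt.ne hzo

end Cfsg.Agent.S0102
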