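import Cfsg.Statements.S0104
import Cfsg.Agent.Lib.Helper4_Control

set_option autoImplicit false

open Cfsg

namespace Cfsg.Agent.S0104

open scoped Pointwise
open Cfsg.Agent.Lib.Helper4_Syl Cfsg.Agent.Lib.Helper4_Alperin Cfsg.Agent.Lib.Helper4_Control

theorem result {G : Type*} [Group G] [Finite G] {p : ℕ} [Fact p.Prime] (P : Sylow p G) (Z : Subgroup G) (hZP : Z ≤ (P : Subgroup G)) (hZN : Subgroup.normalizer (P : Set G) ≤ Subgroup.normalizer (Z : Set G)) : Cfsg.IsWeaklyClosed Z P ↔ ∀ R : Sylow p G, Z ≤ (R : Subgroup G) → (R : Subgroup G) ≤ Subgroup.normalizer (Z : Set G) := by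
  have hPN : (P : Subgroup G) ≤ Subgroup.normalizer (Z : Set G) := Subgroup.le_normalizer.trans hZN
  constructor
  · rintro ⟨-, h⟩ R hZR
    obtain ⟨g, rfl⟩ := MulAction.exists_smul_eq G P R
    have hR : ((g • P : Sylow p G) : Subgroup G) = lc g (P : Subgroup G) := rfl
    rw [hR] at hZR ⊢
    have h1 : lc g⁻¹ Z ≤ (P : Subgroup G) := by rw [lc_le_iff, inv_inv]; exact hZR
    have h2 : lc g⁻¹ Z = Z := h g⁻¹ h1
    have h3 : g ∈ Subgroup.normalizer (Z : Set G) := by
      have := mem_normalizer_iff_lc.2 h2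
      simpa using Subgroup.inv_mem _ this
    calc lc g (P : Subgroup G) ≤ lc g (Subgroup.normalizer (Z : Set G)) := lc_mono g hPN
      _ = Subgroup.normalizer (Z : Set G) := conj_smul_eq_of_mem h3
  · intro h
    refine ⟨hZP, fun g hg => ?_⟩
    have hg' : lc g Z ≤ (P : Subgroup G) := hg
    have hR : ((g⁻¹ • P : Sylow p G) : Subgroup G) = lc g⁻¹ (P : Subgroup G) := rfl
    have h1 : lc g⁻¹ (P : Subgroup G) ≤ Subgroup.normalizer (Z : Set G) := by
      rw [← hR]; apply h; rw [hR]; exact lc_le_iff.1 hg'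
    have hS := IsSylIn.of_sylow_top P
    have hS1 : IsSylIn p (P : Subgroup G) (Subgroup.normalizer (Z : Set G)) := hS.mono hPN le_top
    have hS2 : IsSylIn p (lc g⁻¹ (P : Subgroup G)) (Subgroup.normalizer (Z : Set G)) :=
      (hS.smul_of_mem (Subgroup.mem_top g⁻¹)).mono h1 le_top
    obtain ⟨n, hn, hnP⟩ := hS2.conj hS1
    have hnP' : lc (n * g⁻¹) (P : Subgroup G) = (P : Subgroup G) := by rw [lc_mul]; exact hnP
    have h2 : n * g⁻¹ ∈ Subgroup.normalizer (Z : Set G) := hZN (mem_normalizer_iff_lc.2 hnP')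
    have h3 : g ∈ Subgroup.normalizer (Z : Set G) := by
      have := Subgroup.mul_mem _ (Subgroup.inv_mem _ h2) hn
      simpa using this
    exact mem_normalizer_iff_lc.1 h3

end Cfsg.Agent.S0104
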