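import Cfsg.Statements.S0105
import Cfsg.Agent.Lib.Helper1_AbSylow

set_option autoImplicit false
open Cfsg

namespace Cfsg.Agent.S0105

open Cfsg.Agent.Lib.Helper1_AbSylow Cfsg.Agent.Lib.Helper9_PResidual

/-- With an abelian Sylow p-subgroup P, some quotient of G is isomorphic to the part of P central in N_G(P). -/
theorem result {G : Type*} [Group G] [Finite G] {p : ℕ} [Fact p.Prime] (P : Sylow p G) (hP : IsMulCommutative P) : ∃ (N : Subgroup G) (hN : N.Normal), Nonempty (G ⧸ N ≃* ((P : Subgroup G) ⊓ Subgroup.centralizer (Subgroup.normalizer (P : Set G) : Set G) : Subgroup G)) := by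
  obtain ⟨h1, h2⟩ := decomposition P hP
  rw [← inf_pResidual_eq_commutator P hP] at h1 h2
  have hR : (Cfsg.pResidual p G).Normal := pResidual_normal p G
  refine ⟨Cfsg.pResidual p G, hR, ?_⟩
  set Z : Subgroup G := (P : Subgroup G) ⊓ Subgroup.centralizer (Subgroup.normalizer (P : Set G) : Set G)
    with hZ
  let φ : Z →* G ⧸ Cfsg.pResidual p G := (QuotientGroup.mk' _).comp Z.subtype
  have hinj : Function.Injective φ := by
    rw [injective_iff_map_eq_one]
    intro z hz
    have hz' : (z : G) ∈ Cfsg.pResidual p G := (QuotientGroup.eq_one_iff _).1 hz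
    have h3 : (z : G) ∈ ((P : Subgroup G) ⊓ Cfsg.pResidual p G) ⊓ Z :=
      Subgroup.mem_inf.2 ⟨Subgroup.mem_inf.2 ⟨(Subgroup.mem_inf.1 z.2).1, hz'⟩, z.2⟩
    rw [h1, Subgroup.mem_bot] at h3
    exact Subtype.ext h3
  have hsup : Cfsg.pResidual p G ⊔ Z = ⊤ := by
    rw [eq_top_iff, ← pResidual_sup_sylow P]
    apply sup_le le_sup_left
    conv_lhs => rw [← h2]
    exact sup_le (inf_le_right.trans le_sup_left) le_sup_right
  have hsurj : Function.Surjective φ := by
    intro x
    obtain ⟨g, rfl⟩ := QuotientGroup.mk'_surjective _ x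
    have hg : g ∈ ((Cfsg.pResidual p G ⊔ Z : Subgroup G) : Set G) := by rw [hsup]; trivial
    rw [Subgroup.normal_mul] at hg
    obtain ⟨r, hr, z, hz, rfl⟩ := Set.mem_mul.1 hg
    refine ⟨⟨z, hz⟩, ?_⟩
    show (QuotientGroup.mk' (Cfsg.pResidual p G)) z = (QuotientGroup.mk' (Cfsg.pResidual p G)) (r * z)
    have hr1 : (QuotientGroup.mk' (Cfsg.pResidual p G)) r = 1 := (QuotientGroup.eq_one_iff r).2 hr
    rw [map_mul, hr1, one_mul]
  exact ⟨(MulEquiv.ofBijective φ ⟨hinj, hsurj⟩).symm⟩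

end Cfsg.Agent.S0105
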