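import Cfsg.Statements.S0110
import Cfsg.Agent.Lib.Helper1_HomCount
import Cfsg.Agent.Lib.Helper1_Coprime
import Cfsg.Agent.Lib.Helper1_Comm2

set_option autoImplicit false
open Cfsg

namespace Cfsg.Agent.S0110

open Subgroup Cfsg.Agent.Lib.Helper1_HomCount

/-- In a p-group G, an extraspecial subgroup E with [G, E] ≤ Z(E) satisfies G = E C_G(E). -/
theorem result {G : Type*} [Group G] [Finite G] {p : ℕ} [Fact p.Prime] (hG : IsPGroup p G) (E : Subgroup G) (hE : Cfsg.IsExtraspecial p E) (h : ⁅(⊤ : Subgroup G), E⁆ ≤ E ⊓ Subgroup.centralizer (E : Set G)) : E ⊔ Subgroup.centralizer (E : Set G) = ⊤ := by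
  obtain ⟨⟨hP, hfr, hcom⟩, hcard⟩ := hE
  have hpp : p.Prime := Fact.out
  set C := centralizer (E : Set G) with hC
  have hmem : ∀ (g : G) (e : E), g * e * g⁻¹ * (e : G)⁻¹ ∈ E ⊓ C := by
    intro g e
    apply h
    have := commutator_mem_commutator (mem_top g) e.2
    rwa [commutatorElement_def] at this
  have hcen : ∀ (x : G) (hx : x ∈ E ⊓ C), (⟨x, (Subgroup.mem_inf.1 hx).1⟩ : E) ∈ center E := by
    intro x hx
    rw [mem_center_iff]
    intro e
    apply Subtype.ext
    exact (mem_centralizer_iff.1 (Subgroup.mem_inf.1 hx).2) e.1 e.2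
  let ψ : G → (E →* center E) := fun g =>
    { toFun := fun e => ⟨⟨g * e * g⁻¹ * (e : G)⁻¹, (Subgroup.mem_inf.1 (hmem g e)).1⟩, hcen _ (hmem g e)⟩
      map_one' := by
        apply Subtype.ext; apply Subtype.ext; simp
      map_mul' := by
        intro e1 e2
        apply Subtype.ext; apply Subtype.ext
        have h1 := (mem_centralizer_iff.1 (Subgroup.mem_inf.1 (hmem g e2)).2) e1.1 e1.2
        show g * (e1.1 * e2.1) * g⁻¹ * (e1.1 * e2.1)⁻¹ =
          (g * e1.1 * g⁻¹ * e1.1⁻¹) * (g * e2.1 * g⁻¹ * e2.1⁻¹)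
        calc g * (e1.1 * e2.1) * g⁻¹ * (e1.1 * e2.1)⁻¹
            = g * e1.1 * g⁻¹ * ((g * e2.1 * g⁻¹ * e2.1⁻¹) * e1.1⁻¹) := by group
          _ = g * e1.1 * g⁻¹ * (e1.1⁻¹ * (e1.1 * (g * e2.1 * g⁻¹ * e2.1⁻¹)) * e1.1⁻¹) := by group
          _ = g * e1.1 * g⁻¹ * (e1.1⁻¹ * ((g * e2.1 * g⁻¹ * e2.1⁻¹) * e1.1) * e1.1⁻¹) := by rw [h1]
          _ = _ := by group }
  have hψ : ∀ g k : G, ψ g = ψ k → g⁻¹ * k ∈ C := by
    intro g k hgk
    rw [hC, mem_centralizer_iff]
    intro e he
    have h1 := congrArg (fun f : E →* center E => ((f ⟨e, he⟩ : center E) : E).1) hgk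
    have h2 : g * e * g⁻¹ * e⁻¹ = k * e * k⁻¹ * e⁻¹ := h1
    have h3 : g * e * g⁻¹ = k * e * k⁻¹ := mul_right_cancel h2
    calc e * (g⁻¹ * k) = g⁻¹ * (g * e * g⁻¹) * k := by group
      _ = g⁻¹ * (k * e * k⁻¹) * k := by rw [h3]
      _ = g⁻¹ * k * e := by group
  have hfin : Finite (E →* center E) := by
    apply Finite.of_injective (fun f : E →* center E => (f : E → center E))
    exact DFunLike.coe_injective
  have h1 : C.index ≤ Nat.card (E →* center E) := by
    apply Nat.card_le_card_of_injective (fun q : G ⧸ C => ψ q.out)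
    intro q q' hq
    have := hψ _ _ hq
    rw [← QuotientGroup.eq, QuotientGroup.out_eq', QuotientGroup.out_eq'] at this
    exact this
  have h2 : Nat.card (E →* center E) ≤ (center E).index := by
    have h0 := card_hom_le' (X := E) (C := center E)
      (fun a b => Subtype.ext (mem_center_iff.1 b.2 a.1)) (by rw [hcard]; exact hpp)
    rwa [hcom] at h0
  have hEC : E ≤ normalizer (C : Set G) :=
    (le_centralizer_iff.1 (le_refl C)).trans (Cfsg.Agent.Lib.Helper1_Comm2.centralizer_le_normalizer' C)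
  have h3 : C.relIndex (E ⊔ C) = (center E).index := by
    rw [Cfsg.Agent.Lib.Helper1_Coprime.relIndex_sup_right_of_le_normalizer hEC, relIndex]
    congr 1
    ext x
    rw [mem_subgroupOf, mem_center_iff, hC, mem_centralizer_iff]
    constructor
    · intro hx e
      exact Subtype.ext (hx e.1 e.2)
    · intro hx e he
      exact congrArg Subtype.val (hx ⟨e, he⟩)
  have h4 := relIndex_mul_index (le_sup_right : C ≤ E ⊔ C)
  rw [h3] at h4
  rw [← index_eq_one]
  have h5 : (center E).index ≠ 0 := index_ne_zero_of_finite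
  have h6 : (E ⊔ C).index ≠ 0 := index_ne_zero_of_finite
  have h7 : (center E).index * (E ⊔ C).index ≤ (center E).index * 1 := by
    rw [h4, mul_one]; exact h1.trans h2
  have h8 := Nat.le_of_mul_le_mul_left h7 (Nat.pos_of_ne_zero h5)
  omega

end Cfsg.Agent.S0110
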