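import Cfsg.Statements.S0111
import Cfsg.Agent.Lib.Helper1_Invol

set_option autoImplicit false
open Cfsg

namespace Cfsg.Agent.S0111

open Cfsg.Agent.Lib.Helper1_Invol

/-- a fixed-point-free involution on a set of size `2 * odd` is an odd permutation -/
theorem sign_fpf {X : Type*} [Fintype X] [DecidableEq X] (σ : Equiv.Perm X) (h2 : σ * σ = 1)
    (hfpf : ∀ x, σ x ≠ x) {k : ℕ} (hk : Fintype.card X = 2 * k) (hodd : Odd k) :
    Equiv.Perm.sign σ = -1 := by
  have hne : σ ≠ 1 := by
    rintro rfl
    have hpos : 0 < Fintype.card X := by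
      rw [hk]; obtain ⟨j, rfl⟩ := hodd; omega
    obtain ⟨x⟩ := Fintype.card_pos_iff.1 hpos
    exact hfpf x rfl
  have ho : orderOf σ = 2 := orderOf_eq_two hne h2
  obtain ⟨n, hn⟩ := Equiv.Perm.cycleType_prime_order (σ := σ) (by rw [ho]; exact Nat.prime_two)
  rw [ho] at hn
  have hsum := Equiv.Perm.sum_cycleType σ
  have hsupp : σ.support = Finset.univ := by
    ext x
    simp [hfpf x]
  rw [hn, hsupp, Finset.card_univ, hk, Multiset.sum_replicate, smul_eq_mul, mul_comm] at hsum
  have hnk : n + 1 = k := by omega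
  rw [Equiv.Perm.sign_of_cycleType, hn, Multiset.sum_replicate, Multiset.card_replicate, hnk,
    smul_eq_mul]
  have : Odd (k * 2 + k) := by
    obtain ⟨j, rfl⟩ := hodd
    exact ⟨3 * j + 1, by ring⟩
  exact this.neg_one_pow

/-- The Thompson transfer lemma states that an involution of a Sylow 2-subgroup P lying outside a subgroup Q of index 2 in P either lies outside some normal subgroup of index 2 in G or is conjugate to an element of Q. -/
theorem result {G : Type*} [Group G] [Finite G] (P : Sylow 2 G) (Q : Subgroup G) (hQP : Q ≤ (P : Subgroup G)) (hQi : Q.relIndex (P : Subgroup G) = 2) (u : G) (hu : orderOf u = 2) (huP : u ∈ (P : Subgroup G)) (huQ : u ∉ Q) : (∃ M : Subgroup G, M.Normal ∧ M.index = 2 ∧ u ∉ M) ∨ ∃ g : G, g * u * g⁻¹ ∈ Q := by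
  classical
  by_contra hcon
  push Not at hcon
  obtain ⟨hM, hg⟩ := hcon
  haveI := Fintype.ofFinite (G ⧸ Q)
  let π := MulAction.toPermHom G (G ⧸ Q)
  let s : G →* ℤˣ := Equiv.Perm.sign.comp π
  have hu2 := mul_self_of_order hu
  have hcard : Fintype.card (G ⧸ Q) = 2 * (P : Subgroup G).index := by
    rw [← Nat.card_eq_fintype_card]
    show Q.index = _
    rw [← Subgroup.relIndex_mul_index hQP, hQi]
  have hodd : Odd (P : Subgroup G).index := by
    haveI : Fact (Nat.Prime 2) := ⟨Nat.prime_two⟩
    rw [← Nat.not_even_iff_odd, even_iff_two_dvd]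
    exact P.not_dvd_index
  have hsu : s u = -1 := by
    apply sign_fpf (π u) _ _ hcard hodd
    · rw [← map_mul, hu2, map_one]
    · intro x
      induction x using QuotientGroup.induction_on with
      | H g =>
        intro h
        have h1 : u • (QuotientGroup.mk g : G ⧸ Q) = QuotientGroup.mk g := h
        rw [MulAction.Quotient.smul_mk, eq_comm, QuotientGroup.eq, smul_eq_mul] at h1
        apply hg g⁻¹
        rw [inv_inv, mul_assoc]
        exact h1
  have hmem := hM s.ker inferInstance ?_
  · rw [MonoidHom.mem_ker, hsu] at hmem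
    exact absurd hmem (by decide)
  · rw [Subgroup.index_ker]
    have : s.range = ⊤ := by
      rw [eq_top_iff]
      intro z _
      rcases Int.units_eq_one_or z with rfl | rfl
      · exact one_mem _
      · exact ⟨u, hsu⟩
    rw [this, Subgroup.card_top, Nat.card_eq_fintype_card, Fintype.card_units_int]

end Cfsg.Agent.S0111
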