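import Mathlib
import Cfsg.Agent.Lib.helper6_MaxClass2
import Cfsg.Statements.S0114

set_option autoImplicit false
open Cfsg

namespace Cfsg.Agent.S0114

open Subgroup Cfsg.Agent.Lib

/-- The central quotient of a 2-group of maximal class is dihedral. -/
theorem result {X : Type*} [Group X] [Finite X] (n : ℕ) (hn : 3 ≤ n) (hX : Nat.card X = 2 ^ n) (hc : Group.nilpotencyClass X = n - 1) : Nonempty (X ⧸ Subgroup.center X ≃* DihedralGroup (2 ^ (n - 2))) := by
  obtain ⟨k, rfl⟩ : ∃ k, n = k+3 := ⟨n-3, by omega⟩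
  have e2 : k + 3 - 2 = k + 1 := by omega
  rw [e2]
  have hZcard := helper6_MaxClass2.center_card2 k hX (by omega)
  obtain ⟨a, b, ha, hb, hidx, hcases⟩ := helper6_MaxClass2.struct k hX (by omega)
  obtain ⟨r, hodd, hrel, hdiv⟩ : ∃ r : ℤ, Odd r ∧ b*a*b⁻¹ = a^r ∧ ((2^(k+1) : ℕ) : ℤ) ∣ r + 1 := by
    rcases hcases with ⟨-, hba⟩ | ⟨-, hba⟩ | ⟨hk, -, hba⟩
    · exact ⟨-1, by decide, by rw [hba]; simp, by simp⟩
    · exact ⟨-1, by decide, by rw [hba]; simp, by simp⟩
    · refine ⟨((2^(k+1) - 1 : ℕ) : ℤ), ?_, by rw [hba, zpow_natCast], ?_⟩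
      · rw [Nat.cast_sub Nat.one_le_two_pow]
        refine ⟨2^k - 1, ?_⟩
        push_cast; ring
      · rw [Nat.cast_sub Nat.one_le_two_pow]
        simp
  have hb2 : b^2 = 1 ∨ b^2 = a^(2^(k+1)) := by
    rcases hcases with ⟨h, -⟩ | ⟨h, -⟩ | ⟨-, h, -⟩
    · exact Or.inl h
    · exact Or.inr h
    · exact Or.inl h
  obtain ⟨z, hz⟩ : ∃ z : X, z = a^(2^(k+1)) := ⟨_, rfl⟩
  have hz2 : z^2 = 1 := by
    rw [hz, ← pow_mul, ← pow_succ, ← ha, pow_orderOf_eq_one]
  have hzr : z^r = z := by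
    obtain ⟨s, rfl⟩ := hodd
    rw [zpow_add, zpow_mul, zpow_ofNat, hz2, one_zpow, one_mul, zpow_one]
  have hzb : Commute z b := by
    have h1 : b * z * b⁻¹ = z := by
      rw [hz, ← conj_pow, hrel, ← zpow_natCast, ← zpow_mul, mul_comm, zpow_mul, zpow_natCast, ← hz, hzr]
    exact (mul_inv_eq_iff_eq_mul.1 h1).symm
  have hza : Commute z a := by rw [hz]; exact (Commute.refl a).pow_left _
  have hzZ : z ∈ center X := helper6_MaxClass2.central_of a b hidx hb z hza hzb
  have hz1 : z ≠ 1 := by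
    intro h
    rw [hz] at h
    have h2 := orderOf_dvd_of_pow_eq_one h
    rw [ha] at h2
    have h3 := Nat.le_of_dvd (by positivity) h2
    have h4 : 2^(k+2) = 2 * 2^(k+1) := by ring
    have h5 : 0 < 2^(k+1) := by positivity
    omega
  have hZeq : zpowers z = center X := by
    apply eq_of_le_of_card_ge (by rw [zpowers_le]; exact hzZ)
    rw [hZcard, Nat.card_zpowers, orderOf_eq_prime hz2 hz1]
  have hZle : center X ≤ zpowers a := by
    rw [← hZeq, zpowers_le, hz]
    exact pow_mem (mem_zpowers a) _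
  have hZ2 : ∀ w ∈ center X, w^2 = 1 := by
    intro w hw
    have h1 : (⟨w, hw⟩ : center X)^(Nat.card (center X)) = 1 := pow_card_eq_one'
    rw [hZcard] at h1
    exact congrArg Subtype.val h1
  obtain ⟨π, hπ⟩ : ∃ π : X →* X ⧸ center X, π = QuotientGroup.mk' (center X) := ⟨_, rfl⟩
  have hπ1 : ∀ x, π x = 1 ↔ x ∈ center X := fun x => by rw [hπ]; exact QuotientGroup.eq_one_iff x
  have hao : orderOf (π a) = 2^(k+1) := by
    apply orderOf_eq_prime_pow
    · rw [← map_pow, hπ1]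
      intro h
      apply hz1
      rw [hz, pow_succ, pow_mul]
      exact hZ2 _ h
    · rw [← map_pow, hπ1, ← hz]; exact hzZ
  have hbn : π b ∉ zpowers (π a) := by
    intro h
    obtain ⟨i, hi⟩ := mem_zpowers_iff.1 h
    have h1 : (a^i)⁻¹ * b ∈ center X := by
      rw [← hπ1, map_mul, map_inv, map_zpow, hi, inv_mul_cancel]
    have h2 := (zpowers a).mul_mem (zpow_mem (mem_zpowers a) i) (hZle h1)
    rw [mul_inv_cancel_left] at h2
    exact hb h2
  have hb2' : (π b)^2 = 1 := by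
    rw [← map_pow, hπ1]
    rcases hb2 with h | h
    · rw [h]; exact one_mem _
    · rw [h, ← hz]; exact hzZ
  have hba' : π b * π a * (π b)⁻¹ = (π a)⁻¹ := by
    rw [← map_inv, ← map_mul, ← map_mul, hrel, map_zpow]
    have h1 : (π a)^(r + 1) = 1 := by
      rw [← orderOf_dvd_iff_zpow_eq_one, hao]; exact hdiv
    rw [zpow_add, zpow_one] at h1
    exact eq_inv_of_mul_eq_one_left h1
  have hcard : Nat.card (X ⧸ center X) = 2 * 2^(k+1) := by
    have h2 := card_eq_card_quotient_mul_card_subgroup (center X)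
    rw [hX, hZcard] at h2
    have h3 : 2^(k+3) = (2 * 2^(k+1)) * 2 := by ring
    omega
  exact helper6_MaxClass2.dihedral_of (2^(k+1)) (π a) (π b) hcard hao hbn hb2' hba'

end Cfsg.Agent.S0114
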