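import Mathlib
import Cfsg.Agent.Lib.helper6_MaxClass2
import Cfsg.Agent.Lib.helper6_Taussky
import Cfsg.Statements.S0115

set_option autoImplicit false
open Cfsg

namespace Cfsg.Agent.S0115

open Subgroup Cfsg.Agent.Lib
open scoped commutatorElement

/-- A 2-group of order 2^n, n ≥ 3, is of maximal class exactly when its commutator quotient is a Klein four-group. -/
theorem result {X : Type*} [Group X] [Finite X] (n : ℕ) (hn : 3 ≤ n) (hX : Nat.card X = 2 ^ n) : Group.nilpotencyClass X = n - 1 ↔ IsKleinFour (X ⧸ commutator X) := by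
  obtain ⟨k, rfl⟩ : ∃ k, n = k+3 := ⟨n-3, by omega⟩
  constructor
  · intro hc
    have hZcard := helper6_MaxClass2.center_card2 k hX (by omega)
    obtain ⟨a, b, ha, hb, hidx, hcases⟩ := helper6_MaxClass2.struct k hX (by omega)
    have hPX : IsPGroup 2 X := IsPGroup.of_card hX
    haveI : Group.IsNilpotent X := hPX.isNilpotent
    have hna : ∃ x y : X, x * y ≠ y * x := by
      by_contra hcon
      push Not at hcon
      have := Group.IsNilpotent.nilpotencyClass_le_one_iff.2 (⟨⟨hcon⟩⟩ : IsMulCommutative X)
      omega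
    have hMcomm : ∀ u ∈ zpowers a, ∀ v ∈ zpowers a, u * v = v * u := by
      intro u hu v hv
      obtain ⟨i, rfl⟩ := mem_zpowers_iff.1 hu
      obtain ⟨j, rfl⟩ := mem_zpowers_iff.1 hv
      exact ((Commute.refl a).zpow_zpow i j).eq
    have hL1 := helper6_Taussky.card_abelian_max (zpowers a) hidx hMcomm hna
    rw [Nat.card_zpowers, ha, hZcard, pow_succ 2 (k+1)] at hL1
    have hX'card : Nat.card (commutator X) = 2^(k+1) :=
      (Nat.eq_of_mul_eq_mul_right (by norm_num) hL1).symm
    have hi : (commutator X).index = 4 := by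
      have h1 := (commutator X).card_mul_index
      rw [hX'card, hX, show 2^(k+3) = 2^(k+1) * 4 by ring] at h1
      exact Nat.eq_of_mul_eq_mul_left (by positivity) h1
    have hcomm_mem : ∀ g h : X, ⁅g, h⁆ ∈ commutator X := by
      intro g h
      rw [_root_.commutator_def]
      exact commutator_mem_commutator (mem_top g) (mem_top h)
    have ha4 : a^4 ∈ commutator X := by
      have := (commutator X).pow_index_mem a
      rwa [hi] at this
    have ha2 : a^2 ∈ commutator X := by
      have h0 := hcomm_mem b a
      rw [commutatorElement_def] at h0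
      rcases hcases with ⟨-, hba⟩ | ⟨-, hba⟩ | ⟨hk, -, hba⟩
      · rw [hba] at h0
        have := inv_mem h0
        convert this using 1
        group
      · rw [hba] at h0
        have := inv_mem h0
        convert this using 1
        group
      · rw [hba] at h0
        obtain ⟨k', rfl⟩ : ∃ k', k = k' + 1 := ⟨k - 1, by omega⟩
        have h1 : a^(2^(k'+1+1)) ∈ commutator X := by
          rw [show 2^(k'+1+1) = 4 * 2^k' by ring, pow_mul]
          exact pow_mem ha4 _
        have h2 := (commutator X).mul_mem (inv_mem h0) h1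
        convert h2 using 1
        have h3 : a^(2^(k'+1+1)) = a^(2^(k'+1+1) - 1) * a := by
          rw [← pow_succ, Nat.sub_add_cancel Nat.one_le_two_pow]
        rw [h3]
        group
    have ha2z : ∀ i : ℤ, a^(2 * i) ∈ commutator X := by
      intro i
      rw [zpow_mul, zpow_ofNat]
      exact zpow_mem ha2 i
    obtain ⟨r, hodd, hrel⟩ : ∃ r : ℤ, Odd r ∧ b*a*b⁻¹ = a^r := by
      rcases hcases with ⟨-, hba⟩ | ⟨-, hba⟩ | ⟨hk, -, hba⟩
      · exact ⟨-1, by decide, by rw [hba]; simp⟩
      · exact ⟨-1, by decide, by rw [hba]; simp⟩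
      · refine ⟨((2^(k+1) - 1 : ℕ) : ℤ), ?_, by rw [hba, zpow_natCast]⟩
        rw [Nat.cast_sub Nat.one_le_two_pow]
        refine ⟨2^k - 1, ?_⟩
        push_cast; ring
    have hb2 : b^2 ∈ commutator X := by
      rcases hcases with ⟨h, -⟩ | ⟨h, -⟩ | ⟨-, h, -⟩
      · rw [h]; exact one_mem _
      · rw [h, pow_succ 2 k, mul_comm, pow_mul]; exact pow_mem ha2 _
      · rw [h]; exact one_mem _
    have hsq : ∀ g : X, g^2 ∈ commutator X := by
      intro g
      obtain ⟨i, rfl | rfl⟩ := helper6_MaxClass2.gen a b hidx hb g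
      · have := ha2z i
        rwa [mul_comm, zpow_mul, zpow_ofNat] at this
      · obtain ⟨s, rfl⟩ := hodd
        have h1 : b * a^i * b⁻¹ = a^((2 * s + 1) * i) := by
          rw [← conj_zpow, hrel, zpow_mul]
        have h2 : (b * a^i)^2 = a^((2 * s + 1) * i) * b^2 * a^i := by
          rw [← h1, pow_two, pow_two]; group
        rw [h2]
        have h3 : a^((2 * s + 1) * i) * b^2 * a^i
            = (a^((2 * s + 1) * i) * b^2 * (a^((2 * s + 1) * i))⁻¹) * a^(2 * ((s + 1) * i)) := by
          have : a^(2 * ((s + 1) * i)) = a^((2 * s + 1) * i) * a^i := by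
            rw [← zpow_add]; congr 1; ring
          rw [this]; group
        rw [h3]
        haveI : (commutator X).Normal := inferInstance
        exact (commutator X).mul_mem (Normal.conj_mem inferInstance _ hb2 _) (ha2z _)
    have hcard : Nat.card (X ⧸ commutator X) = 4 := by rw [← index_eq_card]; exact hi
    haveI : Nontrivial (X ⧸ commutator X) := by
      rw [← Finite.one_lt_card_iff_nontrivial, hcard]; norm_num
    refine ⟨hcard, ?_⟩
    rw [Monoid.exponent_eq_prime_iff Nat.prime_two]
    intro y hy
    obtain ⟨g, rfl⟩ := QuotientGroup.mk'_surjective (commutator X) y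
    apply orderOf_eq_prime _ hy
    rw [← map_pow]
    exact (QuotientGroup.eq_one_iff _).2 (hsq g)
  · intro hK
    have hi : (commutator X).index = 4 := by
      rw [index_eq_card]; exact hK.card_four
    have := helper6_Taussky.taussky (k+1) X (hX.trans (by ring)) hi
    omega

end Cfsg.Agent.S0115
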