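import Cfsg.Statements.S0116
import Cfsg.Agent.Lib.Helper4_Alperin2

set_option autoImplicit false

open Cfsg

namespace Cfsg.Agent.S0116

open scoped Pointwise
open Cfsg.Agent.Lib.Helper4_Syl Cfsg.Agent.Lib.Helper4_Alperin Cfsg.Agent.Lib.Helper4_Control
  Cfsg.Agent.Lib.Helper4_Alperin2

theorem result {G : Type*} [Group G] [Finite G] {p : ℕ} [Fact p.Prime] (P : Sylow p G) (A : Set G) (g : G) (hA : A ⊆ (P : Set G)) (hAg : (fun a => g⁻¹ * a * g) '' A ⊆ (P : Set G)) : ∃ (n : ℕ) (Q : Fin n → Sylow p G) (x : Fin n → G), (List.ofFn x).prod = g ∧ (∀ i : Fin n, x i ∈ Subgroup.normalizer ((((P : Subgroup G) ⊓ (Q i : Subgroup G)) : Subgroup G) : Set G) ∧ ¬ p ∣ ((P : Subgroup G) ⊓ Subgroup.normalizer ((((P : Subgroup G) ⊓ (Q i : Subgroup G)) : Subgroup G) : Set G)).relIndex (Subgroup.normalizer ((((P : Subgroup G) ⊓ (Q i : Subgroup G)) : Subgroup G) : Set G)) ∧ ¬ p ∣ ((Q i : Subgroup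 G) ⊓ Subgroup.normalizer ((((P : Subgroup G) ⊓ (Q i : Subgroup G)) : Subgroup G) : Set G)).relIndex (Subgroup.normalizer ((((P : Subgroup G) ⊓ (Q i : Subgroup G)) : Subgroup G) : Set G))) ∧ (∀ h : 0 < n, A ⊆ (((P : Subgroup G) ⊓ (Q ⟨0, h⟩ : Subgroup G) : Subgroup G) : Set G)) ∧ ∀ i : Fin n, ∀ h : i.val + 1 < n, (fun a => (((List.ofFn x).take (i.val + 1)).prod)⁻¹ * a * ((List.ofFn x).take (i.val + 1)).prod) '' A ⊆ (((P : Subgroup G) ⊓ (Q ⟨i.val + 1, h⟩ : Subgroup G) : Subgroup G) : Set G) := by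
  have h1 := alperin_tame P (Subgroup.closure A) g ((Subgroup.closure_le _).2 hA)
    (cj_closure_le_iff.2 hAg)
  obtain ⟨n, T, x, hprod, hT, hx, h0, hstep⟩ := h1.explicit
  choose Q hQ1 hQ2 hQ3 hQ4 using hT
  refine ⟨n, Q, x, hprod, fun i => ?_, fun hn => ?_, fun i hi => ?_⟩
  · rw [← hQ1 i]
    exact ⟨hx i, (fn_iff_relIndex P.2).1 (hQ2 i), (fn_iff_relIndex (Q i).2).1 (hQ3 i)⟩
  · rw [← hQ1]
    exact (Subgroup.closure_le _).1 (h0 hn)
  · rw [← hQ1]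
    exact cj_closure_le_iff.1 (hstep i hi)

end Cfsg.Agent.S0116
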