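import Cfsg.Statements.S0121


set_option autoImplicit false
open Cfsg

namespace Cfsg.Agent.S0121

/-- A p'-automorphism of a p-group acting trivially on a critical subgroup is trivial. -/
theorem result {G : Type*} [Group G] [Finite G] {p : ℕ} [Fact p.Prime] (hG : IsPGroup p G) (H : Subgroup G) (hH : H.Characteristic) (h1 : (frattini H).map H.subtype ≤ Subgroup.centralizer (H : Set G)) (h2 : ⁅H, (⊤ : Subgroup G)⁆ ≤ H ⊓ Subgroup.centralizer (H : Set G)) (h3 : Subgroup.centralizer (H : Set G) ≤ H) (a : MulAut G) (ha : Nat.Coprime (orderOf a) p) (h : ∀ x ∈ H, a x = x) : a = 1 := by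
  have hHn : H.Normal := inferInstance
  ext g
  show a g = g
  -- c = g⁻¹ * a g centralizes H
  set c := g⁻¹ * a g with hc
  have hcC : c ∈ Subgroup.centralizer (H : Set G) := by
    rw [Subgroup.mem_centralizer_iff]
    intro x hx
    have h4 : a (g * x * g⁻¹) = g * x * g⁻¹ := h _ (hHn.conj_mem x hx g)
    rw [map_mul, map_mul, map_inv, h x hx] at h4
    -- a g * x * (a g)⁻¹ = g * x * g⁻¹
    calc x * c = g⁻¹ * (g * x * g⁻¹) * a g := by rw [hc]; group
      _ = g⁻¹ * (a g * x * (a g)⁻¹) * a g := by rw [h4]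
      _ = c * x := by rw [hc]; group
  have hcH : c ∈ H := h3 hcC
  have hac : a c = c := h c hcH
  have hag : a g = g * c := by rw [hc]; group
  have hpow : ∀ k : ℕ, (a ^ k) g = g * c ^ k := by
    intro k
    induction k with
    | zero => simp
    | succ k ih =>
      rw [pow_succ', MulAut.mul_apply, ih, map_mul, map_pow, hac, hag, pow_succ', mul_assoc]
  have h5 := hpow (orderOf a)
  rw [pow_orderOf_eq_one, MulAut.one_apply] at h5
  have h6 : c ^ orderOf a = 1 := by
    have := h5.symm
    exact mul_eq_left.1 this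
  obtain ⟨k, hk⟩ := hG c
  have h7 : c ^ Nat.gcd (orderOf a) (p ^ k) = 1 := pow_gcd_eq_one.2 ⟨h6, hk⟩
  rw [Nat.Coprime.pow_right k ha, pow_one] at h7
  rw [hag, h7, mul_one]

end Cfsg.Agent.S0121
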