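import Cfsg.Statements.S0120
import Cfsg.Agent.S0012
import Cfsg.Agent.S0093
import Cfsg.Agent.S0121
import Cfsg.Agent.Lib.Helper1_Class2

set_option autoImplicit false
open Cfsg

namespace Cfsg.Agent.S0120

open Subgroup
open scoped commutatorElement
open Cfsg.Agent.Lib.Helper1_Class2

/-- For odd p, a p'-automorphism of a p-group acting trivially on the elements of order dividing p is trivial. -/
theorem result {G : Type*} [Group G] [Finite G] {p : ℕ} [Fact p.Prime] (hp : p ≠ 2) (hG : IsPGroup p G) (a : MulAut G) (ha : Nat.Coprime (orderOf a) p) (h : ∀ x : G, x ^ p = 1 → a x = x) : a = 1 := by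
  classical
  have hpp : p.Prime := Fact.out
  obtain ⟨H, hHc, h1, h2, h3⟩ := Cfsg.Agent.S0093.result hG
  refine Cfsg.Agent.S0121.result hG H hHc h1 h2 h3 a ha ?_
  have haH : ∀ x ∈ H, a x ∈ H := fun x hx => (characteristic_iff_le_comap.mp hHc a) hx
  have hcen : ∀ z : H, (z : G) ∈ centralizer (H : Set G) → z ∈ center H := by
    intro z hz
    rw [mem_center_iff]
    intro g
    apply Subtype.ext
    exact (mem_centralizer_iff.mp hz) g g.2
  have hcl : Cl2 H := by
    intro x y
    apply hcen
    have : ⁅(x : G), (y : G)⁆ ∈ ⁅H, (⊤ : Subgroup G)⁆ :=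
      commutator_mem_commutator x.2 (mem_top _)
    have h4 := (h2 this).2
    simpa [commutatorElement_def] using h4
  have hpow : ∀ x : H, x ^ p ∈ center H := by
    intro x
    apply hcen
    have h4 := (Cfsg.Agent.S0012.result p (hG.to_subgroup H)).2 x
    exact h1 (mem_map_of_mem H.subtype h4)
  have hcp : ∀ x y : H, ⁅y, x⁆ ^ p = 1 := by
    intro x y
    rw [← comm_pow_left hcl, commutatorElement_eq_one_iff_mul_comm]
    exact ((mem_center_iff.mp (hpow y)) x).symm
  have hmul : ∀ x y : H, (x * y) ^ p = x ^ p * y ^ p := fun x y =>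
    mul_pow_prime hcl hpp hp x y (hcp x y)
  have key : ∀ k : ℕ, ∀ x ∈ H, x ^ (p ^ k) = 1 → a x = x := by
    intro k
    induction k with
    | zero =>
      intro x _ hx1
      rw [pow_zero, pow_one] at hx1
      rw [hx1, map_one]
    | succ k ih =>
      intro x hx hx1
      have hy : a (x ^ p) = x ^ p := by
        apply ih _ (pow_mem hx p)
        rw [← pow_mul, ← pow_succ']
        exact hx1
      have h5 := hmul (⟨x, hx⟩⁻¹) ⟨a x, haH x hx⟩
      have h6 : (x⁻¹ * a x) ^ p = (x⁻¹) ^ p * (a x) ^ p := by
        have := congrArg Subtype.val h5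
        simpa using this
      have hw : (x⁻¹ * a x) ^ p = 1 := by
        rw [h6, ← map_pow, hy, inv_pow, inv_mul_cancel]
      set w := x⁻¹ * a x with hwdef
      have haw : a w = w := h w hw
      have hax : a x = x * w := by rw [hwdef]; group
      have hit : ∀ m : ℕ, (a ^ m) x = x * w ^ m := by
        intro m
        induction m with
        | zero => simp
        | succ m ihm =>
          rw [pow_succ', MulAut.mul_apply, ihm, map_mul, map_pow, haw, hax, pow_succ', mul_assoc]
      have hn := hit (orderOf a)
      rw [pow_orderOf_eq_one, MulAut.one_apply] at hn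
      have hwn : w ^ orderOf a = 1 := by
        have : x * 1 = x * w ^ orderOf a := by rw [mul_one]; exact hn
        exact (mul_left_cancel this).symm
      have hd : orderOf w ∣ Nat.gcd (orderOf a) p :=
        Nat.dvd_gcd (orderOf_dvd_of_pow_eq_one hwn) (orderOf_dvd_of_pow_eq_one hw)
      rw [ha, Nat.dvd_one, orderOf_eq_one_iff] at hd
      rw [hax, hd, mul_one]
  intro x hx
  obtain ⟨k, hk⟩ := hG x
  exact key k x hx hk

end Cfsg.Agent.S0120
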