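import Cfsg.Statements.S0125
import Mathlib
import Cfsg.Agent.Lib.Helper1_Coprime

set_option autoImplicit false
open Cfsg

namespace Cfsg.Agent.S0125

open Subgroup

/-- The centralizer of a self-centralizing normal subgroup A of a Sylow p-subgroup is the direct product of A with a normal p'-subgroup. -/
theorem result {G : Type*} [Group G] [Finite G] {p : ℕ} [Fact p.Prime] (R : Sylow p G) (A : Subgroup G) (hAR : A ≤ (R : Subgroup G)) (hAn : (R : Subgroup G) ≤ Subgroup.normalizer (A : Set G)) (hC : (R : Subgroup G) ⊓ Subgroup.centralizer (A : Set G) = A) : ∃ H : Subgroup G, H ≤ Subgroup.centralizer (A : Set G) ∧ Nat.Coprime (Nat.card H) p ∧ Subgroup.centralizer (A : Set G) ≤ Subgroup.normalizer (H : Set G) ∧ H ⊓ A = ⊥ ∧ H ⊔ A = Subgroup.centralizer (A : Set G) := by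
  have hp : p.Prime := Fact.out
  set C := centralizer (A : Set G) with hCdef
  have hAC : A ≤ C := by rw [← hC]; exact inf_le_right
  -- `R` normalises `C`
  have hRC : (R : Subgroup G) ≤ normalizer (C : Set G) := by
    intro r hr
    have hrA := hAn hr
    rw [mem_normalizer_iff]
    intro c
    constructor
    · intro hc
      rw [mem_centralizer_iff] at hc ⊢
      intro a ha
      have h1 : r⁻¹ * a * r ∈ A := by
        have := (mem_normalizer_iff.1 (inv_mem hrA) a).1 ha
        simpa using this
      have h2 := hc _ h1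
      calc a * (r * c * r⁻¹) = r * ((r⁻¹ * a * r) * c) * r⁻¹ := by group
        _ = r * (c * (r⁻¹ * a * r)) * r⁻¹ := by rw [h2]
        _ = r * c * r⁻¹ * a := by group
    · intro hc
      rw [mem_centralizer_iff] at hc ⊢
      intro a ha
      have h1 : r * a * r⁻¹ ∈ A := (mem_normalizer_iff.1 hrA a).1 ha
      have h2 := hc _ h1
      calc a * c = r⁻¹ * ((r * a * r⁻¹) * (r * c * r⁻¹)) * r := by group
        _ = r⁻¹ * ((r * c * r⁻¹) * (r * a * r⁻¹)) * r := by rw [h2]
        _ = c * a := by group
  have hrel : ¬ p ∣ A.relIndex C := by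
    have e1 : C.relIndex ((R : Subgroup G) ⊔ C) = A.relIndex (R : Subgroup G) := by
      rw [Cfsg.Agent.Lib.Helper1_Coprime.relIndex_sup_right_of_le_normalizer hRC, ← hC,
        inf_relIndex_left]
    have e2 := relIndex_mul_relIndex A C ((R : Subgroup G) ⊔ C) hAC le_sup_right
    have e3 := relIndex_mul_relIndex A (R : Subgroup G) ((R : Subgroup G) ⊔ C) hAR le_sup_left
    rw [e1] at e2
    have hne : A.relIndex (R : Subgroup G) ≠ 0 := by
      have : (A.subgroupOf (R : Subgroup G)).index ≠ 0 := index_ne_zero_of_finite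
      exact this
    have e4 : A.relIndex C = (R : Subgroup G).relIndex ((R : Subgroup G) ⊔ C) := by
      have : A.relIndex (R : Subgroup G) * A.relIndex C =
          A.relIndex (R : Subgroup G) * (R : Subgroup G).relIndex ((R : Subgroup G) ⊔ C) := by
        rw [e3, ← e2, mul_comm]
      exact Nat.eq_of_mul_eq_mul_left (Nat.pos_of_ne_zero hne) this
    intro hd
    apply R.not_dvd_index
    rw [e4] at hd
    exact hd.trans (relIndex_dvd_index_of_le le_sup_left)
  have hcent : ∀ (a : C), a ∈ A.subgroupOf C → ∀ c : C, c * a = a * c := by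
    intro a ha c
    apply Subtype.ext
    have := (mem_centralizer_iff.1 c.2) a.1 ha
    exact this.symm
  haveI hAn' : (A.subgroupOf C).Normal := by
    constructor
    intro a ha c
    rw [hcent a ha c, mul_inv_cancel_right]
    exact ha
  have hHall : Nat.Coprime (Nat.card (A.subgroupOf C)) (A.subgroupOf C).index := by
    obtain ⟨k, hk⟩ := IsPGroup.iff_card.1 (R.isPGroup'.to_le hAR)
    rw [Nat.card_congr (subgroupOfEquivOfLe hAC).toEquiv, hk]
    apply Nat.Coprime.pow_left
    rw [Nat.Prime.coprime_iff_not_dvd hp]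
    exact hrel
  obtain ⟨H', hH'⟩ := exists_right_complement'_of_coprime hHall
  have hH'n : H'.Normal := by
    constructor
    intro n hn g
    have hg : g ∈ ((A.subgroupOf C ⊔ H' : Subgroup C) : Set C) := by
      rw [hH'.sup_eq_top]; trivial
    rw [normal_mul] at hg
    obtain ⟨a, ha, h, hh, rfl⟩ := Set.mem_mul.1 hg
    have e : a * h * n * (a * h)⁻¹ = h * n * h⁻¹ := by
      have h1 := hcent a ha (h * n * h⁻¹)
      calc a * h * n * (a * h)⁻¹ = (a * (h * n * h⁻¹)) * a⁻¹ := by group
        _ = ((h * n * h⁻¹) * a) * a⁻¹ := by rw [h1]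
        _ = h * n * h⁻¹ := by group
    rw [e]
    exact mul_mem (mul_mem hh hn) (inv_mem hh)
  have hmapA : (A.subgroupOf C).map C.subtype = A := map_subgroupOf_eq_of_le hAC
  refine ⟨H'.map C.subtype, map_subtype_le _, ?_, ?_, ?_, ?_⟩
  · rw [card_map_of_injective C.subtype_injective, ← hH'.symm.index_eq_card,
      Nat.coprime_comm, Nat.Prime.coprime_iff_not_dvd hp]
    exact hrel
  · have h1 := le_normalizer_map (H := H') C.subtype
    rw [normalizer_eq_top, ← MonoidHom.range_eq_map, range_subtype] at h1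
    exact h1
  · rw [← hmapA, ← Subgroup.map_inf _ _ _ C.subtype_injective, inf_comm, hH'.disjoint.eq_bot, Subgroup.map_bot]
  · rw [← hmapA, ← Subgroup.map_sup, sup_comm, hH'.sup_eq_top, ← MonoidHom.range_eq_map, range_subtype]

end Cfsg.Agent.S0125
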