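import Mathlib
import Cfsg.Agent.Lib.helper6_MetaOmega
import Cfsg.Statements.S0127

set_option autoImplicit false
open Cfsg

namespace Cfsg.Agent.S0127

/-- For odd p, in a non-cyclic p-group with a cyclic subgroup of index p, the elements of order dividing p generate an elementary abelian subgroup of order p^2. -/
theorem result {R : Type*} [Group R] [Finite R] {p : ℕ} [Fact p.Prime] (hp : p ≠ 2) (hR : IsPGroup p R) (hnc : ¬ IsCyclic R) (C : Subgroup R) (hC : IsCyclic C) (hCi : C.index = p) : Cfsg.IsElementaryAbelian p (Subgroup.closure {x : R | x ^ p = 1}) ∧ Nat.card (Subgroup.closure {x : R | x ^ p = 1}) = p ^ 2 := by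
  have hpp : p.Prime := Fact.out
  apply Cfsg.Agent.Lib.helper6_MetaOmega.omega hp hR _ hnc
  have hCn : C.Normal := by
    apply Subgroup.normal_of_index_eq_minFac_card
    obtain ⟨k, hk⟩ := IsPGroup.iff_card.1 hR
    have hk0 : k ≠ 0 := by
      rintro rfl
      rw [pow_zero] at hk
      have h1 := C.card_mul_index
      rw [hk, hCi] at h1
      have : p ∣ 1 := ⟨Nat.card C, by rw [← h1, mul_comm]⟩
      exact hpp.one_lt.ne' (Nat.dvd_one.1 this)
    rw [hCi, hk, Nat.Prime.pow_minFac hpp hk0]
  refine ⟨C, hCn, hC, ?_⟩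
  exact isCyclic_of_prime_card (p := p) hCi

end Cfsg.Agent.S0127
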