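import Cfsg.Statements.S0131
import Cfsg.Agent.S0080

set_option autoImplicit false

open Cfsg

namespace Cfsg.Agent.S0131

open scoped commutatorElement

theorem result {G : Type*} [Group G] [Finite G] {p : ℕ} [Fact p.Prime] (P : Sylow p G) : (∃ N : Subgroup G, N.Normal ∧ N ⊓ (P : Subgroup G) = ⁅(P : Subgroup G), (P : Subgroup G)⁆ ∧ N ⊔ (P : Subgroup G) = ⊤) ↔ commutator G ⊓ (P : Subgroup G) = ⁅(P : Subgroup G), (P : Subgroup G)⁆ := by
  constructor
  · rintro ⟨N, hN, h1, h2⟩
    apply le_antisymm
    · rw [← h1]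
      apply inf_le_inf_right
      have hk : (QuotientGroup.mk' N).ker = N := QuotientGroup.ker_mk' N
      rw [← hk, ← Subgroup.map_eq_bot_iff, commutator_def, Subgroup.map_commutator, ← h2,
        Subgroup.map_sup]
      have hNb : N.map (QuotientGroup.mk' N) = ⊥ := by rw [Subgroup.map_eq_bot_iff, hk]
      rw [hNb, bot_sup_eq, ← Subgroup.map_commutator, Subgroup.map_eq_bot_iff, hk, ← h1]
      exact inf_le_left
    · rw [commutator_def]
      exact le_inf (Subgroup.commutator_mono le_top le_top)
        (Subgroup.commutator_le_self (P : Subgroup G))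
  · intro h
    have hcop : Nat.Coprime (P : Subgroup G).index
        (⁅(P : Subgroup G), (P : Subgroup G)⁆.relIndex (P : Subgroup G)) := by
      obtain ⟨m, hm⟩ := IsPGroup.iff_card.1 P.2
      have h1 : ⁅(P : Subgroup G), (P : Subgroup G)⁆.relIndex (P : Subgroup G) ∣ p ^ m := by
        rw [← hm]; exact Subgroup.relIndex_dvd_card _ _
      apply Nat.Coprime.coprime_dvd_right h1
      apply Nat.Coprime.pow_right
      rw [Nat.coprime_comm, Nat.Prime.coprime_iff_not_dvd Fact.out]
      exact P.not_dvd_index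
    obtain ⟨-, N, hN, h1, h2⟩ := Cfsg.Agent.S0080.result (P : Subgroup G) hcop
    exact ⟨N, hN, by rw [h1, h], h2⟩

end Cfsg.Agent.S0131
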