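import Mathlib
import Cfsg.Agent.Lib.Helper1_FrobPNil
import Cfsg.Agent.Lib.helper6_MinNormalPower
import Cfsg.Statements.S0132

set_option autoImplicit false
open Cfsg

namespace Cfsg.Agent.S0132

open Cfsg.Agent.Lib.Helper1_PNil Cfsg.Agent.Lib.Helper1_FrobPNil

theorem eq_one_of_mem {G : Type*} [Group G] {p : ℕ} (Q : Subgroup G) (hQ : IsPGroup p Q) {x : G}
    (hx : x ∈ Q) (ho : (orderOf x).Coprime p) : x = 1 := by
  obtain ⟨k, hk⟩ := hQ ⟨x, hx⟩
  have h1 : x ^ p ^ k = 1 := by simpa using congrArg Subtype.val hk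
  have h2 : orderOf x ∣ p ^ k := orderOf_dvd_of_pow_eq_one h1
  exact orderOf_eq_one_iff.mp (Nat.Coprime.eq_one_of_dvd (ho.pow_right k) h2)

theorem commute_of_nilpotent {G : Type*} [Group G] [Finite G] (hG : Group.IsNilpotent G) {p : ℕ}
    [hp : Fact p.Prime] (x y : G) (hx : ∃ k, x ^ p ^ k = 1) (hy : (orderOf y).Coprime p) :
    x * y = y * x := by
  obtain ⟨e⟩ := (Group.isNilpotent_of_finite_tfae.out 0 4 rfl rfl).mp hG
  apply e.symm.injective
  rw [map_mul, map_mul]
  funext q S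
  show e.symm x q S * e.symm y q S = e.symm y q S * e.symm x q S
  haveI : Fact (q : ℕ).Prime := ⟨Nat.prime_of_mem_primeFactors q.2⟩
  have hSp : IsPGroup q S := S.isPGroup'
  by_cases hq : (q : ℕ) = p
  · have h1 : e.symm y q S = 1 := by
      obtain ⟨k, hk⟩ := hSp (e.symm y q S)
      have h1 : orderOf (e.symm y q S) ∣ (q : ℕ) ^ k := orderOf_dvd_of_pow_eq_one hk
      have h2 : orderOf (e.symm y q S) ∣ orderOf y := by
        apply orderOf_dvd_of_pow_eq_one
        have h3 : (e.symm y) ^ orderOf y = 1 := by rw [← map_pow, pow_orderOf_eq_one, map_one]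
        have h4 := congrFun (congrFun h3 q) S
        simpa using h4
      have hy' : (orderOf y).Coprime (q : ℕ) := by rw [hq]; exact hy
      exact orderOf_eq_one_iff.mp
        (Nat.Coprime.eq_one_of_dvd ((hy'.coprime_dvd_left h2).pow_right k) h1)
    rw [h1, mul_one, one_mul]
  · have h1 : e.symm x q S = 1 := by
      obtain ⟨k, hk⟩ := hSp (e.symm x q S)
      obtain ⟨j, hj⟩ := hx
      have h1 : orderOf (e.symm x q S) ∣ (q : ℕ) ^ k := orderOf_dvd_of_pow_eq_one hk
      have h2 : orderOf (e.symm x q S) ∣ p ^ j := by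
        apply orderOf_dvd_of_pow_eq_one
        have h3 : (e.symm x) ^ p ^ j = 1 := by rw [← map_pow, hj, map_one]
        have h4 := congrFun (congrFun h3 q) S
        simpa using h4
      have hcop : (p ^ j).Coprime ((q : ℕ) ^ k) :=
        Nat.Coprime.pow _ _ ((Nat.coprime_primes hp.out (Fact.out)).mpr (Ne.symm hq))
      exact orderOf_eq_one_iff.mp (Nat.Coprime.eq_one_of_dvd (hcop.coprime_dvd_left h2) h1)
    rw [h1, mul_one, one_mul]

/-- A minimal non-p-nilpotent finite group is a minimal non-nilpotent group with a normal Sylow p-subgroup. -/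
theorem result {G : Type*} [Group G] [Finite G] {p : ℕ} [Fact p.Prime] (h1 : ¬ Cfsg.HasNormalPComplement p G) (h2 : ∀ H : Subgroup G, H ≠ ⊤ → Cfsg.HasNormalPComplement p H) : (∀ H : Subgroup G, H ≠ ⊤ → Group.IsNilpotent H) ∧ ¬ Group.IsNilpotent G ∧ ∀ P : Sylow p G, (P : Subgroup G).Normal := by
  classical
  have hF : ¬ FrobHyp p G := fun hF => h1 (hasNormalPComplement_iff.mpr (frobenius hF))
  unfold FrobHyp at hF
  push Not at hF
  obtain ⟨Q, hQ, g, hgN, hgo, hgC⟩ := hF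
  have hle : Q ⊔ Subgroup.zpowers g ≤ Subgroup.normalizer (Q : Set G) :=
    sup_le Subgroup.le_normalizer (by rwa [Subgroup.zpowers_le])
  have htop : Q ⊔ Subgroup.zpowers g = ⊤ := by
    by_contra hne
    obtain ⟨K, hK⟩ := hasNormalPComplement_iff.mp (h2 _ hne)
    have hgH : g ∈ Q ⊔ Subgroup.zpowers g :=
      (le_sup_right : Subgroup.zpowers g ≤ _) (Subgroup.mem_zpowers g)
    have hgK : (⟨g, hgH⟩ : (Q ⊔ Subgroup.zpowers g : Subgroup G)) ∈ K :=
      (hK.mem_iff _).mpr (by rwa [Subgroup.orderOf_mk])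
    apply hgC
    rw [Subgroup.mem_centralizer_iff]
    intro x hx
    have hx' : x ∈ Q := hx
    have hxH : x ∈ Q ⊔ Subgroup.zpowers g := (le_sup_left : Q ≤ _) hx'
    have hcQ : g * x * g⁻¹ * x⁻¹ ∈ Q :=
      Q.mul_mem ((Subgroup.mem_normalizer_iff.mp hgN x).mp hx') (Q.inv_mem hx')
    have hKn : K.Normal := hK.1
    have hcK : (⟨g, hgH⟩ * (⟨x, hxH⟩ * ⟨g, hgH⟩⁻¹ * ⟨x, hxH⟩⁻¹) :
        (Q ⊔ Subgroup.zpowers g : Subgroup G)) ∈ K :=
      K.mul_mem hgK (hKn.conj_mem _ (K.inv_mem hgK) _)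
    have ho1 := (hK.mem_iff _).mp hcK
    rw [← Subgroup.orderOf_coe] at ho1
    have hval : ((⟨g, hgH⟩ * (⟨x, hxH⟩ * ⟨g, hgH⟩⁻¹ * ⟨x, hxH⟩⁻¹) :
        (Q ⊔ Subgroup.zpowers g : Subgroup G)) : G) = g * x * g⁻¹ * x⁻¹ := by
      simp [mul_assoc]
    rw [hval] at ho1
    have h3 := eq_one_of_mem Q hQ hcQ ho1
    calc x * g = (g * x * g⁻¹ * x⁻¹) * (x * g) := by rw [h3, one_mul]
      _ = g * x := by group
  have hQn : Q.Normal := by
    rw [← Subgroup.normalizer_eq_top_iff, eq_top_iff, ← htop]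
    exact hle
  have hmk : ∀ x : G, ∃ i : ℤ, (QuotientGroup.mk x : G ⧸ Q) = (QuotientGroup.mk g : G ⧸ Q) ^ i := by
    intro x
    have hx : x ∈ Q ⊔ Subgroup.zpowers g := htop ▸ Subgroup.mem_top x
    rw [Subgroup.mem_sup_of_normal_left] at hx
    obtain ⟨q, hq, z, hz, rfl⟩ := hx
    obtain ⟨i, rfl⟩ := Subgroup.mem_zpowers_iff.mp hz
    refine ⟨i, ?_⟩
    rw [QuotientGroup.mk_mul, (QuotientGroup.eq_one_iff q).mpr hq, one_mul, QuotientGroup.mk_zpow]
  have hpel : ∀ (x : G) (k : ℕ), x ^ p ^ k = 1 → x ∈ Q := by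
    intro x k hk
    rw [← QuotientGroup.eq_one_iff, ← orderOf_eq_one_iff]
    have h3 : orderOf (x : G ⧸ Q) ∣ p ^ k := by
      apply orderOf_dvd_of_pow_eq_one
      rw [← QuotientGroup.mk_pow, hk, QuotientGroup.mk_one]
    have h4 : orderOf (x : G ⧸ Q) ∣ orderOf g := by
      apply orderOf_dvd_of_pow_eq_one
      obtain ⟨i, hi⟩ := hmk x
      rw [hi, ← zpow_natCast, ← zpow_mul, mul_comm, zpow_mul, zpow_natCast, ← QuotientGroup.mk_pow,
        pow_orderOf_eq_one, QuotientGroup.mk_one, one_zpow]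
    exact Nat.Coprime.eq_one_of_dvd ((hgo.coprime_dvd_left h4).pow_right k) h3
  have hcomm : ∀ a b : G, a * b * a⁻¹ * b⁻¹ ∈ Q := by
    intro a b
    rw [← QuotientGroup.eq_one_iff]
    obtain ⟨i, hi⟩ := hmk a
    obtain ⟨j, hj⟩ := hmk b
    rw [QuotientGroup.mk_mul, QuotientGroup.mk_mul, QuotientGroup.mk_mul, QuotientGroup.mk_inv,
      QuotientGroup.mk_inv, hi, hj, ← zpow_add, ← zpow_neg, ← zpow_neg, ← zpow_add, ← zpow_add]
    have : i + j + -i + -j = 0 := by ring
    rw [this, zpow_zero]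
  refine ⟨?_, ?_, ?_⟩
  · intro H hH
    obtain ⟨K, hK⟩ := hasNormalPComplement_iff.mp (h2 H hH)
    haveI hKn : K.Normal := hK.1
    have hAn : (Q.subgroupOf H).Normal := inferInstance
    have hA : IsPGroup p (Q.subgroupOf H) := hQ.comap_subtype
    have hd : (Q.subgroupOf H) ⊓ K = ⊥ := by
      rw [eq_bot_iff]
      rintro x ⟨hx1, hx2⟩
      rw [Subgroup.mem_bot]
      exact eq_one_of_mem _ hA hx1 ((hK.mem_iff x).mp hx2)
    have hc : ∀ a ∈ Q.subgroupOf H, ∀ b ∈ K, Commute a b := fun a ha b hb =>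
      Subgroup.commute_of_normal_of_disjoint _ _ hAn hKn (disjoint_iff.2 hd) a b ha hb
    have hsup : (Q.subgroupOf H) ⊔ K = ⊤ := by
      obtain ⟨P⟩ : Nonempty (Sylow p H) := inferInstance
      have h3 := (hK.isComplement' P).sup_eq_top
      rw [eq_top_iff, ← h3]
      apply sup_le le_sup_right
      refine le_trans ?_ le_sup_left
      intro x hx
      obtain ⟨k, hk⟩ := P.isPGroup' ⟨x, hx⟩
      have h4 : x ^ p ^ k = 1 := by simpa using congrArg Subtype.val hk
      have h5 : (x : G) ^ p ^ k = 1 := by simpa using congrArg Subtype.val h4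
      exact hpel x k h5
    obtain ⟨e⟩ := Cfsg.Agent.Lib.helper6_MinNormalPower.nonempty_supEquiv _ _ hc hd
    haveI hA' : Group.IsNilpotent (Q.subgroupOf H) := hA.isNilpotent
    haveI hK' : Group.IsNilpotent K := by
      letI : CommGroup K :=
        { (inferInstance : Group K) with
          mul_comm := by
            intro a b
            have h3 : (a * b * a⁻¹ * b⁻¹ : K).1 ∈ Q.subgroupOf H := by
              rw [Subgroup.mem_subgroupOf]
              exact hcomm _ _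
            have h4 : (a * b * a⁻¹ * b⁻¹ : K).1 ∈ (Q.subgroupOf H) ⊓ K :=
              ⟨h3, (a * b * a⁻¹ * b⁻¹ : K).2⟩
            rw [hd, Subgroup.mem_bot] at h4
            have h5 : a * b * a⁻¹ * b⁻¹ = 1 := Subtype.ext h4
            calc a * b = (a * b * a⁻¹ * b⁻¹) * (b * a) := by group
              _ = b * a := by rw [h5, one_mul] }
      exact CommGroup.isNilpotent
    have h6 : Group.IsNilpotent ((Q.subgroupOf H) ⊔ K : Subgroup H) :=
      Group.nilpotent_of_mulEquiv e.symm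
    rw [hsup] at h6
    exact Group.nilpotent_of_mulEquiv (Subgroup.topEquiv : (⊤ : Subgroup H) ≃* H)
  · intro hnil
    apply hgC
    rw [Subgroup.mem_centralizer_iff]
    intro x hx
    obtain ⟨k, hk⟩ := hQ ⟨x, hx⟩
    have h3 : x ^ p ^ k = 1 := by simpa using congrArg Subtype.val hk
    exact commute_of_nilpotent hnil x g ⟨k, h3⟩ hgo
  · intro P
    have hPQ : (P : Subgroup G) ≤ Q := by
      intro x hx
      obtain ⟨k, hk⟩ := P.isPGroup' ⟨x, hx⟩
      have h3 : x ^ p ^ k = 1 := by simpa using congrArg Subtype.val hk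
      exact hpel x k h3
    have := P.is_maximal' hQ hPQ
    rw [← this]
    exact hQn

end Cfsg.Agent.S0132
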