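import Cfsg.Statements.S0159
import Cfsg.Agent.Lib.CharCount

set_option autoImplicit false
open Cfsg

namespace Cfsg.Agent.S0159

/-- The number of solutions of s * s = 1 in a finite group equals the sum, over the irreducible characters χ, of (the average over s of χ (s * s)) times χ 1. -/
theorem result {G : Type*} [Group G] [Fintype G] : (Nat.card {s : G // s * s = 1} : ℂ) = ∑ᶠ χ : Cfsg.IrrCharacter G, ((Nat.card G : ℂ)⁻¹ * ∑ s : G, (χ : G → ℂ) (s * s)) * (χ : G → ℂ) 1 := by
  classical
  have hG : (Nat.card G : ℂ) ≠ 0 := by exact_mod_cast Nat.card_pos.ne'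
  rw [finsum_eq_sum_of_fintype, Nat.card_eq_fintype_card, Fintype.card_subtype]
  have h1 := Cfsg.Agent.Lib.CharCount.card_mul_count (fun s : G => s * s)
  apply mul_left_cancel₀ hG
  rw [h1, Finset.mul_sum]
  refine Finset.sum_congr rfl fun ψ _ => ?_
  field_simp

end Cfsg.Agent.S0159
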