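import Cfsg.Statements.S0160
import Cfsg.Agent.Lib.CharPerm

set_option autoImplicit false
open Cfsg

namespace Cfsg.Agent.S0160

/-- A finite group has as many real-valued irreducible complex characters as conjugacy classes closed under taking inverses. -/
theorem result {G : Type*} [Group G] [Finite G] : Nat.card {χ : Cfsg.IrrCharacter G // ∀ g : G, ((χ : G → ℂ) g).im = 0} = Nat.card {C : ConjClasses G // ∀ g : G, ConjClasses.mk g = C → IsConj g g⁻¹} := by
  haveI := Fintype.ofFinite G
  rw [Cfsg.Agent.Lib.CharPerm.card_real_irr]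
  refine Nat.card_congr (Equiv.subtypeEquivRight fun c => ?_)
  constructor
  · intro h g hg
    have h1 : IsConj g (Cfsg.Agent.Lib.CharPerm.rep c) := by
      rw [← ConjClasses.mk_eq_mk_iff_isConj, hg, Cfsg.Agent.Lib.CharPerm.mk_rep]
    have h2 : IsConj g⁻¹ (Cfsg.Agent.Lib.CharPerm.rep c)⁻¹ := by
      obtain ⟨y, hy⟩ := isConj_iff.mp h1
      exact isConj_iff.mpr ⟨y, by rw [← hy]; group⟩
    exact (h1.trans h.symm).trans h2.symm
  · intro h
    exact (h _ (Cfsg.Agent.Lib.CharPerm.mk_rep c)).symm

end Cfsg.Agent.S0160
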