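import Cfsg.Statements.S0162
import Cfsg.Agent.Lib.CharPerm

set_option autoImplicit false
open Cfsg

namespace Cfsg.Agent.S0162

/-- If a finite group has odd order, its order is congruent to its number of conjugacy classes modulo 16. -/
theorem result {G : Type*} [Group G] [Finite G] (hodd : Odd (Nat.card G)) : Nat.card G ≡ Nat.card (ConjClasses G) [MOD 16] := by
  classical
  haveI := Fintype.ofFinite G
  choose d hd using fun ψ : Cfsg.IrrCharacter G => Cfsg.Agent.Lib.CharMore.irr_degree ψ.2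
  have hdodd : ∀ ψ, Odd (d ψ) := fun ψ => hodd.of_dvd_nat (hd ψ).2.2
  -- each d^2 = 8 f + 1
  have hf : ∀ ψ, ∃ f : ℕ, d ψ ^ 2 = 8 * f + 1 := by
    intro ψ
    obtain ⟨k, hk⟩ := hdodd ψ
    rcases Nat.even_or_odd' k with ⟨m, hm | hm⟩
    · exact ⟨m * (2 * m + 1), by rw [hk, hm]; ring⟩
    · exact ⟨(m + 1) * (2 * m + 1), by rw [hk, hm]; ring⟩
  choose f hf using hf
  have hsum : Nat.card G = ∑ ψ : Cfsg.IrrCharacter G, d ψ ^ 2 := by
    have h1 := Cfsg.Agent.Lib.CharComplete.sum_sq_degree (G := G)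
    simp only [fun ψ => (hd ψ).2.1] at h1
    exact_mod_cast h1.symm
  have hk : Nat.card (ConjClasses G) = ∑ _ψ : Cfsg.IrrCharacter G, 1 := by
    rw [← Cfsg.Agent.Lib.CharComplete.card_irr_eq_card_conjClasses, Nat.card_eq_fintype_card]
    simp
  let σ : Cfsg.IrrCharacter G → Cfsg.IrrCharacter G :=
    fun ψ => ⟨fun g => (starRingEnd ℂ) ((ψ : G → ℂ) g), Cfsg.Agent.Lib.CharMore.isIrr_conj ψ.2⟩
  have hdσ : ∀ ψ, d (σ ψ) = d ψ := by
    intro ψ
    have h1 := (hd (σ ψ)).2.1
    have h2 := (hd ψ).2.1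
    have h3 : ((σ ψ : Cfsg.IrrCharacter G) : G → ℂ) 1 = (starRingEnd ℂ) ((ψ : G → ℂ) 1) := rfl
    rw [h3, h2, Complex.conj_natCast] at h1
    exact_mod_cast h1.symm
  have hfσ : ∀ ψ, f (σ ψ) = f ψ := by
    intro ψ
    have h1 := hf (σ ψ)
    rw [hdσ, hf ψ] at h1
    omega
  have hz : ∑ ψ : Cfsg.IrrCharacter G, (f ψ : ZMod 2) = 0 := by
    refine Finset.sum_involution (fun ψ _ => σ ψ) ?_ ?_ (fun _ _ => Finset.mem_univ _) ?_
    · intro ψ _
      rw [hfσ]
      exact CharTwo.add_self_eq_zero _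
    · intro ψ _ hne hfix
      apply hne
      have hreal : ∀ g : G, ((ψ : G → ℂ) g).im = 0 := by
        intro g
        have := congrFun (congrArg Subtype.val hfix) g
        exact Complex.conj_eq_iff_im.mp this
      have h1 := Cfsg.Agent.Lib.CharPerm.real_irr_eq_one_of_odd hodd ψ hreal
      have h2 := (hd ψ).2.1
      rw [h1] at h2
      have h3 : d ψ = 1 := by
        have : (1 : ℂ) = (d ψ : ℂ) := by simpa using h2
        exact_mod_cast this.symm
      have h4 := hf ψ
      rw [h3] at h4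
      have : f ψ = 0 := by omega
      rw [this]; simp
    · intro ψ _
      apply Subtype.ext
      ext g
      exact Complex.conj_conj _
  have heven : 2 ∣ ∑ ψ : Cfsg.IrrCharacter G, f ψ := by
    rw [← ZMod.natCast_eq_zero_iff]
    push_cast
    exact hz
  obtain ⟨t, ht⟩ := heven
  have hfinal : Nat.card G = Nat.card (ConjClasses G) + 16 * t := by
    rw [hsum, hk]
    simp only [hf]
    rw [Finset.sum_add_distrib, ← Finset.mul_sum, ht]
    ring
  rw [hfinal]
  unfold Nat.ModEq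
  omega

end Cfsg.Agent.S0162
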