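import Cfsg.Statements.S0165
import Cfsg.Agent.Lib.helper8_DefectZero

set_option autoImplicit false
open Cfsg

namespace Cfsg.Agent.S0165

/-- If p ^ n is the exact power of the prime p dividing the order of a finite group and p ^ n divides the degree of an irreducible complex representation, then its character vanishes at every element of order divisible by p. -/
theorem result {G : Type*} [Group G] [Finite G] {V : Type*} [AddCommGroup V] [Module ℂ V] [FiniteDimensional ℂ V] (ρ : Representation ℂ G V) [ρ.IsIrreducible] (p n : ℕ) (hp : p.Prime) (hn : p ^ n ∣ Nat.card G) (hn' : ¬ p ^ (n + 1) ∣ Nat.card G) (hdeg : p ^ n ∣ Module.finrank ℂ V) (x : G) (hx : p ∣ orderOf x) : ρ.character x = 0 := by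
  have hirr := Cfsg.Agent.Lib.CharBasic.isIrrCharacter_of_rep ρ inferInstance
  obtain ⟨hd0, hd1, hd2⟩ := Cfsg.Agent.Lib.helper8_Defect.irr_charDegree hirr
  have hdd : charDegree ρ.character = Module.finrank ℂ V := by
    have h1 : ρ.character 1 = (Module.finrank ℂ V : ℂ) := Representation.char_one ρ
    rw [h1] at hd1
    exact_mod_cast hd1.symm
  refine Cfsg.Agent.Lib.helper8_DefectZero.vanish_of_defect_zero hp ⟨ρ.character, hirr⟩ ?_ hx
  intro hdiv
  apply hn'
  obtain ⟨m, hm⟩ := hd2
  have hm' : Nat.card G / charDegree ρ.character = m := by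
    rw [hm, Nat.mul_div_cancel_left _ hd0]
  change p ∣ Nat.card G / charDegree ρ.character at hdiv
  rw [hm'] at hdiv
  rw [hm, hdd, pow_succ]
  exact mul_dvd_mul hdeg hdiv

end Cfsg.Agent.S0165
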