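import Cfsg.Statements.S0167
import Cfsg.Agent.Lib.CharCount

set_option autoImplicit false
open Cfsg

namespace Cfsg.Agent.S0167

/-- An element g of a finite group is a commutator if and only if the sum over the irreducible characters χ of χ g / χ 1 is nonzero. -/
theorem result {G : Type*} [Group G] [Finite G] (g : G) : (∃ a b : G, g = a * b * a⁻¹ * b⁻¹) ↔ ∑ᶠ χ : Cfsg.IrrCharacter G, (χ : G → ℂ) g / (χ : G → ℂ) 1 ≠ 0 := by
  classical
  haveI := Fintype.ofFinite G
  have hG : (Nat.card G : ℂ) ≠ 0 := by exact_mod_cast Nat.card_pos.ne'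
  rw [finsum_eq_sum_of_fintype]
  have h1 := Cfsg.Agent.Lib.CharCount.count_commutator g
  constructor
  · rintro ⟨a, b, hab⟩ h0
    rw [h0, mul_zero] at h1
    have h2 : (Finset.univ.filter fun xy : G × G => xy.1 * xy.2 * xy.1⁻¹ * xy.2⁻¹ = g).card = 0 := by
      exact_mod_cast h1
    rw [Finset.card_eq_zero, Finset.filter_eq_empty_iff] at h2
    exact h2 (Finset.mem_univ (a, b)) hab.symm
  · intro hne
    have h2 : (Finset.univ.filter fun xy : G × G => xy.1 * xy.2 * xy.1⁻¹ * xy.2⁻¹ = g).card ≠ 0 := by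
      intro h0
      rw [h0, Nat.cast_zero] at h1
      exact (mul_ne_zero hG hne) h1.symm
    obtain ⟨xy, hxy⟩ := Finset.card_pos.mp (Nat.pos_of_ne_zero h2)
    exact ⟨xy.1, xy.2, (Finset.mem_filter.mp hxy).2.symm⟩

end Cfsg.Agent.S0167
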