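import Cfsg.Statements.S0172
import Mathlib

set_option autoImplicit false
open Cfsg

namespace Cfsg.Agent.S0172

theorem card_ne {α : Type*} [Finite α] (a : α) : Nat.card {x : α // x ≠ a} = Nat.card α - 1 := by
  classical
  have := Fintype.ofFinite α
  rw [Nat.card_eq_fintype_card, Nat.card_eq_fintype_card]
  exact Set.card_ne_eq a

section aux

variable {G : Type*} [Group G] (K H : Subgroup G) [K.Normal]

theorem uniq (hKH : K ⊓ H = ⊥) {k k' h h' : G} (hk : k ∈ K) (hk' : k' ∈ K) (hh : h ∈ H)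
    (hh' : h' ∈ H) (e : k * h = k' * h') : k = k' ∧ h = h' := by
  have h1 : k'⁻¹ * k = h' * h⁻¹ := by
    calc k'⁻¹ * k = k'⁻¹ * (k * h) * h⁻¹ := by group
      _ = k'⁻¹ * (k' * h') * h⁻¹ := by rw [e]
      _ = _ := by group
  have h2 : k'⁻¹ * k ∈ K ⊓ H :=
    ⟨K.mul_mem (K.inv_mem hk') hk, h1 ▸ H.mul_mem hh' (H.inv_mem hh)⟩
  rw [hKH, Subgroup.mem_bot] at h2
  have h3 : k = k' := by
    calc k = k' * (k'⁻¹ * k) := by group
      _ = k' := by rw [h2, mul_one]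
  refine ⟨h3, ?_⟩
  subst h3
  exact mul_left_cancel e

theorem cent_in_H (hKH : K ⊓ H = ⊥) (hdec : ∀ g : G, ∃ k ∈ K, ∃ h ∈ H, g = k * h)
    (hfpf : ∀ h ∈ H, h ≠ 1 → ∀ k ∈ K, h * k = k * h → k = 1) {h g : G} (hh : h ∈ H) (h1 : h ≠ 1)
    (hc : g * h = h * g) : g ∈ H := by
  obtain ⟨k, hk, h', hh', rfl⟩ := hdec g
  have e : k * (h' * h) = (h * k * h⁻¹) * (h * h') := by
    calc k * (h' * h) = k * h' * h := by group
      _ = h * (k * h') := hc
      _ = _ := by group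
  obtain ⟨e1, -⟩ := uniq K H hKH hk (‹K.Normal›.conj_mem k hk h) (H.mul_mem hh' hh)
    (H.mul_mem hh hh') e
  have e2 : h * k = k * h := by
    calc h * k = (h * k * h⁻¹) * h := by group
      _ = k * h := by rw [← e1]
  have := hfpf h hh h1 k hk e2
  rw [this, one_mul]; exact hh'

theorem conj_inj (hfpf : ∀ h ∈ H, h ≠ 1 → ∀ k ∈ K, h * k = k * h → k = 1) {h u u' : G}
    (hh : h ∈ H) (h1 : h ≠ 1) (hu : u ∈ K) (hu' : u' ∈ K) (e3 : u * h * u⁻¹ = u' * h * u'⁻¹) :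
    u = u' := by
  have e2 : h * (u'⁻¹ * u) = (u'⁻¹ * u) * h := by
    calc h * (u'⁻¹ * u) = u'⁻¹ * (u' * h * u'⁻¹) * u := by group
      _ = u'⁻¹ * (u * h * u⁻¹) * u := by rw [e3]
      _ = _ := by group
  have e4 := hfpf h hh h1 _ (K.mul_mem (K.inv_mem hu') hu) e2
  calc u = u' * (u'⁻¹ * u) := by group
    _ = u' := by rw [e4, mul_one]

theorem conj_rep [Finite G] (hfpf : ∀ h ∈ H, h ≠ 1 → ∀ k ∈ K, h * k = k * h → k = 1) {h : G}
    (hh : h ∈ H) (h1 : h ≠ 1) (k : G) (hk : k ∈ K) : ∃ u ∈ K, k * h = u * h * u⁻¹ := by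
  let φ : K → K := fun u =>
    ⟨u * (h * (u:G)⁻¹ * h⁻¹), K.mul_mem u.2 (‹K.Normal›.conj_mem _ (K.inv_mem u.2) h)⟩
  have hinj : Function.Injective φ := by
    intro u u' e
    have e1 : (u:G) * (h * (u:G)⁻¹ * h⁻¹) = (u':G) * (h * (u':G)⁻¹ * h⁻¹) :=
      congrArg Subtype.val e
    have e3 : (u:G) * h * (u:G)⁻¹ = (u':G) * h * (u':G)⁻¹ := by
      calc (u:G) * h * (u:G)⁻¹ = (u:G) * (h * (u:G)⁻¹ * h⁻¹) * h := by group
        _ = (u':G) * (h * (u':G)⁻¹ * h⁻¹) * h := by rw [e1]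
        _ = _ := by group
    exact Subtype.ext (conj_inj K H hfpf hh h1 u.2 u'.2 e3)
  obtain ⟨u, hu⟩ := (Finite.injective_iff_surjective.mp hinj) ⟨k, hk⟩
  refine ⟨u, u.2, ?_⟩
  have e : (u:G) * (h * (u:G)⁻¹ * h⁻¹) = k := congrArg Subtype.val hu
  rw [← e]; group

theorem comp_eq (hKH : K ⊓ H = ⊥) {u u' a a' : G} (hu : u ∈ K) (hu' : u' ∈ K) (ha : a ∈ H)
    (ha' : a' ∈ H) (e : u * a * u⁻¹ = u' * a' * u'⁻¹) : a = a' := by
  refine (uniq K H hKH (K.mul_mem hu (‹K.Normal›.conj_mem _ (K.inv_mem hu) a))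
    (K.mul_mem hu' (‹K.Normal›.conj_mem _ (K.inv_mem hu') a')) ha ha' ?_).2
  calc u * (a * u⁻¹ * a⁻¹) * a = u * a * u⁻¹ := by group
    _ = u' * a' * u'⁻¹ := e
    _ = _ := by group

theorem inK (hKH : K ⊓ H = ⊥) {u a : G} (ha : a ∈ H) (h : u * a * u⁻¹ ∈ K) : a = 1 := by
  have h1 := ‹K.Normal›.conj_mem _ h u⁻¹
  have h2 : u⁻¹ * (u * a * u⁻¹) * u⁻¹⁻¹ = a := by group
  rw [h2] at h1
  have h3 : a ∈ K ⊓ H := ⟨h1, ha⟩
  rwa [hKH, Subgroup.mem_bot] at h3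

theorem surj_aux [Finite G] (hKH : K ⊓ H = ⊥) (hdec : ∀ g : G, ∃ k ∈ K, ∃ h ∈ H, g = k * h)
    (hfpf : ∀ h ∈ H, h ≠ 1 → ∀ k ∈ K, h * k = k * h → k = 1) (g1 g2 : G)
    (hc : g1 * g2 = g2 * g1) (h : g1 ∉ K) :
    ∃ u ∈ K, ∃ a ∈ H, ∃ b ∈ H, a ≠ 1 ∧ g1 = u * a * u⁻¹ ∧ g2 = u * b * u⁻¹ := by
  obtain ⟨k1, hk1, h1, hh1, rfl⟩ := hdec g1
  have hne : h1 ≠ 1 := by
    rintro rfl
    exact h (by rw [mul_one]; exact hk1)
  obtain ⟨u, hu, e⟩ := conj_rep K H hfpf hh1 hne k1 hk1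
  rw [e] at hc
  have hb : u⁻¹ * g2 * u ∈ H := by
    refine cent_in_H K H hKH hdec hfpf hh1 hne ?_
    calc u⁻¹ * g2 * u * h1 = u⁻¹ * (g2 * (u * h1 * u⁻¹)) * u := by group
      _ = u⁻¹ * ((u * h1 * u⁻¹) * g2) * u := by rw [hc]
      _ = _ := by group
  exact ⟨u, hu, h1, hh1, _, hb, hne, e, by group⟩

theorem card_comm_frob [Finite G] (hKH : K ⊓ H = ⊥)
    (hdec : ∀ g : G, ∃ k ∈ K, ∃ h ∈ H, g = k * h)
    (hfpf : ∀ h ∈ H, h ≠ 1 → ∀ k ∈ K, h * k = k * h → k = 1) :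
    Nat.card {p : G × G // Commute p.1 p.2} = Nat.card {p : K × K // Commute p.1 p.2} +
      (Nat.card {p : H × H // Commute p.1 p.2} - 1) * Nat.card K := by
  classical
  let Q : {p : G × G // Commute p.1 p.2} → Prop := fun p => p.1.1 ∈ K ∧ p.1.2 ∈ K
  rw [← Nat.card_congr (Equiv.sumCompl Q), Nat.card_sum]
  congr 1
  · exact Nat.card_congr
      ⟨fun a => ⟨(⟨a.1.1.1, a.2.1⟩, ⟨a.1.1.2, a.2.2⟩), Subtype.ext a.1.2.eq⟩,
       fun b => ⟨⟨(b.1.1, b.1.2), congrArg Subtype.val b.2.eq⟩, b.1.1.2, b.1.2.2⟩,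
       fun a => rfl, fun b => rfl⟩
  · rw [← card_ne (⟨(1, 1), Commute.one_left 1⟩ : {p : H × H // Commute p.1 p.2}),
      ← Nat.card_prod]
    symm
    have hcomm : ∀ (q : {p : H × H // Commute p.1 p.2}) (u : K),
        Commute ((u : G) * q.1.1 * (u : G)⁻¹) ((u : G) * q.1.2 * (u : G)⁻¹) := by
      intro q u
      have h1 : (q.1.1 : G) * q.1.2 = q.1.2 * q.1.1 := congrArg Subtype.val q.2.eq
      show _ * _ = _ * _
      calc (u : G) * q.1.1 * (u : G)⁻¹ * ((u : G) * q.1.2 * (u : G)⁻¹)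
          = (u : G) * ((q.1.1 : G) * q.1.2) * (u : G)⁻¹ := by group
        _ = (u : G) * ((q.1.2 : G) * q.1.1) * (u : G)⁻¹ := by rw [h1]
        _ = _ := by group
    have hnQ : ∀ (x : {q : {p : H × H // Commute p.1 p.2} // q ≠ ⟨(1, 1), Commute.one_left 1⟩} × K),
        ¬ Q ⟨(((x.2 : G) * x.1.1.1.1 * (x.2 : G)⁻¹), ((x.2 : G) * x.1.1.1.2 * (x.2 : G)⁻¹)),
          hcomm x.1.1 x.2⟩ := by
      rintro ⟨⟨⟨⟨a, b⟩, hab⟩, hq⟩, u⟩ ⟨h1, h2⟩
      apply hq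
      have ea : a = 1 := Subtype.ext (inK K H hKH a.2 h1)
      have eb : b = 1 := Subtype.ext (inK K H hKH b.2 h2)
      subst ea
      subst eb
      rfl
    refine Nat.card_congr (Equiv.ofBijective (fun x => ⟨_, hnQ x⟩) ⟨?_, ?_⟩)
    · rintro ⟨⟨⟨⟨a, b⟩, hab⟩, hq⟩, u⟩ ⟨⟨⟨⟨a', b'⟩, hab'⟩, hq'⟩, u'⟩ e
      have e0 := congrArg (fun z => z.1.1) e
      have e1 : (u : G) * a * (u : G)⁻¹ = (u' : G) * a' * (u' : G)⁻¹ := congrArg Prod.fst e0
      have e2 : (u : G) * b * (u : G)⁻¹ = (u' : G) * b' * (u' : G)⁻¹ := congrArg Prod.snd e0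
      obtain rfl : a = a' := Subtype.ext (comp_eq K H hKH u.2 u'.2 a.2 a'.2 e1)
      obtain rfl : b = b' := Subtype.ext (comp_eq K H hKH u.2 u'.2 b.2 b'.2 e2)
      obtain rfl : u = u' := by
        by_cases ha : a = 1
        · have hb : b ≠ 1 := by
            intro hb
            apply hq
            subst ha
            subst hb
            rfl
          exact Subtype.ext (conj_inj K H hfpf b.2 (fun h => hb (Subtype.ext h)) u.2 u'.2 e2)
        · exact Subtype.ext (conj_inj K H hfpf a.2 (fun h => ha (Subtype.ext h)) u.2 u'.2 e1)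
      rfl
    · rintro ⟨⟨⟨g1, g2⟩, hc⟩, hnq⟩
      by_cases hg1 : g1 ∈ K
      · have hg2 : g2 ∉ K := fun h => hnq ⟨hg1, h⟩
        obtain ⟨u, hu, b, hb, a, ha, hb1, rfl, rfl⟩ :=
          surj_aux K H hKH hdec hfpf g2 g1 hc.eq.symm hg2
        have hab : Commute (⟨a, ha⟩ : H) ⟨b, hb⟩ := by
          apply Subtype.ext
          show a * b = b * a
          have h1 : u * a * u⁻¹ * (u * b * u⁻¹) = u * b * u⁻¹ * (u * a * u⁻¹) := hc.eq
          calc a * b = u⁻¹ * (u * a * u⁻¹ * (u * b * u⁻¹)) * u := by group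
            _ = u⁻¹ * (u * b * u⁻¹ * (u * a * u⁻¹)) * u := by rw [h1]
            _ = _ := by group
        refine ⟨(⟨⟨(⟨a, ha⟩, ⟨b, hb⟩), hab⟩, ?_⟩, ⟨u, hu⟩), rfl⟩
        intro h
        exact hb1 (congrArg (fun z => ((z.1.2 : H) : G)) h)
      · obtain ⟨u, hu, a, ha, b, hb, ha1, rfl, rfl⟩ :=
          surj_aux K H hKH hdec hfpf g1 g2 hc.eq hg1
        have hab : Commute (⟨a, ha⟩ : H) ⟨b, hb⟩ := by
          apply Subtype.ext
          show a * b = b * a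
          have h1 : u * a * u⁻¹ * (u * b * u⁻¹) = u * b * u⁻¹ * (u * a * u⁻¹) := hc.eq
          calc a * b = u⁻¹ * (u * a * u⁻¹ * (u * b * u⁻¹)) * u := by group
            _ = u⁻¹ * (u * b * u⁻¹ * (u * a * u⁻¹)) * u := by rw [h1]
            _ = _ := by group
        refine ⟨(⟨⟨(⟨a, ha⟩, ⟨b, hb⟩), hab⟩, ?_⟩, ⟨u, hu⟩), rfl⟩
        intro h
        exact ha1 (congrArg (fun z => ((z.1.1 : H) : G)) h)

end aux


/-- Class number of a Frobenius group: if G = K H with K normal, K ⊓ H trivial and no non-identity element of H commuting with a non-identity element of K, then |H| * k(G) + 1 = |H| * k(H) + k(K), where k denotes the number of conjugacy classes. -/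
theorem result {G : Type*} [Group G] [Finite G] (K H : Subgroup G) [K.Normal] (hKH : K ⊓ H = ⊥) (hKH' : K ⊔ H = ⊤) (hfpf : ∀ h ∈ H, h ≠ 1 → ∀ k ∈ K, h * k = k * h → k = 1) : Nat.card H * Nat.card (ConjClasses G) + 1 = Nat.card H * Nat.card (ConjClasses H) + Nat.card (ConjClasses K) := by
  have hdec : ∀ g : G, ∃ k ∈ K, ∃ h ∈ H, g = k * h := by
    intro g
    have hg : g ∈ K ⊔ H := by rw [hKH']; exact Subgroup.mem_top g
    rw [Subgroup.mem_sup_of_normal_left] at hg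
    obtain ⟨k, hk, h, hh, e⟩ := hg
    exact ⟨k, hk, h, hh, e.symm⟩
  have h1 := card_comm_frob K H hKH hdec hfpf
  have hG : Nat.card G = Nat.card K * Nat.card H := by
    rw [← Nat.card_prod]
    symm
    refine Nat.card_congr (Equiv.ofBijective (fun p : K × H => (p.1 : G) * p.2) ⟨?_, ?_⟩)
    · rintro ⟨k, h⟩ ⟨k', h'⟩ e
      obtain ⟨e1, e2⟩ := uniq K H hKH k.2 k'.2 h.2 h'.2 e
      exact Prod.ext (Subtype.ext e1) (Subtype.ext e2)
    · intro g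
      obtain ⟨k, hk, h, hh, e⟩ := hdec g
      exact ⟨(⟨k, hk⟩, ⟨h, hh⟩), e.symm⟩
  rw [card_comm_eq_card_conjClasses_mul_card, card_comm_eq_card_conjClasses_mul_card,
    card_comm_eq_card_conjClasses_mul_card, hG] at h1
  have hKpos : 0 < Nat.card K := Nat.card_pos
  have hY : 0 < Nat.card (ConjClasses H) * Nat.card H := Nat.mul_pos Nat.card_pos Nat.card_pos
  have h2 : Nat.card (ConjClasses G) * Nat.card H =
      Nat.card (ConjClasses K) + (Nat.card (ConjClasses H) * Nat.card H - 1) := by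
    refine Nat.eq_of_mul_eq_mul_left hKpos ?_
    calc Nat.card K * (Nat.card (ConjClasses G) * Nat.card H)
        = Nat.card (ConjClasses G) * (Nat.card K * Nat.card H) := by ring
      _ = _ := h1
      _ = _ := by ring
  rw [mul_comm (Nat.card H) (Nat.card (ConjClasses G)), mul_comm (Nat.card H) (Nat.card (ConjClasses H))]
  omega

end Cfsg.Agent.S0172
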