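import Cfsg.Statements.S0174
import Cfsg.Agent.Lib.CharClifford

set_option autoImplicit false
open Cfsg

namespace Cfsg.Agent.S0174

/-- The Clifford Theorem for characters: if θ is an irreducible character of a finite group G, N is a normal subgroup and χ is an irreducible character of N occurring in the restriction of θ, then θ restricted to N equals e times the sum of the distinct G-conjugates of χ, where e is the inner product of the restriction with χ. -/
theorem result {G : Type*} [Group G] [Fintype G] (N : Subgroup G) [Fintype N] (hN : N.Normal) (θ : G → ℂ) (hθ : Cfsg.IsIrrCharacter G θ) (χ : N → ℂ) (hχ : Cfsg.IsIrrCharacter N χ) (hconst : Cfsg.classInner (fun n : N => θ n) χ ≠ 0) : (fun n : N => θ n) = Cfsg.classInner (fun n : N => θ n) χ • ∑ᶠ ψ ∈ {ψ : N → ℂ | ∃ g : G, ψ = fun n : N => χ ⟨g * n * g⁻¹, hN.conj_mem n n.2 g⟩}, ψ := by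
  classical
  have h := Cfsg.Agent.Lib.CharClifford.clifford N hN hθ hχ hconst
  rw [h]
  congr 1
  · rw [← h]
  have hfin : {ψ : N → ℂ | ∃ g : G, ψ = fun n : N => χ ⟨g * n * g⁻¹, hN.conj_mem n n.2 g⟩}.Finite := by
    have : {ψ : N → ℂ | ∃ g : G, ψ = fun n : N => χ ⟨g * n * g⁻¹, hN.conj_mem n n.2 g⟩} =
        Set.range (fun g : G => fun n : N => χ ⟨g * n * g⁻¹, hN.conj_mem n n.2 g⟩) := by
      ext ψ
      simp only [Set.mem_setOf_eq, Set.mem_range]
      constructor
      · rintro ⟨g, rfl⟩; exact ⟨g, rfl⟩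
      · rintro ⟨g, rfl⟩; exact ⟨g, rfl⟩
    rw [this]
    exact Set.finite_range _
  rw [finsum_mem_eq_finite_toFinset_sum _ hfin]
  symm
  refine Finset.sum_bij' (fun ψ hψ => (⟨ψ, ?_⟩ : Cfsg.IrrCharacter N)) (fun ψ _ => (ψ : N → ℂ)) ?_ ?_ ?_ ?_ ?_
  · obtain ⟨g, hg⟩ := (Set.Finite.mem_toFinset hfin).mp hψ
    rw [hg]
    exact Cfsg.Agent.Lib.CharClifford.isIrr_conjFun N hN hχ g
  · intro ψ hψ
    obtain ⟨g, hg⟩ := (Set.Finite.mem_toFinset hfin).mp hψ
    exact Finset.mem_filter.mpr ⟨Finset.mem_univ _, g, hg⟩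
  · intro ψ hψ
    obtain ⟨g, hg⟩ := (Finset.mem_filter.mp hψ).2
    exact (Set.Finite.mem_toFinset hfin).mpr ⟨g, hg⟩
  · intro ψ _; rfl
  · intro ψ _; rfl
  · intro ψ _; rfl

end Cfsg.Agent.S0174
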