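import Cfsg.Statements.S0178
import Cfsg.Agent.Lib.CharInd

set_option autoImplicit false
open Cfsg

namespace Cfsg.Agent.S0178

/-- The degree of an irreducible complex representation of a finite group is at most the index of any abelian subgroup. -/
theorem result {G : Type*} [Group G] [Finite G] {V : Type*} [AddCommGroup V] [Module ℂ V] [FiniteDimensional ℂ V] (ρ : Representation ℂ G V) [ρ.IsIrreducible] (A : Subgroup G) (hA : ∀ a ∈ A, ∀ b ∈ A, a * b = b * a) : Module.finrank ℂ V ≤ A.index := by
  classical
  haveI := Fintype.ofFinite G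
  haveI : Fintype A := Fintype.ofFinite A
  have hirr : Cfsg.IsIrrCharacter G ρ.character :=
    Cfsg.Agent.Lib.CharBasic.isIrrCharacter_of_rep ρ inferInstance
  have hchar := Cfsg.Agent.Lib.CharBasic.isCharacter_of_isIrr hirr
  have hres := Cfsg.Agent.Lib.CharBasic.isCharacter_restrict A hchar
  have hne : (fun x : A => ρ.character x) ≠ 0 := by
    intro h0
    have := congrFun h0 1
    simp only [OneMemClass.coe_one, Representation.char_one, Pi.zero_apply] at this
    have hpos := Cfsg.Agent.Lib.CharComplete.finrank_pos_of_irr ρ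
    exact hpos.ne' (by exact_mod_cast this)
  obtain ⟨lam, hlam⟩ := Cfsg.Agent.Lib.CharInd.exists_constituent hres hne
  have hlam1 : (lam : A → ℂ) 1 = 1 := by
    obtain ⟨lam, n, σ, hσ, rfl⟩ := lam
    haveI := hσ
    haveI : IsMulCommutative A := ⟨⟨fun a b => Subtype.ext (hA a a.2 b b.2)⟩⟩
    simp only [Representation.char_one]
    rw [Representation.IsIrreducible.finrank_eq_one_of_isMulCommutative σ]
    simp
  have hind := Cfsg.Agent.Lib.CharInd.isCharacter_indFun A lam
    (Cfsg.Agent.Lib.CharBasic.isCharacter_of_isIrr lam.2)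
  have hfr := Cfsg.Agent.Lib.CharInd.frobenius_reciprocity A lam ρ.character
    (Cfsg.Agent.Lib.CharBasic.isClassFunction_of_isCharacter hchar)
  have hne2 : Cfsg.classInner (Cfsg.indFun A lam) ρ.character ≠ 0 := by
    rw [hfr, ← Cfsg.Agent.Lib.CharOrtho.classInner_conj_symm]
    intro h0
    exact hlam ((map_eq_zero _).mp h0)
  obtain ⟨a, b, ha, hb, hab⟩ := Cfsg.Agent.Lib.CharInd.degree_le_of_constituent hind hirr hne2
  rw [Cfsg.Agent.Lib.CharInd.indFun_one, hlam1, mul_one] at ha
  rw [Representation.char_one] at hb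
  have ha' : A.index = a := by exact_mod_cast ha
  have hb' : Module.finrank ℂ V = b := by exact_mod_cast hb
  omega

end Cfsg.Agent.S0178
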