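import Cfsg.Statements.S0184
import Cfsg.Agent.Lib.CharQuot
import Cfsg.Agent.Lib.Helper4_Nilp
import Cfsg.Agent.Lib.helper6_Cyclic

set_option autoImplicit false
open Cfsg

namespace Cfsg.Agent.S0184

open Cfsg.Agent.Lib

/-- A finite p-group admits a faithful irreducible complex representation if and only if its centre is cyclic. -/
theorem result {G : Type*} [Group G] [Finite G] (p : ℕ) [Fact p.Prime] (hG : IsPGroup p G) : (∃ (n : ℕ) (ρ : Representation ℂ G (Fin n → ℂ)), ρ.IsIrreducible ∧ Function.Injective ρ) ↔ IsCyclic (Subgroup.center G) := by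
  classical
  haveI := Fintype.ofFinite G
  have hpp : p.Prime := Fact.out
  constructor
  · rintro ⟨n, ρ, hρ, hinj⟩
    haveI := hρ
    have hn : (Module.finrank ℂ (Fin n → ℂ) : ℂ) ≠ 0 := by
      exact_mod_cast (CharComplete.finrank_pos_of_irr ρ).ne'
    have hsc : ∀ z : Subgroup.center G, ρ (z : G) =
        (ρ.character z / (Module.finrank ℂ (Fin n → ℂ) : ℂ)) • LinearMap.id := by
      intro z
      refine CharComplete.schur_commute ρ (ρ z) fun g => ?_
      rw [← Module.End.mul_eq_comp, ← Module.End.mul_eq_comp, ← map_mul, ← map_mul,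
        Subgroup.mem_center_iff.mp z.2 g]
    have htr : ∀ c : ℂ, LinearMap.trace ℂ (Fin n → ℂ) (c • LinearMap.id) =
        c * (Module.finrank ℂ (Fin n → ℂ) : ℂ) := by
      intro c
      rw [map_smul, LinearMap.trace_id, smul_eq_mul]
    let f : Subgroup.center G →* ℂ :=
      { toFun := fun z => ρ.character z / (Module.finrank ℂ (Fin n → ℂ) : ℂ)
        map_one' := by
          change ρ.character 1 / _ = 1
          rw [Representation.char_one, div_self hn]
        map_mul' := by
          intro a b
          have h1 : ρ ((a * b : Subgroup.center G) : G) =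
              ((ρ.character a / (Module.finrank ℂ (Fin n → ℂ) : ℂ)) *
                (ρ.character b / (Module.finrank ℂ (Fin n → ℂ) : ℂ))) • LinearMap.id := by
            rw [Subgroup.coe_mul, map_mul, hsc a, hsc b, smul_mul_smul_comm]
            rfl
          have h2 : ρ.character ((a * b : Subgroup.center G) : G) =
              ((ρ.character a / (Module.finrank ℂ (Fin n → ℂ) : ℂ)) *
                (ρ.character b / (Module.finrank ℂ (Fin n → ℂ) : ℂ))) *
                (Module.finrank ℂ (Fin n → ℂ) : ℂ) := by
            rw [Representation.character, h1, htr]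
          rw [h2, mul_div_assoc, div_self hn, mul_one] }
    have hf : Function.Injective f := by
      intro a b hab
      apply Subtype.ext
      apply hinj
      rw [hsc a, hsc b]
      congr 1
    exact isCyclic_of_subgroup_isDomain f hf
  · intro hcyc
    haveI : Group.IsNilpotent G := hG.isNilpotent
    have key : ∃ χ : G → ℂ, ∃ hχ : IsIrrCharacter G χ,
        CharQuot.charKer χ (CharBasic.isCharacter_of_isIrr hχ) = ⊥ := by
      rcases subsingleton_or_nontrivial G with hs | hnt
      · exact ⟨1, CharMore.isIrr_one, Subsingleton.elim _ _⟩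
      · have hZ : Subgroup.center G ≠ ⊥ := Group.IsNilpotent.center_ne_bot G
        have hZp : IsPGroup p (Subgroup.center G) := hG.to_subgroup _
        have hdvd : ∀ M : Subgroup G, M ≠ ⊥ → ∃ m ∈ M, orderOf m = p := by
          intro M hM
          have hMp : IsPGroup p M := hG.to_subgroup _
          obtain ⟨k, hk⟩ := IsPGroup.iff_card.mp hMp
          have hk0 : k ≠ 0 := by
            rintro rfl
            rw [pow_zero] at hk
            exact hM (Subgroup.card_eq_one.mp hk)
          have : p ∣ Nat.card M := by rw [hk]; exact dvd_pow_self p hk0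
          obtain ⟨m, hm⟩ := exists_prime_orderOf_dvd_card' p this
          exact ⟨m, m.2, by rw [← hm, Subgroup.orderOf_coe]⟩
        obtain ⟨z₀, hz₀, hz₀p⟩ := hdvd _ hZ
        have hz1 : z₀ ≠ 1 := by
          rintro rfl
          rw [orderOf_one] at hz₀p
          exact hpp.one_lt.ne hz₀p
        have hex : ∃ χ : IrrCharacter G, (χ : G → ℂ) z₀ ≠ (χ : G → ℂ) 1 := by
          by_contra hcon
          push Not at hcon
          exact hz1 (isConj_one_left.mp ((CharComplete.isConj_iff_forall_irr z₀ 1).mpr hcon))
        obtain ⟨χ, hχ⟩ := hex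
        refine ⟨χ, χ.2, ?_⟩
        by_contra hK
        have hKZ := Helper4_Nilp.normal_inf_center_ne_bot _ hK
        obtain ⟨m, hm, hmp⟩ := hdvd _ hKZ
        have h1 : z₀ ∈ Subgroup.zpowers m :=
          helper6_Cyclic.mem_zpowers_of_pow_orderOf' (Subgroup.center G) (Subgroup.mem_inf.mp hm).2 hz₀
            (by rw [hmp, ← hz₀p, pow_orderOf_eq_one])
        have h2 : Subgroup.zpowers m ≤ CharQuot.charKer (χ : G → ℂ) (CharBasic.isCharacter_of_isIrr χ.2) :=
          (Subgroup.zpowers_le).mpr (Subgroup.mem_inf.mp hm).1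
        exact hχ (h2 h1)
    obtain ⟨χ, hχ, hker⟩ := key
    obtain ⟨n, ρ, hρ, rfl⟩ := hχ
    refine ⟨n, ρ, hρ, ?_⟩
    intro a b hab
    have h1 : ρ (a * b⁻¹) = 1 := by
      rw [map_mul, hab, ← map_mul, mul_inv_cancel, map_one]
    have h2 : a * b⁻¹ ∈ CharQuot.charKer ρ.character (CharBasic.isCharacter_of_isIrr ⟨n, ρ, hρ, rfl⟩) := by
      rw [CharQuot.mem_charKer]
      simp only [Representation.character, h1, map_one]
    rw [hker, Subgroup.mem_bot] at h2
    exact mul_inv_eq_one.mp h2

end Cfsg.Agent.S0184
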