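import Cfsg.Statements.S0185
import Cfsg.Agent.Lib.CharLinear
import Cfsg.Agent.Lib.CharInd

set_option autoImplicit false
open Cfsg

namespace Cfsg.Agent.S0185

/-- If a finite group has a faithful complex representation of degree less than the smallest prime dividing its order, the group is abelian. -/
theorem result {G : Type*} [Group G] [Finite G] {V : Type*} [AddCommGroup V] [Module ℂ V] [FiniteDimensional ℂ V] (ρ : Representation ℂ G V) (hfaithful : Function.Injective ρ) (hdeg : ∀ p : ℕ, p.Prime → p ∣ Nat.card G → Module.finrank ℂ V < p) (a b : G) : a * b = b * a := by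
  classical
  haveI := Fintype.ofFinite G
  have hchar := Cfsg.Agent.Lib.CharBasic.isCharacter_of_rep ρ
  obtain ⟨m, hm, hexp⟩ := Cfsg.Agent.Lib.CharMore.exists_mult hchar
  -- constituents are linear
  have hlin : ∀ ψ : Cfsg.IrrCharacter G, m ψ ≠ 0 → (ψ : G → ℂ) 1 = 1 := by
    intro ψ hψ
    have hne : Cfsg.classInner ρ.character (ψ : G → ℂ) ≠ 0 := by
      rw [hm ψ]; exact_mod_cast hψ
    obtain ⟨x, y, hx, hy, hxy⟩ := Cfsg.Agent.Lib.CharInd.degree_le_of_constituent hchar ψ.2 hne
    obtain ⟨d, hd0, hd1, hd2⟩ := Cfsg.Agent.Lib.CharMore.irr_degree ψ.2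
    rw [Representation.char_one] at hx
    have hx' : Module.finrank ℂ V = x := by exact_mod_cast hx
    have hy' : d = y := by
      rw [hd1] at hy; exact_mod_cast hy
    by_cases h1 : d = 1
    · rw [hd1, h1]; simp
    · exfalso
      obtain ⟨p, hp, hpd⟩ := Nat.exists_prime_and_dvd h1
      have h2 := hdeg p hp (hpd.trans hd2)
      have h3 := Nat.le_of_dvd hd0 hpd
      omega
  have hcomm : ρ.character (a * b * a⁻¹ * b⁻¹) = ρ.character 1 := by
    conv_lhs => rw [hexp]
    conv_rhs => rw [hexp]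
    rw [Finset.sum_apply, Finset.sum_apply]
    refine Finset.sum_congr rfl fun ψ _ => ?_
    by_cases hψ : m ψ = 0
    · simp [hψ]
    · have h1 := hlin ψ hψ
      have hc := Cfsg.Agent.Lib.CharBasic.isCharacter_of_isIrr ψ.2
      simp only [Pi.smul_apply]
      congr 1
      rw [h1, ← Cfsg.Agent.Lib.CharLinear.homOfLinear_apply hc h1]
      have : Cfsg.Agent.Lib.CharLinear.homOfLinear hc h1 (a * b * a⁻¹ * b⁻¹) = 1 := by
        simp only [map_mul, map_inv]
        rw [mul_comm (Cfsg.Agent.Lib.CharLinear.homOfLinear hc h1 a)]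
        simp
      rw [this]; rfl
  rw [Representation.char_one, Cfsg.Agent.Lib.CharBasic.char_eq_finrank_iff] at hcomm
  have h1 : ρ (a * b * a⁻¹ * b⁻¹) = ρ 1 := by rw [hcomm, map_one]; rfl
  have h2 := hfaithful h1
  calc a * b = (a * b * a⁻¹ * b⁻¹) * (b * a) := by group
    _ = b * a := by rw [h2, one_mul]

end Cfsg.Agent.S0185
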