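import Cfsg.Statements.S0186
import Cfsg.Agent.Lib.CharSmall

set_option autoImplicit false
open Cfsg

namespace Cfsg.Agent.S0186

open Cfsg.Agent.Lib

/-- Let G be a finite simple group of order n and p a prime dividing n. If G has more than n / p^2 conjugacy classes, then every Sylow p-subgroup of G is abelian. -/
theorem result {G : Type*} [Group G] [Finite G] [IsSimpleGroup G] (p : ℕ) [Fact p.Prime] (hp : p ∣ Nat.card G) (hmany : Nat.card G < p ^ 2 * Nat.card (ConjClasses G)) (P : Sylow p G) (a b : G) (ha : a ∈ P) (hb : b ∈ P) : a * b = b * a := by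
  classical
  haveI := Fintype.ofFinite G
  have hpp : p.Prime := Fact.out
  by_contra hab
  choose d hd using fun ψ : IrrCharacter G => CharMore.irr_degree ψ.2
  -- p^2 divides |G|
  have hp2 : p ^ 2 ∣ Nat.card G := by
    obtain ⟨k, hk⟩ := IsPGroup.iff_card.mp P.2
    have hdvd : Nat.card P ∣ Nat.card G := Subgroup.card_subgroup_dvd_card _
    rcases Nat.lt_or_ge k 2 with hk2 | hk2
    · exfalso
      have hcomm : ∀ x y : P, x * y = y * x := by
        interval_cases k
        · rw [pow_zero] at hk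
          haveI : Subsingleton P := (Nat.card_eq_one_iff_unique.mp hk).1
          intro x y; exact Subsingleton.elim _ _
        · rw [pow_one] at hk
          haveI : IsCyclic P := isCyclic_of_prime_card hk
          intro x y
          exact (IsCyclic.commGroup (α := P)).mul_comm x y
      exact hab (congrArg Subtype.val (hcomm ⟨a, ha⟩ ⟨b, hb⟩))
    · exact (pow_dvd_pow p hk2).trans (hk ▸ hdvd)
  have hsum : ∑ ψ : IrrCharacter G, d ψ ^ 2 = Nat.card G := by
    have h := CharComplete.sum_sq_degree (G := G)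
    have h2 : ∑ ψ : IrrCharacter G, ((d ψ : ℂ)) ^ 2 = (Nat.card G : ℂ) := by
      rw [← h]
      exact Finset.sum_congr rfl fun ψ _ => by rw [(hd ψ).2.1]
    exact_mod_cast h2
  let one : IrrCharacter G := ⟨1, CharMore.isIrr_one⟩
  have hge : ∀ ψ ∈ Finset.univ.erase one, p ^ 2 ≤ d ψ ^ 2 := by
    intro ψ hψ
    have hne : (ψ : G → ℂ) ≠ 1 := fun h => (Finset.mem_erase.mp hψ).1 (Subtype.ext h)
    exact Nat.pow_le_pow_left (CharSmall.le_degree_of_simple p P P.2 ha hb hab ψ.2 hne (hd ψ).2.1) 2
  have h1 := Finset.card_nsmul_le_sum _ _ _ hge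
  rw [Finset.card_erase_of_mem (Finset.mem_univ _), Finset.card_univ, ← Nat.card_eq_fintype_card,
    CharComplete.card_irr_eq_card_conjClasses, smul_eq_mul] at h1
  have h2 := Finset.add_sum_erase Finset.univ (fun ψ : IrrCharacter G => d ψ ^ 2) (Finset.mem_univ one)
  have h3 : 0 < d one ^ 2 := pow_pos (hd one).1 2
  obtain ⟨t, ht⟩ := hp2
  have hk0 : 0 < Nat.card (ConjClasses G) := Nat.card_pos
  rw [hsum] at h2
  rw [ht] at hmany h2
  have ht' : t < Nat.card (ConjClasses G) := Nat.lt_of_mul_lt_mul_left hmany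
  have h4 : p ^ 2 * t ≤ (Nat.card (ConjClasses G) - 1) * p ^ 2 := by
    rw [mul_comm]
    exact Nat.mul_le_mul_right _ (by omega)
  omega

end Cfsg.Agent.S0186
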