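import Cfsg.Statements.S0192
import Cfsg.Agent.Lib.CharMore

set_option autoImplicit false
open Cfsg

namespace Cfsg.Agent.S0192

/-- Brauer's generation criterion. Let G be a finite simple group, H₁ and H₂ subgroups, and χ a non-principal irreducible character. If the multiplicity of the principal character in χ restricted to H₁ ⊓ H₂ is less than the sum of the corresponding multiplicities for H₁ and H₂, then H₁ and H₂ do not generate G. -/
theorem result {G : Type*} [Group G] [Fintype G] [IsSimpleGroup G] (H₁ H₂ : Subgroup G) [Fintype H₁] [Fintype H₂] [Fintype ↥(H₁ ⊓ H₂)] (χ : G → ℂ) (hχ : Cfsg.IsIrrCharacter G χ) (hχ1 : χ ≠ fun _ => 1) (hlt : (Cfsg.classInner (fun x : ↥(H₁ ⊓ H₂) => χ x) (fun _ => 1)).re < (Cfsg.classInner (fun x : H₁ => χ x) (fun _ => 1)).re + (Cfsg.classInner (fun x : H₂ => χ x) (fun _ => 1)).re) : H₁ ⊔ H₂ ≠ ⊤ := by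
  classical
  obtain ⟨n, ρ, hρ, rfl⟩ := hχ
  have hχ : Cfsg.IsIrrCharacter G ρ.character := ⟨n, ρ, hρ, rfl⟩
  intro htop
  have key : ∀ (H : Subgroup G) [Fintype H],
      Cfsg.classInner (fun x : H => ρ.character x) (fun _ => 1) =
        (Module.finrank ℂ (Representation.invariants (ρ.comp H.subtype)) : ℂ) := by
    intro H _
    haveI : Invertible (Nat.card H : ℂ) :=
      invertibleOfNonzero (by exact_mod_cast Nat.card_pos.ne')
    rw [← Representation.card_inv_mul_sum_char_eq_finrank (ρ.comp H.subtype)]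
    unfold Cfsg.classInner
    simp only [map_one, mul_one]
    rfl
  rw [key H₁, key H₂, key (H₁ ⊓ H₂)] at hlt
  simp only [Complex.natCast_re] at hlt
  have hlt' : Module.finrank ℂ (Representation.invariants (ρ.comp (H₁ ⊓ H₂).subtype)) <
      Module.finrank ℂ (Representation.invariants (ρ.comp H₁.subtype)) +
      Module.finrank ℂ (Representation.invariants (ρ.comp H₂.subtype)) := by exact_mod_cast hlt
  set I₁ := Representation.invariants (ρ.comp H₁.subtype) with hI₁
  set I₂ := Representation.invariants (ρ.comp H₂.subtype) with hI₂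
  set I₃ := Representation.invariants (ρ.comp (H₁ ⊓ H₂).subtype) with hI₃
  have h1 : I₁ ⊔ I₂ ≤ I₃ := by
    apply sup_le
    · intro v hv g
      exact hv ⟨g, g.2.1⟩
    · intro v hv g
      exact hv ⟨g, g.2.2⟩
  have h2 := Submodule.finrank_sup_add_finrank_inf_eq I₁ I₂
  have h3 := Submodule.finrank_mono h1
  have h4 : 0 < Module.finrank ℂ (I₁ ⊓ I₂ : Submodule ℂ (Fin n → ℂ)) := by omega
  have h5 : (I₁ ⊓ I₂ : Submodule ℂ (Fin n → ℂ)) ≠ ⊥ := by
    intro h0
    rw [h0, finrank_bot] at h4
    exact lt_irrefl _ h4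
  obtain ⟨v, hv, hv0⟩ := Submodule.exists_mem_ne_zero_of_ne_bot h5
  let St : Subgroup G :=
    { carrier := {g | ρ g v = v}
      one_mem' := by simp
      mul_mem' := by
        intro a b ha hb
        show ρ (a * b) v = v
        rw [map_mul, Module.End.mul_apply, (show ρ b v = v from hb), (show ρ a v = v from ha)]
      inv_mem' := by
        intro a ha
        show ρ a⁻¹ v = v
        have h6 : ρ a⁻¹ (ρ a v) = v := by
          rw [← Module.End.mul_apply, ← map_mul, inv_mul_cancel, map_one, Module.End.one_apply]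
        rwa [(show ρ a v = v from ha)] at h6 }
  have hSt : (⊤ : Subgroup G) ≤ St := by
    rw [← htop]
    apply sup_le
    · intro g hg
      exact hv.1 ⟨g, hg⟩
    · intro g hg
      exact hv.2 ⟨g, hg⟩
  have hinv : v ∈ Representation.invariants ρ := fun g => hSt (Subgroup.mem_top g)
  have h7 : 0 < Module.finrank ℂ (Representation.invariants ρ) := by
    apply Module.finrank_pos_iff_exists_ne_zero.mpr
    exact ⟨⟨v, hinv⟩, fun h0 => hv0 (congrArg Subtype.val h0)⟩
  haveI : Invertible (Nat.card G : ℂ) :=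
    invertibleOfNonzero (by exact_mod_cast Nat.card_pos.ne')
  have h8 := Representation.card_inv_mul_sum_char_eq_finrank ρ
  have h9 : Cfsg.classInner ρ.character (1 : G → ℂ) =
      (Module.finrank ℂ (Representation.invariants ρ) : ℂ) := by
    rw [← h8]
    unfold Cfsg.classInner
    simp
  rw [Cfsg.Agent.Lib.CharOrtho.classInner_irr hχ Cfsg.Agent.Lib.CharMore.isIrr_one] at h9
  split_ifs at h9 with h10
  · exact hχ1 h10
  · have : (Module.finrank ℂ (Representation.invariants ρ) : ℂ) ≠ 0 := by exact_mod_cast h7.ne'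
    exact this h9.symm

end Cfsg.Agent.S0192
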