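import Cfsg.Statements.S0194
import Cfsg.Agent.Lib.CharClifford

set_option autoImplicit false
open scoped ComplexConjugate
open Cfsg

namespace Cfsg.Agent.S0194

open Cfsg.Agent.Lib

/-- Let G have odd order, H be a normal subgroup and θ a non-principal irreducible character of H. Then the function induced from θ is orthogonal to its complex conjugate. -/
theorem result {G : Type*} [Group G] [Fintype G] (hodd : Odd (Nat.card G)) (H : Subgroup G) [H.Normal] (θ : H → ℂ) (hθ : Cfsg.IsIrrCharacter H θ) (hθ1 : θ ≠ fun _ => 1) : Cfsg.classInner (fun g => conj (Cfsg.indFun H θ g)) (Cfsg.indFun H θ) = 0 := by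
  classical
  have hN : H.Normal := inferInstance
  haveI : Fintype H := Fintype.ofFinite H
  rw [CharClifford.indFun_conj]
  have hθc := CharMore.isIrr_conj hθ
  have e := CharClifford.card_mul_classInner_ind' H hN hθc hθ
  have hNc : (Nat.card H : ℂ) ≠ 0 := by exact_mod_cast Nat.card_pos.ne'
  have hemp : IsEmpty {x : G // CharClifford.conjFun H hN θ x = fun n => (starRingEnd ℂ) (θ n)} := by
    constructor
    rintro ⟨x, hx⟩
    -- powers
    have hsq : CharClifford.conjFun H hN θ (x * x) = θ := by
      rw [← CharClifford.conjFun_mul, hx]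
      ext n
      have := congrFun hx ⟨x * n * x⁻¹, hN.conj_mem n n.2 x⟩
      simp only [CharClifford.conjFun] at this ⊢
      have h2 := congrFun hx n
      simp only [CharClifford.conjFun] at h2
      rw [h2, Complex.conj_conj]
    have hpow : ∀ k : ℕ, CharClifford.conjFun H hN θ ((x * x) ^ k) = θ := by
      intro k
      induction k with
      | zero => rw [pow_zero, CharClifford.conjFun_one]
      | succ k ih => rw [pow_succ, ← CharClifford.conjFun_mul, ih, hsq]
    have hoddx : Odd (orderOf x) := by
      have : orderOf x ∣ Nat.card G := orderOf_dvd_natCard x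
      exact Odd.of_dvd_nat hodd this
    obtain ⟨m, hm⟩ := hoddx
    have hx1 : (x * x) ^ (m + 1) = x := by
      rw [← pow_two, ← pow_mul]
      have : 2 * (m + 1) = orderOf x + 1 := by omega
      rw [this, pow_succ, pow_orderOf_eq_one, one_mul]
    have hfix : CharClifford.conjFun H hN θ x = θ := by
      have := hpow (m + 1)
      rwa [hx1] at this
    have hreal : ∀ n : H, (θ n).im = 0 := by
      intro n
      have h3 : (starRingEnd ℂ) (θ n) = θ n := by
        have := congrFun (hx.symm.trans hfix) n
        exact this
      exact Complex.conj_eq_iff_im.mp h3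
    have hoddH : Odd (Nat.card H) := Odd.of_dvd_nat hodd (Subgroup.card_subgroup_dvd_card H)
    exact hθ1 (CharPerm.real_irr_eq_one_of_odd hoddH ⟨θ, hθ⟩ hreal)
  rw [@Nat.card_of_isEmpty _ hemp, Nat.cast_zero] at e
  exact (mul_eq_zero.mp e).resolve_left hNc

end Cfsg.Agent.S0194
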