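import Cfsg.Statements.S0196
import Mathlib

set_option autoImplicit false
open Cfsg

namespace Cfsg.Agent.S0196

/-- Let A be a subgroup of a finite group G that equals the centralizer of each of its non-identity elements, and let N be its normalizer. Then the index of A in N divides |A| − 1 (N/A permutes the non-identity elements of A in orbits of full length). -/
theorem result {G : Type*} [Group G] [Finite G] (A : Subgroup G) (hA : ∀ x ∈ A, x ≠ 1 → Subgroup.centralizer ({x} : Set G) = A) : (A.subgroupOf (Subgroup.normalizer (A : Set G))).index ∣ Nat.card A - 1 := by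
  classical
  set N := Subgroup.normalizer (A : Set G) with hN
  let X := {x : G // x ∈ A ∧ x ≠ 1}
  letI inst : MulAction N X :=
    { smul := fun n x => ⟨n * x.1 * (n : G)⁻¹, (Subgroup.mem_normalizer_iff.mp n.2 x.1).mp x.2.1, by
        intro h
        apply x.2.2
        have : (n : G) * x.1 * (n : G)⁻¹ = n * 1 * (n : G)⁻¹ := by rw [h]; group
        exact mul_left_cancel (mul_right_cancel this)⟩
      one_smul := by
        intro x
        apply Subtype.ext
        change ((1 : N) : G) * x.1 * ((1 : N) : G)⁻¹ = x.1
        simp
      mul_smul := by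
        intro a b x
        apply Subtype.ext
        change ((a * b : N) : G) * x.1 * ((a * b : N) : G)⁻¹ = a * (b * x.1 * (b : G)⁻¹) * (a : G)⁻¹
        simp only [Subgroup.coe_mul]
        group }
  have hstab : ∀ x : X, MulAction.stabilizer N x = A.subgroupOf N := by
    intro x
    ext n
    rw [MulAction.mem_stabilizer_iff, Subgroup.mem_subgroupOf, ← hA x.1 x.2.1 x.2.2,
      Subgroup.mem_centralizer_singleton_iff]
    constructor
    · intro h
      have h' : (n : G) * x.1 * (n : G)⁻¹ = x.1 := congrArg Subtype.val h
      calc (n : G) * x.1 = (n * x.1 * (n : G)⁻¹) * n := by group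
        _ = x.1 * n := by rw [h']
    · intro h
      apply Subtype.ext
      change (n : G) * x.1 * (n : G)⁻¹ = x.1
      rw [h]; group
  have h1 := Nat.card_congr (MulAction.selfEquivSigmaOrbitsQuotientStabilizer N X)
  haveI : Finite X := Subtype.finite
  haveI : Fintype (Quotient (MulAction.orbitRel N X)) := Fintype.ofFinite _
  rw [Nat.card_sigma] at h1
  have h2 : ∀ ω : Quotient (MulAction.orbitRel N X),
      Nat.card (N ⧸ MulAction.stabilizer N ω.out) = (A.subgroupOf N).index := by
    intro ω
    rw [hstab]; rfl
  simp only [h2, Finset.sum_const, smul_eq_mul] at h1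
  have h3 : Nat.card X = Nat.card A - 1 := by
    have e : X ≃ {a : A // a ≠ 1} :=
      { toFun := fun x => ⟨⟨x.1, x.2.1⟩, fun h => x.2.2 (congrArg Subtype.val h)⟩
        invFun := fun a => ⟨a.1.1, a.1.2, fun h => a.2 (Subtype.ext h)⟩
        left_inv := fun x => rfl
        right_inv := fun a => rfl }
    rw [Nat.card_congr e]
    haveI : Fintype A := Fintype.ofFinite A
    rw [Nat.card_eq_fintype_card, Nat.card_eq_fintype_card, Fintype.card_subtype_compl, Fintype.card_subtype_eq]
  rw [← h3, h1]
  exact Dvd.intro_left _ rfl

end Cfsg.Agent.S0196
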