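import Cfsg.Statements.S0199

import Mathlib
import Cfsg.Agent.Lib.Helper7_BaerSuzuki
set_option autoImplicit false
open Cfsg

namespace Cfsg.Agent.S0199

open Cfsg.Agent.Lib.Helper7_Conj Cfsg.Agent.Lib.Helper7_BaerSuzuki

/-- Baer–Suzuki Theorem: a p-subgroup X of a finite group such that X and any of its conjugates generate a p-group is contained in a normal p-subgroup. -/
theorem result {G : Type*} [Group G] [Finite G] {p : ℕ} [Fact p.Prime] (X : Subgroup G) (hX : IsPGroup p X) (h : ∀ g : G, IsPGroup p ↥(X ⊔ X.map (MulAut.conj g).toMonoidHom)) : ∃ N : Subgroup G, N.Normal ∧ IsPGroup p N ∧ X ≤ N := by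
  let K : Set G := {a | ∃ g : G, ∃ x ∈ X, a = g * x * g⁻¹}
  have hKinv : ∀ g : G, ∀ x ∈ K, g * x * g⁻¹ ∈ K := by
    rintro g _ ⟨h, x, hx, rfl⟩
    exact ⟨g * h, x, hx, by group⟩
  have hK : ∀ a ∈ K, ∀ b ∈ K, IsPGroup p (Subgroup.closure ({a, b} : Set G)) := by
    rintro _ ⟨g, x, hx, rfl⟩ _ ⟨k, y, hy, rfl⟩
    have h1 : IsPGroup p ((X ⊔ X.map (MulAut.conj (g⁻¹ * k)).toMonoidHom).map
        (MulAut.conj g).toMonoidHom) := (h (g⁻¹ * k)).map _
    apply h1.to_le
    rw [Subgroup.closure_le]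
    rintro z (rfl | rfl)
    · exact conj_mem_cj (Subgroup.mem_sup_left hx)
    · rw [SetLike.mem_coe, mem_cj]
      apply Subgroup.mem_sup_right
      rw [mem_cj]
      convert hy using 1
      group
  obtain ⟨hn, hp⟩ := baer_suzuki_set K hKinv hK
  exact ⟨_, hn, hp, fun x hx => Subgroup.subset_closure ⟨1, x, hx, by simp⟩⟩

end Cfsg.Agent.S0199
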