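import Cfsg.Statements.S0202
import Cfsg.Agent.Lib.Helper1_Klein

set_option autoImplicit false
open Cfsg

namespace Cfsg.Agent.S0202

open Cfsg.Agent.Lib.Helper1_Invol Cfsg.Agent.Lib.Helper1_Invol2 Cfsg.Agent.Lib.Helper1_Klein

theorem dichotomy {G : Type*} [Group G] [Finite G] (P : Sylow 2 G)
    (hP : IsKleinFour (P : Subgroup G)) {a b : G}
    (ha : a ∈ P) (hb : b ∈ P)
    (ha1 : a ≠ 1) (hb1 : b ≠ 1) (hab : a ≠ b) (ha2 : a * a = 1) (hb2 : b * b = 1)
    (hcomm : a * b = b * a) :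
    (IsConj a b ∧ IsConj b (a * b)) ∨ (¬ IsConj a b ∧ ¬ IsConj a (a * b) ∧ ¬ IsConj b (a * b)) := by
  have hne1 : a ≠ a * b := fun h => hb1 (mul_eq_left.1 h.symm)
  have hne2 : b ≠ a * b := fun h => ha1 (mul_eq_right.1 h.symm)
  by_cases h1 : IsConj a b
  · exact Or.inl ⟨h1, fusion P hP ha hb ha1 hab h1⟩
  · right
    have h2 : ¬ IsConj a (a * b) := by
      intro h2
      have := fusion P hP ha (mul_mem ha hb) ha1 hne1 h2
      rw [← mul_assoc, ha2, one_mul] at this
      exact h1 (h2.trans this)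
    refine ⟨h1, h2, ?_⟩
    intro h3
    have := fusion P hP hb (mul_mem ha hb) hb1 hne2 h3
    rw [hcomm, ← mul_assoc, hb2, one_mul] at this
    rw [hcomm] at h2
    exact h2 this.symm

/-- If a Sylow 2-subgroup of a finite group is a Klein four-group, the group has one or three conjugacy classes of involutions. -/
theorem result {G : Type*} [Group G] [Finite G] (P : Sylow 2 G) (hP : IsKleinFour (P : Subgroup G)) : Nat.card {C : ConjClasses G // ∃ t : G, orderOf t = 2 ∧ ConjClasses.mk t = C} = 1 ∨ Nat.card {C : ConjClasses G // ∃ t : G, orderOf t = 2 ∧ ConjClasses.mk t = C} = 3 := by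
  classical
  obtain ⟨a, b, ha, hb, ha1, hb1, hab, ha2, hb2, hcomm, hall⟩ := klein_elems (P : Subgroup G) hP
  rw [card_classes P ha hb ha1 hb1 hab ha2 hb2 hcomm hall]
  rcases dichotomy P hP ha hb ha1 hb1 hab ha2 hb2 hcomm with ⟨h1, h2⟩ | ⟨h1, h2, h3⟩
  · left
    rw [← ConjClasses.mk_eq_mk_iff_isConj] at h1 h2
    rw [← h2, ← h1]
    simp
  · right
    rw [← ConjClasses.mk_eq_mk_iff_isConj] at h1 h2 h3
    rw [Finset.card_insert_of_notMem, Finset.card_insert_of_notMem, Finset.card_singleton]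
    · simpa using h3
    · simp only [Finset.mem_insert, Finset.mem_singleton, not_or]
      exact ⟨h1, h2⟩

end Cfsg.Agent.S0202
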