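import Cfsg.Statements.S0203
import Cfsg.Agent.Lib.Helper1_Klein
import Cfsg.Agent.S0202

set_option autoImplicit false
open Cfsg

namespace Cfsg.Agent.S0203

open Cfsg.Agent.Lib.Helper1_Invol Cfsg.Agent.Lib.Helper1_Invol2 Cfsg.Agent.Lib.Helper1_Klein

/-- If a Sylow 2-subgroup P of a finite group G is a Klein four-group, then G has three classes of involutions if and only if P has a normal complement in G. -/
theorem result {G : Type*} [Group G] [Finite G] (P : Sylow 2 G) (hP : IsKleinFour (P : Subgroup G)) : Nat.card {C : ConjClasses G // ∃ t : G, orderOf t = 2 ∧ ConjClasses.mk t = C} = 3 ↔ ∃ N : Subgroup G, N.Normal ∧ Subgroup.IsComplement' N (P : Subgroup G) := by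
  classical
  haveI : Fact (Nat.Prime 2) := ⟨Nat.prime_two⟩
  obtain ⟨a, b, ha, hb, ha1, hb1, hab, ha2, hb2, hcomm, hall⟩ := klein_elems (P : Subgroup G) hP
  rw [card_classes P ha hb ha1 hb1 hab ha2 hb2 hcomm hall]
  have hne1 : a ≠ a * b := fun h => hb1 (mul_eq_left.1 h.symm)
  have hne2 : b ≠ a * b := fun h => ha1 (mul_eq_right.1 h.symm)
  have hab1 : a * b ≠ 1 := by
    intro h
    apply hab
    have := eq_inv_of_mul_eq_one_left h
    rw [this, inv_of_mul_self hb2]
  constructor
  · intro h3
    rcases Cfsg.Agent.S0202.dichotomy P hP ha hb ha1 hb1 hab ha2 hb2 hcomm with ⟨h1, h2⟩ | ⟨h1, h2, h3'⟩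
    · exfalso
      rw [← ConjClasses.mk_eq_mk_iff_isConj] at h1 h2
      rw [← h2, ← h1] at h3
      simp at h3
    · -- N(P) ≤ C(P)
      have hfix : ∀ n ∈ Subgroup.normalizer ((P : Subgroup G) : Set G), ∀ x ∈ P, n * x * n⁻¹ = x := by
        intro n hn
        have hnP : ∀ w ∈ P, n * w * n⁻¹ ∈ P := fun w hw => (Subgroup.mem_normalizer_iff.1 hn w).1 hw
        have hne : ∀ w : G, w ≠ 1 → n * w * n⁻¹ ≠ 1 := by
          intro w hw h
          apply hw
          have : w = n⁻¹ * (n * w * n⁻¹) * n := by group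
          rw [this, h]; group
        have hc : ∀ w : G, IsConj w (n * w * n⁻¹) := fun w => isConj_iff.2 ⟨n, rfl⟩
        have hfa : n * a * n⁻¹ = a := by
          rcases hall _ (hnP a ha) with h | h | h | h
          · exact absurd h (hne a ha1)
          · exact h
          · exact absurd (h ▸ hc a) h1
          · exact absurd (h ▸ hc a) h2
        have hfb : n * b * n⁻¹ = b := by
          rcases hall _ (hnP b hb) with h | h | h | h
          · exact absurd h (hne b hb1)
          · exact absurd (h ▸ hc b).symm h1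
          · exact h
          · exact absurd (h ▸ hc b) h3'
        intro x hx
        rcases hall x hx with rfl | rfl | rfl | rfl
        · group
        · exact hfa
        · exact hfb
        · calc n * (a * b) * n⁻¹ = (n * a * n⁻¹) * (n * b * n⁻¹) := by group
            _ = a * b := by rw [hfa, hfb]
      have hNC : Subgroup.normalizer ((P : Subgroup G) : Set G) ≤
          Subgroup.centralizer ((P : Subgroup G) : Set G) := by
        intro n hn
        rw [Subgroup.mem_centralizer_iff]
        intro x hx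
        have := hfix n hn x hx
        exact (mul_inv_eq_iff_eq_mul.1 this).symm
      exact ⟨_, inferInstance, MonoidHom.ker_transferSylow_isComplement' P hNC⟩
  · rintro ⟨N, hN, hc⟩
    have hdisj : ∀ x ∈ P, x ∈ N → x = 1 := by
      intro x hxP hxN
      have := hc.isCompl.disjoint.eq_bot
      have h2 : x ∈ N ⊓ (P : Subgroup G) := ⟨hxN, hxP⟩
      rw [this] at h2
      exact Subgroup.mem_bot.1 h2
    -- G/N is abelian
    have hcommP : ∀ x ∈ P, ∀ y ∈ P, x * y = y * x := by
      intro x hx y hy
      have := IsKleinFour.isMulCommutative (G := (P : Subgroup G))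
      exact congrArg Subtype.val (mul_comm' (⟨x, hx⟩ : (P : Subgroup G)) ⟨y, hy⟩)
    have hnc : ∀ x ∈ P, ∀ y ∈ P, IsConj x y → x = y := by
      intro x hx y hy hxy
      obtain ⟨g, hg⟩ := isConj_iff.1 hxy
      -- g = n * q
      obtain ⟨⟨n, q⟩, hnq, _⟩ := hc.existsUnique g
      have hnq' : n.1 * q.1 = g := hnq
      have h1 : q.1 * x * q.1⁻¹ = x := by rw [hcommP _ q.2 x hx]; group
      have h2 : y = n.1 * x * n.1⁻¹ := by
        rw [← hg, ← hnq']
        calc n.1 * q.1 * x * (n.1 * q.1)⁻¹ = n.1 * (q.1 * x * q.1⁻¹) * n.1⁻¹ := by group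
          _ = n.1 * x * n.1⁻¹ := by rw [h1]
      have h3 : y * x⁻¹ ∈ N := by
        rw [h2]
        have : n.1 * x * n.1⁻¹ * x⁻¹ = n.1 * (x * n.1⁻¹ * x⁻¹) := by group
        rw [this]
        exact mul_mem n.2 (hN.conj_mem _ (inv_mem n.2) x)
      have h4 := hdisj _ (mul_mem hy (inv_mem hx)) h3
      exact (mul_inv_eq_one.1 h4).symm
    rw [Finset.card_insert_of_notMem, Finset.card_insert_of_notMem, Finset.card_singleton]
    · simp only [Finset.mem_singleton]
      intro h
      exact hne2 (hnc b hb _ (mul_mem ha hb) (ConjClasses.mk_eq_mk_iff_isConj.1 h))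
    · simp only [Finset.mem_insert, Finset.mem_singleton, not_or]
      exact ⟨fun h => hab (hnc a ha b hb (ConjClasses.mk_eq_mk_iff_isConj.1 h)),
        fun h => hne1 (hnc a ha _ (mul_mem ha hb) (ConjClasses.mk_eq_mk_iff_isConj.1 h))⟩

end Cfsg.Agent.S0203
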