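import Cfsg.Statements.S0208
import Cfsg.Agent.Lib.Helper1_Invol

set_option autoImplicit false
open Cfsg

namespace Cfsg.Agent.S0208

open Cfsg.Agent.Lib.Helper1_Invol

/-- If x, y are involutions and xy has odd order, then some element of the subgroup generated by x and y conjugates x to y. -/
theorem result {G : Type*} [Group G] [Finite G] (x y : G) (hx : orderOf x = 2) (hy : orderOf y = 2) (hodd : Odd (orderOf (x * y))) : ∃ d ∈ Subgroup.closure ({x, y} : Set G), d * x * d⁻¹ = y := by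
  have hx2 := mul_self_of_order hx
  have hy2 := mul_self_of_order hy
  obtain ⟨m, hm⟩ := hodd
  refine ⟨(x * y) ^ (m : ℤ), xy_zpow_mem _, ?_⟩
  rw [zpow_conj_x hx2 hy2]
  conv_rhs => rw [y_eq hx2 hy2]
  congr 1
  have h1 : (x * y) ^ ((2 * m + 1 : ℕ) : ℤ) = 1 := by
    rw [zpow_natCast, ← hm]; exact pow_orderOf_eq_one _
  have h2 : (2 * (m : ℤ)) = ((2 * m + 1 : ℕ) : ℤ) + (-1) := by push_cast; ring
  rw [h2, zpow_add, h1, one_mul]

end Cfsg.Agent.S0208
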