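import Cfsg.Statements.S0209
import Cfsg.Agent.Lib.Helper1_Invol

set_option autoImplicit false
open Cfsg

namespace Cfsg.Agent.S0209

open Cfsg.Agent.Lib.Helper1_Invol

/-- If x, y are involutions whose product has even order n, the element (xy)^(n/2) is an involution that commutes with x and with y. -/
theorem result {G : Type*} [Group G] [Finite G] (x y : G) (hx : orderOf x = 2) (hy : orderOf y = 2) (heven : Even (orderOf (x * y))) : orderOf ((x * y) ^ (orderOf (x * y) / 2)) = 2 ∧ Commute ((x * y) ^ (orderOf (x * y) / 2)) x ∧ Commute ((x * y) ^ (orderOf (x * y) / 2)) y := by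
  have hx2 := mul_self_of_order hx
  have hy2 := mul_self_of_order hy
  have hpos : orderOf (x * y) ≠ 0 := (orderOf_pos _).ne'
  have h2 : orderOf ((x * y) ^ (orderOf (x * y) / 2)) = 2 :=
    orderOf_pow_orderOf_div hpos heven.two_dvd
  set z := (x * y) ^ (orderOf (x * y) / 2) with hz
  have hzz := inv_of_order h2
  have hcx : Commute z x := by
    have h := x_mul_zpow hx2 hy2 ((orderOf (x * y) / 2 : ℕ) : ℤ)
    rw [zpow_neg, zpow_natCast, ← hz, hzz] at h
    exact h.symm
  refine ⟨h2, hcx, ?_⟩
  have hcxy : Commute z (x * y) := (Commute.refl (x * y)).pow_left _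
  have : y = x * (x * y) := by rw [← mul_assoc, hx2, one_mul]
  rw [this]
  exact hcx.mul_right hcxy

end Cfsg.Agent.S0209
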