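import Cfsg.Statements.S0210
import Cfsg.Agent.Lib.Helper1_Invol

set_option autoImplicit false
open Cfsg

namespace Cfsg.Agent.S0210

open Cfsg.Agent.Lib.Helper1_Invol

/-- If x, y are involutions whose product has even order, no element of the subgroup generated by x and y conjugates x to y. -/
theorem result {G : Type*} [Group G] [Finite G] (x y : G) (hx : orderOf x = 2) (hy : orderOf y = 2) (heven : Even (orderOf (x * y))) (d : G) (hd : d ∈ Subgroup.closure ({x, y} : Set G)) : d * x * d⁻¹ ≠ y := by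
  have hx2 := mul_self_of_order hx
  have hy2 := mul_self_of_order hy
  obtain ⟨k, hk⟩ := conj_x hx2 hy2 hd
  intro h
  rw [hk] at h
  conv_rhs at h => rw [y_eq hx2 hy2]
  have h1 := mul_right_cancel h
  have h2 : (x * y) ^ (2 * k + 1) = 1 := by
    rw [zpow_add, h1, ← zpow_add]; simp
  have h3 := orderOf_dvd_iff_zpow_eq_one.2 h2
  obtain ⟨m, hm⟩ := heven.two_dvd
  rw [hm] at h3
  have : (2 : ℤ) ∣ 2 * k + 1 := Dvd.dvd.trans ⟨m, by push_cast; ring⟩ h3
  omega

end Cfsg.Agent.S0210
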