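import Cfsg.Statements.S0212
import Cfsg.Agent.Lib.Helper1_BF
import Cfsg.Agent.Lib.Helper7_Class

set_option autoImplicit false
open Cfsg

namespace Cfsg.Agent.S0212

open Cfsg.Agent.Lib.Helper1_Invol Cfsg.Agent.Lib.Helper1_Invol2 Cfsg.Agent.Lib.Helper1_BF

theorem card_le_factorial_index {G : Type*} [Group G] [Finite G] [IsSimpleGroup G] (H : Subgroup G)
    (hH : H ≠ ⊤) : Nat.card G ≤ Nat.factorial H.index := by
  classical
  have hker : (MulAction.toPermHom G (G ⧸ H)).ker = ⊥ := by
    rcases (MulAction.toPermHom G (G ⧸ H)).normal_ker.eq_bot_or_eq_top with h | h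
    · exact h
    · exfalso
      apply hH
      rw [eq_top_iff, ← h, ← Subgroup.normalCore_eq_ker]
      exact Subgroup.normalCore_le H
  have hinj : Function.Injective (MulAction.toPermHom G (G ⧸ H)) :=
    (MonoidHom.ker_eq_bot_iff _).1 hker
  have := Nat.card_le_card_of_injective _ hinj
  rwa [Nat.card_perm] at this

/-- The Brauer–Fowler bound: if G is a finite simple group and t an involution of G whose centralizer has order n, then |G| ≤ (2n^2)!. -/
theorem result {G : Type*} [Group G] [Finite G] [IsSimpleGroup G] (t : G) (ht : orderOf t = 2) : Nat.card G ≤ Nat.factorial (2 * (Nat.card (Subgroup.centralizer ({t} : Set G))) ^ 2) := by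
  set c := Nat.card (Subgroup.centralizer ({t} : Set G)) with hc
  have hcpos : 0 < c := Nat.card_pos
  have heven : Even (Nat.card G) := by
    rw [even_iff_two_dvd, ← ht]; exact orderOf_dvd_natCard t
  suffices h : ∃ H : Subgroup G, H ≠ ⊤ ∧ H.index ≤ 2 * c ^ 2 by
    obtain ⟨H, hH, hle⟩ := h
    exact (card_le_factorial_index H hH).trans (Nat.factorial_le hle)
  rcases (inferInstance : (Subgroup.center G).Normal).eq_bot_or_eq_top with hZ | hZ
  · have hZodd : Odd (Nat.card (Subgroup.center G)) := by rw [hZ, Subgroup.card_bot]; exact odd_one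
    obtain ⟨H, hH, h | h⟩ := brauer_fowler heven hZodd
    · refine ⟨H, hH, ?_⟩
      rw [h]
      nlinarith
    · refine ⟨H, hH, ?_⟩
      set m := numInv G with hm
      -- |G| ≤ m * c
      have h1 : Nat.card G ≤ m * c := by
        rw [← (Subgroup.centralizer ({t} : Set G)).card_mul_index, ← hc, mul_comm]
        apply Nat.mul_le_mul_right
        rw [Cfsg.Agent.Lib.Helper7_Class.index_centralizer_eq_card_class]
        exact Nat.card_le_card_of_injective
          (fun y : {y : G // IsConj t y} => (⟨y.1, by
            obtain ⟨g, hg⟩ := isConj_iff.1 y.2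
            rw [← hg, orderOf_conj]; exact ht⟩ : {t : G // orderOf t = 2}))
          (fun a b hab => Subtype.ext (congrArg (fun z : {t : G // orderOf t = 2} => z.1) hab))
      have hmpos : 0 < m := by
        rcases Nat.eq_zero_or_pos m with h0 | h0
        · rw [h0, zero_mul] at h1
          have : 0 < Nat.card G := Nat.card_pos
          omega
        · exact h0
      have h2 : Nat.card G * (Nat.card G + m) ≤ (m * c) * (m * c + m) :=
        Nat.mul_le_mul h1 (Nat.add_le_add_right h1 _)
      have h3 : 2 * H.index * m ^ 2 < (c * (c + 1)) * m ^ 2 := by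
        calc 2 * H.index * m ^ 2 < Nat.card G * (Nat.card G + m) := h
          _ ≤ (m * c) * (m * c + m) := h2
          _ = (c * (c + 1)) * m ^ 2 := by ring
      have h4 : 2 * H.index < c * (c + 1) := Nat.lt_of_mul_lt_mul_right h3
      nlinarith
  · -- abelian case
    refine ⟨⊥, ?_, ?_⟩
    · intro h
      exact ne_one_of_order ht (by
        have : t ∈ (⊥ : Subgroup G) := by rw [h]; trivial
        exact Subgroup.mem_bot.1 this)
    · rw [Subgroup.index_bot]
      have hctop : Subgroup.centralizer ({t} : Set G) = ⊤ := by
        rw [Subgroup.centralizer_eq_top_iff_subset, hZ]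
        exact Set.subset_univ _
      have : c = Nat.card G := by rw [hc, hctop, Subgroup.card_top]
      rw [← this]
      nlinarith

end Cfsg.Agent.S0212
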