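import Cfsg.Statements.S0213
import Cfsg.Agent.Lib.Helper1_Invol2
import Cfsg.Agent.Lib.Helper7_Class

set_option autoImplicit false
open Cfsg

namespace Cfsg.Agent.S0213

open Cfsg.Agent.Lib.Helper1_Invol Cfsg.Agent.Lib.Helper1_Invol2

/-- the counting function -/
noncomputable def cnt {G : Type*} [Group G] (x₁ x₂ w : G) : ℕ :=
  Nat.card {p : G × G // IsConj x₁ p.1 ∧ IsConj x₂ p.2 ∧ w ∈ Subgroup.zpowers (p.1 * p.2)}

theorem mem_zpowers_conj {G : Type*} [Group G] (g w a : G) :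
    g * w * g⁻¹ ∈ Subgroup.zpowers (g * a * g⁻¹) ↔ w ∈ Subgroup.zpowers a := by
  simp only [Subgroup.mem_zpowers_iff]
  constructor
  · rintro ⟨k, hk⟩
    refine ⟨k, ?_⟩
    rw [conj_zpow] at hk
    exact mul_left_cancel (mul_right_cancel hk)
  · rintro ⟨k, rfl⟩
    exact ⟨k, conj_zpow⟩

theorem cnt_conj {G : Type*} [Group G] (x₁ x₂ w g : G) :
    cnt x₁ x₂ (g * w * g⁻¹) = cnt x₁ x₂ w := by
  symm
  refine Nat.card_congr (Equiv.subtypeEquiv
    (Equiv.prodCongr (MulAut.conj g).toEquiv (MulAut.conj g).toEquiv) ?_)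
  rintro ⟨u, v⟩
  show IsConj x₁ u ∧ IsConj x₂ v ∧ w ∈ Subgroup.zpowers (u * v) ↔
    IsConj x₁ (g * u * g⁻¹) ∧ IsConj x₂ (g * v * g⁻¹) ∧
      g * w * g⁻¹ ∈ Subgroup.zpowers (g * u * g⁻¹ * (g * v * g⁻¹))
  have e : g * u * g⁻¹ * (g * v * g⁻¹) = g * (u * v) * g⁻¹ := by group
  rw [e, mem_zpowers_conj]
  have h1 : ∀ x y : G, IsConj x y ↔ IsConj x (g * y * g⁻¹) := by
    intro x y
    constructor
    · intro h; exact h.trans (isConj_iff.2 ⟨g, rfl⟩)
    · intro h; exact h.trans (isConj_iff.2 ⟨g, rfl⟩).symm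
  rw [← h1, ← h1]

/-- Thompson Order Formula, two-class case: if every involution of the finite group G is conjugate to exactly one of the non-conjugate involutions x₁, x₂, and nᵢ is the number of pairs (u, v) with u conjugate to x₁, v conjugate to x₂ and xᵢ in the cyclic group generated by uv, then |G| = |C(x₂)| n₁ + |C(x₁)| n₂. -/
theorem result {G : Type*} [Group G] [Finite G] (x₁ x₂ : G) (h₁ : orderOf x₁ = 2) (h₂ : orderOf x₂ = 2) (hnc : ¬ IsConj x₁ x₂) (hall : ∀ t : G, orderOf t = 2 → IsConj x₁ t ∨ IsConj x₂ t) : Nat.card G = Nat.card (Subgroup.centralizer ({x₂} : Set G)) * Nat.card {p : G × G // IsConj x₁ p.1 ∧ IsConj x₂ p.2 ∧ x₁ ∈ Subgroup.zpowers (p.1 * p.2)} + Nat.card (Subgroup.centralizer ({x₁} : Set G)) * Nat.card {p : G × G // IsConj x₁ p.1 ∧ IsConj x₂ p.2 ∧ x₂ ∈ Subgroup.zpowers (p.1 * p.2)} := by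
  classical
  haveI := Fintype.ofFinite G
  let K1 : Finset G := Finset.univ.filter (fun y => IsConj x₁ y)
  let K2 : Finset G := Finset.univ.filter (fun y => IsConj x₂ y)
  have hK1o : ∀ y ∈ K1, orderOf y = 2 := by
    intro y hy
    simp only [K1, Finset.mem_filter, Finset.mem_univ, true_and] at hy
    obtain ⟨g, rfl⟩ := isConj_iff.1 hy
    rw [orderOf_conj]; exact h₁
  have hK2o : ∀ y ∈ K2, orderOf y = 2 := by
    intro y hy
    simp only [K2, Finset.mem_filter, Finset.mem_univ, true_and] at hy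
    obtain ⟨g, rfl⟩ := isConj_iff.1 hy
    rw [orderOf_conj]; exact h₂
  have hdisj : Disjoint K1 K2 := by
    rw [Finset.disjoint_left]
    intro y hy1 hy2
    simp only [K1, K2, Finset.mem_filter, Finset.mem_univ, true_and] at hy1 hy2
    exact hnc (hy1.trans hy2.symm)
  have hdc := Finset.sum_card_bipartiteAbove_eq_sum_card_bipartiteBelow (s := K1 ×ˢ K2)
    (t := K1 ∪ K2) (fun (p : G × G) (w : G) => w ∈ Subgroup.zpowers (p.1 * p.2))
  have hL : ∀ p ∈ K1 ×ˢ K2, (Finset.bipartiteAbove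
      (fun (p : G × G) (w : G) => w ∈ Subgroup.zpowers (p.1 * p.2)) (K1 ∪ K2) p).card = 1 := by
    rintro ⟨u, v⟩ hp
    rw [Finset.mem_product] at hp
    have hu := hK1o u hp.1
    have hv := hK2o v hp.2
    have hnc' : ¬ IsConj u v := by
      intro h
      have h1 := hp.1
      have h2 := hp.2
      simp only [K1, K2, Finset.mem_filter, Finset.mem_univ, true_and] at h1 h2
      exact hnc ((h1.trans h).trans h2.symm)
    obtain ⟨z, hz, _, _, hzm⟩ := Cfsg.Agent.Lib.helper6_Invol.exists_invol_commute hu hv hnc'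
    rw [Finset.card_eq_one]
    refine ⟨z, ?_⟩
    ext w
    simp only [Finset.bipartiteAbove, Finset.mem_filter, Finset.mem_union, Finset.mem_singleton]
    constructor
    · rintro ⟨hw, hwm⟩
      have hwo : orderOf w = 2 := by
        rcases hw with hw | hw
        · exact hK1o w hw
        · exact hK2o w hw
      have := invol_unique_of_isCyclic (H := Subgroup.zpowers (u * v)) (x := ⟨w, hwm⟩) (z := ⟨z, hzm⟩)
        (by rw [← Subgroup.orderOf_coe]; exact hwo) (by rw [← Subgroup.orderOf_coe]; exact hz)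
      exact congrArg Subtype.val this
    · rintro rfl
      refine ⟨?_, hzm⟩
      rcases hall w hz with h | h
      · left; exact Finset.mem_filter.2 ⟨Finset.mem_univ _, h⟩
      · right; exact Finset.mem_filter.2 ⟨Finset.mem_univ _, h⟩
  rw [Finset.sum_congr rfl hL, Finset.sum_const, smul_eq_mul, mul_one, Finset.card_product,
    Finset.sum_union hdisj] at hdc
  have hB : ∀ w : G, (Finset.bipartiteBelow
      (fun (p : G × G) (w : G) => w ∈ Subgroup.zpowers (p.1 * p.2)) (K1 ×ˢ K2) w).card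
      = cnt x₁ x₂ w := by
    intro w
    rw [cnt, Nat.card_eq_fintype_card, Fintype.card_subtype]
    congr 1
    ext p
    simp [Finset.bipartiteBelow, K1, K2, and_assoc]
  have hS1 : ∀ w ∈ K1, (Finset.bipartiteBelow
      (fun (p : G × G) (w : G) => w ∈ Subgroup.zpowers (p.1 * p.2)) (K1 ×ˢ K2) w).card
      = cnt x₁ x₂ x₁ := by
    intro w hw
    simp only [K1, Finset.mem_filter, Finset.mem_univ, true_and] at hw
    obtain ⟨g, rfl⟩ := isConj_iff.1 hw
    rw [hB, cnt_conj]
  have hS2 : ∀ w ∈ K2, (Finset.bipartiteBelow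
      (fun (p : G × G) (w : G) => w ∈ Subgroup.zpowers (p.1 * p.2)) (K1 ×ˢ K2) w).card
      = cnt x₁ x₂ x₂ := by
    intro w hw
    simp only [K2, Finset.mem_filter, Finset.mem_univ, true_and] at hw
    obtain ⟨g, rfl⟩ := isConj_iff.1 hw
    rw [hB, cnt_conj]
  rw [Finset.sum_congr rfl hS1, Finset.sum_congr rfl hS2, Finset.sum_const, Finset.sum_const,
    smul_eq_mul, smul_eq_mul] at hdc
  have hc1 : Nat.card (Subgroup.centralizer ({x₁} : Set G)) * K1.card = Nat.card G := by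
    rw [← (Subgroup.centralizer ({x₁} : Set G)).card_mul_index,
      Cfsg.Agent.Lib.Helper7_Class.index_centralizer_eq_card_class, Nat.card_eq_fintype_card (α := {y // IsConj x₁ y}),
      Fintype.card_subtype]
  have hc2 : Nat.card (Subgroup.centralizer ({x₂} : Set G)) * K2.card = Nat.card G := by
    rw [← (Subgroup.centralizer ({x₂} : Set G)).card_mul_index,
      Cfsg.Agent.Lib.Helper7_Class.index_centralizer_eq_card_class, Nat.card_eq_fintype_card (α := {y // IsConj x₂ y}),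
      Fintype.card_subtype]
  show Nat.card G = _ * cnt x₁ x₂ x₁ + _ * cnt x₁ x₂ x₂
  set c1 := Nat.card (Subgroup.centralizer ({x₁} : Set G))
  set c2 := Nat.card (Subgroup.centralizer ({x₂} : Set G))
  set n := Nat.card G
  have hn : 0 < n := Nat.card_pos
  have key : n * n = n * (c2 * cnt x₁ x₂ x₁ + c1 * cnt x₁ x₂ x₂) := by
    calc n * n = (c1 * K1.card) * (c2 * K2.card) := by rw [hc1, hc2]
      _ = c1 * c2 * (K1.card * K2.card) := by ring
      _ = c1 * c2 * (K1.card * cnt x₁ x₂ x₁ + K2.card * cnt x₁ x₂ x₂) := by rw [hdc]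
      _ = (c1 * K1.card) * (c2 * cnt x₁ x₂ x₁) + (c2 * K2.card) * (c1 * cnt x₁ x₂ x₂) := by ring
      _ = n * (c2 * cnt x₁ x₂ x₁ + c1 * cnt x₁ x₂ x₂) := by rw [hc1, hc2]; ring
  exact Nat.eq_of_mul_eq_mul_left hn key

end Cfsg.Agent.S0213
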