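import Cfsg.Statements.S0216
import Cfsg.Agent.Lib.Helper1_Invol2

set_option autoImplicit false
open Cfsg

namespace Cfsg.Agent.S0216

open Cfsg.Agent.Lib.Helper1_Invol Cfsg.Agent.Lib.Helper1_Invol2

/-- For an involution u in a Sylow 2-subgroup P of a finite group G, the following are equivalent: no G-conjugate of u other than u lies in P; every commutator of u with an element of G has odd order. -/
theorem result {G : Type*} [Group G] [Finite G] (P : Sylow 2 G) (u : G) (hu : orderOf u = 2) (huP : u ∈ P) : (∀ g : G, g * u * g⁻¹ ∈ P → g * u * g⁻¹ = u) ↔ (∀ g : G, Odd (orderOf (u * g * u⁻¹ * g⁻¹))) := by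
  have hu2 := mul_self_of_order hu
  have hui := inv_of_order hu
  constructor
  · intro hiso g
    have hv2 : (g * u * g⁻¹) * (g * u * g⁻¹) = 1 := by
      calc (g * u * g⁻¹) * (g * u * g⁻¹) = g * (u * u) * g⁻¹ := by group
        _ = 1 := by rw [hu2]; group
    have he : u * g * u⁻¹ * g⁻¹ = u * (g * u * g⁻¹) := by rw [hui]; group
    rw [he]
    by_contra hodd
    rw [Nat.not_odd_iff_even] at hodd
    obtain ⟨k, hk⟩ := hodd
    have hk0 : 0 < k := by
      have := orderOf_pos (u * (g * u * g⁻¹))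
      omega
    obtain ⟨z, hz1, hzz, hc, _, h | h⟩ := Cfsg.Agent.Lib.Helper9_Dih.dihedral_even hu2 hv2 hk0 hk
    · obtain ⟨h, hh⟩ := h
      exact iso_aux P hu2 hiso hz1 hzz hc hh.symm
    · obtain ⟨h, hh⟩ := h
      exact iso_aux P hu2 hiso hz1 hzz hc (h := h * g) (by rw [hh]; group)
  · intro hodd g hg
    have h1 : u * g * u⁻¹ * g⁻¹ ∈ P := by
      have he : u * g * u⁻¹ * g⁻¹ = u * (g * u * g⁻¹) := by rw [hui]; group
      rw [he]; exact mul_mem huP hg
    obtain ⟨k, hk⟩ := (IsPGroup.iff_orderOf.1 P.2) ⟨_, h1⟩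
    rw [Subgroup.orderOf_mk] at hk
    have h2 := hodd g
    rw [hk] at h2
    have h3 : k = 0 := by
      by_contra hk0
      exact (Nat.not_even_iff_odd.2 h2) (Nat.even_pow.2 ⟨even_two, hk0⟩)
    rw [h3, pow_zero, orderOf_eq_one_iff] at hk
    have he : u * g * u⁻¹ * g⁻¹ = u * (g * u * g⁻¹) := by rw [hui]; group
    rw [he] at hk
    have := eq_inv_of_mul_eq_one_right hk
    rw [this, hui]

end Cfsg.Agent.S0216
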