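import Cfsg.Statements.S0218
import Cfsg.Agent.Lib.Helper1_Invol2

set_option autoImplicit false
open Cfsg

namespace Cfsg.Agent.S0218

open Cfsg.Agent.Lib.Helper1_Invol Cfsg.Agent.Lib.Helper1_Invol2

/-- The generalized quaternion group of order 2^(n+3) contains exactly one element of order 2. -/
theorem result (n : ℕ) : Nat.card {x : QuaternionGroup (2 ^ (n + 1)) // orderOf x = 2} = 1 := by
  set N := 2 ^ (n + 1) with hN
  haveI : NeZero N := ⟨by positivity⟩
  haveI : NeZero (2 * N) := ⟨by positivity⟩
  have hex : orderOf (QuaternionGroup.a (N : ZMod (2 * N)) : QuaternionGroup N) = 2 := by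
    rw [← QuaternionGroup.xa_sq 0, orderOf_pow_of_dvd (by norm_num) (by rw [QuaternionGroup.orderOf_xa]; norm_num),
      QuaternionGroup.orderOf_xa]
  have huniq : ∀ x : QuaternionGroup N, orderOf x = 2 → x = QuaternionGroup.a (N : ZMod (2 * N)) := by
    intro x hx
    cases x with
    | xa i => rw [QuaternionGroup.orderOf_xa] at hx; omega
    | a i =>
      have h1 := mul_self_of_order hx
      have h0 := ne_one_of_order hx
      rw [QuaternionGroup.a_mul_a, QuaternionGroup.one_def] at h1
      have h2 : i + i = 0 := by
        injection h1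
      have h3 : i ≠ 0 := by
        rintro rfl
        exact h0 QuaternionGroup.a_zero
      congr 1
      have h4 : ((i.val + i.val : ℕ) : ZMod (2 * N)) = 0 := by
        push_cast
        rw [ZMod.natCast_zmod_val, h2]
      rw [ZMod.natCast_eq_zero_iff] at h4
      have h5 : i.val < 2 * N := ZMod.val_lt i
      have h6 : i.val ≠ 0 := by
        intro h
        exact h3 ((ZMod.val_eq_zero i).1 h)
      obtain ⟨k, hk⟩ := h4
      have h7 : k = 1 := by
        have : k < 2 := by
          by_contra hk2
          push Not at hk2
          have : 2 * N * 2 ≤ 2 * N * k := Nat.mul_le_mul_left _ hk2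
          omega
        have : k ≠ 0 := by
          rintro rfl
          omega
        omega
      rw [h7] at hk
      have h8 : i.val = N := by omega
      calc i = ((i.val : ℕ) : ZMod (2 * N)) := (ZMod.natCast_zmod_val i).symm
        _ = (N : ZMod (2 * N)) := congrArg _ h8
  rw [Nat.card_eq_one_iff_unique]
  refine ⟨⟨fun a b => Subtype.ext ?_⟩, ⟨⟨_, hex⟩⟩⟩
  rw [huniq a.1 a.2, huniq b.1 b.2]

end Cfsg.Agent.S0218
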