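import Cfsg.Statements.S0220
import Cfsg.Agent.Lib.Helper1_Invol2
import Cfsg.Agent.S0219

set_option autoImplicit false
open Cfsg

namespace Cfsg.Agent.S0220

open Cfsg.Agent.Lib.Helper1_Invol Cfsg.Agent.Lib.Helper1_Invol2
open scoped Pointwise

/-- If x is an involution of a finite group G and a Sylow 2-subgroup of the centralizer of x is cyclic, then G has a subgroup of index 2; in particular G is not simple unless it has order 2. -/
theorem aux {G : Type*} [Group G] [Finite G] (x : G) (hx : orderOf x = 2) (C : Subgroup G)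
    (hC : C = Subgroup.centralizer ({x} : Set G)) (S : Sylow 2 C)
    (hS : IsCyclic (S : Subgroup C)) : ∃ H : Subgroup G, H.index = 2 := by
  haveI : Fact (Nat.Prime 2) := ⟨Nat.prime_two⟩
  have hxC : x ∈ C := by rw [hC]; exact Subgroup.mem_centralizer_singleton_iff.2 rfl
  have hx2 := mul_self_of_order hx
  -- x lies in S
  have hxS : (⟨x, hxC⟩ : C) ∈ S := by
    obtain ⟨Q, hQ⟩ := exists_sylow_of_invol (G := C) (u := ⟨x, hxC⟩) (Subtype.ext hx2)
    obtain ⟨c, hc⟩ := MulAction.exists_smul_eq C Q S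
    rw [← hc]
    show _ ∈ ((c • Q : Sylow 2 C) : Subgroup C)
    rw [Sylow.coe_subgroup_smul]
    refine ⟨⟨x, hxC⟩, hQ, ?_⟩
    apply Subtype.ext
    have hc2 : c.1 ∈ Subgroup.centralizer ({x} : Set G) := by rw [← hC]; exact c.2
    have := Subgroup.mem_centralizer_singleton_iff.1 hc2
    simp only [MulDistribMulAction.toMonoidEnd_apply, MulDistribMulAction.toMonoidHom_apply,
      MulAut.smul_def, MulAut.conj_apply, Subgroup.coe_mul, InvMemClass.coe_inv]
    rw [this, mul_inv_cancel_right]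
  have hS'p : IsPGroup 2 ((S : Subgroup C).map C.subtype) := S.2.map _
  obtain ⟨T, hT⟩ := hS'p.exists_le_sylow
  have hxT : x ∈ T := hT ⟨⟨x, hxC⟩, hxS, rfl⟩
  -- T ⊓ C = S
  have hQ : ((T : Subgroup G).subgroupOf C) = S := by
    apply S.is_maximal'
    · exact T.2.comap_subtype
    · intro w hw
      rw [Subgroup.mem_subgroupOf]
      exact hT ⟨w, hw, rfl⟩
  haveI : Nontrivial T := ⟨⟨⟨x, hxT⟩, 1, fun h => ne_one_of_order hx (congrArg Subtype.val h)⟩⟩
  haveI := T.2.center_nontrivial
  have h2 : 2 ∣ Nat.card (Subgroup.center T) := by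
    obtain ⟨k, hk⟩ := (T.2.to_subgroup (Subgroup.center T)).exists_card_eq
    rw [hk]
    have : k ≠ 0 := by
      rintro rfl
      rw [pow_zero] at hk
      have := Finite.one_lt_card (α := Subgroup.center T)
      omega
    exact dvd_pow_self 2 this
  obtain ⟨z, hz⟩ := exists_prime_orderOf_dvd_card' 2 h2
  have hz' : orderOf (z.1.1 : G) = 2 := by
    rw [Subgroup.orderOf_coe, Subgroup.orderOf_coe]; exact hz
  have hzc : ∀ w ∈ T, w * z.1.1 = z.1.1 * w := by
    intro w hw
    have := Subgroup.mem_center_iff.1 z.2 ⟨w, hw⟩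
    exact congrArg Subtype.val this
  have hzC : z.1.1 ∈ C := by rw [hC]; exact Subgroup.mem_centralizer_singleton_iff.2 (hzc x hxT).symm
  have hzS : (⟨z.1.1, hzC⟩ : C) ∈ S := by
    show _ ∈ (S : Subgroup C)
    rw [← hQ, Subgroup.mem_subgroupOf]
    exact z.1.2
  haveI : IsCyclic (S : Subgroup C) := hS
  have heq : (⟨⟨x, hxC⟩, hxS⟩ : (S : Subgroup C)) = ⟨⟨z.1.1, hzC⟩, hzS⟩ := by
    apply invol_unique_of_isCyclic
    · rw [← Subgroup.orderOf_coe, ← Subgroup.orderOf_coe]; exact hx
    · rw [← Subgroup.orderOf_coe, ← Subgroup.orderOf_coe]; exact hz'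
  have hxz : x = z.1.1 := congrArg (fun w : (S : Subgroup C) => (w.1.1 : G)) heq
  have hTC : (T : Subgroup G) ≤ C := by
    intro w hw
    rw [hC, Subgroup.mem_centralizer_singleton_iff, hxz]
    exact hzc w hw
  have e : (S : Subgroup C) ≃* (T : Subgroup G) := by
    rw [← hQ]
    exact Subgroup.subgroupOfEquivOfLe hTC
  have hTcyc : IsCyclic (T : Subgroup G) := isCyclic_of_surjective e e.surjective
  have heven : Even (Nat.card G) := by
    rw [even_iff_two_dvd, ← hx]
    exact orderOf_dvd_natCard x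
  exact Cfsg.Agent.S0219.result heven T hTcyc


theorem result {G : Type*} [Group G] [Finite G] (x : G) (hx : orderOf x = 2) (S : Sylow 2 ↥(Subgroup.centralizer ({x} : Set G))) (hS : IsCyclic (S : Subgroup ↥(Subgroup.centralizer ({x} : Set G)))) : ∃ H : Subgroup G, H.index = 2 := by
  exact aux x hx _ rfl S hS

end Cfsg.Agent.S0220
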