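import Cfsg.Statements.S0226
import Cfsg.Agent.Lib.Helper1_Invol

set_option autoImplicit false
open Cfsg

namespace Cfsg.Agent.S0226

open Cfsg.Agent.Lib.Helper1_Invol

/-- A finite group of even order has an odd number of involutions. -/
theorem result {G : Type*} [Group G] [Finite G] (heven : Even (Nat.card G)) : Odd (Nat.card {t : G // orderOf t = 2}) := by
  classical
  haveI := Fintype.ofFinite G
  let f : Function.End G := fun g => g⁻¹
  have hf : f ^ 2 ^ 1 = 1 := by
    rw [pow_one, pow_two]
    funext g
    show ((g⁻¹)⁻¹ : G) = g
    simp
  haveI : Fact (Nat.Prime 2) := ⟨Nat.prime_two⟩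
  have h := Equiv.Perm.card_fixedPoints_modEq (p := 2) (n := 1) hf
  -- fixed points = involutions + identity
  have hcard : Fintype.card (Function.fixedPoints f) = Nat.card {t : G // orderOf t = 2} + 1 := by
    rw [← Nat.card_eq_fintype_card]
    have e : (Function.fixedPoints f) ≃ Option {t : G // orderOf t = 2} :=
      { toFun := fun g => if hg : g.1 = 1 then none else
          some ⟨g.1, orderOf_eq_two hg (by
            have := g.2
            have h2 : (g.1)⁻¹ = g.1 := this
            calc g.1 * g.1 = g.1⁻¹ * g.1 := by rw [h2]
              _ = 1 := inv_mul_cancel _)⟩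
        invFun := fun o => match o with
          | none => ⟨1, by show (1 : G)⁻¹ = 1; simp⟩
          | some t => ⟨t.1, by show (t.1)⁻¹ = t.1; exact inv_of_order t.2⟩
        left_inv := by
          intro g
          by_cases hg : g.1 = 1
          · simp only [hg, dite_true]
            exact Subtype.ext hg.symm
          · simp only [hg, dite_false]
        right_inv := by
          intro o
          cases o with
          | none => simp
          | some t => simp [ne_one_of_order t.2] }
    rw [Nat.card_congr e, Nat.card_eq_fintype_card, Fintype.card_option, Nat.card_eq_fintype_card]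
  rw [hcard, ← Nat.card_eq_fintype_card] at h
  have h2 : Nat.card G % 2 = 0 := Nat.even_iff.1 heven
  rw [Nat.odd_iff]
  unfold Nat.ModEq at h
  omega

end Cfsg.Agent.S0226
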