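import Cfsg.Statements.S0228
import Mathlib

set_option autoImplicit false
open Cfsg

namespace Cfsg.Agent.S0228

/-- A group of order 12 in which no involution is central is isomorphic to the alternating group on four letters. -/
theorem result {G : Type*} [Group G] [Finite G] (hG : Nat.card G = 12) (hz : ∀ z : G, orderOf z = 2 → z ∉ Subgroup.center G) : Nonempty (G ≃* alternatingGroup (Fin 4)) := by
  haveI : Fact (Nat.Prime 3) := ⟨Nat.prime_three⟩
  haveI : Fact (Nat.Prime 2) := ⟨Nat.prime_two⟩
  obtain ⟨P⟩ : Nonempty (Sylow 3 G) := inferInstance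
  have hcP : Nat.card (P : Subgroup G) = 3 := by
    obtain ⟨k, hk⟩ := P.2.exists_card_eq
    have h1 : 3 ^ k ∣ 12 := by rw [← hk, ← hG]; exact Subgroup.card_subgroup_dvd_card _
    have h2 : 3 ∣ Nat.card (P : Subgroup G) := P.dvd_card_of_dvd_card (by rw [hG]; norm_num)
    rcases Nat.lt_or_ge k 2 with hk2 | hk2
    · interval_cases k
      · rw [hk] at h2; norm_num at h2
      · simpa using hk
    · exfalso
      have : 3 ^ 2 ∣ 12 := (pow_dvd_pow 3 hk2).trans h1
      norm_num at this
  have hiP : (P : Subgroup G).index = 4 := by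
    have := Subgroup.card_mul_index (P : Subgroup G)
    rw [hcP, hG] at this
    omega
  have hn : Nat.card (Sylow 3 G) = 1 ∨ Nat.card (Sylow 3 G) = 4 := by
    have h1 : Nat.card (Sylow 3 G) ∣ 4 := hiP ▸ P.card_dvd_index
    have h2 := card_sylow_modEq_one 3 G
    have h3 : Nat.card (Sylow 3 G) ≤ 4 := Nat.le_of_dvd (by norm_num) h1
    unfold Nat.ModEq at h2
    interval_cases h : Nat.card (Sylow 3 G) <;> simp_all
  rcases hn with hn | hn
  · exfalso
    haveI : Subsingleton (Sylow 3 G) := (Nat.card_eq_one_iff_unique.mp hn).1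
    haveI hPn : (P : Subgroup G).Normal := P.normal_of_subsingleton
    obtain ⟨T⟩ : Nonempty (Sylow 2 G) := inferInstance
    have hcT : Nat.card (T : Subgroup G) = 4 := by
      obtain ⟨k, hk⟩ := T.2.exists_card_eq
      have h1 : 2 ^ k ∣ 12 := by rw [← hk, ← hG]; exact Subgroup.card_subgroup_dvd_card _
      have h2 : 2 ^ 2 ∣ Nat.card (T : Subgroup G) := T.pow_dvd_card_of_pow_dvd_card (by rw [hG]; norm_num)
      rcases Nat.lt_or_ge k 3 with hk2 | hk2
      · interval_cases k
        · rw [hk] at h2; norm_num at h2
        · rw [hk] at h2; norm_num at h2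
        · simpa using hk
      · exfalso
        have : 2 ^ 3 ∣ 12 := (pow_dvd_pow 2 hk2).trans h1
        norm_num at this
    have hTab : ∀ a b : (T : Subgroup G), a * b = b * a :=
      IsPGroup.commutative_of_card_eq_prime_sq (p := 2) (by rw [hcT]; norm_num)
    haveI : IsCyclic (P : Subgroup G) := isCyclic_of_prime_card hcP
    have hAut : Nat.card (MulAut (P : Subgroup G)) = 2 := by
      rw [IsCyclic.card_mulAut, hcP]; rfl
    let f : (T : Subgroup G) →* MulAut (P : Subgroup G) :=
      (MulAut.conjNormal (H := (P : Subgroup G))).comp (T : Subgroup G).subtype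
    have h1 : Nat.card f.ker * f.ker.index = 4 := hcT ▸ Subgroup.card_mul_index f.ker
    have h2 : f.ker.index ∣ 2 := by
      have h0 := Subgroup.card_subgroup_dvd_card f.range
      rw [hAut] at h0
      rw [Subgroup.index_ker]; exact h0
    have h3 : 2 ∣ Nat.card f.ker := by
      have h4 : f.ker.index ≤ 2 := Nat.le_of_dvd (by norm_num) h2
      have h5 : 0 < f.ker.index := Nat.pos_of_dvd_of_pos h2 (by norm_num)
      interval_cases hh : f.ker.index
      · exact ⟨2, by omega⟩
      · exact ⟨1, by omega⟩
    obtain ⟨z, hzo⟩ := exists_prime_orderOf_dvd_card' 2 h3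
    have hzo' : orderOf ((z : (T : Subgroup G)) : G) = 2 := by
      rw [Subgroup.orderOf_coe, Subgroup.orderOf_coe]; exact hzo
    apply hz _ hzo'
    set C := Subgroup.centralizer ({((z : (T : Subgroup G)) : G)} : Set G) with hC
    have hPC : (P : Subgroup G) ≤ C := by
      intro x hx
      rw [hC, Subgroup.mem_centralizer_singleton_iff]
      have h6 : f z = 1 := z.2
      have h7 := congrArg (fun g => ((g ⟨x, hx⟩ : (P : Subgroup G)) : G)) h6
      simp only [f, MonoidHom.comp_apply, MulAut.one_apply] at h7
      have h8 : ((z : (T : Subgroup G)) : G) * x * ((z : (T : Subgroup G)) : G)⁻¹ = x := h7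
      calc x * ((z : (T : Subgroup G)) : G) = (((z : (T : Subgroup G)) : G) * x * ((z : (T : Subgroup G)) : G)⁻¹) * ((z : (T : Subgroup G)) : G) := by rw [h8]
        _ = ((z : (T : Subgroup G)) : G) * x := by group
    have hTC : (T : Subgroup G) ≤ C := by
      intro x hx
      rw [hC, Subgroup.mem_centralizer_singleton_iff]
      exact congrArg Subtype.val (hTab ⟨x, hx⟩ z)
    have hd3 : 3 ∣ Nat.card C := hcP ▸ Subgroup.card_dvd_of_le hPC
    have hd4 : 4 ∣ Nat.card C := hcT ▸ Subgroup.card_dvd_of_le hTC
    have hd12 : 12 ∣ Nat.card C := by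
      have := Nat.Coprime.mul_dvd_of_dvd_of_dvd (by norm_num : Nat.Coprime 3 4) hd3 hd4
      simpa using this
    have hCtop : C = ⊤ := by
      apply Subgroup.eq_top_of_card_eq
      rw [hG]
      exact Nat.le_antisymm (hG ▸ Subgroup.card_le_card_group C) (Nat.le_of_dvd Nat.card_pos hd12)
    rw [Subgroup.mem_center_iff]
    intro g
    have : g ∈ C := by rw [hCtop]; trivial
    rw [hC, Subgroup.mem_centralizer_singleton_iff] at this
    exact this
  · classical
    have hN : Nat.card (Subgroup.normalizer ((P : Subgroup G) : Set G)) = 3 := by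
      have h1 : Nat.card (Sylow 3 G) = (Subgroup.normalizer ((P : Subgroup G) : Set G)).index :=
        Sylow.card_eq_index_normalizer P
      have h2 := Subgroup.card_mul_index (Subgroup.normalizer ((P : Subgroup G) : Set G))
      rw [← h1, hn, hG] at h2
      omega
    let φ := MulAction.toPermHom G (Sylow 3 G)
    have hker : φ.ker = ⊥ := by
      have h1 : φ.ker ≤ Subgroup.normalizer ((P : Subgroup G) : Set G) := by
        intro c hc
        have := congrArg (fun f => f P) (MonoidHom.mem_ker.mp hc)
        exact Sylow.smul_eq_iff_mem_normalizer.mp this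
      have h2 : Nat.card φ.ker ∣ 3 := by
        have h0 := Subgroup.card_dvd_of_le h1
        rwa [hN] at h0
      rcases (Nat.dvd_prime Nat.prime_three).1 h2 with h3 | h3
      · exact Subgroup.card_eq_one.mp h3
      · exfalso
        have h4 : φ.ker = Subgroup.normalizer ((P : Subgroup G) : Set G) :=
          Subgroup.eq_of_le_of_card_ge h1 (by rw [h3, hN])
        have h5 : (P : Subgroup G) = Subgroup.normalizer ((P : Subgroup G) : Set G) :=
          Subgroup.eq_of_le_of_card_ge Subgroup.le_normalizer (by rw [hcP, hN])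
        have h6 : (P : Subgroup G).Normal := by rw [h5, ← h4]; infer_instance
        have h7 : Subgroup.normalizer ((P : Subgroup G) : Set G) = ⊤ := Subgroup.normalizer_eq_top _
        rw [h7, Subgroup.card_top, hG] at hN
        omega
    have hinj : Function.Injective φ := (MonoidHom.ker_eq_bot_iff φ).mp hker
    let e : Sylow 3 G ≃ Fin 4 := Finite.equivFinOfCardEq hn
    let ψ : G →* Equiv.Perm (Fin 4) := (e.permCongrHom).toMonoidHom.comp φ
    have hψ : Function.Injective ψ := (e.permCongrHom).injective.comp hinj
    have hr : Nat.card ψ.range = 12 := by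
      rw [← hG]; exact (Nat.card_congr (MonoidHom.ofInjective hψ).toEquiv).symm
    have hidx : ψ.range.index = 2 := by
      have := Subgroup.card_mul_index ψ.range
      rw [hr, Nat.card_eq_fintype_card, Fintype.card_perm, Fintype.card_fin] at this
      have h24 : (4 : ℕ).factorial = 24 := rfl
      omega
    have := Equiv.Perm.eq_alternatingGroup_of_index_eq_two hidx
    exact ⟨(MonoidHom.ofInjective hψ).trans (MulEquiv.subgroupCongr this)⟩

end Cfsg.Agent.S0228
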