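import Cfsg.Statements.S0229
import Cfsg.Agent.Lib.Helper1_Invol2
import Cfsg.Agent.S0208
import Cfsg.Agent.S0209
import Cfsg.Agent.S0211

set_option autoImplicit false
open Cfsg

namespace Cfsg.Agent.S0229

open Cfsg.Agent.Lib.Helper1_Invol Cfsg.Agent.Lib.Helper1_Invol2

/-- Let t be an involution of a Sylow 2-subgroup S of a finite group G, conjugate in G to no other element of S, and let s be an involution of G not conjugate to t. Then the order of st is twice an odd number. -/
theorem result {G : Type*} [Group G] [Finite G] (S : Sylow 2 G) (t : G) (ht : orderOf t = 2) (htS : t ∈ S) (hiso : ∀ g : G, g * t * g⁻¹ ∈ S → g * t * g⁻¹ = t) (s : G) (hs : orderOf s = 2) (hns : ¬ IsConj s t) : orderOf (s * t) % 4 = 2 := by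
  have ht2 := mul_self_of_order ht
  have hcomm : orderOf (s * t) = orderOf (t * s) := by
    rw [← orderOf_conj s (t * s)]; congr 1; group
  rw [hcomm]
  have heven : Even (orderOf (t * s)) := by
    by_contra hodd
    rw [Nat.not_even_iff_odd] at hodd
    obtain ⟨d, _, hd⟩ := Cfsg.Agent.S0208.result t s ht hs hodd
    exact hns (isConj_iff.2 ⟨d, hd⟩).symm
  have h4 : ¬ 4 ∣ orderOf (t * s) := by
    intro h4
    obtain ⟨d, _, hd⟩ := (Cfsg.Agent.S0211.result t s ht hs heven).2 h4
    obtain ⟨hz, hc, _⟩ := Cfsg.Agent.S0209.result t s ht hs heven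
    exact iso_aux S ht2 hiso (ne_one_of_order hz) (mul_self_of_order hz) hc.symm hd
  obtain ⟨k, hk⟩ := heven
  omega

end Cfsg.Agent.S0229
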