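import Cfsg.Statements.S0230
import Cfsg.Agent.Lib.Helper1_Invol2
import Cfsg.Agent.Lib.Helper7_Class

set_option autoImplicit false
open Cfsg

namespace Cfsg.Agent.S0230

open Cfsg.Agent.Lib.Helper1_Invol Cfsg.Agent.Lib.Helper1_Invol2

/-- Let G be a finite group with two non-conjugate involutions, and let t be an involution whose centralizer has maximal order among centralizers of involutions. Then |G| < |C_G(t)|^3. -/
theorem result {G : Type*} [Group G] [Finite G] (s t : G) (hs : orderOf s = 2) (ht : orderOf t = 2) (hnc : ¬ IsConj s t) (hmax : ∀ u : G, orderOf u = 2 → Nat.card (Subgroup.centralizer ({u} : Set G)) ≤ Nat.card (Subgroup.centralizer ({t} : Set G))) : Nat.card G < Nat.card (Subgroup.centralizer ({t} : Set G)) ^ 3 := by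
  classical
  haveI := Fintype.ofFinite G
  set c := Nat.card (Subgroup.centralizer ({t} : Set G)) with hc
  have hCcard : ∀ z : G, Nat.card (Subgroup.centralizer ({z} : Set G)) =
      (Finset.univ.filter (fun w : G => Commute w z)).card := by
    intro z
    rw [Nat.card_eq_fintype_card, ← Fintype.card_subtype]
    exact Fintype.card_congr (Equiv.subtypeEquivRight fun w => by
      rw [Subgroup.mem_centralizer_singleton_iff]; rfl)
  have hK : (Subgroup.centralizer ({t} : Set G)).index =
      (Finset.univ.filter (fun y : G => IsConj t y)).card := by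
    rw [Cfsg.Agent.Lib.Helper7_Class.index_centralizer_eq_card_class, Nat.card_eq_fintype_card,
      Fintype.card_subtype]
  let A : Finset G := Finset.univ.filter (fun z : G => orderOf z = 2 ∧ Commute z s)
  have hsub : Finset.univ.filter (fun y : G => IsConj t y) ⊆
      A.biUnion (fun z => Finset.univ.filter (fun w : G => Commute w z)) := by
    intro y hy
    simp only [Finset.mem_filter, Finset.mem_univ, true_and] at hy
    have hy2 : orderOf y = 2 := by
      obtain ⟨g, rfl⟩ := isConj_iff.1 hy
      rw [orderOf_conj]; exact ht
    have hnc' : ¬ IsConj s y := fun h => hnc (h.trans hy.symm)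
    obtain ⟨u, hu, hus, huy, _⟩ := Cfsg.Agent.Lib.helper6_Invol.exists_invol_commute hs hy2 hnc'
    simp only [Finset.mem_biUnion, Finset.mem_filter, Finset.mem_univ, true_and, A]
    exact ⟨u, ⟨hu, hus⟩, huy.symm⟩
  have h1 : (Finset.univ.filter (fun y : G => IsConj t y)).card ≤ A.card * c := by
    refine (Finset.card_le_card hsub).trans (Finset.card_biUnion_le.trans ?_)
    rw [← smul_eq_mul]
    apply Finset.sum_le_card_nsmul
    intro z hz
    simp only [Finset.mem_filter, Finset.mem_univ, true_and, A] at hz
    rw [← hCcard]
    exact hmax z hz.1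
  have h2 : A.card + 1 ≤ c := by
    refine le_trans ?_ (hmax s hs)
    rw [hCcard s]
    have : insert 1 A ⊆ Finset.univ.filter (fun w : G => Commute w s) := by
      intro w hw
      simp only [Finset.mem_insert, Finset.mem_filter, Finset.mem_univ, true_and, A] at hw ⊢
      rcases hw with rfl | hw
      · exact Commute.one_left s
      · exact hw.2
    refine le_trans ?_ (Finset.card_le_card this)
    rw [Finset.card_insert_of_notMem]
    simp [A]
  have h3 := (Subgroup.centralizer ({t} : Set G)).card_mul_index
  rw [hK, ← hc] at h3
  rw [← h3]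
  have hcpos : 0 < c := Nat.card_pos
  calc c * (Finset.univ.filter (fun y : G => IsConj t y)).card ≤ c * (A.card * c) :=
        Nat.mul_le_mul_left _ h1
    _ < c * (c * c) := by
        apply Nat.mul_lt_mul_of_pos_left _ hcpos
        apply Nat.mul_lt_mul_of_pos_right _ hcpos
        omega
    _ = c ^ 3 := by ring

end Cfsg.Agent.S0230
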