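import Cfsg.Statements.S0231
import Cfsg.Agent.Lib.Helper1_Invol2
import Cfsg.Agent.Lib.Helper7_TI

set_option autoImplicit false
open scoped Pointwise
open Cfsg

namespace Cfsg.Agent.S0231

open Cfsg.Agent.Lib.Helper1_Invol Cfsg.Agent.Lib.Helper1_Invol2
open scoped Pointwise

/-- Let T be a Sylow 2-subgroup of the finite group G which is not normal and which intersects every other Sylow 2-subgroup trivially. Then G has a single conjugacy class of involutions. -/
theorem result {G : Type*} [Group G] [Finite G] (T : Sylow 2 G) (hnn : ¬ (T : Subgroup G).Normal) (hTI : ∀ g : G, MulAut.conj g • (T : Subgroup G) ≠ T → MulAut.conj g • (T : Subgroup G) ⊓ T = ⊥) (s t : G) (hs : orderOf s = 2) (ht : orderOf t = 2) : IsConj s t := by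
  haveI : Fact (Nat.Prime 2) := ⟨Nat.prime_two⟩
  have hpair : ∀ P1 P2 : Sylow 2 G, P1 ≠ P2 → (P1 : Subgroup G) ⊓ (P2 : Subgroup G) = ⊥ := by
    apply Cfsg.Agent.Lib.Helper7_TI.ti_pairwise T
    intro g hg
    rw [inf_comm]
    apply hTI
    intro h
    apply hg
    rw [Cfsg.Agent.Lib.Helper7_Conj.mem_normalizer_iff_cj]
    exact h
  have huniq : ∀ (w : G), w ≠ 1 → ∀ P1 P2 : Sylow 2 G, w ∈ P1 → w ∈ P2 → P1 = P2 := by
    intro w hw P1 P2 h1 h2
    by_contra hne
    have : w ∈ (P1 : Subgroup G) ⊓ (P2 : Subgroup G) := ⟨h1, h2⟩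
    rw [hpair P1 P2 hne, Subgroup.mem_bot] at this
    exact hw this
  have claim : ∀ a b : G, orderOf a = 2 → orderOf b = 2 → ¬ IsConj a b →
      ∀ P Q : Sylow 2 G, a ∈ P → b ∈ Q → P = Q := by
    intro a b ha hb hnc P Q haP hbQ
    obtain ⟨z, hz, hza, hzb, _⟩ := Cfsg.Agent.Lib.helper6_Invol.exists_invol_commute ha hb hnc
    obtain ⟨R1, h1, h2⟩ := exists_sylow_of_commute (mul_self_of_order ha) (mul_self_of_order hz) hza.symm
    obtain ⟨R2, h3, h4⟩ := exists_sylow_of_commute (mul_self_of_order hb) (mul_self_of_order hz) hzb.symm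
    rw [huniq a (ne_one_of_order ha) P R1 haP h1, huniq z (ne_one_of_order hz) R1 R2 h2 h4,
      huniq b (ne_one_of_order hb) R2 Q h3 hbQ]
  by_contra hnc
  obtain ⟨P, hsP⟩ := exists_sylow_of_invol (mul_self_of_order hs)
  obtain ⟨Q, htQ⟩ := exists_sylow_of_invol (mul_self_of_order ht)
  have hPQ := claim s t hs ht hnc P Q hsP htQ
  -- all conjugates of P equal Q
  have hall : ∀ g : G, g • P = P := by
    intro g
    have h1 : g * s * g⁻¹ ∈ g • P := by
      show g * s * g⁻¹ ∈ ((g • P : Sylow 2 G) : Subgroup G)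
      rw [Sylow.coe_subgroup_smul]
      exact ⟨s, hsP, by simp [MulAut.conj_apply]⟩
    have h2 : ¬ IsConj (g * s * g⁻¹) t := by
      intro h
      exact hnc ((isConj_iff.2 ⟨g, rfl⟩).trans h)
    rw [claim _ t (by rw [orderOf_conj]; exact hs) ht h2 (g • P) Q h1 htQ, hPQ]
  apply hnn
  obtain ⟨k, hk⟩ := MulAction.exists_smul_eq G P T
  rw [hall k] at hk
  rw [← hk]
  exact Subgroup.normalizer_eq_top_iff.1 (by
    rw [eq_top_iff]
    intro g _
    exact Sylow.smul_eq_iff_mem_normalizer.1 (hall g))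

end Cfsg.Agent.S0231
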