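import Cfsg.Statements.S0232
import Cfsg.Agent.Lib.Helper1_BF
import Cfsg.Agent.Lib.Helper7_Class
import Cfsg.Agent.S0219

set_option autoImplicit false
open Cfsg

namespace Cfsg.Agent.S0232

open Cfsg.Agent.Lib.Helper1_Invol Cfsg.Agent.Lib.Helper1_Invol2 Cfsg.Agent.Lib.Helper1_BF

theorem of_index_two {G : Type*} [Group G] [Finite G] (hgt : 2 < Nat.card G) (H : Subgroup G)
    (h : H.index = 2) : H ≠ ⊤ ∧ Nat.card G < (Nat.card H) ^ 3 := by
  refine ⟨?_, ?_⟩
  · rintro rfl
    rw [Subgroup.index_top] at h; omega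
  · have h1 := H.card_mul_index
    rw [h] at h1
    rw [← h1] at hgt ⊢
    have : 2 ≤ Nat.card H := by omega
    nlinarith [Nat.pow_le_pow_left this 2]

theorem odd_center_case {G : Type*} [Group G] [Finite G] (heven : Even (Nat.card G))
    (hgt : 2 < Nat.card G) (hZ : Odd (Nat.card (Subgroup.center G))) :
    ∃ H : Subgroup G, H ≠ ⊤ ∧ Nat.card G < (Nat.card H) ^ 3 := by
  haveI : Fact (Nat.Prime 2) := ⟨Nat.prime_two⟩
  obtain ⟨t, ht⟩ := exists_prime_orderOf_dvd_card' (G := G) 2 heven.two_dvd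
  set c := Nat.card (Subgroup.centralizer ({t} : Set G)) with hc
  have hcpos : 0 < c := Nat.card_pos
  have hprop : Subgroup.centralizer ({t} : Set G) ≠ ⊤ := by
    intro htop
    have hxc : t ∈ Subgroup.center G :=
      Subgroup.centralizer_eq_top_iff_subset.1 htop (Set.mem_singleton t)
    apply ne_one_of_order ht
    apply eq_one_of_two_pow_of_odd hZ hxc (k := 1)
    rw [pow_one, pow_two]
    exact mul_self_of_order ht
  by_cases hlt : Nat.card G < c ^ 3
  · exact ⟨_, hprop, hlt⟩
  push Not at hlt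
  obtain ⟨H, hH, h | h⟩ := brauer_fowler heven hZ
  · exact ⟨H, of_index_two hgt H h⟩
  · refine ⟨H, hH, ?_⟩
    set m := numInv G with hm
    have h1 : Nat.card G ≤ m * c := by
      rw [← (Subgroup.centralizer ({t} : Set G)).card_mul_index, ← hc, mul_comm]
      apply Nat.mul_le_mul_right
      rw [Cfsg.Agent.Lib.Helper7_Class.index_centralizer_eq_card_class]
      exact Nat.card_le_card_of_injective
        (fun y : {y : G // IsConj t y} => (⟨y.1, by
          obtain ⟨g, hg⟩ := isConj_iff.1 y.2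
          rw [← hg, orderOf_conj]; exact ht⟩ : {t : G // orderOf t = 2}))
        (fun a b hab => Subtype.ext (congrArg (fun z : {t : G // orderOf t = 2} => z.1) hab))
    have h2 : Nat.card G * (Nat.card G + m) ≤ (m * c) * (m * c + m) :=
      Nat.mul_le_mul h1 (Nat.add_le_add_right h1 _)
    have h3 : 2 * H.index * m ^ 2 < (c * (c + 1)) * m ^ 2 := by
      calc 2 * H.index * m ^ 2 < Nat.card G * (Nat.card G + m) := h
        _ ≤ (m * c) * (m * c + m) := h2
        _ = (c * (c + 1)) * m ^ 2 := by ring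
    have h4 : 2 * H.index < c * (c + 1) := Nat.lt_of_mul_lt_mul_right h3
    have h5 : H.index < c ^ 2 := by nlinarith
    have h6 := H.card_mul_index
    set a := Nat.card H with ha
    set b := H.index with hb
    have hapos : 0 < a := Nat.card_pos
    rw [← h6] at hlt ⊢
    by_contra hcon
    push Not at hcon
    have h7 : a ^ 2 ≤ b := by
      have : a * a ^ 2 ≤ a * b := by
        calc a * a ^ 2 = a ^ 3 := by ring
          _ ≤ a * b := hcon
      exact Nat.le_of_mul_le_mul_left this hapos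
    have h8 : (a * b) ^ 2 ≤ b ^ 3 := by
      calc (a * b) ^ 2 = a ^ 2 * b ^ 2 := by ring
        _ ≤ b * b ^ 2 := Nat.mul_le_mul_right _ h7
        _ = b ^ 3 := by ring
    have h9 : b ^ 3 < (c ^ 2) ^ 3 := Nat.pow_lt_pow_left h5 (by norm_num)
    have h10 : (c ^ 3) ^ 2 ≤ (a * b) ^ 2 := Nat.pow_le_pow_left hlt 2
    have h11 : (c ^ 2) ^ 3 = (c ^ 3) ^ 2 := by ring
    omega

theorem main.{u} : ∀ (n : ℕ) (G : Type u) [Group G] [Finite G], Nat.card G = n → Even n → 2 < n →
    ∃ H : Subgroup G, H ≠ ⊤ ∧ Nat.card G < (Nat.card H) ^ 3 := by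
  intro n
  induction n using Nat.strong_induction_on with
  | _ n ih =>
  intro G _ _ hn heven hgt
  haveI : Fact (Nat.Prime 2) := ⟨Nat.prime_two⟩
  by_cases hZ : Odd (Nat.card (Subgroup.center G))
  · exact odd_center_case (hn ▸ heven) (hn ▸ hgt) hZ
  rw [Nat.not_odd_iff_even] at hZ
  obtain ⟨z, hz⟩ := exists_prime_orderOf_dvd_card' (G := Subgroup.center G) 2 hZ.two_dvd
  have hz' : orderOf (z : G) = 2 := by rw [Subgroup.orderOf_coe]; exact hz
  let N : Subgroup G := Subgroup.zpowers (z : G)
  haveI hNn : N.Normal := by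
    refine ⟨fun x hx g => ?_⟩
    obtain ⟨k, rfl⟩ := Subgroup.mem_zpowers_iff.1 hx
    have hc : (z : G) ^ k ∈ Subgroup.center G := zpow_mem z.2 k
    have := Subgroup.mem_center_iff.1 hc g
    rw [this, mul_inv_cancel_right]
    exact Subgroup.zpow_mem_zpowers _ _
  have hNcard : Nat.card N = 2 := by rw [Nat.card_zpowers, hz']
  have hidx := N.card_mul_index
  rw [hNcard, hn] at hidx
  have hq : Nat.card (G ⧸ N) = N.index := rfl
  by_cases hqe : Even N.index
  · by_cases hq2 : 2 < N.index
    · obtain ⟨Hb, hHb, hlt⟩ := ih N.index (by omega) (G ⧸ N) hq hqe hq2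
      refine ⟨Hb.comap (QuotientGroup.mk' N), ?_, ?_⟩
      · intro h
        apply hHb
        rw [← Subgroup.map_comap_eq_self_of_surjective (QuotientGroup.mk'_surjective N) Hb, h,
          ← MonoidHom.range_eq_map, MonoidHom.range_eq_top.2 (QuotientGroup.mk'_surjective N)]
      · have h1 := (Hb.comap (QuotientGroup.mk' N)).card_mul_index
        rw [Subgroup.index_comap_of_surjective _ (QuotientGroup.mk'_surjective N), hn, ← hidx,
          ← hq, ← Hb.card_mul_index, ← mul_assoc] at h1
        have hpos : 0 < Hb.index := Nat.pos_of_ne_zero Hb.index_ne_zero_of_finite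
        have h2 := Nat.eq_of_mul_eq_mul_right hpos h1
        rw [h2, hn, ← hidx, ← hq]
        nlinarith
    · have h2 : N.index = 2 := by
        obtain ⟨k, hk⟩ := hqe
        omega
      refine ⟨N, ?_, ?_⟩
      · intro h
        rw [h, Subgroup.index_top] at h2; omega
      · rw [hNcard, hn, ← hidx, h2]; norm_num
  · rw [Nat.not_even_iff_odd] at hqe
    -- Sylow 2-subgroup has order 2
    obtain ⟨T⟩ : Nonempty (Sylow 2 G) := inferInstance
    have hTcard : Nat.card T = 2 := by
      obtain ⟨k, hk⟩ := T.2.exists_card_eq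
      have h1 : Nat.card T ∣ 2 * N.index := by rw [hidx, ← hn]; exact Subgroup.card_subgroup_dvd_card _
      have h2 : Nat.card T ∣ 2 := by
        apply Nat.Coprime.dvd_of_dvd_mul_right _ h1
        rw [hk]
        exact Nat.Coprime.pow_left _ (Nat.coprime_two_left.2 hqe)
      have h3 : 2 ∣ Nat.card T := T.dvd_card_of_dvd_card (hn ▸ heven.two_dvd)
      exact Nat.dvd_antisymm h2 h3
    have hTc : IsCyclic (T : Subgroup G) := isCyclic_of_prime_card hTcard
    obtain ⟨H, hH⟩ := Cfsg.Agent.S0219.result (hn ▸ heven) T hTc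
    exact ⟨H, of_index_two (hn ▸ hgt) H hH⟩

/-- A finite group G of even order greater than 2 has a proper subgroup H with |G| < |H|^3. -/
theorem result {G : Type*} [Group G] [Finite G] (heven : Even (Nat.card G)) (hgt : 2 < Nat.card G) : ∃ H : Subgroup G, H ≠ ⊤ ∧ Nat.card G < (Nat.card H) ^ 3 := by
  exact main _ G rfl heven hgt

end Cfsg.Agent.S0232
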