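import Mathlib
import Cfsg.Agent.Lib.helper8_FS
import Cfsg.Agent.Lib.CharDet
import Cfsg.Agent.Lib.CharLinear
import Cfsg.Statements.S0234

set_option autoImplicit false
open Cfsg

namespace Cfsg.Agent.S0234

open Cfsg.Agent.Lib.CharBasic Cfsg.Agent.Lib.CharOrtho Cfsg.Agent.Lib.CharComplete
  Cfsg.Agent.Lib.CharMore Cfsg.Agent.Lib.CharFS Cfsg.Agent.Lib.CharDet Cfsg.Agent.Lib.CharLinear
  Cfsg.Agent.Lib.helper8_FS Cfsg.Agent.Lib.helper8_Defect

theorem mat_two (M : Matrix (Fin 2) (Fin 2) ℂ) (h1 : M * M = 1) (h2 : M.det = 1) :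
    M = 1 ∨ M = -1 := by
  have e00 := congrFun (congrFun h1 0) 0
  have e01 := congrFun (congrFun h1 0) 1
  have e10 := congrFun (congrFun h1 1) 0
  have e11 := congrFun (congrFun h1 1) 1
  simp [Matrix.mul_apply, Fin.sum_univ_two] at e00 e01 e10 e11
  rw [Matrix.det_fin_two] at h2
  have hs : M 0 0 * (M 0 0 + M 1 1) = 2 := by linear_combination e00 + h2
  have hs0 : M 0 0 + M 1 1 ≠ 0 := by
    intro h
    rw [h, mul_zero] at hs
    norm_num at hs
  have hb : M 0 1 = 0 := by
    have : M 0 1 * (M 0 0 + M 1 1) = 0 := by linear_combination e01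
    exact (mul_eq_zero.mp this).resolve_right hs0
  have hc : M 1 0 = 0 := by
    have : M 1 0 * (M 0 0 + M 1 1) = 0 := by linear_combination e10
    exact (mul_eq_zero.mp this).resolve_right hs0
  rw [hb, hc] at h2 e00
  have ha : (M 0 0 - 1) * (M 0 0 + 1) = 0 := by linear_combination e00
  rcases mul_eq_zero.mp ha with h | h
  · left
    have ha1 : M 0 0 = 1 := by linear_combination h
    have hd1 : M 1 1 = 1 := by
      rw [ha1] at h2
      linear_combination h2
    ext i j
    fin_cases i <;> fin_cases j <;> simp [ha1, hd1, hb, hc]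
  · right
    have ha1 : M 0 0 = -1 := by linear_combination h
    have hd1 : M 1 1 = -1 := by
      rw [ha1] at h2
      linear_combination -h2
    ext i j
    fin_cases i <;> fin_cases j <;> simp [ha1, hd1, hb, hc]

theorem hom_trivial {G : Type*} [Group G] [IsSimpleGroup G] (hna : ∃ a b : G, a * b ≠ b * a)
    (δ : G →* ℂˣ) (g : G) : δ g = 1 := by
  rcases (MonoidHom.normal_ker δ).eq_bot_or_eq_top with h | h
  · exfalso
    obtain ⟨a, b, hab⟩ := hna
    apply hab
    apply (MonoidHom.ker_eq_bot_iff δ).mp h
    rw [map_mul, map_mul, mul_comm]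
  · have : g ∈ δ.ker := by rw [h]; trivial
    exact this

theorem deg_ge_three {G : Type*} [Group G] [Fintype G] [IsSimpleGroup G]
    (hna : ∃ a b : G, a * b ≠ b * a) (t : G) (ht : orderOf t = 2) (χ : IrrCharacter G)
    (hχ : (χ : G → ℂ) ≠ 1) : 3 ≤ charDegree (χ : G → ℂ) := by
  classical
  obtain ⟨h0, h1, -⟩ := irr_charDegree χ.2
  by_contra hlt
  have hcases : charDegree (χ : G → ℂ) = 1 ∨ charDegree (χ : G → ℂ) = 2 := by omega
  rcases hcases with hd | hd
  · apply hχ
    rw [hd, Nat.cast_one] at h1
    funext g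
    have h2 := homOfLinear_apply (isCharacter_of_isIrr χ.2) h1 g
    rw [hom_trivial hna] at h2
    simpa using h2.symm
  · obtain ⟨χ, n, ρ, hρ, rfl⟩ := χ
    simp only at hd h1 hχ
    have hn : n = 2 := by
      rw [Representation.char_one, hd] at h1
      have h2 : (n : ℂ) = ((2 : ℕ) : ℂ) := by simpa using h1
      exact_mod_cast h2
    subst hn
    have ht1 : t ≠ 1 := by
      rintro rfl
      rw [orderOf_one] at ht
      omega
    have htt : t * t = 1 := by
      rw [← pow_two, ← ht, pow_orderOf_eq_one]
    have hdet : ∀ g, (matHom ρ g).det = 1 := by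
      intro g
      have h2 := detHom_apply ρ g
      rw [hom_trivial hna] at h2
      have h3 : (matHom ρ g).det = LinearMap.det (ρ g) := by
        show (LinearMap.toMatrix' (ρ g)).det = _
        exact LinearMap.det_toMatrix' _
      rw [h3, ← h2]
      rfl
    have hMM : matHom ρ t * matHom ρ t = 1 := by rw [← map_mul, htt, map_one]
    have hker : (matHom ρ).ker = ⊥ := by
      rcases (MonoidHom.normal_ker (matHom ρ)).eq_bot_or_eq_top with h | h
      · exact h
      · exfalso
        have hall : ∀ g, ρ.character g = 2 := by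
          intro g
          have h2 : g ∈ (matHom ρ).ker := by rw [h]; trivial
          rw [← matHom_trace, MonoidHom.mem_ker.mp h2]
          simp
        have h3 := classInner_irr_self (isIrrCharacter_of_rep ρ hρ)
        have hG : (Nat.card G : ℂ) ≠ 0 := by exact_mod_cast Nat.card_pos.ne'
        unfold classInner at h3
        simp only [hall] at h3
        rw [Finset.sum_const, Finset.card_univ, ← Nat.card_eq_fintype_card] at h3
        simp at h3
        field_simp at h3
        have h4 : (starRingEnd ℂ) (2 : ℂ) = 2 := Complex.conj_ofNat 2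
        rw [h4] at h3
        norm_num at h3
    rcases mat_two _ hMM (hdet t) with h | h
    · apply ht1
      have : t ∈ (matHom ρ).ker := h
      rw [hker] at this
      exact this
    · -- t is central
      have hcen : t ∈ Subgroup.center G := by
        rw [Subgroup.mem_center_iff]
        intro g
        have h2 : matHom ρ (g * t) = matHom ρ (t * g) := by
          rw [map_mul, map_mul, h]
          simp
        exact (MonoidHom.ker_eq_bot_iff _).mp hker h2
      have hcn : (Subgroup.center G).Normal := inferInstance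
      rcases hcn.eq_bot_or_eq_top with h2 | h2
      · rw [h2] at hcen
        exact ht1 hcen
      · obtain ⟨a, b, hab⟩ := hna
        apply hab
        have hb : b ∈ Subgroup.center G := by rw [h2]; trivial
        exact Subgroup.mem_center_iff.mp hb a

/-- In a finite simple group G of even order greater than 2, the number n of involutions satisfies 3n < |G|. -/
theorem result {G : Type*} [Group G] [Finite G] [IsSimpleGroup G] (heven : Even (Nat.card G)) (hgt : 2 < Nat.card G) : 3 * Nat.card {t : G // orderOf t = 2} < Nat.card G := by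
  classical
  letI := Fintype.ofFinite G
  have hna : ∃ a b : G, a * b ≠ b * a := by
    by_contra hcon
    push Not at hcon
    letI : CommGroup G := { (inferInstance : Group G) with mul_comm := hcon }
    have hprime := IsSimpleGroup.prime_card (α := G)
    rcases hprime.eq_one_or_self_of_dvd 2 heven.two_dvd with h | h <;> omega
  obtain ⟨t, ht⟩ := exists_prime_orderOf_dvd_card' 2 heven.two_dvd
  have h1 := involutions_le (G := G)
  have h2 : ∑ χ ∈ Finset.univ.filter (fun χ : IrrCharacter G =>
        (χ : G → ℂ) ≠ 1 ∧ ∀ g, ((χ : G → ℂ) g).im = 0), charDegree (χ : G → ℂ) ≤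
      ∑ χ ∈ Finset.univ.erase (⟨1, isIrr_one⟩ : IrrCharacter G), charDegree (χ : G → ℂ) := by
    apply Finset.sum_le_sum_of_subset
    intro χ hχ
    rw [Finset.mem_filter] at hχ
    rw [Finset.mem_erase]
    refine ⟨fun h => hχ.2.1 (by rw [h]), Finset.mem_univ _⟩
  have h3 : ∑ χ : IrrCharacter G, charDegree (χ : G → ℂ) ^ 2 = Nat.card G := by
    have h4 := sum_sq_degree (G := G)
    have h5 : ∀ χ : IrrCharacter G, (χ : G → ℂ) 1 ^ 2 = ((charDegree (χ : G → ℂ) ^ 2 : ℕ) : ℂ) := by
      intro χ
      rw [(irr_charDegree χ.2).2.1]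
      push_cast
      rfl
    simp only [h5] at h4
    exact_mod_cast h4
  rw [← Finset.add_sum_erase Finset.univ _ (Finset.mem_univ (⟨1, isIrr_one⟩ : IrrCharacter G))] at h3
  have h6 : charDegree (1 : G → ℂ) = 1 := charDegree_of_eq (by simp)
  simp only [h6] at h3
  have h7 : 3 * ∑ χ ∈ Finset.univ.erase (⟨1, isIrr_one⟩ : IrrCharacter G), charDegree (χ : G → ℂ) ≤
      ∑ χ ∈ Finset.univ.erase (⟨1, isIrr_one⟩ : IrrCharacter G), charDegree (χ : G → ℂ) ^ 2 := by
    rw [Finset.mul_sum]
    apply Finset.sum_le_sum
    intro χ hχ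
    have h8 : (χ : G → ℂ) ≠ 1 := by
      intro h
      exact (Finset.ne_of_mem_erase hχ) (Subtype.ext h)
    have h9 := deg_ge_three hna t ht χ h8
    rw [pow_two]
    exact Nat.mul_le_mul_right _ h9
  have h10 : Nat.card {x : G // orderOf x = 2} ≤
      ∑ χ ∈ Finset.univ.erase (⟨1, isIrr_one⟩ : IrrCharacter G), charDegree (χ : G → ℂ) := by
    refine le_trans ?_ h2
    convert h1
  omega

end Cfsg.Agent.S0234
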