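import Cfsg.Statements.S0239
import Cfsg.Agent.Lib.Helper1_Invol

set_option autoImplicit false
open Cfsg

namespace Cfsg.Agent.S0239

open Cfsg.Agent.Lib.Helper1_Invol

/-- If some nontrivial element x of a finite group G is conjugate to x⁻¹, then |G| is even. -/
theorem result {G : Type*} [Group G] [Finite G] (x : G) (hx : x ≠ 1) (hreal : IsConj x x⁻¹) : Even (Nat.card G) := by
  obtain ⟨g, hg⟩ := isConj_iff.1 hreal
  by_contra hodd
  rw [Nat.not_even_iff_odd] at hodd
  -- conjugating by odd powers of g inverts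
  have key : ∀ k : ℕ, g ^ (2 * k + 1) * x * (g ^ (2 * k + 1))⁻¹ = x⁻¹ := by
    intro k
    induction k with
    | zero => simpa using hg
    | succ k ih =>
      have : g ^ (2 * (k + 1) + 1) = g * g * g ^ (2 * k + 1) := by
        rw [show 2 * (k + 1) + 1 = 1 + 1 + (2 * k + 1) by ring, pow_add, pow_add, pow_one]
      rw [this]
      calc g * g * g ^ (2 * k + 1) * x * (g * g * g ^ (2 * k + 1))⁻¹
          = g * (g * (g ^ (2 * k + 1) * x * (g ^ (2 * k + 1))⁻¹) * g⁻¹) * g⁻¹ := by group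
        _ = g * (g * x * g⁻¹)⁻¹ * g⁻¹ := by rw [ih]; group
        _ = x⁻¹ := by rw [hg, inv_inv, hg]
  obtain ⟨k, hk⟩ := hodd
  have h1 := key k
  rw [← hk, pow_card_eq_one'] at h1
  have h2 : x ^ 2 = 1 := by
    rw [pow_two]
    have : x = x⁻¹ := by simpa using h1
    calc x * x = x⁻¹ * x := by rw [← this]
      _ = 1 := inv_mul_cancel x
  have h3 : x ^ Nat.card G = 1 := pow_card_eq_one'
  have h4 : x ^ Nat.gcd 2 (Nat.card G) = 1 := pow_gcd_eq_one.2 ⟨h2, h3⟩
  have h5 : Nat.gcd 2 (Nat.card G) = 1 := by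
    rw [hk]; simp
  rw [h5, pow_one] at h4
  exact hx h4

end Cfsg.Agent.S0239
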