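import Cfsg.Statements.S0240
import Cfsg.Agent.Lib.Helper1_Invol2

set_option autoImplicit false
open Cfsg

namespace Cfsg.Agent.S0240

open Cfsg.Agent.Lib.Helper1_Invol Cfsg.Agent.Lib.Helper1_Invol2

/-- Let G be a finite group with n involutions and H a subgroup with |H|·(n+1) > |G|. Then some nontrivial h ∈ H is strongly real in G: an involution t of G satisfies t h t⁻¹ = h⁻¹. -/
theorem result {G : Type*} [Group G] [Finite G] (H : Subgroup G) (hH : Nat.card G < Nat.card H * (Nat.card {t : G // orderOf t = 2} + 1)) : ∃ h : G, h ∈ H ∧ h ≠ 1 ∧ ∃ t : G, orderOf t = 2 ∧ t * h * t⁻¹ = h⁻¹ := by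
  let e : Option {t : G // orderOf t = 2} → G := fun o => match o with
    | none => 1
    | some t => t.1
  have he : ∀ o, e o * e o = 1 := by
    intro o
    cases o with
    | none => simp [e]
    | some t => exact mul_self_of_order t.2
  have hinj : Function.Injective e := by
    intro a b hab
    cases a with
    | none =>
      cases b with
      | none => rfl
      | some t => exact absurd hab.symm (ne_one_of_order t.2)
    | some s =>
      cases b with
      | none => exact absurd hab (ne_one_of_order s.2)
      | some t => exact congrArg some (Subtype.ext hab)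
  have hlt : Nat.card (G ⧸ H) < Nat.card (Option {t : G // orderOf t = 2}) := by
    rw [Finite.card_option]
    have h1 := H.card_mul_index
    rw [← h1] at hH
    exact Nat.lt_of_mul_lt_mul_left hH
  obtain ⟨a, b, hab, hf⟩ : ∃ a b, a ≠ b ∧ (QuotientGroup.mk (e a) : G ⧸ H) = QuotientGroup.mk (e b) := by
    by_contra hcon
    push Not at hcon
    have hinj2 : Function.Injective (fun o => (QuotientGroup.mk (e o) : G ⧸ H)) := by
      intro a b hab
      by_contra hne
      exact hcon a b hne hab
    exact absurd (Nat.card_le_card_of_injective _ hinj2) (not_le.2 hlt)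
  have hmem : (e a)⁻¹ * e b ∈ H := QuotientGroup.eq.1 hf
  rw [inv_of_mul_self (he a)] at hmem
  have hne : e a * e b ≠ 1 := by
    intro h
    apply hab
    apply hinj
    have := eq_inv_of_mul_eq_one_left h
    rw [this, inv_of_mul_self (he b)]
  refine ⟨e a * e b, hmem, hne, ?_⟩
  cases a with
  | some s =>
    refine ⟨s.1, s.2, ?_⟩
    show s.1 * (s.1 * e b) * s.1⁻¹ = (s.1 * e b)⁻¹
    rw [inv_of_order s.2, x_conj (mul_self_of_order s.2) (he b)]
  | none =>
    cases b with
    | none => exact absurd rfl hab
    | some t =>
      refine ⟨t.1, t.2, ?_⟩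
      show t.1 * (1 * t.1) * t.1⁻¹ = (1 * t.1)⁻¹
      rw [one_mul, inv_of_order t.2, mul_self_of_order t.2, one_mul]

end Cfsg.Agent.S0240
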