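import Cfsg.Statements.S0241
import Cfsg.Agent.Lib.Helper1_Invol2

set_option autoImplicit false
open Cfsg

namespace Cfsg.Agent.S0241

open Cfsg.Agent.Lib.Helper1_Invol Cfsg.Agent.Lib.Helper1_Invol2

/-- If x ≠ 1 is conjugate to x⁻¹ in a finite group G and |C_G(x)| is odd, then some involution t satisfies t x t⁻¹ = x⁻¹. -/
theorem result {G : Type*} [Group G] [Finite G] (x : G) (hx : x ≠ 1) (hreal : IsConj x x⁻¹) (hodd : Odd (Nat.card (Subgroup.centralizer ({x} : Set G)))) : ∃ t : G, orderOf t = 2 ∧ t * x * t⁻¹ = x⁻¹ := by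
  obtain ⟨g, hg⟩ := isConj_iff.1 hreal
  obtain ⟨a, m, hm, hn⟩ := Nat.exists_eq_two_pow_mul_odd (orderOf_pos g).ne'
  obtain ⟨k, rfl⟩ := hm
  have h1 := odd_pow_inverts hg k
  set t := g ^ (2 * k + 1) with ht
  have h2 : t ^ 2 ^ a = 1 := by
    rw [ht, ← pow_mul, mul_comm, ← hn]; exact pow_orderOf_eq_one g
  have h3 : t * t ∈ Subgroup.centralizer ({x} : Set G) := by
    rw [Subgroup.mem_centralizer_singleton_iff]
    have : t * t * x * (t * t)⁻¹ = x := by
      calc t * t * x * (t * t)⁻¹ = t * (t * x * t⁻¹) * t⁻¹ := by group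
        _ = t * x⁻¹ * t⁻¹ := by rw [h1]
        _ = (t * x * t⁻¹)⁻¹ := by group
        _ = x := by rw [h1, inv_inv]
    exact mul_inv_eq_iff_eq_mul.1 this
  have h4 : t * t = 1 := by
    apply eq_one_of_two_pow_of_odd hodd h3 (k := a)
    rw [← pow_two, ← pow_mul, mul_comm, pow_mul, h2, one_pow]
  refine ⟨t, orderOf_eq_two ?_ h4, h1⟩
  intro ht1
  rw [ht1] at h1
  apply hx
  apply eq_one_of_two_pow_of_odd hodd (Subgroup.mem_centralizer_singleton_iff.2 rfl) (k := 1)
  have : x = x⁻¹ := by simpa using h1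
  rw [pow_one, pow_two]
  calc x * x = x⁻¹ * x := by rw [← this]
    _ = 1 := inv_mul_cancel x

end Cfsg.Agent.S0241
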