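import Cfsg.Statements.S0826
import Cfsg.Agent.S0752
import Cfsg.Agent.Lib.Helper5_SympRep

set_option autoImplicit false
open Cfsg

namespace Cfsg.Agent.S0826

open Module Matrix Cfsg.Agent.Lib.Helper5_SympRep

variable {N : ℕ}

/-- the sum functional -/
def sumL (N : ℕ) : (Fin N → ZMod 2) →ₗ[ZMod 2] ZMod 2 where
  toFun v := ∑ i, v i
  map_add' u v := by simp [Finset.sum_add_distrib]
  map_smul' c v := by simp [Finset.mul_sum]

/-- the even weight vectors -/
def U (N : ℕ) : Submodule (ZMod 2) (Fin N → ZMod 2) := LinearMap.ker (sumL N)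

theorem mem_U (v : Fin N → ZMod 2) : v ∈ U N ↔ ∑ i, v i = 0 := LinearMap.mem_ker

/-- the dot product on even weight vectors -/
noncomputable def B (N : ℕ) : LinearMap.BilinForm (ZMod 2) (U N) :=
  (Matrix.toBilin' (1 : Matrix (Fin N) (Fin N) (ZMod 2))).restrict (U N)

theorem B_apply (u v : U N) : B N u v = ∑ i, u.1 i * v.1 i := by
  change Matrix.toBilin' (1 : Matrix (Fin N) (Fin N) (ZMod 2)) u.1 v.1 = _
  rw [Matrix.toBilin'_apply', Matrix.one_mulVec]
  rfl

theorem z2_sq (x : ZMod 2) : x * x = x := by revert x; decide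

theorem hA : (B N).IsAlt := by
  intro u
  rw [B_apply]
  simp only [z2_sq]
  exact (mem_U _).1 u.2

/-- the permutation action -/
def T (σ : Equiv.Perm (Fin N)) : U N ≃ₗ[ZMod 2] U N where
  toFun u := ⟨fun i => u.1 (σ⁻¹ i), by
    rw [mem_U, Equiv.sum_comp σ⁻¹ u.1]; exact (mem_U _).1 u.2⟩
  invFun u := ⟨fun i => u.1 (σ i), by
    rw [mem_U, Equiv.sum_comp σ u.1]; exact (mem_U _).1 u.2⟩
  map_add' u v := rfl
  map_smul' c u := rfl
  left_inv u := by
    apply Subtype.ext
    funext i
    simp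
  right_inv u := by
    apply Subtype.ext
    funext i
    simp

theorem T_apply (σ : Equiv.Perm (Fin N)) (u : U N) (i : Fin N) : (T σ u).1 i = u.1 (σ⁻¹ i) := rfl

theorem T_mem (σ : Equiv.Perm (Fin N)) : T σ ∈ isoGrp (B N) := by
  intro u v
  rw [B_apply, B_apply]
  exact Equiv.sum_comp σ⁻¹ (fun i => u.1 i * v.1 i)

def Ψ (N : ℕ) : Equiv.Perm (Fin N) →* isoGrp (B N) where
  toFun σ := ⟨T σ, T_mem σ⟩
  map_one' := by
    apply Subtype.ext
    apply LinearEquiv.ext
    intro u
    apply Subtype.ext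
    funext i
    rfl
  map_mul' σ τ := by
    apply Subtype.ext
    apply LinearEquiv.ext
    intro u
    apply Subtype.ext
    funext i
    change u.1 ((σ * τ)⁻¹ i) = u.1 (τ⁻¹ (σ⁻¹ i))
    rw [_root_.mul_inv_rev]
    rfl

/-- the pair vectors -/
def pr (i j : Fin N) (hij : i ≠ j) : U N :=
  ⟨Pi.single i 1 + Pi.single j 1, by
    rw [mem_U]
    simp only [Pi.add_apply, Finset.sum_add_distrib, Finset.sum_pi_single', Finset.mem_univ, if_true]
    decide⟩

theorem pr_apply (i j : Fin N) (hij : i ≠ j) (x : Fin N) :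
    (pr i j hij).1 x = (if x = i then 1 else 0) + (if x = j then 1 else 0) := by
  change (Pi.single i 1 + Pi.single j 1 : Fin N → ZMod 2) x = _
  rw [Pi.add_apply, Pi.single_apply, Pi.single_apply]

theorem rad_const (u : U N) (h : ∀ v, B N u v = 0) (i j : Fin N) : u.1 i = u.1 j := by
  by_cases hij : i = j
  · rw [hij]
  have h1 := h (pr i j hij)
  rw [B_apply] at h1
  simp only [pr_apply, mul_add, mul_ite, mul_one, mul_zero, Finset.sum_add_distrib,
    Finset.sum_ite_eq', Finset.mem_univ, if_true] at h1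
  have : ∀ a b : ZMod 2, a + b = 0 → a = b := by decide
  exact this _ _ h1

theorem finrank_U (hN : 1 ≤ N) : finrank (ZMod 2) (U N) = N - 1 := by
  have hs : Function.Surjective (sumL N) := by
    intro c
    refine ⟨Pi.single ⟨0, hN⟩ c, ?_⟩
    change ∑ i, (Pi.single ⟨0, hN⟩ c : Fin N → ZMod 2) i = c
    simp
  have := LinearMap.finrank_range_add_finrank_ker (sumL N)
  rw [LinearMap.range_eq_top.2 hs, finrank_top, finrank_self, Module.finrank_fintype_fun_eq_card,
    Fintype.card_fin] at this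
  change 1 + finrank (ZMod 2) (U N) = N at this
  omega

theorem inj (hN : 6 ≤ N) (σ : Equiv.Perm (Fin N)) (h : ∀ u v, B N (T σ u - u) v = 0) : σ = 1 := by
  have key : ∀ i j : Fin N, i ≠ j → σ i = i ∨ σ i = j := by
    intro i j hij
    have hc := rad_const _ (h (pr i j hij))
    obtain ⟨x, hx⟩ : ∃ x : Fin N, x ∉ ({i, j, σ i, σ j} : Finset (Fin N)) := by
      by_contra hcon
      push Not at hcon
      have h1 : (Finset.univ : Finset (Fin N)) ⊆ {i, j, σ i, σ j} := fun x _ => hcon x
      have h2 := Finset.card_le_card h1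
      have h3 : ({i, j, σ i, σ j} : Finset (Fin N)).card ≤ 4 := Finset.card_le_four
      rw [Finset.card_univ, Fintype.card_fin] at h2
      omega
    simp only [Finset.mem_insert, Finset.mem_singleton, not_or] at hx
    obtain ⟨hx1, hx2, hx3, hx4⟩ := hx
    have h0 : (T σ (pr i j hij) - pr i j hij).1 x = 0 := by
      change (T σ (pr i j hij)).1 x - (pr i j hij).1 x = 0
      rw [T_apply, pr_apply, pr_apply, if_neg hx1, if_neg hx2, if_neg, if_neg]
      · simp
      · intro h; apply hx4; rw [← h]; simp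
      · intro h; apply hx3; rw [← h]; simp
    have h1 := hc (σ i) x
    rw [h0] at h1
    change (T σ (pr i j hij)).1 (σ i) - (pr i j hij).1 (σ i) = 0 at h1
    rw [T_apply, pr_apply, pr_apply] at h1
    rw [show σ⁻¹ (σ i) = i from by simp, if_pos rfl, if_neg hij, add_zero] at h1
    by_contra hcon
    push Not at hcon
    rw [if_neg hcon.1, if_neg hcon.2] at h1
    revert h1; decide
  ext i
  obtain ⟨j, hj⟩ : ∃ j : Fin N, j ≠ i := by
    by_cases hi : (i : ℕ) = 0
    · exact ⟨⟨1, by omega⟩, fun h => by rw [← h] at hi; simp at hi⟩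
    · exact ⟨⟨0, by omega⟩, fun h => by rw [← h] at hi; simp at hi⟩
  obtain ⟨j', hj', hjj⟩ : ∃ j' : Fin N, j' ≠ i ∧ j' ≠ j := by
    by_contra hcon
    push Not at hcon
    have h1 : (Finset.univ : Finset (Fin N)) ⊆ {i, j} := by
      intro x _
      by_cases hx : x = i
      · simp [hx]
      · simp [hcon x hx]
    have h2 := Finset.card_le_card h1
    have h3 : ({i, j} : Finset (Fin N)).card ≤ 2 := Finset.card_le_two
    rw [Finset.card_univ, Fintype.card_fin] at h2
    omega
  rcases key i j (Ne.symm hj) with h1 | h1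
  · rw [h1]; rfl
  · rcases key i j' (Ne.symm hj') with h2 | h2
    · rw [h2]; rfl
    · exact absurd (h2.symm.trans h1) hjj

theorem result (n : ℕ) (hn : 3 ≤ n) : ∃ f : Equiv.Perm (Fin (2 * n)) →* Matrix.symplecticGroup (Fin (n - 1)) (ZMod 2), Function.Injective f := by
  obtain ⟨m, k, b, h1, h2, h3, h4⟩ := Cfsg.Agent.S0752.result (B (2 * n)) hA
  have hdim : 2 * m + k = 2 * n - 1 := by
    rw [← finrank_U (by omega), Module.finrank_eq_card_basis b]
    simp only [Fintype.card_sum, Fintype.card_fin]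
    omega
  have hk : k ≤ 1 := by
    by_contra hcon
    have hne : ∀ j : Fin k, ∀ x, (b (Sum.inr j)).1 x = 1 := by
      intro j x
      by_contra hx
      have hx0 : (b (Sum.inr j)).1 x = 0 := by
        have : ∀ a : ZMod 2, a ≠ 1 → a = 0 := by decide
        exact this _ hx
      apply b.ne_zero (Sum.inr j)
      apply Subtype.ext
      funext y
      rw [rad_const _ (h4 j) y x, hx0]
      rfl
    have heq : b (Sum.inr ⟨0, by omega⟩) = b (Sum.inr ⟨1, by omega⟩) := by
      apply Subtype.ext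
      funext x
      rw [hne, hne]
    have := b.injective heq
    simp at this
  have hm : m = n - 1 := by omega
  subst hm
  let D : SBasis (B (2 * n)) (n - 1) k := ⟨b, h1, h2, h3, h4⟩
  refine ⟨(rep hA D).comp (Ψ (2 * n)), ?_⟩
  rw [injective_iff_map_eq_one]
  intro σ hσ
  rw [MonoidHom.comp_apply, rep_eq_one_iff] at hσ
  exact inj (by omega) σ hσ

end Cfsg.Agent.S0826
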