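import Cfsg.Statements.S0247
import Cfsg.Agent.S0826
import Cfsg.Agent.Lib.Helper5_SympCard

set_option autoImplicit false
open Cfsg

namespace Cfsg.Agent.S0247

open Matrix

/-- base change for symplectic groups -/
def mapSp {R S : Type*} [CommRing R] [CommRing S] (l : Type*) [DecidableEq l] [Fintype l]
    (φ : R →+* S) : Matrix.symplecticGroup l R →* Matrix.symplecticGroup l S where
  toFun A := ⟨A.1.map φ, SymplecticGroup.map_mem A.2 φ⟩
  map_one' := by
    apply Subtype.ext
    change (1 : Matrix (l ⊕ l) (l ⊕ l) R).map φ = 1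
    simp
  map_mul' A A' := by
    apply Subtype.ext
    change (A.1 * A'.1).map φ = A.1.map φ * A'.1.map φ
    rw [Matrix.map_mul]

theorem mapSp_injective {R S : Type*} [CommRing R] [CommRing S] (l : Type*) [DecidableEq l]
    [Fintype l] (φ : R →+* S) (hφ : Function.Injective φ) : Function.Injective (mapSp l φ) := by
  intro A A' h
  apply Subtype.ext
  have := congrArg Subtype.val h
  exact Matrix.map_injective hφ this

theorem result {F : Type*} [Field F] [Fintype F] (hF : Fintype.card F = 2) : Nonempty (Matrix.symplecticGroup (Fin 2) F ≃* Equiv.Perm (Fin 6)) := by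
  obtain ⟨f, hf⟩ := Cfsg.Agent.S0826.result 3 le_rfl
  have e := ZMod.ringEquivOfPrime F Nat.prime_two hF
  let g : Equiv.Perm (Fin 6) →* Matrix.symplecticGroup (Fin 2) F :=
    (mapSp (Fin 2) e.toRingHom).comp f
  have hg : Function.Injective g := (mapSp_injective (Fin 2) e.toRingHom e.injective).comp hf
  have hcard : Nat.card (Matrix.symplecticGroup (Fin 2) F) = 720 := by
    rw [Cfsg.Agent.Lib.Helper5_SympCard.card_sp, hF]
    simp [Finset.prod_range_succ]
  have hcard' : Nat.card (Equiv.Perm (Fin 6)) = 720 := by
    rw [Nat.card_eq_fintype_card, Fintype.card_perm, Fintype.card_fin]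
    rfl
  have hfin : Finite (Matrix.symplecticGroup (Fin 2) F) := Nat.finite_of_card_ne_zero (by omega)
  have hb : Function.Bijective g := hg.bijective_of_nat_card_le (by omega)
  exact ⟨(MulEquiv.ofBijective g hb).symm⟩

end Cfsg.Agent.S0247
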