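import Cfsg.Statements.S0250
import Cfsg.Agent.Lib.Helper5_Card

set_option autoImplicit false

open Cfsg

namespace Cfsg.Agent.S0250

open Matrix

variable {F : Type*} [Field F]

theorem inv_mulVec (g : Matrix.SpecialLinearGroup (Fin 2) F) (v : Fin 2 → F) :
    ((g⁻¹ : Matrix.SpecialLinearGroup (Fin 2) F) : Matrix (Fin 2) (Fin 2) F) *ᵥ
      ((g : Matrix (Fin 2) (Fin 2) F) *ᵥ v) = v := by
  rw [mulVec_mulVec, ← Matrix.SpecialLinearGroup.coe_mul, inv_mul_cancel,
    Matrix.SpecialLinearGroup.coe_one, one_mulVec]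

theorem mulVec_inv (g : Matrix.SpecialLinearGroup (Fin 2) F) (v : Fin 2 → F) :
    (g : Matrix (Fin 2) (Fin 2) F) *ᵥ
      (((g⁻¹ : Matrix.SpecialLinearGroup (Fin 2) F) : Matrix (Fin 2) (Fin 2) F) *ᵥ v) = v := by
  rw [mulVec_mulVec, ← Matrix.SpecialLinearGroup.coe_mul, mul_inv_cancel,
    Matrix.SpecialLinearGroup.coe_one, one_mulVec]

theorem ne_zero (g : Matrix.SpecialLinearGroup (Fin 2) F) (v : Fin 2 → F) (hv : v ≠ 0) :
    (g : Matrix (Fin 2) (Fin 2) F) *ᵥ v ≠ 0 := by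
  intro h
  apply hv
  rw [← inv_mulVec g v, h, mulVec_zero]

/-- the action on nonzero vectors -/
def act (g : Matrix.SpecialLinearGroup (Fin 2) F) : Equiv.Perm {v : Fin 2 → F // v ≠ 0} where
  toFun v := ⟨(g : Matrix (Fin 2) (Fin 2) F) *ᵥ v.1, ne_zero g v.1 v.2⟩
  invFun v := ⟨((g⁻¹ : Matrix.SpecialLinearGroup (Fin 2) F) : Matrix (Fin 2) (Fin 2) F) *ᵥ v.1,
    ne_zero g⁻¹ v.1 v.2⟩
  left_inv v := Subtype.ext (inv_mulVec g v.1)
  right_inv v := Subtype.ext (mulVec_inv g v.1)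

/-- the action as a homomorphism -/
def actHom : Matrix.SpecialLinearGroup (Fin 2) F →* Equiv.Perm {v : Fin 2 → F // v ≠ 0} :=
  MonoidHom.mk' act (by
    intro a b
    ext v : 2
    show ((a * b : Matrix.SpecialLinearGroup (Fin 2) F) : Matrix (Fin 2) (Fin 2) F) *ᵥ v.1
      = (a : Matrix (Fin 2) (Fin 2) F) *ᵥ ((b : Matrix (Fin 2) (Fin 2) F) *ᵥ v.1)
    rw [Matrix.SpecialLinearGroup.coe_mul, mulVec_mulVec])

theorem actHom_inj : Function.Injective (actHom (F := F)) := by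
  rw [injective_iff_map_eq_one]
  intro g hg
  apply Subtype.ext
  ext i j
  have hne : (Pi.single j 1 : Fin 2 → F) ≠ 0 := by
    intro h
    have := congrFun h j
    rw [Pi.single_eq_same] at this
    exact one_ne_zero this
  have h1 := congrArg (fun σ : Equiv.Perm {v : Fin 2 → F // v ≠ 0} =>
    (σ ⟨Pi.single j 1, hne⟩).1 i) hg
  have h2 : ((g : Matrix (Fin 2) (Fin 2) F) *ᵥ (Pi.single j 1 : Fin 2 → F)) i
      = (Pi.single j 1 : Fin 2 → F) i := h1
  rw [mulVec_single_one] at h2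
  rw [Matrix.SpecialLinearGroup.coe_one, Matrix.one_apply]
  rw [Pi.single_apply] at h2
  exact h2

theorem result {F : Type*} [Field F] [Fintype F] (hF : Fintype.card F = 2) : Nonempty (Matrix.SpecialLinearGroup (Fin 2) F ≃* Equiv.Perm (Fin 3)) := by
  classical
  have hX : Fintype.card {v : Fin 2 → F // v ≠ 0} = 3 := by
    rw [Fintype.card_subtype, Finset.filter_ne', Finset.card_erase_of_mem (Finset.mem_univ _),
      Finset.card_univ, Fintype.card_fun, hF, Fintype.card_fin]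
    norm_num
  have hbij : Function.Bijective (actHom (F := F)) := by
    apply actHom_inj.bijective_of_nat_card_le
    rw [Cfsg.Agent.Lib.Helper5_Card.card_SL2, hF, Nat.card_eq_fintype_card, Fintype.card_perm, hX]
    decide
  exact ⟨(MulEquiv.ofBijective actHom hbij).trans
    (Fintype.equivFinOfCardEq hX).permCongrHom⟩

end Cfsg.Agent.S0250
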