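import Cfsg.Statements.S0251
import Cfsg.Agent.S0243

set_option autoImplicit false

open Cfsg

namespace Cfsg.Agent.S0251

theorem result {F : Type*} [Field F] [Fintype F] (hF : Fintype.card F = 3) : Nonempty (Matrix.ProjectiveSpecialLinearGroup (Fin 2) F ≃* alternatingGroup (Fin 4)) := by
  classical
  have hc := Cfsg.Agent.S0243.result hF 2 le_rfl
  have hcard : Nat.card (Matrix.ProjectiveSpecialLinearGroup (Fin 2) F) = 12 := by
    rw [Fin.prod_univ_two] at hc
    have h1 : Nat.gcd 2 (3 - 1) = 2 := by decide
    rw [h1] at hc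
    simp only [Fin.val_zero, Fin.val_one] at hc
    omega
  have hP : Nat.card (Projectivization F (Fin 2 → F)) = 4 := by
    rw [Projectivization.card_of_finrank_two F (Fin 2 → F) (Module.finrank_fin_fun F),
      Nat.card_eq_fintype_card, hF]
  have : Finite (Projectivization F (Fin 2 → F)) := Nat.finite_of_card_ne_zero (by rw [hP]; norm_num)
  obtain ⟨e⟩ : Nonempty (Projectivization F (Fin 2 → F) ≃ Fin 4) := by
    have := Finite.equivFinOfCardEq hP
    exact ⟨this⟩
  let φ : Matrix.ProjectiveSpecialLinearGroup (Fin 2) F →* Equiv.Perm (Fin 4) :=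
    (e.permCongrHom : _ →* _).comp
      (MulAction.toPermHom (Matrix.ProjectiveSpecialLinearGroup (Fin 2) F)
        (Projectivization F (Fin 2 → F)))
  have hinj : Function.Injective φ := by
    apply e.permCongrHom.injective.comp
    exact MulAction.toPerm_injective
  have hr : Nat.card φ.range = 12 := by
    rw [← hcard]
    exact (Nat.card_congr (MonoidHom.ofInjective hinj).toEquiv).symm
  have hidx : φ.range.index = 2 := by
    have h1 := φ.range.index_mul_card
    rw [hr, Nat.card_eq_fintype_card, Fintype.card_perm, Fintype.card_fin] at h1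
    have : (Nat.factorial 4) = 24 := by decide
    omega
  have hA := Equiv.Perm.eq_alternatingGroup_of_index_eq_two hidx
  exact ⟨(MonoidHom.ofInjective hinj).trans (MulEquiv.subgroupCongr hA)⟩

end Cfsg.Agent.S0251
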