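import Mathlib
import Cfsg.Statements.S0494

set_option autoImplicit false
open Cfsg

namespace Cfsg.Agent.S0494

/-- in a simple group the order divides the factorial of the index of a proper subgroup -/
theorem card_dvd_factorial_index {G : Type*} [Group G] [Finite G] [IsSimpleGroup G]
    (H : Subgroup G) (hH : H ≠ ⊤) :
    Function.Injective (MulAction.toPermHom G (G ⧸ H)) ∧ Nat.card G ∣ H.index.factorial := by
  have hbot : H.normalCore = ⊥ := by
    rcases (Subgroup.normalCore_normal H).eq_bot_or_eq_top with h | h
    · exact h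
    · exfalso
      apply hH
      rw [eq_top_iff, ← h]
      exact Subgroup.normalCore_le H
  rw [Subgroup.normalCore_eq_ker] at hbot
  have hinj : Function.Injective (MulAction.toPermHom G (G ⧸ H)) :=
    (MonoidHom.ker_eq_bot_iff _).mp hbot
  refine ⟨hinj, ?_⟩
  have h1 := Subgroup.card_dvd_of_injective _ hinj
  have hc2 : Nat.card (Equiv.Perm (G ⧸ H)) = H.index.factorial := by
    rw [Nat.card_perm]
    rfl
  rwa [hc2] at h1

/-- a simple group of order `60` with a subgroup of index `5` is `A₅` -/
theorem iso_of_index_five {G : Type*} [Group G] [Finite G] [IsSimpleGroup G]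
    (h : Nat.card G = 60) (H : Subgroup G) (hH : H.index = 5) :
    Nonempty (G ≃* alternatingGroup (Fin 5)) := by
  classical
  have hne : H ≠ ⊤ := by
    intro h1
    rw [h1, Subgroup.index_top] at hH
    omega
  obtain ⟨hinj, -⟩ := card_dvd_factorial_index H hne
  have hc : Nat.card (G ⧸ H) = 5 := hH
  have : Finite (G ⧸ H) := inferInstance
  obtain ⟨e⟩ : Nonempty ((G ⧸ H) ≃ Fin 5) := by
    have := Finite.equivFinOfCardEq hc
    exact ⟨this⟩
  obtain ⟨f, hf⟩ : ∃ f : G →* Equiv.Perm (Fin 5), f =
    (e.permCongrHom.toMonoidHom).comp (MulAction.toPermHom G (G ⧸ H)) := ⟨_, rfl⟩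
  have hfinj : Function.Injective f := by
    rw [hf]
    exact e.permCongrHom.injective.comp hinj
  have hr : Nat.card f.range = 60 := by
    rw [← h]
    exact (Nat.card_congr (MonoidHom.ofInjective hfinj).toEquiv).symm
  have hidx : f.range.index = 2 := by
    have h1 := Subgroup.card_mul_index f.range
    rw [hr, Nat.card_eq_fintype_card, Fintype.card_perm, Fintype.card_fin] at h1
    have : (5 : ℕ).factorial = 120 := by decide
    omega
  have hrange := Equiv.Perm.eq_alternatingGroup_of_index_eq_two hidx
  exact ⟨(MonoidHom.ofInjective hfinj).trans (MulEquiv.subgroupCongr hrange)⟩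

/-- A simple group of order 60 is isomorphic to the alternating group of degree 5. -/
theorem result {G : Type*} [Group G] [Finite G] [IsSimpleGroup G]
    (h : Nat.card G = 60) : Nonempty (G ≃* alternatingGroup (Fin 5)) := by
  classical
  obtain ⟨P⟩ : Nonempty (Sylow 2 G) := inferInstance
  have hP : Nat.card P = 4 := by
    have h1 := P.card_eq_multiplicity
    rw [h] at h1
    have h2 : (60 : ℕ).factorization 2 = 2 := by
      have : (60 : ℕ) = 2 ^ 2 * 15 := by norm_num
      rw [this, Nat.factorization_mul (by norm_num) (by norm_num), Nat.factorization_pow]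
      simp [Nat.Prime.factorization Nat.prime_two,
        Nat.factorization_eq_zero_of_not_dvd (show ¬ 2 ∣ 15 by norm_num)]
    rw [h2] at h1
    simpa using h1
  have hPc : Nat.card (P : Subgroup G) = 4 := hP
  have hab : ∀ a b : G, a ∈ (P : Subgroup G) → b ∈ (P : Subgroup G) → a * b = b * a := by
    intro a b ha hb
    have hcomm := IsPGroup.commutative_of_card_eq_prime_sq (p := 2) (G := P) (by rw [hP]; norm_num)
    exact congrArg Subtype.val (hcomm ⟨a, ha⟩ ⟨b, hb⟩)
  have hle : (P : Subgroup G) ≤ Subgroup.normalizer (P : Set G) := Subgroup.le_normalizer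
  have hd1 : 4 ∣ Nat.card (Subgroup.normalizer (P : Set G)) := by
    rw [← hPc]
    exact Subgroup.card_dvd_of_le hle
  have hmul := Subgroup.card_mul_index (Subgroup.normalizer (P : Set G))
  rw [h] at hmul
  obtain ⟨c, hc⟩ := hd1
  rw [hc] at hmul
  have hci : c * (Subgroup.normalizer (P : Set G)).index = 15 := by
    have : 4 * (c * (Subgroup.normalizer (P : Set G)).index) = 4 * 15 := by
      rw [← mul_assoc, hmul]
    omega
  have hidvd : (Subgroup.normalizer (P : Set G)).index ∣ 15 := ⟨c, by rw [← hci, mul_comm]⟩
  have hmem : (Subgroup.normalizer (P : Set G)).index ∈ Nat.divisors 15 :=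
    Nat.mem_divisors.mpr ⟨hidvd, by norm_num⟩
  have hdiv : Nat.divisors 15 = {1, 3, 5, 15} := by decide
  rw [hdiv] at hmem
  simp only [Finset.mem_insert, Finset.mem_singleton] at hmem
  rcases hmem with h1 | h1 | h1 | h1
  · -- P normal
    exfalso
    have htop : Subgroup.normalizer (P : Set G) = ⊤ := Subgroup.index_eq_one.mp h1
    have hn : (P : Subgroup G).Normal := Subgroup.normalizer_eq_top_iff.mp htop
    rcases hn.eq_bot_or_eq_top with h2 | h2
    · rw [h2, Subgroup.card_bot] at hPc
      omega
    · rw [h2, Subgroup.card_top, h] at hPc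
      omega
  · exfalso
    have hne : Subgroup.normalizer (P : Set G) ≠ ⊤ := by
      intro h2
      rw [h2, Subgroup.index_top] at h1
      omega
    obtain ⟨-, h3⟩ := card_dvd_factorial_index _ hne
    rw [h, h1] at h3
    revert h3
    decide
  · exact iso_of_index_five h _ h1
  · exfalso
    have hc1 : c = 1 := by
      rw [h1] at hci
      omega
    have hN4 : Nat.card (Subgroup.normalizer (P : Set G)) = 4 := by rw [hc, hc1]
    have heq : (P : Subgroup G) = Subgroup.normalizer (P : Set G) :=
      Subgroup.eq_of_le_of_card_ge hle (by rw [hN4, hPc])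
    have hN : Subgroup.normalizer (P : Set G) ≤ Subgroup.centralizer (P : Set G) := by
      rw [← heq]
      intro x hx
      rw [Subgroup.mem_centralizer_iff]
      intro y hy
      exact hab y x hy hx
    have hcompl := MonoidHom.ker_transferSylow_isComplement' P hN
    have hcard := hcompl.card_mul
    rw [h, hPc] at hcard
    rcases (MonoidHom.normal_ker (MonoidHom.transferSylow P hN)).eq_bot_or_eq_top with h2 | h2
    · rw [h2, Subgroup.card_bot] at hcard
      omega
    · rw [h2, Subgroup.card_top, h] at hcard
      omega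

end Cfsg.Agent.S0494
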