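import Cfsg.Statements.S0261
import Cfsg.Agent.Lib.Helper1_SL2Fpf
import Cfsg.Agent.Lib.Helper1_FrobPQ

set_option autoImplicit false
open Cfsg

namespace Cfsg.Agent.S0261

open Subgroup

theorem pow4 {Γ : Type*} [Group Γ] (g : Γ) : g ^ 4 = g * g * (g * g) := by
  simp [pow_succ, mul_assoc]

theorem conj3 {Γ : Type*} [Group Γ] (i j : Γ) (h : i * j = j * (j * (j * i))) :
    i * j * i⁻¹ = j ^ 3 := by
  rw [h]; simp [pow_succ, mul_assoc]

theorem exists_Q8 {F : Type*} [Field F] (a b : F) (hab : a ^ 2 + b ^ 2 = -1) (h2F : (2 : F) ≠ 0) :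
    ∃ i j : Matrix.SpecialLinearGroup (Fin 2) F, i * i * (i * i) = 1 ∧ j * j * (j * j) = 1 ∧
      i * j = j * (j * (j * i)) ∧ i * j ≠ j * i := by
  have hi2 : (!![a, b; b, -a] : Matrix (Fin 2) (Fin 2) F) * !![a, b; b, -a] = -1 := by
    ext r s
    fin_cases r <;> fin_cases s <;> simp [Matrix.mul_apply, Fin.sum_univ_two]
    · linear_combination hab
    · ring
    · ring
    · linear_combination hab
  have hj2 : (!![0, 1; -1, 0] : Matrix (Fin 2) (Fin 2) F) * !![0, 1; -1, 0] = -1 := by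
    ext r s
    fin_cases r <;> fin_cases s <;> simp [Matrix.mul_apply, Fin.sum_univ_two]
  refine ⟨⟨!![a, b; b, -a], by rw [Matrix.det_fin_two_of]; linear_combination -hab⟩,
    ⟨!![0, 1; -1, 0], by rw [Matrix.det_fin_two_of]; ring⟩, ?_, ?_, ?_, ?_⟩
  · apply Subtype.ext
    show (!![a, b; b, -a] : Matrix (Fin 2) (Fin 2) F) * !![a, b; b, -a] *
      (!![a, b; b, -a] * !![a, b; b, -a]) = 1
    rw [hi2]; simp
  · apply Subtype.ext
    show (!![0, 1; -1, 0] : Matrix (Fin 2) (Fin 2) F) * !![0, 1; -1, 0] *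
      (!![0, 1; -1, 0] * !![0, 1; -1, 0]) = 1
    rw [hj2]; simp
  · apply Subtype.ext
    show (!![a, b; b, -a] : Matrix (Fin 2) (Fin 2) F) * !![0, 1; -1, 0] =
      !![0, 1; -1, 0] * (!![0, 1; -1, 0] * (!![0, 1; -1, 0] * !![a, b; b, -a]))
    rw [← Matrix.mul_assoc, hj2]
    ext r s
    fin_cases r <;> fin_cases s <;> simp [Matrix.mul_apply, Fin.sum_univ_two]
  · intro h
    have h1 : (!![a, b; b, -a] : Matrix (Fin 2) (Fin 2) F) * !![0, 1; -1, 0] =
      !![0, 1; -1, 0] * !![a, b; b, -a] := congrArg Subtype.val h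
    have e00 := congrFun (congrFun h1 0) 0
    have e01 := congrFun (congrFun h1 0) 1
    simp [Matrix.mul_apply, Fin.sum_univ_two] at e00 e01
    have hb0 : b = 0 := by
      have : 2 * b = 0 := by linear_combination -e00
      rcases mul_eq_zero.mp this with h | h
      · exact absurd h h2F
      · exact h
    have ha0 : a = 0 := by
      have : 2 * a = 0 := by linear_combination e01
      rcases mul_eq_zero.mp this with h | h
      · exact absurd h h2F
      · exact h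
    rw [ha0, hb0] at hab
    norm_num at hab

/-- For q odd, the Sylow 2-subgroups of SL_2(q) are generalised quaternion. -/
theorem result {F : Type*} [Field F] [Fintype F] (hF : Odd (Fintype.card F)) (P : Sylow 2 (Matrix.SpecialLinearGroup (Fin 2) F)) : ∃ k : ℕ, 1 ≤ k ∧ Nonempty ((P : Subgroup (Matrix.SpecialLinearGroup (Fin 2) F)) ≃* QuaternionGroup (2 ^ k)) := by
  classical
  haveI : Fact (Nat.Prime 2) := ⟨Nat.prime_two⟩
  obtain ⟨p, hchar⟩ := CharP.exists F
  haveI := hchar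
  have hp : p.Prime := CharP.char_is_prime F p
  haveI : Fact p.Prime := ⟨hp⟩
  haveI : NeZero p := ⟨hp.ne_zero⟩
  have hp2 : (2 : ℕ) ≠ p := by
    intro h
    obtain ⟨n, _, hn⟩ := FiniteField.card F p
    rw [hn, ← h] at hF
    have : Even ((2 : ℕ) ^ (n : ℕ)) := (Nat.even_pow.mpr ⟨even_two, n.ne_zero⟩)
    exact (Nat.not_even_iff_odd.mpr hF) this
  have h2F : (2 : F) ≠ 0 := by
    intro h
    have h1 : ((2 : ℕ) : F) = 0 := by exact_mod_cast h
    rw [CharP.cast_eq_zero_iff F p] at h1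
    exact hp2 ((Nat.prime_dvd_prime_iff_eq hp Nat.prime_two).mp h1).symm
  obtain ⟨a', b', hab'⟩ := CharP.sq_add_sq F p (-1)
  have hab : (a' : F) ^ 2 + (b' : F) ^ 2 = -1 := by simpa using hab'
  obtain ⟨i, j, hi4', hj4', hij, hne⟩ := exists_Q8 (a' : F) (b' : F) hab h2F
  have hi4 : i ^ 4 = 1 := by rw [pow4, hi4']
  have hj4 : j ^ 4 = 1 := by rw [pow4, hj4']
  have hconj : i * j * i⁻¹ = j ^ 3 := conj3 i j hij
  have hpz : ∀ g : Matrix.SpecialLinearGroup (Fin 2) F, g ^ 4 = 1 → IsPGroup 2 (zpowers g) := by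
    intro g hg x
    refine ⟨2, ?_⟩
    obtain ⟨k, hk⟩ := mem_zpowers_iff.mp x.2
    apply Subtype.ext
    show (x : Matrix.SpecialLinearGroup (Fin 2) F) ^ 2 ^ 2 = 1
    rw [← hk, ← zpow_natCast, ← zpow_mul, mul_comm, zpow_mul, zpow_natCast]
    norm_num
    rw [hg, one_zpow]
  have hnorm : zpowers i ≤ normalizer (zpowers j : Set (Matrix.SpecialLinearGroup (Fin 2) F)) := by
    rw [zpowers_le]
    apply Cfsg.Agent.Lib.Helper1_FrobPQ.mem_normalizer_zpowers
    rw [hconj]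
    exact pow_mem (mem_zpowers j) 3
  have hsup : IsPGroup 2 (zpowers i ⊔ zpowers j : Subgroup (Matrix.SpecialLinearGroup (Fin 2) F)) :=
    IsPGroup.to_sup_of_normal_right' (hpz i hi4) (hpz j hj4) hnorm
  obtain ⟨Q, hQ⟩ := hsup.exists_le_sylow
  have hnc : ¬ IsCyclic (P : Subgroup (Matrix.SpecialLinearGroup (Fin 2) F)) := by
    intro hc
    haveI : IsCyclic (Q : Subgroup (Matrix.SpecialLinearGroup (Fin 2) F)) :=
      (Sylow.equiv P Q).isCyclic.mp hc
    haveI : IsMulCommutative (Q : Subgroup (Matrix.SpecialLinearGroup (Fin 2) F)) :=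
      IsCyclic.isMulCommutative
    have hiQ : i ∈ (Q : Subgroup (Matrix.SpecialLinearGroup (Fin 2) F)) :=
      hQ ((le_sup_left : zpowers i ≤ _) (mem_zpowers i))
    have hjQ : j ∈ (Q : Subgroup (Matrix.SpecialLinearGroup (Fin 2) F)) :=
      hQ ((le_sup_right : zpowers j ≤ _) (mem_zpowers j))
    have := mul_comm' (⟨i, hiQ⟩ : (Q : Subgroup (Matrix.SpecialLinearGroup (Fin 2) F))) ⟨j, hjQ⟩
    exact hne (congrArg Subtype.val this)
  rcases Cfsg.Agent.Lib.Helper1_SL2Fpf.rgroup_cases p hp2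
    (P : Subgroup (Matrix.SpecialLinearGroup (Fin 2) F)) P.isPGroup' with h | ⟨_, n, ⟨e⟩⟩
  · exact absurd h hnc
  · refine ⟨n, ?_, ⟨e⟩⟩
    by_contra hn
    have hn0 : n = 0 := by omega
    subst hn0
    apply hnc
    haveI : IsCyclic (QuaternionGroup (2 ^ 0)) := by
      rw [pow_zero]; exact QuaternionGroup.quaternionGroup_one_isCyclic
    exact e.isCyclic.mpr inferInstance

end Cfsg.Agent.S0261
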