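import Cfsg.Statements.S0257
import Cfsg.Agent.S0251
import Cfsg.Agent.S0261
import Cfsg.Agent.Lib.Helper1_GLCard
import Cfsg.Agent.Lib.Helper5_Card

set_option autoImplicit false

open Cfsg

namespace Cfsg.Agent.S0257

theorem result {F : Type*} [Field F] [Fintype F] (hF : Fintype.card F = 3) : (∃ Q : Subgroup (Matrix.SpecialLinearGroup (Fin 2) F), Q.Normal ∧ Q.index = 3 ∧ Nonempty (Q ≃* QuaternionGroup 2)) ∧ Nat.card (Subgroup.center (Matrix.SpecialLinearGroup (Fin 2) F)) = 2 := by
  classical
  have hSL : Nat.card (Matrix.SpecialLinearGroup (Fin 2) F) = 24 := by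
    rw [Cfsg.Agent.Lib.Helper5_Card.card_SL2, hF]
    norm_num
  constructor
  · obtain ⟨e⟩ := Cfsg.Agent.S0251.result hF
    have h4 : Nat.card (Fin 4) = 4 := by simp
    have hN := alternatingGroup.normal_kleinFour (α := Fin 4) h4
    have hV := alternatingGroup.kleinFour_card_of_card_eq_four (α := Fin 4) h4
    let π : Matrix.SpecialLinearGroup (Fin 2) F →* alternatingGroup (Fin 4) :=
      e.toMonoidHom.comp (QuotientGroup.mk' (Subgroup.center (Matrix.SpecialLinearGroup (Fin 2) F)))
    have hπ : Function.Surjective π := e.surjective.comp (QuotientGroup.mk'_surjective _)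
    obtain ⟨Q, hQ⟩ : ∃ Q, Q = (alternatingGroup.kleinFour (Fin 4)).comap π := ⟨_, rfl⟩
    have hQN : Q.Normal := by rw [hQ]; exact hN.comap π
    have hidx : Q.index = 3 := by
      rw [hQ, Subgroup.index_comap_of_surjective _ hπ]
      have h1 := (alternatingGroup.kleinFour (Fin 4)).index_mul_card
      rw [hV, alternatingGroup.card_of_card_eq_four h4] at h1
      omega
    have hQc : Nat.card Q = 8 := by
      have h1 := Q.index_mul_card
      rw [hidx, hSL] at h1
      omega
    have hp : IsPGroup 2 Q := IsPGroup.of_card (n := 3) (by rw [hQc]; norm_num)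
    obtain ⟨P, hP⟩ := hp.exists_le_sylow
    obtain ⟨k, hk1, ⟨f⟩⟩ := Cfsg.Agent.S0261.result (by rw [hF]; decide) P
    have hPc : Nat.card (P : Subgroup (Matrix.SpecialLinearGroup (Fin 2) F)) = 4 * 2 ^ k := by
      rw [Nat.card_congr f.toEquiv, Nat.card_eq_fintype_card, QuaternionGroup.card]
    have hdvd : Nat.card (P : Subgroup (Matrix.SpecialLinearGroup (Fin 2) F)) ∣ 24 := by
      rw [← hSL]; exact Subgroup.card_subgroup_dvd_card _
    have hk : k = 1 := by
      by_contra hne
      have hk2 : 2 ≤ k := by omega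
      have h16 : 16 ∣ 4 * 2 ^ k := by
        obtain ⟨j, rfl⟩ := Nat.exists_eq_add_of_le hk2
        exact ⟨2 ^ j, by rw [pow_add]; ring⟩
      rw [hPc] at hdvd
      have := h16.trans hdvd
      omega
    subst hk
    have hPQ : Q = (P : Subgroup (Matrix.SpecialLinearGroup (Fin 2) F)) :=
      Subgroup.eq_of_le_of_card_ge hP (by rw [hPc, hQc]; norm_num)
    exact ⟨Q, hQN, hidx, ⟨(MulEquiv.subgroupCongr hPQ).trans f⟩⟩
  · rw [Cfsg.Agent.Lib.Helper1_GLCard.card_center_SL, Fintype.card_fin, Nat.card_eq_fintype_card,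
      Fintype.card_units, hF]
    decide

end Cfsg.Agent.S0257
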