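import Cfsg.Statements.S0258
import Cfsg.Agent.Lib.Helper5_GL2Sylow

set_option autoImplicit false

open Cfsg

namespace Cfsg.Agent.S0258

open Cfsg.Agent.Lib.Helper5_GL2Sylow Cfsg.Agent.Lib.Helper5_GL2Class

theorem result {F : Type*} [Field F] [Fintype F] {q : ℕ} (hF : Fintype.card F = q) (p : ℕ) [Fact p.Prime] [CharP F p] : Nat.card (Sylow p (Matrix.GeneralLinearGroup (Fin 2) F)) = q + 1 := by
  subst hF
  obtain ⟨P, -⟩ := exists_sylow (F := F) p
  have h1 : Nat.card (Sylow p (GL (Fin 2) F)) =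
      (Subgroup.normalizer ((P : Subgroup (GL (Fin 2) F)) : Set (GL (Fin 2) F))).index := P.card_eq_index_normalizer
  have h3 := Subgroup.index_mul_card (Subgroup.normalizer ((P : Subgroup (GL (Fin 2) F)) : Set (GL (Fin 2) F)))
  rw [← h1, card_normalizer p P, card_GL2] at h3
  have hq : 2 ≤ Fintype.card F := Fintype.one_lt_card
  obtain ⟨k, hk⟩ : ∃ k, Fintype.card F = k + 1 := ⟨Fintype.card F - 1, by omega⟩
  rw [hk] at h3 ⊢
  simp only [Nat.add_sub_cancel] at h3
  have e1 : (k + 1) ^ 2 - 1 = k * (k + 2) := by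
    have : (k + 1) ^ 2 = k * (k + 2) + 1 := by ring
    omega
  have e2 : (k + 1) ^ 2 - (k + 1) = k * (k + 1) := by
    have : (k + 1) ^ 2 = k * (k + 1) + (k + 1) := by ring
    omega
  rw [e1, e2] at h3
  have hk0 : 0 < k := by omega
  have : Nat.card (Sylow p (GL (Fin 2) F)) * (k * (k * (k + 1))) = (k + 1 + 1) * (k * (k * (k + 1))) := by
    rw [h3]; ring
  exact Nat.eq_of_mul_eq_mul_right (by positivity) this

end Cfsg.Agent.S0258
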