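import Cfsg.Statements.S0259
import Cfsg.Agent.Lib.Helper5_GL2Sylow

set_option autoImplicit false

open Cfsg

namespace Cfsg.Agent.S0259

open Cfsg.Agent.Lib.Helper5_GL2Sylow Cfsg.Agent.Lib.Helper5_GL2Class Cfsg.Agent.Lib.Helper5_GL2Char

theorem result {F : Type*} [Field F] [Fintype F] (p : ℕ) [Fact p.Prime] [CharP F p] (P Q : Sylow p (Matrix.GeneralLinearGroup (Fin 2) F)) (h : P ≠ Q) : (P : Subgroup (Matrix.GeneralLinearGroup (Fin 2) F)) ⊓ (Q : Subgroup (Matrix.GeneralLinearGroup (Fin 2) F)) = ⊥ := by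
  obtain ⟨g₁, h₁⟩ := exists_conj p P
  obtain ⟨g₂, h₂⟩ := exists_conj p Q
  rw [eq_bot_iff]
  intro x hx
  rw [Subgroup.mem_bot]
  by_contra hx1
  apply h
  obtain ⟨t, ht⟩ := (h₁ x).1 hx.1
  obtain ⟨s, hs⟩ := (h₂ x).1 hx.2
  have ht0 : t ≠ 0 := by
    rintro rfl
    apply hx1
    rw [ht, uu_zero]; group
  set k := g₁⁻¹ * g₂ with hk
  have hk0 : (k : Matrix (Fin 2) (Fin 2) F) 1 0 = 0 := by
    apply lower_zero k s t ht0
    have : uu t = g₁⁻¹ * x * g₁ := by rw [ht]; group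
    rw [this, hs, hk]; group
  have hk0' : ((k⁻¹ : GL (Fin 2) F) : Matrix (Fin 2) (Fin 2) F) 1 0 = 0 :=
    (mem_BB _).1 ((upperTriangularGL 2 F).inv_mem ((mem_BB k).2 hk0))
  ext y
  show y ∈ P ↔ y ∈ Q
  rw [h₁, h₂]
  constructor
  · rintro ⟨a, rfl⟩
    obtain ⟨b, hb⟩ := conj_uu k⁻¹ hk0' a
    refine ⟨b, ?_⟩
    rw [← hb, hk]; group
  · rintro ⟨a, rfl⟩
    obtain ⟨b, hb⟩ := conj_uu k hk0 a
    refine ⟨b, ?_⟩
    rw [← hb, hk]; group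

end Cfsg.Agent.S0259
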