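import Cfsg.Statements.S0264
import Cfsg.Agent.Lib.Helper1_SL

set_option autoImplicit false
open Cfsg

namespace Cfsg.Agent.S0264

open Matrix Matrix.SpecialLinearGroup
open scoped commutatorElement

theorem transvection_mem_two {F : Type*} [Field F] {a : F} (ha0 : a ≠ 0) (ha1 : a ≠ 1)
    {i j : Fin 2} (hij : i ≠ j) (c : F) :
    toGL (transvection hij c) ∈ commutator (Matrix.GeneralLinearGroup (Fin 2) F) := by
  have ha : a - 1 ≠ 0 := sub_ne_zero.2 ha1
  have key : ∀ (d : Matrix.GeneralLinearGroup (Fin 2) F) (b : F),
      d * toGL (transvection hij b) = toGL (transvection hij c) * toGL (transvection hij b) * d →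
      toGL (transvection hij c) ∈ commutator (Matrix.GeneralLinearGroup (Fin 2) F) := by
    intro d b h
    have : ⁅d, toGL (transvection hij b)⁆ = toGL (transvection hij c) := by
      rw [commutatorElement_def, mul_inv_eq_iff_eq_mul, mul_inv_eq_iff_eq_mul]
      exact h
    rw [← this]
    exact Subgroup.commutator_mem_commutator (Subgroup.mem_top _) (Subgroup.mem_top _)
  fin_cases i
  · obtain rfl : j = 1 := by fin_cases j <;> tauto
    apply key (Matrix.GeneralLinearGroup.mkOfDetNeZero !![a, 0; 0, 1] (by simp [ha0])) (c / (a - 1))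
    apply Units.ext
    ext k l
    fin_cases k <;> fin_cases l <;>
      simp [Matrix.GeneralLinearGroup.mkOfDetNeZero, transvection_coe, Matrix.mul_apply,
        Fin.sum_univ_two, Matrix.single_apply] <;> field_simp <;> ring
  · obtain rfl : j = 0 := by fin_cases j <;> tauto
    apply key (Matrix.GeneralLinearGroup.mkOfDetNeZero !![1, 0; 0, a] (by simp [ha0])) (c / (a - 1))
    apply Units.ext
    ext k l
    fin_cases k <;> fin_cases l <;>
      simp [Matrix.GeneralLinearGroup.mkOfDetNeZero, transvection_coe, Matrix.mul_apply,
        Fin.sum_univ_two, Matrix.single_apply] <;> field_simp <;> ring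

/-- GL_n(F)' = SL_n(F) (as the kernel of det), for every field F and every n, except n = 2 over the field of two elements. -/
theorem result {F : Type*} [Field F] (n : ℕ) (h : n = 2 → ∃ a : F, a ≠ 0 ∧ a ≠ 1) : commutator (Matrix.GeneralLinearGroup (Fin n) F) = (Matrix.GeneralLinearGroup.det : Matrix.GeneralLinearGroup (Fin n) F →* Fˣ).ker := by
  apply le_antisymm
  · exact Abelianization.commutator_subset_ker _
  · intro g hg
    rw [MonoidHom.mem_ker] at hg
    have hdet : (g : Matrix (Fin n) (Fin n) F).det = 1 := by
      have := congrArg Units.val hg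
      simpa using this
    have hgA : g = toGL (⟨g, hdet⟩ : Matrix.SpecialLinearGroup (Fin n) F) := by
      apply Units.ext; rfl
    rw [hgA]
    obtain ⟨A, hA⟩ : ∃ A : Matrix.SpecialLinearGroup (Fin n) F, A = ⟨g, hdet⟩ := ⟨_, rfl⟩
    rw [← hA]
    clear hA hgA
    rcases lt_trichotomy n 2 with hn | hn | hn
    · have : Subsingleton (Fin n) := by
        rw [Fin.subsingleton_iff_le_one]; omega
      rw [Subsingleton.elim A 1, map_one]
      exact one_mem _
    · subst hn
      obtain ⟨a, ha0, ha1⟩ := h rfl
      refine Cfsg.Agent.Lib.Helper1_SL.transvection_induction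
        (fun A => toGL A ∈ commutator (Matrix.GeneralLinearGroup (Fin 2) F)) ?_ ?_ A
      · intro i j hij c
        exact transvection_mem_two ha0 ha1 hij c
      · intro A B hA hB
        show toGL (A * B) ∈ _
        rw [map_mul]
        exact mul_mem hA hB
    · have h1 : A ∈ commutator (Matrix.SpecialLinearGroup (Fin n) F) := by
        rw [Cfsg.Agent.Lib.Helper1_SL.commutator_eq_top (by simpa using Nat.succ_le_of_lt hn)]
        trivial
      have h2 : toGL A ∈ (commutator (Matrix.SpecialLinearGroup (Fin n) F)).map toGL :=
        ⟨A, h1, rfl⟩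
      rw [commutator_def, Subgroup.map_commutator] at h2
      exact Subgroup.commutator_mono le_top le_top h2

end Cfsg.Agent.S0264
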