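import Cfsg.Statements.S0268
import Mathlib

set_option autoImplicit false
open Cfsg

namespace Cfsg.Agent.S0268

/-- For q odd, -1 is the unique involution of SL_2(q). -/
theorem result {F : Type*} [Field F] [Fintype F] (hF : Odd (Fintype.card F)) (g : Matrix.SpecialLinearGroup (Fin 2) F) (h1 : g ≠ 1) (h2 : g * g = 1) : (g : Matrix (Fin 2) (Fin 2) F) = -1 := by
  have h2ne : (2 : F) ≠ 0 := by
    apply Ring.two_ne_zero
    intro hc
    have := FiniteField.even_card_iff_char_two.1 hc
    rw [Nat.odd_iff] at hF
    omega
  have hdet := g.2
  rw [Matrix.det_fin_two] at hdet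
  have hsq : (g : Matrix (Fin 2) (Fin 2) F) * (g : Matrix (Fin 2) (Fin 2) F) = 1 := by
    have := congrArg Subtype.val h2
    simpa using this
  have e00 := congrFun (congrFun hsq 0) 0
  have e01 := congrFun (congrFun hsq 0) 1
  have e10 := congrFun (congrFun hsq 1) 0
  have e11 := congrFun (congrFun hsq 1) 1
  simp [Matrix.mul_apply, Fin.sum_univ_two] at e00 e01 e10 e11
  set a := (g : Matrix (Fin 2) (Fin 2) F) 0 0 with ha
  set b := (g : Matrix (Fin 2) (Fin 2) F) 0 1 with hb
  set c := (g : Matrix (Fin 2) (Fin 2) F) 1 0 with hc
  set d := (g : Matrix (Fin 2) (Fin 2) F) 1 1 with hd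
  have had : a + d ≠ 0 := by
    intro h0
    apply h2ne
    have hd' : d = -a := by linear_combination h0
    rw [hd'] at hdet
    linear_combination (-1 : F) * e00 - hdet
  have hb0 : b = 0 := by
    have : b * (a + d) = 0 := by linear_combination e01
    rcases mul_eq_zero.1 this with h | h
    · exact h
    · exact absurd h had
  have hc0 : c = 0 := by
    have : c * (a + d) = 0 := by linear_combination e10
    rcases mul_eq_zero.1 this with h | h
    · exact h
    · exact absurd h had
  have ha2 : (a - 1) * (a + 1) = 0 := by
    rw [hb0] at e00
    linear_combination e00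
  have hda : d = a := by
    rw [hb0] at hdet e00
    have : a * (d - a) = 0 := by linear_combination hdet - e00
    rcases mul_eq_zero.1 this with h | h
    · rw [h] at e00; simp at e00
    · linear_combination h
  rcases mul_eq_zero.1 ha2 with h | h
  · exfalso
    apply h1
    apply Subtype.ext
    ext i j
    have ha1 : a = 1 := by linear_combination h
    fin_cases i <;> fin_cases j
    · simpa using ha1
    · simpa using hb0
    · simpa using hc0
    · simpa using hda.trans ha1
  · have ha1 : a = -1 := by linear_combination h
    ext i j
    fin_cases i <;> fin_cases j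
    · simpa using ha1
    · simpa using hb0
    · simpa using hc0
    · simpa using hda.trans ha1

end Cfsg.Agent.S0268
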