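import Cfsg.Statements.S0270
import Cfsg.Agent.S0768
import Cfsg.Agent.Lib.Helper5_SympPerf
import Cfsg.Agent.Lib.Helper5_SympCenter

set_option autoImplicit false
open Cfsg

namespace Cfsg.Agent.S0270

open Matrix Cfsg.Agent.Lib.Helper5_Symp Cfsg.Agent.Lib.Helper5_SympGen Cfsg.Agent.Lib.Helper5_SympTv
  Cfsg.Agent.Lib.Helper5_SympPrim Cfsg.Agent.Lib.Helper5_SympPerf Cfsg.Agent.Lib.Helper5_SympCenter
open scoped LinearAlgebra.Projectivization Pointwise

variable {F : Type*} [Field F] {m : ℕ}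

noncomputable instance act : MulAction (Matrix.symplecticGroup (Fin m) F) (ℙ F (Fin m ⊕ Fin m → F)) :=
  MulAction.compHom (ℙ F (Fin m ⊕ Fin m → F))
    (Cfsg.Agent.S0768.toGL : Matrix.symplecticGroup (Fin m) F →* _)

theorem smul_mk (t : Matrix.symplecticGroup (Fin m) F) (v : Fin m ⊕ Fin m → F) (hv : v ≠ 0) :
    t • Projectivization.mk F v hv = Projectivization.mk F
      ((t : Matrix (Fin m ⊕ Fin m) (Fin m ⊕ Fin m) F) *ᵥ v) (mulVec_ne_zero t hv) :=
  Projectivization.smul_mk (Cfsg.Agent.S0768.toGL t) hv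

instance prim : MulAction.IsPreprimitive (Matrix.symplecticGroup (Fin m) F)
    (ℙ F (Fin m ⊕ Fin m → F)) :=
  prim_of (fun t => ⟨t, fun v hv => smul_mk t v hv⟩)

/-- the root subgroup of transvections with a given centre -/
def tvHom (w : Fin m ⊕ Fin m → F) : Multiplicative F →* Matrix.symplecticGroup (Fin m) F where
  toFun c := tv w (Multiplicative.toAdd c)
  map_one' := tv_zero_right w
  map_mul' c d := (tv_mul w _ _).symm

def tvSub (w : Fin m ⊕ Fin m → F) : Subgroup (Matrix.symplecticGroup (Fin m) F) := (tvHom w).range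

theorem mem_tvSub (w : Fin m ⊕ Fin m → F) (g : Matrix.symplecticGroup (Fin m) F) :
    g ∈ tvSub w ↔ ∃ c : F, g = tv w c := by
  constructor
  · rintro ⟨c, rfl⟩
    exact ⟨Multiplicative.toAdd c, rfl⟩
  · rintro ⟨c, rfl⟩
    exact ⟨Multiplicative.ofAdd c, rfl⟩

theorem tvSub_smul (a : F) (ha : a ≠ 0) (w : Fin m ⊕ Fin m → F) : tvSub (a • w) = tvSub w := by
  ext g
  rw [mem_tvSub, mem_tvSub]
  constructor
  · rintro ⟨c, rfl⟩
    exact ⟨_, tv_smul a w c⟩
  · rintro ⟨c, rfl⟩
    refine ⟨c / a ^ 2, ?_⟩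
    rw [tv_smul]
    congr 1
    field_simp

theorem conj_tvSub (g : Matrix.symplecticGroup (Fin m) F) (w : Fin m ⊕ Fin m → F) :
    MulAut.conj g • tvSub w = tvSub ((g : Matrix (Fin m ⊕ Fin m) (Fin m ⊕ Fin m) F) *ᵥ w) := by
  ext x
  rw [Subgroup.mem_smul_pointwise_iff_exists, mem_tvSub]
  constructor
  · rintro ⟨s, hs, rfl⟩
    obtain ⟨c, rfl⟩ := (mem_tvSub w s).1 hs
    exact ⟨c, by rw [MulAut.smul_def, MulAut.conj_apply, conj_tv]⟩
  · rintro ⟨c, rfl⟩
    exact ⟨tv w c, (mem_tvSub w _).2 ⟨c, rfl⟩, by rw [MulAut.smul_def, MulAut.conj_apply, conj_tv]⟩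

theorem tvSub_rep (v : Fin m ⊕ Fin m → F) (hv : v ≠ 0) :
    tvSub (Projectivization.mk F v hv).rep = tvSub v := by
  have h1 : Projectivization.mk F (Projectivization.mk F v hv).rep
      (Projectivization.rep_nonzero _) = Projectivization.mk F v hv := Projectivization.mk_rep _
  rw [Projectivization.mk_eq_mk_iff'] at h1
  obtain ⟨a, ha⟩ := h1
  have ha0 : a ≠ 0 := by
    rintro rfl
    rw [zero_smul] at ha
    exact Projectivization.rep_nonzero _ ha.symm
  rw [← ha, tvSub_smul a ha0]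

noncomputable def iwa : MulAction.IwasawaStructure (Matrix.symplecticGroup (Fin m) F)
    (ℙ F (Fin m ⊕ Fin m → F)) where
  T P := tvSub P.rep
  is_comm P := by
    refine ⟨⟨?_⟩⟩
    rintro ⟨a, ha⟩ ⟨b, hb⟩
    obtain ⟨c, rfl⟩ := (mem_tvSub _ a).1 ha
    obtain ⟨d, rfl⟩ := (mem_tvSub _ b).1 hb
    apply Subtype.ext
    change tv _ c * tv _ d = tv _ d * tv _ c
    rw [tv_mul, tv_mul, add_comm]
  is_conj g P := by
    induction' P using Projectivization.ind with v hv
    rw [smul_mk, tvSub_rep, tvSub_rep, conj_tvSub]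
  is_generator := by
    rw [eq_top_iff, ← T_eq_top]
    unfold T
    rw [Subgroup.closure_le]
    rintro A ⟨w, c, hA⟩
    have hA' : A = tv w c := Subtype.ext hA
    by_cases hw : w = 0
    · rw [hA', hw, tv_zero_left]; exact Subgroup.one_mem _
    · apply Subgroup.mem_iSup_of_mem (Projectivization.mk F w hw)
      rw [tvSub_rep, mem_tvSub]
      exact ⟨c, hA'⟩

theorem normal_cases (hperf : commutator (Matrix.symplecticGroup (Fin m) F) = ⊤)
    (N : Subgroup (Matrix.symplecticGroup (Fin m) F)) [N.Normal] :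
    N ≤ Subgroup.center (Matrix.symplecticGroup (Fin m) F) ∨ N = ⊤ := by
  by_cases hfix : MulAction.fixedPoints N (ℙ F (Fin m ⊕ Fin m → F)) = Set.univ
  · left
    intro g hg
    obtain ⟨a, ha⟩ := scalar_of_fix_points g (by
      intro v
      by_cases hv : v = 0
      · exact ⟨0, by rw [hv, Matrix.mulVec_zero, smul_zero]⟩
      have h1 : Projectivization.mk F v hv ∈ MulAction.fixedPoints N (ℙ F (Fin m ⊕ Fin m → F)) := by
        rw [hfix]; exact Set.mem_univ _
      have h2 : g • Projectivization.mk F v hv = Projectivization.mk F v hv := h1 ⟨g, hg⟩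
      rw [smul_mk, Projectivization.mk_eq_mk_iff'] at h2
      obtain ⟨a, ha⟩ := h2
      exact ⟨a, ha.symm⟩)
    exact central_of_scalar g a ha
  · right
    have := iwa.commutator_le N hfix
    rw [hperf] at this
    exact top_le_iff.1 this

theorem result {F : Type*} [Field F] [Fintype F] (m : ℕ) (hm : 2 ≤ m) (h : m = 2 → 3 ≤ Fintype.card F) : IsSimpleGroup (Cfsg.PSp m F) := by
  have hperf : commutator (Matrix.symplecticGroup (Fin m) F) = ⊤ := by
    apply perfect
    by_cases h2 : m = 2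
    · exact Or.inr (Or.inl ⟨h2, h h2⟩)
    · exact Or.inl (by omega)
  have hZ : Subgroup.center (Matrix.symplecticGroup (Fin m) F) ≠ ⊤ := by
    intro hZ
    rw [← commutator_eq_bot_iff_center_eq_top, hperf] at hZ
    have hw0 : (Pi.single (Sum.inl ⟨0, by omega⟩) 1 : Fin m ⊕ Fin m → F) ≠ 0 := by
      intro h
      have := congrFun h (Sum.inl ⟨0, by omega⟩)
      rw [Pi.single_eq_same] at this
      exact one_ne_zero this
    apply tv_ne_one _ (1 : F) hw0 one_ne_zero
    have : tv (Pi.single (Sum.inl ⟨0, by omega⟩) 1 : Fin m ⊕ Fin m → F) (1 : F) ∈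
      (⊤ : Subgroup (Matrix.symplecticGroup (Fin m) F)) := Subgroup.mem_top _
    rw [hZ] at this
    exact Subgroup.mem_bot.1 this
  have hnt : Nontrivial (Cfsg.PSp m F) := by
    rw [QuotientGroup.nontrivial_iff]
    exact hZ
  refine { hnt with eq_bot_or_eq_top_of_normal := ?_ }
  intro H hH
  have hsurj : Function.Surjective (QuotientGroup.mk' (Subgroup.center (Matrix.symplecticGroup (Fin m) F))) :=
    QuotientGroup.mk'_surjective _
  have hN : (H.comap (QuotientGroup.mk' (Subgroup.center (Matrix.symplecticGroup (Fin m) F)))).Normal :=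
    hH.comap _
  rcases normal_cases hperf (H.comap (QuotientGroup.mk' (Subgroup.center (Matrix.symplecticGroup (Fin m) F)))) with h1 | h1
  · left
    rw [← Subgroup.map_comap_eq_self_of_surjective hsurj H, eq_bot_iff]
    refine le_trans (Subgroup.map_mono h1) ?_
    rw [Subgroup.map_le_iff_le_comap]
    intro x hx
    rw [Subgroup.mem_comap, Subgroup.mem_bot]
    exact (QuotientGroup.eq_one_iff x).2 hx
  · right
    rw [← Subgroup.map_comap_eq_self_of_surjective hsurj H, h1]
    exact Subgroup.map_top_of_surjective _ hsurj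

end Cfsg.Agent.S0270
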