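import Cfsg.Statements.S0273
import Cfsg.Agent.Lib.Helper5_GL2Sylow

set_option autoImplicit false

open Cfsg

namespace Cfsg.Agent.S0273

open Cfsg.Agent.Lib.Helper5_GL2Sylow Cfsg.Agent.Lib.Helper5_GL2Class Cfsg.Agent.Lib.Helper5_GL2Char
  Cfsg.Agent.Lib.Helper5_Card

theorem result {F : Type*} [Field F] [Fintype F] {q : ℕ} (hF : Fintype.card F = q) (p : ℕ) [Fact p.Prime] [CharP F p] (P : Sylow p (Matrix.GeneralLinearGroup (Fin 2) F)) (a : Matrix.GeneralLinearGroup (Fin 2) F) (ha : a ∈ P) (ha1 : a ≠ 1) : Nat.card (Subgroup.centralizer ({a} : Set (Matrix.GeneralLinearGroup (Fin 2) F))) = q * (q - 1) := by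
  subst hF
  obtain ⟨g, hg⟩ := exists_conj p P
  obtain ⟨t, ht⟩ := (hg a).1 ha
  have ht0 : t ≠ 0 := by
    rintro rfl
    apply ha1
    rw [ht, uu_zero]; group
  have hc : IsConj (uu (1 : F)) a := by
    refine (isConj_uu t ht0).trans ?_
    rw [isConj_iff]
    exact ⟨g, ht.symm⟩
  have h1 := card_class_mul_card_centralizer a
  have h2 := card_class_mul_card_centralizer (uu (1 : F))
  rw [ConjClasses.mk_eq_mk_iff_isConj.2 hc, ← h1] at h2
  have hpos : 0 < Nat.card (ConjClasses.mk a).carrier :=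
    Nat.card_pos_iff.2 ⟨⟨⟨a, ConjClasses.mem_carrier_mk⟩⟩, inferInstance⟩
  have h3 := Nat.eq_of_mul_eq_mul_left hpos h2
  rw [← h3, card_centralizer_uu, mul_comm]

end Cfsg.Agent.S0273
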