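import Cfsg.Statements.S0284
import Cfsg.Agent.Lib.Helper5_UCount

set_option autoImplicit false

open Cfsg

namespace Cfsg.Agent.S0284

open Cfsg.Agent.Lib.Helper5_UField Cfsg.Agent.Lib.Helper5_UForm Cfsg.Agent.Lib.Helper5_UCount

theorem result {F : Type*} [Field F] [Fintype F] {q : ℕ} (hF : Fintype.card F = q ^ 2) (n : ℕ) : Nat.card {v : Fin n → F // Cfsg.hermForm n F q v v = 1} = (if Even n then q ^ (n - 1) * (q ^ n - 1) else q ^ (n - 1) * (q ^ n + 1)) := by
  have h2 := two_le hF
  have key := A1_int hF n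
  change A F q n 1 = _
  have hq0 : (q : ℤ) ≠ 0 := by
    have : (2 : ℤ) ≤ q := by exact_mod_cast h2
    intro h; omega
  apply Nat.cast_injective (R := ℤ)
  apply mul_left_cancel₀ hq0
  rw [key]
  have h1 : 1 ≤ q ^ n := Nat.one_le_pow _ _ (by omega)
  split_ifs with he
  · rw [he.neg_pow]
    cases n with
    | zero => simp
    | succ k =>
      push_cast [Nat.cast_sub h1]
      ring
  · rw [Nat.not_even_iff_odd] at he
    rw [he.neg_pow]
    cases n with
    | zero => simp at he
    | succ k =>
      push_cast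
      ring

end Cfsg.Agent.S0284
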