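import Cfsg.Statements.S0277
import Cfsg.Agent.S0284
import Cfsg.Agent.Lib.Helper5_UGroup

set_option autoImplicit false

open Cfsg

namespace Cfsg.Agent.S0277

open Matrix Cfsg.Agent.Lib.Helper5_UField Cfsg.Agent.Lib.Helper5_UForm Cfsg.Agent.Lib.Helper5_UCount
  Cfsg.Agent.Lib.Helper5_UGroup

variable {F : Type*} [Field F] [Fintype F] {q n : ℕ}

/-- the action on unit vectors -/
instance act : MulAction ↥(GU n F q) {v : Fin n → F // hermForm n F q v v = 1} where
  smul g v := ⟨g.1.1 *ᵥ v.1, (g.2 v.1 v.1).trans v.2⟩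
  one_smul v := Subtype.ext (by
    change (1 : Matrix (Fin n) (Fin n) F) *ᵥ v.1 = v.1
    rw [one_mulVec])
  mul_smul g h v := Subtype.ext (by
    change (g.1.1 * h.1.1) *ᵥ v.1 = g.1.1 *ᵥ (h.1.1 *ᵥ v.1)
    rw [mulVec_mulVec])

theorem smul_val (g : ↥(GU n F q)) (v : {v : Fin n → F // hermForm n F q v v = 1}) :
    (g • v).1 = g.1.1 *ᵥ v.1 := rfl

theorem trans (hF : Fintype.card F = q ^ 2) :
    MulAction.IsPretransitive ↥(GU n F q) {v : Fin n → F // hermForm n F q v v = 1} := by
  constructor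
  intro u v
  obtain ⟨M, hM, hMu⟩ := exists_move_unit hF u.1 v.1 u.2 v.2
  exact ⟨mkGU hF M hM, Subtype.ext hMu⟩

/-- the block matrix `diag(1, A)` -/
def blk (A : Matrix (Fin n) (Fin n) F) : Matrix (Fin (n + 1)) (Fin (n + 1)) F :=
  Matrix.of fun i j => Fin.cases (Fin.cases 1 (fun _ => 0) j) (fun i' => Fin.cases 0 (fun j' => A i' j') j) i

theorem blk_mulVec (A : Matrix (Fin n) (Fin n) F) (x : F) (w : Fin n → F) :
    blk A *ᵥ (Fin.cons x w : Fin (n + 1) → F) = Fin.cons x (A *ᵥ w) := by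
  funext i
  refine Fin.cases ?_ (fun i' => ?_) i
  · simp [mulVec, dotProduct, Fin.sum_univ_succ, blk]
  · simp [mulVec, dotProduct, Fin.sum_univ_succ, blk]

theorem herm_cons2 (x x' : F) (w w' : Fin n → F) :
    hermForm (n + 1) F q (Fin.cons x w : Fin (n + 1) → F) (Fin.cons x' w' : Fin (n + 1) → F) =
      x * x' ^ q + hermForm n F q w w' := by
  rw [hermForm, Fin.sum_univ_succ]
  simp only [Fin.cons_zero, Fin.cons_succ]
  rfl

theorem blk_pres (A : Matrix (Fin n) (Fin n) F) (hA : Pres F q n A) : Pres F q (n + 1) (blk A) := by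
  intro x y
  rw [← Fin.cons_self_tail x, ← Fin.cons_self_tail y, blk_mulVec, blk_mulVec, herm_cons2, herm_cons2, hA]

theorem e0_eq : (Pi.single 0 1 : Fin (n + 1) → F) = Fin.cons 1 0 := by
  funext i
  refine Fin.cases ?_ (fun i' => ?_) i
  · simp
  · simp [Pi.single_apply, Fin.succ_ne_zero]

theorem eq_blk (hF : Fintype.card F = q ^ 2) (M : Matrix (Fin (n + 1)) (Fin (n + 1)) F)
    (hM : Pres F q (n + 1) M) (h0 : M *ᵥ Pi.single 0 1 = Pi.single 0 1) :
    M = blk (M.submatrix Fin.succ Fin.succ) := by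
  have hcol : ∀ i, M i 0 = (Pi.single 0 1 : Fin (n + 1) → F) i := by
    intro i
    rw [← h0, mulVec_single_one]
    rfl
  have hrow : ∀ j, M 0 j = (Pi.single 0 1 : Fin (n + 1) → F) j := by
    intro j
    have h1 := hM (Pi.single j 1) (Pi.single 0 1)
    rw [h0, single_right hF, single_right hF, mulVec_single_one] at h1
    rw [Pi.single_apply] at h1 ⊢
    simp only [eq_comm] at h1
    exact h1.symm
  ext i j
  refine Fin.cases ?_ (fun i' => ?_) i
  · rw [hrow]
    refine Fin.cases ?_ (fun j' => ?_) j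
    · simp [blk]
    · simp [blk, Pi.single_apply, Fin.succ_ne_zero]
  · refine Fin.cases ?_ (fun j' => ?_) j
    · rw [hcol]
      simp [blk, Pi.single_apply, Fin.succ_ne_zero]
    · simp [blk]

theorem sub_pres (hF : Fintype.card F = q ^ 2) (M : Matrix (Fin (n + 1)) (Fin (n + 1)) F)
    (hM : Pres F q (n + 1) M) (h0 : M *ᵥ Pi.single 0 1 = Pi.single 0 1) :
    Pres F q n (M.submatrix Fin.succ Fin.succ) := by
  intro x y
  have h1 := hM (Fin.cons 0 x) (Fin.cons 0 y)
  rw [eq_blk hF M hM h0, blk_mulVec, blk_mulVec, herm_cons2, herm_cons2] at h1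
  exact add_left_cancel h1

theorem blk_sub (A : Matrix (Fin n) (Fin n) F) : (blk A).submatrix Fin.succ Fin.succ = A := by
  ext i j
  simp [blk]

def e0 (hF : Fintype.card F = q ^ 2) : {v : Fin (n + 1) → F // hermForm (n + 1) F q v v = 1} :=
  ⟨Pi.single 0 1, by rw [single_right hF, Pi.single_eq_same]⟩

noncomputable def stabEquiv (hF : Fintype.card F = q ^ 2) :
    ↥(MulAction.stabilizer ↥(GU (n + 1) F q) (e0 (n := n) hF)) ≃ ↥(GU n F q) where
  toFun g := mkGU hF (g.1.1.1.submatrix Fin.succ Fin.succ) (sub_pres hF _ g.1.2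
    (congrArg Subtype.val (MulAction.mem_stabilizer_iff.1 g.2)))
  invFun A := ⟨mkGU hF (blk A.1.1) (blk_pres _ A.2), by
    rw [MulAction.mem_stabilizer_iff]
    apply Subtype.ext
    change blk A.1.1 *ᵥ Pi.single 0 1 = Pi.single 0 1
    rw [e0_eq, blk_mulVec, mulVec_zero]⟩
  left_inv g := by
    apply Subtype.ext
    apply Subtype.ext
    apply Units.ext
    exact (eq_blk hF _ g.1.2 (congrArg Subtype.val (MulAction.mem_stabilizer_iff.1 g.2))).symm
  right_inv A := by
    apply Subtype.ext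
    apply Units.ext
    exact blk_sub A.1.1

theorem card_succ (hF : Fintype.card F = q ^ 2) (n : ℕ) :
    Nat.card ↥(GU (n + 1) F q) = A F q (n + 1) 1 * Nat.card ↥(GU n F q) := by
  have := trans (n := n + 1) hF
  rw [← Subgroup.index_mul_card (MulAction.stabilizer ↥(GU (n + 1) F q) (e0 (n := n) hF)),
    MulAction.index_stabilizer_of_transitive, Nat.card_congr (stabEquiv hF)]
  rfl

theorem result {F : Type*} [Field F] [Fintype F] {q : ℕ} (hF : Fintype.card F = q ^ 2) (n : ℕ) : Nat.card (Cfsg.GU n F q) = q ^ (n * (n - 1) / 2) * ∏ i ∈ Finset.range n, (if Even i then q ^ (i + 1) + 1 else q ^ (i + 1) - 1) := by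
  induction n with
  | zero =>
    have : Subsingleton (Matrix.GeneralLinearGroup (Fin 0) F) :=
      ⟨fun a b => Units.ext (Subsingleton.elim _ _)⟩
    simp
  | succ n ih =>
    rw [card_succ hF, ih, Finset.prod_range_succ, Nat.triangle_succ, pow_add]
    have h1 : A F q (n + 1) 1 = _ := Cfsg.Agent.S0284.result hF (n + 1)
    rw [h1, Nat.add_sub_cancel]
    by_cases he : Even n
    · rw [if_neg (by rw [Nat.even_add_one]; exact not_not.2 he), if_pos he]
      ring
    · rw [if_pos (by rw [Nat.even_add_one]; exact he), if_neg he]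
      ring

end Cfsg.Agent.S0277
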