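import Cfsg.Statements.S0289
import Cfsg.Agent.Lib.Helper1_Quadric

set_option autoImplicit false
open Cfsg

namespace Cfsg.Agent.S0289

open Cfsg.Agent.Lib.Helper1_Quadric

/-- The hyperbolic quadratic form on F^(2m), m at least 1, has q^(2m-1) + q^m - q^(m-1) zeros (that is, (q^m - 1)(q^(m-1) + 1) non-zero isotropic vectors). -/
theorem result {F : Type*} [Field F] [Fintype F] {q : ℕ} (hF : Fintype.card F = q) (m : ℕ) (hm : 1 ≤ m) : Nat.card {v : Fin m ⊕ Fin m → F // Cfsg.quadFormPlus m F v = 0} = q ^ (2 * m - 1) + q ^ m - q ^ (m - 1) := by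
  classical
  subst hF
  let e : (Fin m ⊕ Fin m → F) ≃ Unit × (Fin m → F) × (Fin m → F) :=
    (Equiv.sumArrowEquivProdArrow _ _ _).trans (Equiv.punitProd _).symm
  have h1 : Nat.card {v : Fin m ⊕ Fin m → F // Cfsg.quadFormPlus m F v = 0} =
      Nat.card {p : Unit × (Fin m → F) × (Fin m → F) //
        ∑ i, p.2.1 i * p.2.2 i + (fun _ : Unit => (0 : F)) p.1 = 0} := by
    apply Nat.card_congr
    apply Equiv.subtypeEquiv e
    intro v
    simp [e, Cfsg.quadFormPlus, Equiv.sumArrowEquivProdArrow]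
  rw [h1, card_quadric m (fun _ : Unit => (0 : F))]
  simp only [Fintype.card_unit, one_mul, Finset.filter_true, Finset.card_univ]
  obtain ⟨k, rfl⟩ : ∃ k, m = k + 1 := ⟨m - 1, by omega⟩
  have hq : 1 ≤ Fintype.card F := Fintype.card_pos
  have e1 : 2 * (k + 1) - 1 = (k + 1) + k := by omega
  rw [e1, Nat.add_sub_cancel, Nat.sub_mul, one_mul, ← pow_add]
  have h2 : Fintype.card F ^ k ≤ Fintype.card F ^ (k + 1 + k) := Nat.pow_le_pow_right hq (by omega)
  omega

end Cfsg.Agent.S0289
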