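import Cfsg.Statements.S0290
import Cfsg.Agent.Lib.Helper1_Quadric

set_option autoImplicit false
open Cfsg

namespace Cfsg.Agent.S0290

open Cfsg.Agent.Lib.Helper1_Quadric

/-- The minus-type quadratic form on F^(2m), m at least 1, has q^(2m-1) + q^(m-1) - q^m zeros (that is, (q^m + 1)(q^(m-1) - 1) non-zero isotropic vectors). -/
theorem result {F : Type*} [Field F] [Fintype F] {q : ℕ} (hF : Fintype.card F = q) (m : ℕ) (hm : 1 ≤ m) (a b : F) (hab : ∀ z₁ z₂ : F, z₁ ^ 2 + a * z₁ * z₂ + b * z₂ ^ 2 = 0 → z₁ = 0 ∧ z₂ = 0) : Nat.card {v : (Fin (m - 1) ⊕ Fin (m - 1)) ⊕ Fin 2 → F // Cfsg.quadFormMinus (m - 1) F a b v = 0} = q ^ (2 * m - 1) + q ^ (m - 1) - q ^ m := by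
  classical
  subst hF
  obtain ⟨k, rfl⟩ : ∃ k, m = k + 1 := ⟨m - 1, by omega⟩
  rw [Nat.add_sub_cancel]
  let e : ((Fin k ⊕ Fin k) ⊕ Fin 2 → F) ≃ (Fin 2 → F) × (Fin k → F) × (Fin k → F) :=
    ((Equiv.sumArrowEquivProdArrow _ _ _).trans (Equiv.prodComm _ _)).trans
      (Equiv.prodCongr (Equiv.refl _) (Equiv.sumArrowEquivProdArrow _ _ _))
  have h1 : Nat.card {v : (Fin k ⊕ Fin k) ⊕ Fin 2 → F // Cfsg.quadFormMinus k F a b v = 0} =
      Nat.card {p : (Fin 2 → F) × (Fin k → F) × (Fin k → F) //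
        ∑ i, p.2.1 i * p.2.2 i + (fun z : Fin 2 → F => z 0 ^ 2 + a * z 0 * z 1 + b * z 1 ^ 2) p.1 = 0} := by
    apply Nat.card_congr
    apply Equiv.subtypeEquiv e
    intro v
    simp [e, Cfsg.quadFormMinus, Equiv.sumArrowEquivProdArrow]
  rw [h1, card_quadric k (fun z : Fin 2 → F => z 0 ^ 2 + a * z 0 * z 1 + b * z 1 ^ 2)]
  have h2 : (Finset.univ.filter
      (fun z : Fin 2 → F => z 0 ^ 2 + a * z 0 * z 1 + b * z 1 ^ 2 = 0)).card = 1 := by
    have : Finset.univ.filter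
        (fun z : Fin 2 → F => z 0 ^ 2 + a * z 0 * z 1 + b * z 1 ^ 2 = 0) = {0} := by
      ext z
      simp only [Finset.mem_filter, Finset.mem_univ, true_and, Finset.mem_singleton]
      constructor
      · intro h
        obtain ⟨h0, h1⟩ := hab _ _ h
        ext i
        fin_cases i
        · exact h0
        · exact h1
      · rintro rfl; simp
    rw [this]; simp
  rw [h2, one_mul, Fintype.card_fun, Fintype.card_fin]
  have hq : 1 ≤ Fintype.card F := Fintype.card_pos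
  rcases Nat.eq_zero_or_pos k with rfl | hk
  · simp
  · obtain ⟨j, rfl⟩ : ∃ j, k = j + 1 := ⟨k - 1, by omega⟩
    rw [Nat.add_sub_cancel, Nat.sub_mul, one_mul, Nat.mul_sub, ← pow_add, ← pow_add, ← pow_add]
    have e1 : 2 * (j + 1 + 1) - 1 = 2 + (j + 1 + j) := by omega
    have e2 : j + 1 + 1 = 2 + j := by omega
    rw [e1, e2]
    have h3 : Fintype.card F ^ (2 + j) ≤ Fintype.card F ^ (2 + (j + 1 + j)) :=
      Nat.pow_le_pow_right hq (by omega)
    omega

end Cfsg.Agent.S0290
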