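import Cfsg.Statements.S0291
import Cfsg.Agent.Lib.Helper1_Quadric

set_option autoImplicit false
open Cfsg

namespace Cfsg.Agent.S0291

open Cfsg.Agent.Lib.Helper1_Quadric

/-- For q odd, the form x_0^2 + sum_{i<m} x_i y_i on F^(2m+1) has exactly q^(2m) zeros. -/
theorem result {F : Type*} [Field F] [Fintype F] {q : ℕ} (hF : Fintype.card F = q) (hodd : Odd q) (m : ℕ) : Nat.card {v : Unit ⊕ (Fin m ⊕ Fin m) → F // Cfsg.quadFormOdd m F v = 0} = q ^ (2 * m) := by
  classical
  subst hF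
  let e : (Unit ⊕ (Fin m ⊕ Fin m) → F) ≃ F × (Fin m → F) × (Fin m → F) :=
    (Equiv.sumArrowEquivProdArrow _ _ _).trans
      (Equiv.prodCongr (Equiv.funUnique Unit F) (Equiv.sumArrowEquivProdArrow _ _ _))
  have h1 : Nat.card {v : Unit ⊕ (Fin m ⊕ Fin m) → F // Cfsg.quadFormOdd m F v = 0} =
      Nat.card {p : F × (Fin m → F) × (Fin m → F) //
        ∑ i, p.2.1 i * p.2.2 i + (fun a : F => a ^ 2) p.1 = 0} := by
    apply Nat.card_congr
    apply Equiv.subtypeEquiv e
    intro v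
    simp [e, Cfsg.quadFormOdd, Equiv.sumArrowEquivProdArrow, add_comm]
  rw [h1, card_quadric m (fun a : F => a ^ 2)]
  have h2 : (Finset.univ.filter (fun a : F => a ^ 2 = 0)).card = 1 := by
    have : Finset.univ.filter (fun a : F => a ^ 2 = 0) = {0} := by
      ext a; simp
    rw [this]; simp
  rw [h2, one_mul]
  have hq : 1 ≤ Fintype.card F := Fintype.card_pos
  rcases Nat.eq_zero_or_pos m with rfl | hm
  · simp
  · obtain ⟨k, rfl⟩ : ∃ k, m = k + 1 := ⟨m - 1, by omega⟩
    rw [Nat.add_sub_cancel, Nat.sub_mul, one_mul, Nat.mul_sub, ← pow_add, ← pow_succ', ← pow_succ']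
    have e1 : 2 * (k + 1) = k + 1 + k + 1 := by omega
    rw [e1]
    have h3 : Fintype.card F ^ (k + 1) ≤ Fintype.card F ^ (k + 1 + k + 1) :=
      Nat.pow_le_pow_right hq (by omega)
    omega

end Cfsg.Agent.S0291
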