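import Cfsg.Statements.S0305

set_option autoImplicit false

open Cfsg

namespace Cfsg.Agent.S0305

open Matrix

variable {F : Type*} [Field F]

/-- a general two by two matrix -/
def gen (p s r t : F) : Matrix (Fin 1 ⊕ Fin 1) (Fin 1 ⊕ Fin 1) F :=
  Matrix.of fun i j => match i, j with
    | Sum.inl _, Sum.inl _ => p
    | Sum.inl _, Sum.inr _ => s
    | Sum.inr _, Sum.inl _ => r
    | Sum.inr _, Sum.inr _ => t

theorem gen_mul (p s r t p' s' r' t' : F) : gen p s r t * gen p' s' r' t'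
    = gen (p * p' + s * r') (p * s' + s * t') (r * p' + t * r') (r * s' + t * t') := by
  ext i j
  rcases i with i | i <;> rcases j with j | j <;>
    simp [gen, Matrix.mul_apply, Fintype.sum_sum_type]

theorem gen_one : gen (1 : F) 0 0 1 = 1 := by
  ext i j
  rcases i with i | i <;> rcases j with j | j <;>
    simp [gen, Matrix.one_apply, Subsingleton.elim i j]

theorem eq_gen (M : Matrix (Fin 1 ⊕ Fin 1) (Fin 1 ⊕ Fin 1) F) :
    M = gen (M (Sum.inl 0) (Sum.inl 0)) (M (Sum.inl 0) (Sum.inr 0)) (M (Sum.inr 0) (Sum.inl 0))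
      (M (Sum.inr 0) (Sum.inr 0)) := by
  ext i j
  rcases i with i | i <;> rcases j with j | j <;>
    (rw [Subsingleton.elim i 0, Subsingleton.elim j 0]; rfl)

theorem Q_gen (p s r t : F) (v : Fin 1 ⊕ Fin 1 → F) :
    quadFormPlus 1 F (gen p s r t *ᵥ v) = (p * v (Sum.inl 0) + s * v (Sum.inr 0)) *
      (r * v (Sum.inl 0) + t * v (Sum.inr 0)) := by
  simp [quadFormPlus, gen, Matrix.mulVec, dotProduct, Fintype.sum_sum_type]

theorem Q_apply (v : Fin 1 ⊕ Fin 1 → F) :
    quadFormPlus 1 F v = v (Sum.inl 0) * v (Sum.inr 0) := by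
  simp [quadFormPlus]

/-- diagonal elements -/
def Du (a : Fˣ) : Matrix.GeneralLinearGroup (Fin 1 ⊕ Fin 1) F :=
  ⟨gen a 0 0 ((a⁻¹ : Fˣ) : F), gen ((a⁻¹ : Fˣ) : F) 0 0 a,
    by rw [gen_mul, ← gen_one]; simp, by rw [gen_mul, ← gen_one]; simp⟩

/-- antidiagonal elements -/
def Au (b : Fˣ) : Matrix.GeneralLinearGroup (Fin 1 ⊕ Fin 1) F :=
  ⟨gen 0 ((b⁻¹ : Fˣ) : F) b 0, gen 0 ((b⁻¹ : Fˣ) : F) b 0,
    by rw [gen_mul, ← gen_one]; simp, by rw [gen_mul, ← gen_one]; simp⟩

theorem Du_val (a : Fˣ) : ((Du a : Matrix.GeneralLinearGroup (Fin 1 ⊕ Fin 1) F) :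
    Matrix (Fin 1 ⊕ Fin 1) (Fin 1 ⊕ Fin 1) F) = gen (a : F) 0 0 ((a⁻¹ : Fˣ) : F) := rfl

theorem Au_val (b : Fˣ) : ((Au b : Matrix.GeneralLinearGroup (Fin 1 ⊕ Fin 1) F) :
    Matrix (Fin 1 ⊕ Fin 1) (Fin 1 ⊕ Fin 1) F) = gen 0 ((b⁻¹ : Fˣ) : F) (b : F) 0 := rfl

theorem DD (a b : Fˣ) : Du a * Du b = Du (a * b) := by
  apply Units.ext
  rw [Units.val_mul, Du_val, Du_val, Du_val, gen_mul]
  simp [mul_comm]

theorem DA (a b : Fˣ) : Du a * Au b = Au (b * a⁻¹) := by
  apply Units.ext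
  rw [Units.val_mul, Du_val, Au_val, Au_val, gen_mul]
  simp [mul_comm]

theorem AD (b a : Fˣ) : Au b * Du a = Au (b * a) := by
  apply Units.ext
  rw [Units.val_mul, Du_val, Au_val, Au_val, gen_mul]
  simp [mul_comm]

theorem AA (b c : Fˣ) : Au b * Au c = Du (c * b⁻¹) := by
  apply Units.ext
  rw [Units.val_mul, Du_val, Au_val, Au_val, gen_mul]
  simp [mul_comm]

theorem Du_mem (a : Fˣ) : Du a ∈ Cfsg.isometryGroup F (Cfsg.quadFormPlus 1 F) := by
  intro u _
  show quadFormPlus 1 F (gen (a : F) 0 0 ((a⁻¹ : Fˣ) : F) *ᵥ u) = quadFormPlus 1 F u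
  rw [Q_gen, Q_apply]
  have : (a : F) * ((a⁻¹ : Fˣ) : F) = 1 := by simp
  linear_combination (u (Sum.inl 0) * u (Sum.inr 0)) * this

theorem Au_mem (b : Fˣ) : Au b ∈ Cfsg.isometryGroup F (Cfsg.quadFormPlus 1 F) := by
  intro u _
  show quadFormPlus 1 F (gen 0 ((b⁻¹ : Fˣ) : F) (b : F) 0 *ᵥ u) = quadFormPlus 1 F u
  rw [Q_gen, Q_apply]
  have : (b : F) * ((b⁻¹ : Fˣ) : F) = 1 := by simp
  linear_combination (u (Sum.inl 0) * u (Sum.inr 0)) * this

theorem classify (g : Matrix.GeneralLinearGroup (Fin 1 ⊕ Fin 1) F)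
    (hg : g ∈ Cfsg.isometryGroup F (Cfsg.quadFormPlus 1 F)) :
    (∃ a, g = Du a) ∨ (∃ b, g = Au b) := by
  obtain ⟨p, s, r, t, hM⟩ : ∃ p s r t, (g : Matrix (Fin 1 ⊕ Fin 1) (Fin 1 ⊕ Fin 1) F)
      = gen p s r t := ⟨_, _, _, _, eq_gen _⟩
  have key : ∀ x y : F, (p * x + s * y) * (r * x + t * y) = x * y := by
    intro x y
    have h := hg (Sum.elim (fun _ => x) (fun _ => y)) 0
    have h' : quadFormPlus 1 F ((g : Matrix (Fin 1 ⊕ Fin 1) (Fin 1 ⊕ Fin 1) F) *ᵥ
        (Sum.elim (fun _ => x) (fun _ => y))) = quadFormPlus 1 F (Sum.elim (fun _ => x)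
        (fun _ => y)) := h
    rw [hM, Q_gen, Q_apply] at h'
    exact h'
  have h10 : p * r = 0 := by have := key 1 0; simpa using this
  have h01 : s * t = 0 := by have := key 0 1; simpa using this
  have h11 : p * t + s * r = 1 := by
    have := key 1 1
    linear_combination this - h10 - h01
  by_cases hp : p = 0
  · right
    rw [hp, zero_mul, zero_add] at h11
    have hs : s ≠ 0 := fun h => by rw [h, zero_mul] at h11; exact zero_ne_one h11
    have hr : r ≠ 0 := fun h => by rw [h, mul_zero] at h11; exact zero_ne_one h11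
    have ht : t = 0 := (mul_eq_zero.1 h01).resolve_left hs
    refine ⟨Units.mk0 r hr, ?_⟩
    apply Units.ext
    rw [hM, Au_val, hp, ht, Units.val_inv_eq_inv_val, Units.val_mk0,
      eq_inv_of_mul_eq_one_left h11]
  · left
    have hr : r = 0 := (mul_eq_zero.1 h10).resolve_left hp
    rw [hr, mul_zero, add_zero] at h11
    have ht : t ≠ 0 := fun h => by rw [h, mul_zero] at h11; exact zero_ne_one h11
    have hs : s = 0 := (mul_eq_zero.1 h01).resolve_right ht
    refine ⟨Units.mk0 p hp, ?_⟩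
    apply Units.ext
    rw [hM, Du_val, hr, hs, Units.val_inv_eq_inv_val, Units.val_mk0,
      eq_inv_of_mul_eq_one_right h11]

theorem result {F : Type*} [Field F] [Fintype F] {q : ℕ} (hF : Fintype.card F = q) : Nonempty (Cfsg.isometryGroup F (Cfsg.quadFormPlus 1 F) ≃* DihedralGroup (q - 1)) := by
  classical
  obtain ⟨θ⟩ : Nonempty (Multiplicative (ZMod (q - 1)) ≃* Fˣ) := by
    have h : Nat.card Fˣ = q - 1 := by
      rw [Nat.card_eq_fintype_card, Fintype.card_units, hF]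
    rw [← h]
    exact ⟨zmodCyclicMulEquiv inferInstance⟩
  let th : ZMod (q - 1) → Fˣ := fun i => θ (Multiplicative.ofAdd i)
  have th_add : ∀ i j, th (i + j) = th i * th j := fun i j => by
    show θ (Multiplicative.ofAdd (i + j)) = _
    rw [ofAdd_add, map_mul]
  have th_sub : ∀ i j, th (j - i) = th j * (th i)⁻¹ := fun i j => by
    show θ (Multiplicative.ofAdd (j - i)) = _
    rw [ofAdd_sub, map_div, div_eq_mul_inv]
  have th_inj : Function.Injective th := fun i j h =>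
    Multiplicative.ofAdd.injective (θ.injective h)
  have th_surj : Function.Surjective th := fun a =>
    ⟨Multiplicative.toAdd (θ.symm a), by
      show θ (Multiplicative.ofAdd (Multiplicative.toAdd (θ.symm a))) = a
      rw [ofAdd_toAdd, MulEquiv.apply_symm_apply]⟩
  let Φ : DihedralGroup (q - 1) → Cfsg.isometryGroup F (Cfsg.quadFormPlus 1 F) := fun x =>
    match x with
    | DihedralGroup.r i => ⟨Du (th i), Du_mem _⟩
    | DihedralGroup.sr i => ⟨Au (th i), Au_mem _⟩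
  have hmul : ∀ x y, Φ (x * y) = Φ x * Φ y := by
    intro x y
    apply Subtype.ext
    rcases x with i | i <;> rcases y with j | j
    · show Du (th (i + j)) = Du (th i) * Du (th j)
      rw [DD, th_add]
    · show Au (th (j - i)) = Du (th i) * Au (th j)
      rw [DA, th_sub]
    · show Au (th (i + j)) = Au (th i) * Du (th j)
      rw [AD, th_add]
    · show Du (th (j - i)) = Au (th i) * Au (th j)
      rw [AA, th_sub]
  have hinj : Function.Injective Φ := by
    intro x y h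
    have h' := congrArg (fun g : Cfsg.isometryGroup F (Cfsg.quadFormPlus 1 F) =>
      ((g : Matrix.GeneralLinearGroup (Fin 1 ⊕ Fin 1) F) :
        Matrix (Fin 1 ⊕ Fin 1) (Fin 1 ⊕ Fin 1) F)) h
    rcases x with i | i <;> rcases y with j | j
    · have h2 : ((th i : Fˣ) : F) = th j := congrFun (congrFun h' (Sum.inl 0)) (Sum.inl 0)
      rw [th_inj (Units.ext h2)]
    · have h2 : ((th i : Fˣ) : F) = 0 := congrFun (congrFun h' (Sum.inl 0)) (Sum.inl 0)
      exact absurd h2 (Units.ne_zero _)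
    · have h2 : (0 : F) = ((th j : Fˣ) : F) := congrFun (congrFun h' (Sum.inl 0)) (Sum.inl 0)
      exact absurd h2.symm (Units.ne_zero _)
    · have h2 : ((th i : Fˣ) : F) = th j := congrFun (congrFun h' (Sum.inr 0)) (Sum.inl 0)
      rw [th_inj (Units.ext h2)]
  have hsurj : Function.Surjective Φ := by
    rintro ⟨g, hg⟩
    rcases classify g hg with ⟨a, rfl⟩ | ⟨b, rfl⟩
    · obtain ⟨i, rfl⟩ := th_surj a
      exact ⟨DihedralGroup.r i, rfl⟩
    · obtain ⟨i, rfl⟩ := th_surj b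
      exact ⟨DihedralGroup.sr i, rfl⟩
  exact ⟨(MulEquiv.ofBijective (MonoidHom.mk' Φ hmul) ⟨hinj, hsurj⟩).symm⟩

end Cfsg.Agent.S0305
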