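import Cfsg.Statements.S0312
import Cfsg.Agent.Lib.Helper1_BN

set_option autoImplicit false
open Cfsg

namespace Cfsg.Agent.S0312

open Cfsg.Agent.Lib.Helper1_BN

/-- if a conjugate of `B` by `g` lies in a subgroup `M ≥ B`, then `g ∈ M` -/
theorem mem_of_conj_le {G : Type*} [Group G] (P : Cfsg.BNPair G) {M : Subgroup G} (hM : P.B ≤ M)
    {g : G} (h : ∀ b ∈ P.B, g * b * g⁻¹ ∈ M) : g ∈ M := by
  obtain ⟨n, hn, hC⟩ := bruhat (P := P) g
  obtain ⟨b1, hb1, b2, hb2, rfl⟩ := mem_C.1 hC
  have hnM : n ∈ M := by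
    have h1 := mem_sup_conj (P := P) _ n hn rfl
    have h2 : P.B ⊔ P.B.map (MulAut.conj n).toMonoidHom ≤ M := by
      apply sup_le hM
      rintro _ ⟨b, hb, rfl⟩
      have e : (MulAut.conj n).toMonoidHom b =
          b1⁻¹ * ((b1 * n * b2) * (b2⁻¹ * b * b2) * (b1 * n * b2)⁻¹) * b1 := by
        simp only [MulEquiv.coe_toMonoidHom, MulAut.conj_apply]; group
      rw [e]
      exact mul_mem (mul_mem (inv_mem (hM hb1))
        (h _ (mul_mem (mul_mem (inv_mem hb2) hb) hb2))) (hM hb1)
    exact h2 h1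
  exact mul_mem (mul_mem (hM hb1) hnM) (hM hb2)

/-- Every standard parabolic subgroup of a group with a (B,N)-pair equals its own normaliser. -/
theorem result {G : Type*} [Group G] (P : Cfsg.BNPair G) {J : Set G}
    (hJ : J ⊆ P.S) : Subgroup.normalizer (P.parabolic J : Set G) = P.parabolic J := by
  apply le_antisymm
  · intro g hg
    have hB : P.B ≤ P.parabolic J := le_sup_left
    apply mem_of_conj_le P hB
    intro b hb
    exact (Subgroup.mem_normalizer_iff.1 hg b).1 (hB hb)
  · exact Subgroup.le_normalizer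

end Cfsg.Agent.S0312
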