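import Cfsg.Statements.S0313
import Cfsg.Agent.Lib.Helper1_BN
import Cfsg.Agent.S0312

set_option autoImplicit false
open Cfsg

namespace Cfsg.Agent.S0313

open Cfsg.Agent.Lib.Helper1_BN

/-- Two standard parabolic subgroups of a group with a (B,N)-pair which are conjugate in `G` coincide. -/
theorem result {G : Type*} [Group G] (P : Cfsg.BNPair G) {J K : Set G}
    (hJ : J ⊆ P.S) (hK : K ⊆ P.S) (g : G)
    (h : (P.parabolic J).map (MulAut.conj g).toMonoidHom = P.parabolic K) :
    P.parabolic J = P.parabolic K := by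
  have hBJ : P.B ≤ P.parabolic J := le_sup_left
  have hBK : P.B ≤ P.parabolic K := le_sup_left
  have hg : g ∈ P.parabolic K := by
    apply Cfsg.Agent.S0312.mem_of_conj_le P hBK
    intro b hb
    rw [← h]
    exact ⟨b, hBJ hb, by simp⟩
  rw [← h]
  ext x
  constructor
  · intro hx
    have hx' : g * x * g⁻¹ ∈ P.parabolic K := by
      rw [← h]; exact ⟨x, hx, by simp⟩
    have hxK : x ∈ P.parabolic K := by
      have : x = g⁻¹ * (g * x * g⁻¹) * g := by group
      rw [this]
      exact mul_mem (mul_mem (inv_mem hg) hx') hg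
    rw [h]; exact hxK
  · intro hx
    rw [h] at hx
    have h2 : g * x * g⁻¹ ∈ P.parabolic K := mul_mem (mul_mem hg hx) (inv_mem hg)
    rw [← h] at h2
    obtain ⟨y, hy, hyx⟩ := h2
    simp only [MulEquiv.coe_toMonoidHom, MulAut.conj_apply] at hyx
    have : y = x := by
      have := congrArg (fun t => g⁻¹ * t * g) hyx
      simpa [mul_assoc] using this
    rw [← this]; exact hy

end Cfsg.Agent.S0313
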