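import Cfsg.Statements.S0319
import Cfsg.Agent.Lib.Helper1_BN2

set_option autoImplicit false
open Cfsg

namespace Cfsg.Agent.S0319

open Cfsg.Agent.Lib.Helper1_BN Cfsg.Agent.Lib.Helper1_BN2

/-- generators inside `B H` commute (mod `B`) with the generators outside -/
theorem comm_mem {G : Type*} [Group G] (P : Cfsg.BNPair G) (H : Subgroup G) [H.Normal]
    {s1 s2 : G} (hs1 : s1 ∈ P.S) (hs2 : s2 ∈ P.S) (h1 : s1 ∈ P.B ⊔ H) (h2 : s2 ∉ P.B ⊔ H) :
    s1 * s2 * s1⁻¹ * s2⁻¹ ∈ P.B := by
  have hBM : P.B ≤ P.B ⊔ H := le_sup_left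
  have hHM : H ≤ P.B ⊔ H := le_sup_right
  have hs1N := S_mem_N hs1
  have hs2N := S_mem_N hs2
  have hne : s1 ≠ s2 := by
    rintro rfl; exact h2 h1
  obtain ⟨b, hb, h, hh, e⟩ : ∃ b ∈ P.B, ∃ h ∈ H, b * h = s1 := by
    have : s1 ∈ ((P.B ⊔ H : Subgroup G) : Set G) := h1
    rw [Subgroup.mul_normal] at this
    obtain ⟨b, hb, h, hh, e⟩ := Set.mem_mul.1 this
    exact ⟨b, hb, h, hh, e⟩
  have hconj : s2 * h * s2⁻¹ ∈ H := ‹H.Normal›.conj_mem h hh s2
  have hg : s2 * b⁻¹ * (s1 * s2) ∈ P.B ⊔ H := by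
    have e2 : s2 * b⁻¹ * (s1 * s2) = (s2 * h * s2⁻¹) * (s2 * s2) := by
      rw [← e]; group
    rw [e2]
    exact mul_mem (hHM hconj) (hBM (P.sq_mem s2 hs2))
  have h12N : s1 * s2 ∈ P.N := mul_mem hs1N hs2N
  by_cases hc : len P (s1 * s2) ≤ len P (s2 * (s1 * s2))
  · exfalso
    have h3 := lemmaA' h12N hs2 hc (inv_mem hb)
    obtain ⟨b1, hb1, b2, hb2, e3⟩ := mem_C.1 h3
    have h4 : s2 * (s1 * s2) ∈ P.B ⊔ H := by
      have e4 : s2 * (s1 * s2) = b1⁻¹ * (s2 * b⁻¹ * (s1 * s2)) * b2⁻¹ := by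
        rw [e3]; group
      rw [e4]
      exact mul_mem (mul_mem (inv_mem (hBM hb1)) hg) (inv_mem (hBM hb2))
    apply h2
    apply descent_mem hBM (mul_mem hs2N h12N) h4 hs2
    rw [len_congr (R_ss_mul hs2 h12N)]
    exact hc
  · push Not at hc
    have h5 : len P s1 ≤ len P (s2 * s1) := by
      rw [len_S hs1]
      by_contra h6
      have h7 : len P (s2 * s1) = 0 := by omega
      have h8 := (len_eq_zero (mul_mem hs2N hs1N)).1 h7
      apply hne
      apply (P.inj s2 hs2 s1 hs1 _).symm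
      have h9 : R P s2⁻¹ s1 := by simpa [R] using h8
      exact (R_inv hs2).trans h9
    have hE := lemmaE hs1N hs2 hs2 h5 hc.le
    have hcN : (s2 * s1)⁻¹ * (s1 * s2) ∈ P.N := mul_mem (inv_mem (mul_mem hs2N hs1N)) h12N
    have h6 := P.conj_mem (s1 * s2) h12N _ (Subgroup.mem_inf.2 ⟨hE, hcN⟩)
    have e6 : s1 * s2 * ((s2 * s1)⁻¹ * (s1 * s2)) * (s1 * s2)⁻¹ = s1 * s2 * s1⁻¹ * s2⁻¹ := by group
    rwa [e6] at h6

/-- Simplicity criterion for groups with a (B,N)-pair: if the distinguished generators admit no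
splitting into two non-empty mutually commuting parts, `B` is solvable, `G` is perfect and the intersection
of all conjugates of `B` is trivial, then `G` is simple. -/
theorem result {G : Type*} [Group G] [Nontrivial G]
    (P : Cfsg.BNPair G) (hirr : P.Irreducible) (hsolv : Group.IsSolvable P.B) (hperf : commutator G = ⊤)
    (hcore : P.B.normalCore = ⊥) : IsSimpleGroup G := by
  refine ⟨fun H hH => ?_⟩
  have hBM : P.B ≤ P.B ⊔ H := le_sup_left
  have hpar := eq_parabolic (P := P) hBM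
  by_cases hJ : (P.S ∩ ((P.B ⊔ H : Subgroup G) : Set G)).Nonempty
  · by_cases hJ' : (P.S \ (P.S ∩ ((P.B ⊔ H : Subgroup G) : Set G))).Nonempty
    · exfalso
      obtain ⟨s, hs, s', hs', hn⟩ := hirr _ Set.inter_subset_left hJ hJ'
      apply hn
      apply comm_mem P H hs.1 hs'.1 hs.2
      intro hc
      exact hs'.2 ⟨hs'.1, hc⟩
    · right
      rw [Set.not_nonempty_iff_eq_empty, Set.sdiff_eq_empty] at hJ'
      have hS : P.S ∩ ((P.B ⊔ H : Subgroup G) : Set G) = P.S :=
        Set.Subset.antisymm Set.inter_subset_left hJ'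
      rw [hS, parabolic_S] at hpar
      by_contra hne
      have hsurj : Function.Surjective ((QuotientGroup.mk' H).comp P.B.subtype) := by
        intro x
        obtain ⟨g, rfl⟩ := QuotientGroup.mk'_surjective H x
        have hg : g ∈ ((P.B ⊔ H : Subgroup G) : Set G) := by rw [hpar]; trivial
        rw [Subgroup.mul_normal] at hg
        obtain ⟨b, hb, h, hh, e⟩ := Set.mem_mul.1 hg
        refine ⟨⟨b, hb⟩, ?_⟩
        simp only [MonoidHom.coe_comp, Function.comp_apply, Subgroup.coe_subtype,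
          QuotientGroup.mk'_apply]
        apply QuotientGroup.eq.2
        rw [← e]
        simpa using hh
      have hsol : Group.IsSolvable (G ⧸ H) := Group.isSolvable_of_surjective hsurj
      have hnt : Nontrivial (G ⧸ H) := by
        rw [QuotientGroup.nontrivial_iff]
        exact hne
      have h1 := Group.IsSolvable.commutator_lt_top_of_nontrivial (G ⧸ H)
      apply h1.ne
      rw [commutator_def, ← Subgroup.map_top_of_surjective _ (QuotientGroup.mk'_surjective H),
        ← Subgroup.map_commutator, ← commutator_def, hperf]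
  · left
    rw [Set.not_nonempty_iff_eq_empty] at hJ
    rw [hJ, parabolic_empty] at hpar
    have hHB : H ≤ P.B := by
      rw [← hpar]; exact le_sup_right
    have := Subgroup.normal_le_normalCore.2 hHB
    rw [hcore] at this
    exact le_bot_iff.1 this

end Cfsg.Agent.S0319
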