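import Cfsg.Statements.S0321
import Cfsg.Agent.Lib.Helper1_BN2

set_option autoImplicit false
open Cfsg

namespace Cfsg.Agent.S0321

open Cfsg.Agent.Lib.Helper1_BN Cfsg.Agent.Lib.Helper1_BN2

/-- For `n ∈ N` not in `B`, the union `B ∪ B n B` is (the underlying set of) a subgroup exactly when `n` agrees
modulo `B ⊓ N` with one of the distinguished representatives; thus the distinguished involutions are
determined by `B` and `N`. -/
theorem result {G : Type*} [Group G] (P : Cfsg.BNPair G) {n : G}
    (hn : n ∈ P.N) (hnB : n ∉ P.B) :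
    (∃ H : Subgroup G, (H : Set G) = (P.B : Set G) ∪ DoubleCoset.doubleCoset n (P.B : Set G) P.B) ↔ ∃ s ∈ P.S, s⁻¹ * n ∈ P.B := by
  constructor
  · rintro ⟨H, hH⟩
    have hBH : P.B ≤ H := by
      intro b hb
      have : b ∈ (H : Set G) := by rw [hH]; exact Or.inl hb
      exact this
    have hnH : n ∈ H := by
      have : n ∈ (H : Set G) := by rw [hH]; exact Or.inr (self_mem n)
      exact this
    have hpar := eq_parabolic (P := P) hBH
    have hne : (P.S ∩ (H : Set G)).Nonempty := by
      by_contra hcon
      rw [Set.not_nonempty_iff_eq_empty] at hcon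
      rw [hcon, parabolic_empty] at hpar
      rw [hpar] at hnH
      exact hnB hnH
    obtain ⟨s, hs, hsH⟩ := hne
    refine ⟨s, hs, ?_⟩
    rw [hH] at hsH
    rcases hsH with h | h
    · exact absurd h (S_not_mem_B hs)
    · exact bruhat_unique (S_mem_N hs) hn (C_eq_of_mem h)
  · rintro ⟨s, hs, h⟩
    refine ⟨P.parabolic {s}, ?_⟩
    rw [coe_parabolic_singleton hs]
    have : C P n = C P s := R.C_eq h
    rw [← this]; rfl

end Cfsg.Agent.S0321
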