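import Cfsg.Statements.S0322
import Cfsg.Agent.Lib.Helper1_BN2

set_option autoImplicit false
open Cfsg

namespace Cfsg.Agent.S0322

open Cfsg.Agent.Lib.Helper1_BN Cfsg.Agent.Lib.Helper1_BN2

/-- A group with a (B,N)-pair of rank one acts doubly transitively on the left cosets of `B`. -/
theorem result {G : Type*} [Group G] (P : Cfsg.BNPair G) (h : P.rank = 1) : MulAction.IsMultiplyPretransitive G (G ⧸ P.B) 2 := by
  obtain ⟨⟨s, hs⟩, hS⟩ : ∃ s : P.S, ∀ t : P.S, t = s := by
    have h1 : Nat.card P.S = 1 := h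
    rw [Nat.card_eq_one_iff_unique] at h1
    obtain ⟨h2, ⟨s⟩⟩ := h1
    exact ⟨s, fun t => Subsingleton.elim _ _⟩
  have hSeq : P.S = {s} := by
    ext t
    constructor
    · intro ht
      exact congrArg Subtype.val (hS ⟨t, ht⟩)
    · intro ht
      rw [Set.mem_singleton_iff] at ht
      rw [ht]; exact hs
  have hall : ∀ g : G, g ∈ P.B ∨ g ∈ C P s := by
    intro g
    have h1 : g ∈ (P.parabolic {s} : Set G) := by
      rw [← hSeq, parabolic_S]; trivial
    rw [coe_parabolic_singleton hs] at h1
    exact h1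
  have key : ∀ a b : G ⧸ P.B, a ≠ b → ∃ g : G, g • ((1 : G) : G ⧸ P.B) = a ∧ g • ((s : G) : G ⧸ P.B) = b := by
    intro a b hab
    induction a using QuotientGroup.induction_on with
    | H x =>
    induction b using QuotientGroup.induction_on with
    | H y =>
    have hxy : x⁻¹ * y ∉ P.B := by
      intro hc
      exact hab (QuotientGroup.eq.2 hc)
    rcases hall (x⁻¹ * y) with h1 | h1
    · exact absurd h1 hxy
    · obtain ⟨b1, hb1, b2, hb2, e⟩ := mem_C.1 h1
      refine ⟨x * b1, ?_, ?_⟩
      · rw [MulAction.Quotient.smul_coe, smul_eq_mul, mul_one]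
        apply QuotientGroup.eq.2
        have : (x * b1)⁻¹ * x = b1⁻¹ := by group
        rw [this]; exact inv_mem hb1
      · rw [MulAction.Quotient.smul_coe, smul_eq_mul]
        apply QuotientGroup.eq.2
        have : (x * b1 * s)⁻¹ * y = b2 := by
          have : y = x * (b1 * s * b2) := by rw [← e]; group
          rw [this]; group
        rw [this]; exact hb2
  rw [MulAction.is_two_pretransitive_iff]
  intro a b c d hab hcd
  obtain ⟨g1, h1, h2⟩ := key a b hab
  obtain ⟨g2, h3, h4⟩ := key c d hcd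
  refine ⟨g2 * g1⁻¹, ?_, ?_⟩
  · rw [← h1, mul_smul, inv_smul_smul, h3]
  · rw [← h2, mul_smul, inv_smul_smul, h4]

end Cfsg.Agent.S0322
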