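import Cfsg.Statements.S0323


set_option autoImplicit false
open scoped Pointwise
open Cfsg

namespace Cfsg.Agent.S0323

/-- A doubly transitive action on a set with at least three points yields a (B,N)-pair of rank one:
`B` is the stabiliser of a point `x`, `N` the setwise stabiliser of a pair `{x, y}`. -/
theorem result {G Ω : Type*} [Group G] [MulAction G Ω]
    (h2 : MulAction.IsMultiplyPretransitive G Ω 2) {x y z : Ω} (hxy : x ≠ y) (hyz : y ≠ z) (hxz : x ≠ z) :
    ∃ P : Cfsg.BNPair G, P.B = MulAction.stabilizer G x ∧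
      P.N = MulAction.stabilizer G ({x, y} : Set Ω) ∧ P.rank = 1 := by
  rw [MulAction.is_two_pretransitive_iff] at h2
  obtain ⟨s, hsx, hsy⟩ := h2 hxy hxy.symm
  have memB : ∀ g : G, g ∈ MulAction.stabilizer G x ↔ g • x = x := fun g => MulAction.mem_stabilizer_iff
  have memN : ∀ g : G, g ∈ MulAction.stabilizer G ({x, y} : Set Ω) ↔
      ((g • x = x ∧ g • y = y) ∨ (g • x = y ∧ g • y = x)) := by
    intro g
    rw [MulAction.mem_stabilizer_iff]
    constructor
    · intro h
      have h1 : g • x ∈ ({x, y} : Set Ω) := by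
        rw [← h]; exact Set.smul_mem_smul_set (by simp)
      have h3 : g • y ∈ ({x, y} : Set Ω) := by
        rw [← h]; exact Set.smul_mem_smul_set (by simp)
      have hne : g • x ≠ g • y := fun hc => hxy (MulAction.injective g hc)
      simp only [Set.mem_insert_iff, Set.mem_singleton_iff] at h1 h3
      rcases h1 with h1 | h1 <;> rcases h3 with h3 | h3
      · exact absurd (h1.trans h3.symm) hne
      · exact Or.inl ⟨h1, h3⟩
      · exact Or.inr ⟨h1, h3⟩
      · exact absurd (h1.trans h3.symm) hne
    · rintro (⟨h1, h3⟩ | ⟨h1, h3⟩)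
      · rw [Set.smul_set_insert, Set.smul_set_singleton, h1, h3]
      · rw [Set.smul_set_insert, Set.smul_set_singleton, h1, h3, Set.pair_comm]
  have hsN : s ∈ MulAction.stabilizer G ({x, y} : Set Ω) := (memN s).2 (Or.inr ⟨hsx, hsy⟩)
  have dc : ∀ g h : G, g • x ≠ x → h • x ≠ x →
      g ∈ DoubleCoset.doubleCoset h (MulAction.stabilizer G x : Set G) (MulAction.stabilizer G x) := by
    intro g h hg hh
    obtain ⟨b1, hb1, hb2⟩ := h2 hh.symm hg.symm
    rw [DoubleCoset.mem_doubleCoset]
    refine ⟨b1, (memB b1).2 hb1, (b1 * h)⁻¹ * g, ?_, by group⟩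
    apply (memB _).2
    rw [mul_smul, ← hb2, inv_smul_eq_iff, mul_smul]
  have dc' : ∀ g h : G, g • x = x → h • x = x →
      g ∈ DoubleCoset.doubleCoset h (MulAction.stabilizer G x : Set G) (MulAction.stabilizer G x) := by
    intro g h hg hh
    rw [DoubleCoset.mem_doubleCoset]
    refine ⟨1, one_mem _, h⁻¹ * g, ?_, by group⟩
    apply (memB _).2
    rw [mul_smul, hg, inv_smul_eq_iff, hh]
  refine ⟨{ B := MulAction.stabilizer G x
            N := MulAction.stabilizer G ({x, y} : Set Ω)
            S := {s}
            sup_eq_top := ?_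
            conj_mem := ?_
            subset := ?_
            sq_mem := ?_
            inj := ?_
            closure_sup := ?_
            mul_mem_union := ?_
            conj_ne := ?_ }, rfl, rfl, ?_⟩
  · rw [eq_top_iff]
    intro g _
    by_cases hg : g • x = x
    · exact Subgroup.mem_sup_left ((memB g).2 hg)
    · obtain ⟨b, hb1, hb2⟩ := h2 (Ne.symm hg) hxy
      have h3 : s * b * g ∈ MulAction.stabilizer G x := by
        apply (memB _).2
        rw [mul_smul, mul_smul, hb2, hsy]
      have e : g = b⁻¹ * (s⁻¹ * (s * b * g)) := by group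
      rw [e]
      exact mul_mem (Subgroup.mem_sup_left (inv_mem ((memB b).2 hb1)))
        (mul_mem (Subgroup.mem_sup_right (inv_mem hsN)) (Subgroup.mem_sup_left h3))
  · intro n hn t ht
    obtain ⟨ht1, ht2⟩ := Subgroup.mem_inf.1 ht
    rw [memB] at ht1
    rw [memN] at ht2
    have hty : t • y = y := by
      rcases ht2 with h | h
      · exact h.2
      · exact absurd (ht1.symm.trans h.1) hxy
    apply (memB _).2
    rw [mul_smul, mul_smul]
    rcases (memN n).1 hn with h | h
    · have : n⁻¹ • x = x := by rw [inv_smul_eq_iff, h.1]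
      rw [this, ht1, h.1]
    · have : n⁻¹ • x = y := by rw [inv_smul_eq_iff, h.2]
      rw [this, hty, h.2]
  · intro t ht
    rw [Set.mem_singleton_iff] at ht
    rw [ht]; exact hsN
  · intro t ht
    rw [Set.mem_singleton_iff] at ht
    rw [ht]
    apply (memB _).2
    rw [mul_smul, hsx, hsy]
  · intro t ht t' ht' _
    rw [Set.mem_singleton_iff] at ht ht'
    rw [ht, ht']
  · apply le_antisymm
    · apply sup_le _ inf_le_right
      rw [Subgroup.closure_le]
      intro t ht
      rw [Set.mem_singleton_iff] at ht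
      rw [ht]; exact hsN
    · intro n hn
      rcases (memN n).1 hn with h | h
      · exact Subgroup.mem_sup_right (Subgroup.mem_inf.2 ⟨(memB n).2 h.1, hn⟩)
      · have h3 : s * n ∈ MulAction.stabilizer G x ⊓ MulAction.stabilizer G ({x, y} : Set Ω) := by
          refine Subgroup.mem_inf.2 ⟨?_, mul_mem hsN hn⟩
          apply (memB _).2
          rw [mul_smul, h.1, hsy]
        have e : n = s⁻¹ * (s * n) := by group
        rw [e]
        exact mul_mem (Subgroup.mem_sup_left (inv_mem (Subgroup.subset_closure rfl)))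
          (Subgroup.mem_sup_right h3)
  · intro t ht n hn b hb
    rw [Set.mem_singleton_iff] at ht
    subst ht
    by_cases hg : (t * b * n) • x = x
    · rcases (memN n).1 hn with h | h
      · exact Or.inr (dc' _ _ hg h.1)
      · refine Or.inl (dc' _ _ hg ?_)
        rw [mul_smul, h.1, hsy]
    · rcases (memN n).1 hn with h | h
      · refine Or.inl (dc _ _ hg ?_)
        rw [mul_smul, h.1, hsx]; exact hxy.symm
      · refine Or.inr (dc _ _ hg ?_)
        rw [h.1]; exact hxy.symm
  · intro t ht
    rw [Set.mem_singleton_iff] at ht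
    subst ht
    intro hc
    obtain ⟨b, hb1, hb2⟩ := h2 hxy hxz
    have h3 : t * b * t ∈ (MulAction.stabilizer G x : Set G) := by
      rw [← hc]; exact ⟨b, (memB b).2 hb1, rfl⟩
    have h4 := (memB _).1 h3
    rw [mul_smul, mul_smul, hsx, hb2, ← hsy] at h4
    exact hyz (MulAction.injective t h4).symm
  · show Nat.card ({s} : Set G) = 1
    simp

end Cfsg.Agent.S0323
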