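import Cfsg.Statements.S0326

set_option autoImplicit false

open Cfsg

namespace Cfsg.Agent.S0326

variable {F : Type*} [Field F]

/-- the affine points -/
def vec (m : ℕ) (x y : F) : Fin 4 → F :=
  ![x * y + x ^ (2 ^ (m + 1) + 2) + y ^ (2 ^ (m + 1)), y, x, 1]

theorem vec_ne (m : ℕ) (x y : F) : vec m x y ≠ 0 := by
  intro h
  have := congrFun h 3
  simp [vec] at this

theorem inf_ne : (![1, 0, 0, 0] : Fin 4 → F) ≠ 0 := by
  intro h
  have := congrFun h 0
  simp at this

/-- the parametrisation -/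
def par (m : ℕ) : Option (F × F) → Projectivization F (Fin 4 → F)
  | none => Projectivization.mk F ![1, 0, 0, 0] inf_ne
  | some p => Projectivization.mk F (vec m p.1 p.2) (vec_ne m p.1 p.2)

theorem par_inj (m : ℕ) : Function.Injective (par (F := F) m) := by
  intro a b h
  rcases a with _ | ⟨x, y⟩ <;> rcases b with _ | ⟨x', y'⟩
  · rfl
  · exfalso
    unfold par at h
    rw [Projectivization.mk_eq_mk_iff'] at h
    obtain ⟨c, hc⟩ := h
    have h3 := congrFun hc 3
    have h0 := congrFun hc 0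
    simp [vec] at h3 h0
    rw [h3] at h0
    simp at h0
  · exfalso
    unfold par at h
    rw [Projectivization.mk_eq_mk_iff'] at h
    obtain ⟨c, hc⟩ := h
    have h3 := congrFun hc 3
    simp [vec] at h3
  · unfold par at h
    rw [Projectivization.mk_eq_mk_iff'] at h
    obtain ⟨c, hc⟩ := h
    have h3 := congrFun hc 3
    have h2 := congrFun hc 2
    have h1 := congrFun hc 1
    simp [vec] at h3 h2 h1
    rw [h3] at h2 h1
    simp at h2 h1
    rw [h1, h2]

theorem range_par (m : ℕ) : Set.range (par (F := F) m) = Cfsg.suzukiOvoid F m := by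
  ext p
  constructor
  · rintro ⟨a, rfl⟩
    rcases a with _ | ⟨x, y⟩
    · exact ⟨_, inf_ne, rfl, Or.inl rfl⟩
    · exact ⟨_, vec_ne m x y, rfl, Or.inr ⟨x, y, rfl⟩⟩
  · rintro ⟨v, hv, rfl, h | ⟨x, y, h⟩⟩
    · subst h
      exact ⟨none, rfl⟩
    · subst h
      exact ⟨some (x, y), rfl⟩

theorem result {F : Type*} [Field F] [Fintype F] (m : ℕ) :
    Nat.card (Cfsg.suzukiOvoid F m) = Fintype.card F ^ 2 + 1 := by
  rw [← range_par m, Nat.card_congr (Equiv.ofInjective _ (par_inj m)).symm,
    Nat.card_eq_fintype_card, Fintype.card_option, Fintype.card_prod, sq]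

end Cfsg.Agent.S0326
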