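import Cfsg.Statements.S0351
import Mathlib

set_option autoImplicit false
open Cfsg

namespace Cfsg.Agent.S0351

open Finset


/-- Derived design: removing a point p from the blocks through p of an S(t+1, k+1, v) yields an S(t, k, v-1) on the points other than p. -/
theorem result {α : Type*} [Fintype α] [DecidableEq α] {t k : ℕ} {B : Set (Finset α)} (hB : Cfsg.IsSteinerSystem (t + 1) (k + 1) B) (p : α) : Cfsg.IsSteinerSystem t k {b' : Finset {a : α // a ≠ p} | ∃ b ∈ B, p ∈ b ∧ b' = Finset.subtype (fun a => a ≠ p) b} := by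
  constructor
  · rintro _ ⟨b, hb, hpb, rfl⟩
    rw [card_subtype]
    have h1 : b.filter (fun a => a ≠ p) = b.erase p := by
      ext x; simp [and_comm]
    rw [h1, card_erase_of_mem hpb, hB.1 b hb]
    rfl
  · intro s hs
    set s' : Finset α := insert p (s.map (Function.Embedding.subtype _)) with hs'
    have hp : p ∉ s.map (Function.Embedding.subtype (fun a => a ≠ p)) := by
      simp
    have hcard : s'.card = t + 1 := by
      rw [hs', card_insert_of_notMem hp, card_map, hs]
    obtain ⟨b, ⟨hb, hsb⟩, hu⟩ := hB.2 s' hcard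
    have hpb : p ∈ b := hsb (mem_insert_self _ _)
    refine ⟨Finset.subtype (fun a => a ≠ p) b, ⟨⟨b, hb, hpb, rfl⟩, ?_⟩, ?_⟩
    · intro x hx
      rw [mem_subtype]
      apply hsb
      apply mem_insert_of_mem
      exact mem_map_of_mem _ hx
    · rintro _ ⟨⟨c, hc, hpc, rfl⟩, hsc⟩
      have : c = b := by
        apply hu c ⟨hc, ?_⟩
        intro x hx
        rw [hs', mem_insert] at hx
        rcases hx with rfl | hx
        · exact hpc
        · obtain ⟨y, hy, rfl⟩ := mem_map.mp hx
          exact mem_subtype.mp (hsc hy)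
      rw [this]

end Cfsg.Agent.S0351
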