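import Cfsg.Statements.S0353
import Mathlib
import Cfsg.Agent.Lib.Helper3_Steiner2
import Cfsg.Agent.S0352

set_option autoImplicit false
open Cfsg

namespace Cfsg.Agent.S0353

open Cfsg.Agent.Lib.Helper3_Steiner Cfsg.Agent.Lib.Helper3_Steiner2 Finset

theorem card_symmDiff_add {α : Type*} [DecidableEq α] (X Y : Finset α) :
    (symmDiff X Y).card + 2 * (X ∩ Y).card = X.card + Y.card := by
  have h1 : (symmDiff X Y).card = (X \ Y).card + (Y \ X).card := by
    rw [symmDiff_def, sup_eq_union, card_union_of_disjoint]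
    exact disjoint_of_subset_right sdiff_subset sdiff_disjoint
  have h2 := card_sdiff_add_card_inter X Y
  have h3 := card_sdiff_add_card_inter Y X
  rw [inter_comm Y X] at h3
  omega

theorem symmDiff_inter {α : Type*} [DecidableEq α] (b c d : Finset α) :
    symmDiff b c ∩ d = symmDiff (b ∩ d) (c ∩ d) := by
  ext x
  simp only [mem_inter, mem_symmDiff]
  tauto

theorem card_of_sum {ι : Type*} (S : Finset ι) (g : ι → ℤ) (P : ι → Prop) [DecidablePred P] (K : ℤ)
    (hg : ∀ c ∈ S, g c = if P c then K else 0) : K * ((S.filter P).card : ℤ) = ∑ c ∈ S, g c := by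
  rw [sum_congr rfl hg, ← sum_filter, sum_const, nsmul_eq_mul, mul_comm]


/-- In an S(5, 8, 24), the symmetric difference of two blocks meeting in four points is a block. -/
theorem result {α : Type*} [Fintype α] [DecidableEq α] (hα : Fintype.card α = 24) {B : Set (Finset α)} (hB : Cfsg.IsSteinerSystem 5 8 B) {b c : Finset α} (hb : b ∈ B) (hc : c ∈ B) (h4 : (b ∩ c).card = 4) : symmDiff b c ∈ B := by
  set D := symmDiff b c with hD
  have hD8 : D.card = 8 := by
    have := card_symmDiff_add b c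
    rw [hB.1 b hb, hB.1 c hc, h4, ← hD] at this
    omega
  have heven : ∀ e ∈ B, ∀ d ∈ B, Even (e ∩ d).card := by
    intro e he d hd
    by_cases h : e = d
    · subst h; rw [inter_self, hB.1 e he]; decide
    · rcases Cfsg.Agent.S0352.result hα hB he hd h with h | h | h <;> rw [h] <;> decide
  have hx : ∀ d ∈ B, Even (D ∩ d).card := by
    intro d hd
    have h1 := card_symmDiff_add (b ∩ d) (c ∩ d)
    rw [← symmDiff_inter, ← hD] at h1
    obtain ⟨u, hu⟩ := heven b hb d hd
    obtain ⟨v, hv⟩ := heven c hc d hd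
    rw [Nat.even_iff]
    omega
  have e1 := sum_chooseZ' hB (by norm_num) D 1 (by norm_num)
  have e2 := sum_chooseZ' hB (by norm_num) D 2 (by norm_num)
  have e3 := sum_chooseZ' hB (by norm_num) D 3 (by norm_num)
  have e4 := sum_chooseZ' hB (by norm_num) D 4 (by norm_num)
  rw [hα, hD8] at e1 e2 e3 e4
  have h := card_of_sum (blocks B) (fun d => 30 * (Nat.choose (D ∩ d).card 2 : ℤ) + 24 * (Nat.choose (D ∩ d).card 4 : ℤ)
    - 15 * (Nat.choose (D ∩ d).card 1 : ℤ) - 36 * (Nat.choose (D ∩ d).card 3 : ℤ)) (fun d => (D ∩ d).card = 8) 384 (by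
      intro d hd
      have h1 := hx d (mem_blocks.mp hd)
      have h2 : (D ∩ d).card < 9 := by
        have := card_le_card (inter_subset_left : D ∩ d ⊆ D)
        omega
      interval_cases (D ∩ d).card <;> first | (exfalso; revert h1; decide) | simp [Nat.choose])
  rw [sum_sub_distrib, sum_sub_distrib, sum_add_distrib, ← mul_sum, ← mul_sum, ← mul_sum, ← mul_sum, e1, e2, e3, e4] at h
  have h' : 30 * ((Nat.choose 8 2 * lam 24 8 5 2 : ℕ) : ℤ) + 24 * ((Nat.choose 8 4 * lam 24 8 5 4 : ℕ) : ℤ) - 15 * ((Nat.choose 8 1 * lam 24 8 5 1 : ℕ) : ℤ) - 36 * ((Nat.choose 8 3 * lam 24 8 5 3 : ℕ) : ℤ) = 384 := by decide +kernel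
  rw [h'] at h
  have h5 : ((blocks B).filter (fun d => (D ∩ d).card = 8)).card = 1 := by omega
  obtain ⟨d, hd⟩ := card_eq_one.mp h5
  have hd' : d ∈ (blocks B).filter (fun d => (D ∩ d).card = 8) := by rw [hd]; simp
  rw [mem_filter, mem_blocks] at hd'
  have h6 : D ∩ d = D := eq_of_subset_of_card_le inter_subset_left (by rw [hd'.2, hD8])
  have h7 : D ∩ d = d := eq_of_subset_of_card_le inter_subset_right (by rw [hd'.2, hB.1 d hd'.1])
  rw [← h6, h7]
  exact hd'.1

end Cfsg.Agent.S0353
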