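import Cfsg.Statements.S0354
import Mathlib
import Cfsg.Agent.Lib.Helper3_Steiner2
import Cfsg.Agent.S0352

set_option autoImplicit false
open Cfsg

namespace Cfsg.Agent.S0354

open Cfsg.Agent.Lib.Helper3_Steiner Cfsg.Agent.Lib.Helper3_Steiner2 Finset


/-- In an S(5, 8, 24), each block is disjoint from exactly 30 blocks. -/
theorem result {α : Type*} [Fintype α] [DecidableEq α] (hα : Fintype.card α = 24) {B : Set (Finset α)} (hB : Cfsg.IsSteinerSystem 5 8 B) {b : Finset α} (hb : b ∈ B) : {c : Finset α | c ∈ B ∧ Disjoint b c}.ncard = 30 := by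
  have hb8 : b.card = 8 := hB.1 b hb
  have e0 := sum_chooseZ' hB (by norm_num) b 0 (by norm_num)
  have e1 := sum_chooseZ' hB (by norm_num) b 1 (by norm_num)
  have e2 := sum_chooseZ' hB (by norm_num) b 2 (by norm_num)
  rw [hα, hb8] at e0 e1 e2
  set g : Finset α → ℤ := fun c => 2 * (Nat.choose (b ∩ c).card 2 : ℤ) + 8 * (Nat.choose (b ∩ c).card 0 : ℤ)
    - 5 * (Nat.choose (b ∩ c).card 1 : ℤ) with hg
  have hsum : ∑ c ∈ blocks B, g c = 264 := by
    simp only [hg, sum_sub_distrib, sum_add_distrib, ← mul_sum, e0, e1, e2]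
    decide +kernel
  have hgb : g b = 24 := by
    simp only [hg, inter_self, hb8]
    decide +kernel
  have h2 := sum_eq_add_card (blocks B) b (mem_blocks.mpr hb) g (fun c => Disjoint b c) 8 (by
    intro c hc hcb
    have h3 := Cfsg.Agent.S0352.result hα hB hb (mem_blocks.mp hc) hcb.symm
    simp only [hg, disjoint_iff_inter_eq_empty, ← card_eq_zero]
    rcases h3 with h | h | h <;> rw [h] <;> simp [Nat.choose]) (by
    intro h
    rw [disjoint_self] at h
    rw [h] at hb8
    simp at hb8)
  rw [hsum, hgb] at h2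
  have h5 : ((blocks B).filter (fun c => Disjoint b c)).card = 30 := by
    clear e0 e1 e2 hsum hgb
    omega
  rw [ncard_eq_card_filter]
  exact h5

end Cfsg.Agent.S0354
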