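import Cfsg.Statements.S0355
import Mathlib
import Cfsg.Agent.Lib.Helper3_Steiner

set_option autoImplicit false
open Cfsg

namespace Cfsg.Agent.S0355

open Cfsg.Agent.Lib.Helper3_Steiner Finset


/-- In a Steiner system S(4, 7, 23), two distinct blocks intersect in 1 or 3 points. -/
theorem result {α : Type*} [Fintype α] [DecidableEq α] (hα : Fintype.card α = 23) {B : Set (Finset α)} (hB : Cfsg.IsSteinerSystem 4 7 B) {b c : Finset α} (hb : b ∈ B) (hc : c ∈ B) (hbc : b ≠ c) : (b ∩ c).card = 1 ∨ (b ∩ c).card = 3 := by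
  have hb8 : b.card = 7 := hB.1 b hb
  have e0 := sum_chooseZ' hB (by norm_num) b 0 (by norm_num)
  have e1 := sum_chooseZ' hB (by norm_num) b 1 (by norm_num)
  have e2 := sum_chooseZ' hB (by norm_num) b 2 (by norm_num)
  have e3 := sum_chooseZ' hB (by norm_num) b 3 (by norm_num)
  rw [hα, hb8] at e0 e1 e2 e3
  set g : Finset α → ℤ := fun c => 4 * (Nat.choose (b ∩ c).card 2 : ℤ) + 3 * (Nat.choose (b ∩ c).card 0 : ℤ)
    - 6 * (Nat.choose (b ∩ c).card 3 : ℤ) - 3 * (Nat.choose (b ∩ c).card 1 : ℤ) with hg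
  have hsum : ∑ c ∈ blocks B, g c = g b := by
    simp only [hg, sum_sub_distrib, sum_add_distrib, ← mul_sum, e0, e1, e2, e3, inter_self, hb8]
    decide +kernel
  have hz := all_zero_of_sum (blocks B) b (mem_blocks.mpr hb) g hsum (by
    intro c hc hcb
    have hlt := inter_card_lt hB hb (mem_blocks.mp hc) hcb.symm
    simp only [hg]
    interval_cases (b ∩ c).card <;> simp [Nat.choose]) c (mem_blocks.mpr hc) hbc.symm
  have hlt := inter_card_lt hB hb hc hbc
  simp only [hg] at hz
  interval_cases h : (b ∩ c).card <;> simp_all [Nat.choose]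

end Cfsg.Agent.S0355
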