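import Cfsg.Statements.S0356
import Mathlib
import Cfsg.Agent.Lib.Helper3_Steiner

set_option autoImplicit false
open Cfsg

namespace Cfsg.Agent.S0356

open Cfsg.Agent.Lib.Helper3_Steiner Finset


/-- In a Steiner system S(3, 6, 22), two distinct blocks intersect in 0 or 2 points. -/
theorem result {α : Type*} [Fintype α] [DecidableEq α] (hα : Fintype.card α = 22) {B : Set (Finset α)} (hB : Cfsg.IsSteinerSystem 3 6 B) {b c : Finset α} (hb : b ∈ B) (hc : c ∈ B) (hbc : b ≠ c) : (b ∩ c).card = 0 ∨ (b ∩ c).card = 2 := by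
  have hb8 : b.card = 6 := hB.1 b hb
  have e1 := sum_chooseZ' hB (by norm_num) b 1 (by norm_num)
  have e2 := sum_chooseZ' hB (by norm_num) b 2 (by norm_num)
  rw [hα, hb8] at e1 e2
  set g : Finset α → ℤ := fun c => (Nat.choose (b ∩ c).card 1 : ℤ) - 2 * (Nat.choose (b ∩ c).card 2 : ℤ) with hg
  have hsum : ∑ c ∈ blocks B, g c = g b := by
    simp only [hg, sum_sub_distrib, sum_add_distrib, ← mul_sum, e1, e2, inter_self, hb8]
    decide +kernel
  have hz := all_zero_of_sum (blocks B) b (mem_blocks.mpr hb) g hsum (by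
    intro c hc hcb
    have hlt := inter_card_lt hB hb (mem_blocks.mp hc) hcb.symm
    simp only [hg]
    interval_cases (b ∩ c).card <;> simp [Nat.choose]) c (mem_blocks.mpr hc) hbc.symm
  have hlt := inter_card_lt hB hb hc hbc
  simp only [hg] at hz
  interval_cases h : (b ∩ c).card <;> simp_all [Nat.choose]

end Cfsg.Agent.S0356
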