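import Cfsg.Statements.S0357
import Mathlib
import Cfsg.Agent.Lib.Helper3_Steiner2

set_option autoImplicit false
open Cfsg

namespace Cfsg.Agent.S0357

open Cfsg.Agent.Lib.Helper3_Steiner Cfsg.Agent.Lib.Helper3_Steiner2 Finset


/-- In a Steiner system S(5, 6, 12), the complement of every block is again a block. -/
theorem result {α : Type*} [Fintype α] [DecidableEq α] (hα : Fintype.card α = 12) {B : Set (Finset α)} (hB : Cfsg.IsSteinerSystem 5 6 B) {b : Finset α} (hb : b ∈ B) : bᶜ ∈ B := by
  have hb8 : b.card = 6 := hB.1 b hb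
  have e0 := sum_chooseZ' hB (by norm_num) b 0 (by norm_num)
  have e1 := sum_chooseZ' hB (by norm_num) b 1 (by norm_num)
  have e2 := sum_chooseZ' hB (by norm_num) b 2 (by norm_num)
  have e3 := sum_chooseZ' hB (by norm_num) b 3 (by norm_num)
  have e4 := sum_chooseZ' hB (by norm_num) b 4 (by norm_num)
  rw [hα, hb8] at e0 e1 e2 e3 e4
  set g : Finset α → ℤ := fun c => (Nat.choose (b ∩ c).card 0 : ℤ) + (Nat.choose (b ∩ c).card 2 : ℤ)
    + (Nat.choose (b ∩ c).card 4 : ℤ) - (Nat.choose (b ∩ c).card 1 : ℤ) - (Nat.choose (b ∩ c).card 3 : ℤ) with hg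
  have hsum : ∑ c ∈ blocks B, g c = 6 := by
    simp only [hg, sum_sub_distrib, sum_add_distrib, e0, e1, e2, e3, e4]
    decide +kernel
  have hgb : g b = 5 := by
    simp only [hg, inter_self, hb8]
    decide +kernel
  have h2 := sum_eq_add_card (blocks B) b (mem_blocks.mpr hb) g (fun c => Disjoint b c) 1 (by
    intro c hc hcb
    have hlt := inter_card_lt hB hb (mem_blocks.mp hc) hcb.symm
    simp only [hg, disjoint_iff_inter_eq_empty, ← card_eq_zero]
    interval_cases (b ∩ c).card <;> simp [Nat.choose]) (by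
    intro h
    rw [disjoint_self] at h
    rw [h] at hb8
    simp at hb8)
  rw [hsum, hgb] at h2
  have h5 : ((blocks B).filter (fun c => Disjoint b c)).card = 1 := by
    clear e0 e1 e2 e3 e4 hsum hgb
    omega
  obtain ⟨c, hc⟩ := card_eq_one.mp h5
  have hc' : c ∈ (blocks B).filter (fun c => Disjoint b c) := by rw [hc]; simp
  rw [mem_filter, mem_blocks] at hc'
  have hsub : c ⊆ bᶜ := by
    intro x hx
    rw [mem_compl]
    intro hxb
    exact (disjoint_left.mp hc'.2 hxb) hx
  have hcard : bᶜ.card = c.card := by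
    rw [card_compl, hα, hb8, hB.1 c hc'.1]
  rw [← eq_of_subset_of_card_le hsub hcard.le]
  exact hc'.1

end Cfsg.Agent.S0357
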