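import Cfsg.Statements.S0439


set_option autoImplicit false
open Cfsg

namespace Cfsg.Agent.S0439

theorem swap_prod {α : Type*} [DecidableEq α] [Fintype α] {σ τ : Equiv.Perm α} (hσ : σ.IsSwap)
    (hτ : τ.IsSwap) : (σ * τ) ^ 2 = 1 ∨ (σ * τ) ^ 3 = 1 := by
  have hs2 : ∀ ρ : Equiv.Perm α, ρ.IsSwap → ρ * ρ = 1 := by
    rintro ρ ⟨x, y, _, rfl⟩
    exact Equiv.swap_mul_self x y
  by_cases hd : Equiv.Perm.Disjoint σ τ
  · left
    rw [hd.commute.mul_pow, pow_two, pow_two, hs2 σ hσ, hs2 τ hτ, one_mul]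
  · unfold Equiv.Perm.Disjoint at hd
    push Not at hd
    obtain ⟨x, hx1, hx2⟩ := hd
    have e1 : σ = Equiv.swap x (σ x) := hσ.isCycle.eq_swap_of_apply_apply_eq_self hx1 (by
      have := congrArg (fun ρ : Equiv.Perm α => ρ x) (hs2 σ hσ)
      simpa using this)
    have e2 : τ = Equiv.swap x (τ x) := hτ.isCycle.eq_swap_of_apply_apply_eq_self hx2 (by
      have := congrArg (fun ρ : Equiv.Perm α => ρ x) (hs2 τ hτ)
      simpa using this)
    by_cases hyz : σ x = τ x
    · left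
      have : σ = τ := by rw [e1, e2, hyz]
      rw [this, hs2 τ hτ, one_pow]
    · right
      have h3 := Equiv.Perm.isThreeCycle_swap_mul_swap_same (Ne.symm hx1) (Ne.symm hx2) hyz
      rw [← e1, ← e2] at h3
      rw [← h3.orderOf]
      exact pow_orderOf_eq_one _

/-- In the symmetric group of degree n ≥ 2, the set of transpositions is a conjugacy class of 3-transpositions which generates the group. -/
theorem result (n : ℕ) (hn : 2 ≤ n) : Cfsg.IsThreeTranspositionClass {σ : Equiv.Perm (Fin n) | σ.IsSwap} := by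
  obtain ⟨m, rfl⟩ : ∃ m, n = m + 2 := ⟨n - 2, by omega⟩
  refine ⟨⟨?_, ?_⟩, ?_, Equiv.Perm.closure_isSwap⟩
  · rintro σ ⟨x, y, hxy, rfl⟩
    exact orderOf_eq_prime (by rw [pow_two]; exact Equiv.swap_mul_self x y)
      (fun h => hxy (Equiv.swap_eq_one_iff.1 h))
  · intro σ hσ τ hτ
    exact swap_prod hσ hτ
  · have h01 : (0 : Fin (m + 2)) ≠ 1 := by
      intro h
      have := congrArg Fin.val h
      simp at this
    refine ⟨Equiv.swap 0 1, ⟨0, 1, h01, rfl⟩, ?_⟩
    ext σ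
    show σ.IsSwap ↔ IsConj (Equiv.swap 0 1) σ
    constructor
    · rintro ⟨x, y, hxy, rfl⟩
      exact Equiv.Perm.isConj_swap h01 hxy
    · intro h
      obtain ⟨g, hg⟩ := isConj_iff.1 h
      refine ⟨g 0, g 1, fun h => h01 (g.injective h), ?_⟩
      rw [← hg, Equiv.swap_apply_apply]

end Cfsg.Agent.S0439
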