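import Cfsg.Statements.S0440
import Cfsg.Agent.Lib.Helper5_SympTv

set_option autoImplicit false
open Cfsg

namespace Cfsg.Agent.S0440

open Matrix Cfsg.Agent.Lib.Helper5_Symp Cfsg.Agent.Lib.Helper5_SympGen Cfsg.Agent.Lib.Helper5_SympTv

variable {n : ℕ}

lemma z2 (c : ZMod 2) (hc : c ≠ 0) : c = 1 := by
  revert c; decide

lemma mem_D (g : Matrix.symplecticGroup (Fin n) (ZMod 2)) :
    ((g : Matrix (Fin n ⊕ Fin n) (Fin n ⊕ Fin n) (ZMod 2)) - 1).rank = 1 ↔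
      ∃ w : Fin n ⊕ Fin n → ZMod 2, w ≠ 0 ∧ g = tv w 1 := by
  constructor
  · intro h
    obtain ⟨w, c, hw, hc, rfl⟩ := eq_tv_of_rank g h
    exact ⟨w, hw, by rw [z2 c hc]⟩
  · rintro ⟨w, hw, rfl⟩
    exact rank_tv w 1 hw one_ne_zero

lemma tv_sq (w : Fin n ⊕ Fin n → ZMod 2) : tv w (1 : ZMod 2) * tv w 1 = 1 := by
  rw [tv_mul, show (1 : ZMod 2) + 1 = 0 from by decide, tv_zero_right]

lemma tv_inv (w : Fin n ⊕ Fin n → ZMod 2) : (tv w (1 : ZMod 2))⁻¹ = tv w 1 :=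
  inv_eq_of_mul_eq_one_right (tv_sq w)

lemma three (v w : Fin n ⊕ Fin n → ZMod 2) :
    (tv v (1 : ZMod 2) * tv w 1) ^ 2 = 1 ∨ (tv v (1 : ZMod 2) * tv w 1) ^ 3 = 1 := by
  have h1 := conj_tv (tv v (1 : ZMod 2)) w 1
  have h2 := conj_tv (tv w (1 : ZMod 2)) v 1
  rw [tv_inv, tv_mulVec, one_mul] at h1 h2
  by_cases ha : sB n (ZMod 2) w v = 0
  · left
    rw [ha, zero_smul, add_zero] at h1
    rw [pow_two, ← mul_assoc, h1, tv_sq]
  · right
    have ha' : sB n (ZMod 2) v w = 1 := by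
      apply z2
      rw [sB_swap]
      exact neg_ne_zero.2 ha
    rw [z2 _ ha, one_smul] at h1
    rw [ha', one_smul, add_comm] at h2
    have : (tv v (1 : ZMod 2) * tv w 1) ^ 3 =
        (tv v (1 : ZMod 2) * tv w 1 * tv v 1) * (tv w (1 : ZMod 2) * tv v 1 * tv w 1) := by
      rw [pow_succ, pow_two]
      simp only [mul_assoc]
    rw [this, h1, h2, tv_sq]

theorem result (n : ℕ) (hn : 1 ≤ n) : Cfsg.IsThreeTranspositionClass {g : Matrix.symplecticGroup (Fin n) (ZMod 2) | ((g : Matrix (Fin n ⊕ Fin n) (Fin n ⊕ Fin n) (ZMod 2)) - 1).rank = 1} := by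
  refine ⟨⟨?_, ?_⟩, ?_, ?_⟩
  · intro d hd
    obtain ⟨w, hw, rfl⟩ := (mem_D d).1 hd
    exact orderOf_eq_prime (by rw [pow_two, tv_sq]) (tv_ne_one w 1 hw one_ne_zero)
  · intro d hd e he
    obtain ⟨v, hv, rfl⟩ := (mem_D d).1 hd
    obtain ⟨w, hw, rfl⟩ := (mem_D e).1 he
    exact three v w
  · have hw0 : (Pi.single (Sum.inl ⟨0, hn⟩) 1 : Fin n ⊕ Fin n → ZMod 2) ≠ 0 := by
      intro h
      have := congrFun h (Sum.inl ⟨0, hn⟩)
      rw [Pi.single_eq_same] at this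
      exact one_ne_zero this
    refine ⟨tv (Pi.single (Sum.inl ⟨0, hn⟩) 1) 1, (mem_D _).2 ⟨_, hw0, rfl⟩, ?_⟩
    ext e
    change _ ↔ IsConj _ e
    rw [isConj_iff, Set.mem_setOf_eq, mem_D]
    constructor
    · rintro ⟨w, hw, rfl⟩
      obtain ⟨t, -, ht⟩ := exists_move _ w hw0 hw
      exact ⟨t, by rw [conj_tv, ht]⟩
    · rintro ⟨c, rfl⟩
      refine ⟨_, ?_, conj_tv _ _ _⟩
      intro h0
      apply hw0
      have := inv_mulVec c (Pi.single (Sum.inl ⟨0, hn⟩) 1 : Fin n ⊕ Fin n → ZMod 2)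
      rw [h0, Matrix.mulVec_zero] at this
      exact this.symm
  · rw [eq_top_iff, ← T_eq_top]
    unfold T
    rw [Subgroup.closure_le]
    rintro A ⟨w, c, hA⟩
    have hA' : A = tv w c := Subtype.ext hA
    by_cases hw : w = 0
    · rw [hA', hw, tv_zero_left]; exact Subgroup.one_mem _
    · by_cases hc : c = 0
      · rw [hA', hc, tv_zero_right]; exact Subgroup.one_mem _
      · apply Subgroup.subset_closure
        exact (mem_D A).2 ⟨w, hw, by rw [hA', z2 c hc]⟩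

end Cfsg.Agent.S0440
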