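import Cfsg.Statements.S0442
import Cfsg.Agent.Lib.Helper1_Invol

set_option autoImplicit false
open Cfsg

namespace Cfsg.Agent.S0442

open Cfsg.Agent.Lib.Helper1_Invol

theorem commute_half {G : Type*} [Group G] {x y : G} (hx : x * x = 1) (hy : y * y = 1) (m : ℕ)
    (h : (x * y) ^ (2 * m) = 1) : Commute ((x * y) ^ m) x := by
  have h1 := x_mul_zpow hx hy (m : ℤ)
  have h2 : (x * y) ^ (-(m : ℤ)) = (x * y) ^ (m : ℤ) := by
    have : (x * y) ^ ((2 * m : ℕ) : ℤ) = 1 := by rw [zpow_natCast]; exact h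
    have e : (m : ℤ) = -(m : ℤ) + ((2 * m : ℕ) : ℤ) := by push_cast; ring
    conv_rhs => rw [e, zpow_add, this, mul_one]
  rw [h2, zpow_natCast] at h1
  exact h1.symm

/-- A standard trick for producing elements of an involution centraliser: for an involution a and an element g, let b be the conjugate g⁻¹ * a * g. If a * b has odd order 2m + 1 then g * (a * b) ^ m commutes with a; if a * b has even order 2m then (a * b) ^ m and (a * (g * a * g⁻¹)) ^ m commute with a. -/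
theorem result {G : Type*} [Group G] (a g : G) (ha : orderOf a = 2) : (∀ m : ℕ, orderOf (a * (g⁻¹ * a * g)) = 2 * m + 1 → Commute (g * (a * (g⁻¹ * a * g)) ^ m) a) ∧ (∀ m : ℕ, orderOf (a * (g⁻¹ * a * g)) = 2 * m → Commute ((a * (g⁻¹ * a * g)) ^ m) a ∧ Commute ((a * (g * a * g⁻¹)) ^ m) a) := by
  have ha2 := mul_self_of_order ha
  have hy2 : (g⁻¹ * a * g) * (g⁻¹ * a * g) = 1 := by
    calc (g⁻¹ * a * g) * (g⁻¹ * a * g) = g⁻¹ * (a * a) * g := by group
      _ = 1 := by rw [ha2]; group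
  have hy2' : (g * a * g⁻¹) * (g * a * g⁻¹) = 1 := by
    calc (g * a * g⁻¹) * (g * a * g⁻¹) = g * (a * a) * g⁻¹ := by group
      _ = 1 := by rw [ha2]; group
  refine ⟨?_, ?_⟩
  · intro m hm
    set y := g⁻¹ * a * g with hy
    have h1 : (a * y) ^ (m : ℤ) * a * ((a * y) ^ (m : ℤ))⁻¹ = y := by
      rw [zpow_conj_x ha2 hy2]
      conv_rhs => rw [y_eq ha2 hy2]
      congr 1
      have h1 : (a * y) ^ ((2 * m + 1 : ℕ) : ℤ) = 1 := by
        rw [zpow_natCast, ← hm]; exact pow_orderOf_eq_one _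
      have h2 : (2 * (m : ℤ)) = ((2 * m + 1 : ℕ) : ℤ) + (-1) := by push_cast; ring
      rw [h2, zpow_add, h1, one_mul]
    rw [zpow_natCast] at h1
    have h2 : (g * (a * y) ^ m) * a * (g * (a * y) ^ m)⁻¹ = a := by
      calc (g * (a * y) ^ m) * a * (g * (a * y) ^ m)⁻¹
          = g * ((a * y) ^ m * a * ((a * y) ^ m)⁻¹) * g⁻¹ := by group
        _ = g * y * g⁻¹ := by rw [h1]
        _ = a := by rw [hy]; group
    exact mul_inv_eq_iff_eq_mul.1 h2
  · intro m hm
    refine ⟨commute_half ha2 hy2 m (by rw [← hm]; exact pow_orderOf_eq_one _), ?_⟩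
    apply commute_half ha2 hy2' m
    have e : a * (g * a * g⁻¹) = g * (a * (g⁻¹ * a * g))⁻¹ * g⁻¹ := by
      rw [mul_inv_rev, mul_inv_rev, mul_inv_rev, inv_inv, inv_of_mul_self ha2]; group
    rw [e, conj_pow, inv_pow, ← hm, pow_orderOf_eq_one]; group

end Cfsg.Agent.S0442
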