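import Cfsg.Statements.S0443
import Cfsg.Agent.Lib.Helper1_Klein

set_option autoImplicit false
open Cfsg

namespace Cfsg.Agent.S0443

open Cfsg.Agent.Lib.Helper1_Invol Cfsg.Agent.Lib.Helper1_Klein

/-- Two definitions of a 2-central involution agree: an element t of order 2 of a finite group lies in the centre of some Sylow 2-subgroup if and only if its centraliser contains some Sylow 2-subgroup. -/
theorem result {G : Type*} [Group G] [Finite G] (t : G) (ht : orderOf t = 2) : Cfsg.IsTwoCentralInvolution t ↔ ∃ P : Sylow 2 G, (P : Subgroup G) ≤ Subgroup.centralizer ({t} : Set G) := by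
  constructor
  · rintro ⟨_, P, _, hP⟩
    refine ⟨P, fun x hx => ?_⟩
    rw [Subgroup.mem_centralizer_singleton_iff]
    exact hP x hx
  · rintro ⟨P, hP⟩
    have hc : ∀ x ∈ P, x * t = t * x := fun x hx => Subgroup.mem_centralizer_singleton_iff.1 (hP hx)
    refine ⟨ht, P, ?_, hc⟩
    apply mem_of_two_pow P _ (k := 1)
    · rw [pow_one, pow_two]; exact mul_self_of_order ht
    · show t ∈ Subgroup.normalizer ((P : Subgroup G) : Set G)
      rw [Subgroup.mem_normalizer_iff]
      intro x
      constructor
      · intro hx
        rw [← hc x hx, mul_inv_cancel_right]; exact hx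
      · intro hx
        have h1 := hc _ hx
        have h2 : x = t⁻¹ * (t * x * t⁻¹) * t := by group
        rw [h2, mul_assoc, h1, inv_mul_cancel_left]
        exact hx

end Cfsg.Agent.S0443
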