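import Cfsg.Statements.S0445
import Cfsg.Agent.Lib.Helper5_SqZeroCent

set_option autoImplicit false

open Cfsg

namespace Cfsg.Agent.S0445

open Cfsg.Agent.Lib.Helper5_SqZeroCent

theorem toGL_surj (g : GL (Fin 5) (ZMod 2)) : ∃ a : Matrix.SpecialLinearGroup (Fin 5) (ZMod 2),
    Matrix.SpecialLinearGroup.toGL a = g := by
  have hdet : (g : Matrix (Fin 5) (Fin 5) (ZMod 2)).det = 1 := by
    have h := (Matrix.isUnit_iff_isUnit_det _).1 g.isUnit
    generalize (g : Matrix (Fin 5) (Fin 5) (ZMod 2)).det = d at h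
    revert d
    decide
  obtain ⟨a, ha⟩ : ∃ a : Matrix.SpecialLinearGroup (Fin 5) (ZMod 2),
      (a : Matrix (Fin 5) (Fin 5) (ZMod 2)) = (g : Matrix (Fin 5) (Fin 5) (ZMod 2)) := ⟨⟨_, hdet⟩, rfl⟩
  refine ⟨a, ?_⟩
  apply Units.ext
  rw [← ha]
  exact Matrix.SpecialLinearGroup.coe_GL_coe_matrix a

theorem result (s : Matrix.SpecialLinearGroup (Fin 5) (ZMod 2)) (hs : (s : Matrix (Fin 5) (Fin 5) (ZMod 2)) = Matrix.transvection 0 1 1) : Nat.card (Subgroup.centralizer ({s} : Set (Matrix.SpecialLinearGroup (Fin 5) (ZMod 2)))) = 21504 := by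
  have hinj : Function.Injective (Matrix.SpecialLinearGroup.toGL : Matrix.SpecialLinearGroup (Fin 5) (ZMod 2) →* GL (Fin 5) (ZMod 2)) := by
    intro a b h
    apply Subtype.ext
    exact congrArg (fun u : GL (Fin 5) (ZMod 2) => (u : Matrix (Fin 5) (Fin 5) (ZMod 2))) h
  let e : Matrix.SpecialLinearGroup (Fin 5) (ZMod 2) ≃ GL (Fin 5) (ZMod 2) :=
    Equiv.ofBijective _ ⟨hinj, toGL_surj⟩
  have h1 : Nat.card (Subgroup.centralizer ({s} : Set (Matrix.SpecialLinearGroup (Fin 5) (ZMod 2))))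
      = Nat.card (Subgroup.centralizer ({Matrix.SpecialLinearGroup.toGL s} : Set (GL (Fin 5) (ZMod 2)))) := by
    refine Nat.card_congr (Equiv.subtypeEquiv e ?_)
    intro a
    rw [Subgroup.mem_centralizer_singleton_iff, Subgroup.mem_centralizer_singleton_iff]
    show _ ↔ Matrix.SpecialLinearGroup.toGL a * _ = _ * Matrix.SpecialLinearGroup.toGL a
    rw [← map_mul, ← map_mul, hinj.eq_iff]
  have hc : ((Matrix.SpecialLinearGroup.toGL s : GL (Fin 5) (ZMod 2)) : Matrix (Fin 5) (Fin 5) (ZMod 2)) - 1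
      = Matrix.single 0 1 1 := by
    show (s : Matrix (Fin 5) (Fin 5) (ZMod 2)) - 1 = _
    rw [hs, Matrix.transvection, add_sub_cancel_left]
  have hsq : (Matrix.single 0 1 1 : Matrix (Fin 5) (Fin 5) (ZMod 2)) * Matrix.single 0 1 1 = 0 := by
    decide
  have hrank : (Matrix.single 0 1 1 : Matrix (Fin 5) (Fin 5) (ZMod 2)).rank = 1 := by
    apply le_antisymm
    · have : (Matrix.single 0 1 1 : Matrix (Fin 5) (Fin 5) (ZMod 2)) = Matrix.vecMulVec (Pi.single 0 1) (Pi.single 1 1) := by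
        decide
      rw [this]
      exact Matrix.rank_vecMulVec_le _ _
    · rw [Nat.one_le_iff_ne_zero]
      intro h0
      have h00 : (Matrix.single 0 1 1 : Matrix (Fin 5) (Fin 5) (ZMod 2)).mulVecLin = 0 := by
        rw [← LinearMap.range_eq_bot]
        exact Submodule.finrank_eq_zero.1 h0
      have := congrFun (congrArg (fun f => f (Pi.single 1 1)) h00) 0
      revert this
      simp
  rw [h1, card_centralizer_sqzero 5 _ (by rw [hc, hsq]) 1 3 (by rw [hc, hrank]) (by norm_num),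
    Matrix.card_GL_field, Matrix.card_GL_field]
  simp [Fin.prod_univ_three, ZMod.card]

end Cfsg.Agent.S0445
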