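import Cfsg.Statements.S0446
import Cfsg.Agent.Lib.Helper4_Syl

set_option autoImplicit false
open Cfsg

namespace Cfsg.Agent.S0446

open Cfsg.Agent.Lib.Helper4_Syl

/-- Every finite group of even order contains a 2-central involution, i.e. an element of order 2 in the centre of some Sylow 2-subgroup. -/
theorem result {G : Type*} [Group G] [Finite G] (h : Even (Nat.card G)) : ∃ t : G, Cfsg.IsTwoCentralInvolution t := by
  haveI : Fact (Nat.Prime 2) := ⟨Nat.prime_two⟩
  obtain ⟨P⟩ : Nonempty (Sylow 2 G) := inferInstance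
  have hne : (P : Subgroup G) ≠ ⊥ := P.ne_bot_of_dvd_card h.two_dvd
  obtain ⟨z, hz, hzo, hzc⟩ := exists_central_orderOf_eq P.2 hne
  exact ⟨z, hzo, P, hz, hzc⟩

end Cfsg.Agent.S0446
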