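import Cfsg.Statements.S0481
import Mathlib

set_option autoImplicit false
open Cfsg

namespace Cfsg.Agent.S0481

open Subgroup
open scoped Pointwise

/-- Large extraspecial subgroups: let z be an involution of a finite group G whose centraliser C contains a normal 2-subgroup Q with centre of order 2 and all squares central, such that every element of G centralising Q lies in Q. Then C contains a Sylow 2-subgroup of G, and any involution of G whose centraliser contains a Sylow 2-subgroup of G is conjugate to z. -/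
theorem result {G : Type*} [Group G] [Finite G] (z : G) (hz : orderOf z = 2) (Q : Subgroup G) (hQC : Q ≤ Subgroup.centralizer ({z} : Set G)) (hQn : ∀ g ∈ Subgroup.centralizer ({z} : Set G), ∀ q ∈ Q, g * q * g⁻¹ ∈ Q) (hQ2 : IsPGroup 2 Q) (hZ : Nat.card (Subgroup.center Q) = 2) (hsq : ∀ x : Q, x ^ 2 ∈ Subgroup.center Q) (hlarge : Subgroup.centralizer (Q : Set G) ≤ Q) : (∃ P : Sylow 2 G, (P : Subgroup G) ≤ Subgroup.centralizer ({z} : Set G)) ∧ ∀ u : G, orderOf u = 2 → (∃ P : Sylow 2 G, (P : Subgroup G) ≤ Subgroup.centralizer ({u} : Set G)) → IsConj z u := by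
  -- `z` lies in `Q` and is central there
  have hzQ : z ∈ Q := by
    apply hlarge
    rw [mem_centralizer_iff]
    intro q hq
    have := hQC hq
    rw [mem_centralizer_singleton_iff] at this
    exact this
  have hz1 : z ≠ 1 := by
    rintro rfl
    rw [orderOf_one] at hz
    omega
  have hzc : (⟨z, hzQ⟩ : Q) ∈ center Q := by
    rw [mem_center_iff]
    intro q
    apply Subtype.ext
    have := hQC q.2
    rw [mem_centralizer_singleton_iff] at this
    exact this
  -- every central element of `Q` is `1` or `z`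
  have hcen : ∀ x : Q, x ∈ center Q → x = 1 ∨ x = ⟨z, hzQ⟩ := by
    intro x hx
    obtain ⟨y, -, hy⟩ := (Nat.card_eq_two_iff' (1 : center Q)).1 hZ
    by_cases hx1 : x = 1
    · exact Or.inl hx1
    · right
      have h1 := hy ⟨x, hx⟩ (fun h => hx1 (congrArg Subtype.val h))
      have h2 := hy ⟨⟨z, hzQ⟩, hzc⟩ (fun h => hz1 (congrArg (fun t : center Q => (t.1.1 : G)) h))
      exact congrArg Subtype.val (h1.trans h2.symm)
  obtain ⟨P, hQP⟩ := hQ2.exists_le_sylow
  have key : ∀ x ∈ (P : Subgroup G), (∀ y ∈ (P : Subgroup G), y * x = x * y) → x = 1 ∨ x = z := by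
    intro x _ hxc
    have hxQ : x ∈ Q := by
      apply hlarge
      rw [mem_centralizer_iff]
      intro q hq
      exact hxc q (hQP hq)
    have hxcen : (⟨x, hxQ⟩ : Q) ∈ center Q := by
      rw [mem_center_iff]
      intro q
      apply Subtype.ext
      exact hxc q.1 (hQP q.2)
    rcases hcen _ hxcen with h | h
    · left; exact congrArg Subtype.val h
    · right; exact congrArg Subtype.val h
  have hPC : (P : Subgroup G) ≤ centralizer ({z} : Set G) := by
    haveI : Nontrivial P := ⟨⟨⟨z, hQP hzQ⟩, 1, fun h => hz1 (congrArg Subtype.val h)⟩⟩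
    have hnt := P.isPGroup'.center_nontrivial
    obtain ⟨c, hc1⟩ := exists_ne (1 : center P)
    have hcz : (c.1.1 : G) = z := by
      rcases key c.1.1 c.1.2 (fun y hy => congrArg Subtype.val (mem_center_iff.1 c.2 ⟨y, hy⟩)) with h | h
      · exfalso; apply hc1; apply Subtype.ext; apply Subtype.ext; exact h
      · exact h
    intro y hy
    rw [mem_centralizer_singleton_iff, ← hcz]
    exact congrArg Subtype.val (mem_center_iff.1 c.2 ⟨y, hy⟩)
  refine ⟨⟨P, hPC⟩, ?_⟩
  rintro u hu ⟨P', hP'⟩
  obtain ⟨g, hg⟩ := MulAction.exists_smul_eq G P' P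
  have hu1 : u ≠ 1 := by
    rintro rfl
    rw [orderOf_one] at hu
    omega
  -- `u' = g u g⁻¹` centralises `P`
  have hcent : ∀ y ∈ (P : Subgroup G), y * (g * u * g⁻¹) = (g * u * g⁻¹) * y := by
    intro y hy
    rw [← hg] at hy
    have hy' : y ∈ MulAut.conj g • (P' : Subgroup G) := hy
    rw [Subgroup.mem_pointwise_smul_iff_inv_smul_mem] at hy'
    have h1 : g⁻¹ * y * g ∈ (P' : Subgroup G) := by simpa [MulAut.smul_def] using hy'
    have h2 := hP' h1
    rw [mem_centralizer_singleton_iff] at h2
    calc y * (g * u * g⁻¹) = g * ((g⁻¹ * y * g) * u) * g⁻¹ := by group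
      _ = g * (u * (g⁻¹ * y * g)) * g⁻¹ := by rw [h2]
      _ = (g * u * g⁻¹) * y := by group
  have hu'P : g * u * g⁻¹ ∈ (P : Subgroup G) := by
    have hord : orderOf (g * u * g⁻¹) = 2 := by
      have := orderOf_injective (MulAut.conj g).toMonoidHom (MulAut.conj g).injective u
      simpa [hu] using this
    have hz2 : IsPGroup 2 (zpowers (g * u * g⁻¹)) :=
      IsPGroup.of_card (n := 1) (by rw [Nat.card_zpowers, hord, pow_one])
    have hnorm : zpowers (g * u * g⁻¹) ≤ normalizer ((P : Subgroup G) : Set G) := by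
      rw [zpowers_le, mem_normalizer_iff]
      intro y
      constructor
      · intro hy
        rw [← hcent y hy, mul_inv_cancel_right]; exact hy
      · intro hy
        have h3 := hcent _ hy
        have h4 : y = (g * u * g⁻¹)⁻¹ * ((g * u * g⁻¹) * y * (g * u * g⁻¹)⁻¹ * (g * u * g⁻¹)) := by group
        rw [h3] at h4
        have h5 : y = (g * u * g⁻¹) * y * (g * u * g⁻¹)⁻¹ := by
          conv_lhs => rw [h4]
          group
        rw [h5]; exact hy
    have h3 : IsPGroup 2 ((P : Subgroup G) ⊔ zpowers (g * u * g⁻¹) : Subgroup G) := by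
      rw [sup_comm]
      exact hz2.to_sup_of_normal_right' P.isPGroup' hnorm
    have h4 := P.is_maximal' h3 le_sup_left
    rw [← h4]
    exact mem_sup_right (mem_zpowers _)
  rcases key _ hu'P hcent with h | h
  · exfalso
    apply hu1
    have : u = g⁻¹ * (g * u * g⁻¹) * g := by group
    rw [this, h]; group
  · rw [isConj_comm, isConj_iff]
    exact ⟨g, h⟩

end Cfsg.Agent.S0481
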