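import Mathlib
import Cfsg.Agent.Lib.helper6_FrobTwo
import Cfsg.Statements.S0499

set_option autoImplicit false
open Cfsg

namespace Cfsg.Agent.S0499

/-- A non-abelian finite simple group of even order has order divisible by 12, 16 or 56. -/
theorem result {G : Type*} [Group G] [Finite G] [IsSimpleGroup G]
    (hG : ¬ IsMulCommutative G) (h2 : Even (Nat.card G)) :
    12 ∣ Nat.card G ∨ 16 ∣ Nat.card G ∨ 56 ∣ Nat.card G := by
  classical
  have := Fact.mk Nat.prime_two
  by_contra hcon
  push Not at hcon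
  obtain ⟨h12, h16, h56⟩ := hcon
  have hF : Cfsg.Agent.Lib.Helper1_FrobPNil.FrobHyp 2 G := by
    intro Q hQ g hg hcop
    obtain ⟨k, hk⟩ := IsPGroup.iff_card.1 hQ
    have hQG : Nat.card Q ∣ Nat.card G := Subgroup.card_subgroup_dvd_card Q
    have hk3 : k ≤ 3 := by
      by_contra hk4
      apply h16
      refine dvd_trans ?_ hQG
      rw [hk]
      exact pow_dvd_pow 2 (show 4 ≤ k by omega)
    have hQ8 : Nat.card Q ∣ 8 := by
      rw [hk]
      exact pow_dvd_pow 2 hk3
    have hidx : (frattini Q).index ∣ Nat.card Q := Subgroup.index_dvd_card _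
    have hodd : Odd (orderOf g) := (Nat.coprime_two_right).1 hcop
    have hgG : orderOf g ∣ Nat.card G := orderOf_dvd_natCard g
    rcases Cfsg.Agent.Lib.helper6_FrobTwo.centralizes_or Q hQ g hg hodd (hidx.trans hQ8) with
      h | ⟨h3, h4⟩ | ⟨h7, h8⟩
    · exact h
    · exfalso
      apply h12
      exact Nat.Coprime.mul_dvd_of_dvd_of_dvd (by norm_num : Nat.Coprime 3 4) (h3.trans hgG)
        (h4.trans (hidx.trans hQG))
    · exfalso
      apply h56
      exact Nat.Coprime.mul_dvd_of_dvd_of_dvd (by norm_num : Nat.Coprime 7 8) (h7.trans hgG)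
        (h8 ▸ (hidx.trans hQG))
  obtain ⟨N, hN, hcop, k, hk⟩ := Cfsg.Agent.Lib.Helper1_FrobPNil.frobenius hF
  rcases IsSimpleGroup.eq_bot_or_eq_top_of_normal N hN with rfl | rfl
  · rw [Subgroup.index_bot] at hk
    have hp : IsPGroup 2 G := IsPGroup.of_card hk
    have hnt : Nontrivial (Subgroup.center G) := hp.center_nontrivial
    rcases IsSimpleGroup.eq_bot_or_eq_top_of_normal (Subgroup.center G) inferInstance with h | h
    · rw [h] at hnt
      exact not_subsingleton _ (inferInstance : Subsingleton (⊥ : Subgroup G))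
    · apply hG
      refine ⟨⟨fun a b => ?_⟩⟩
      have : b ∈ Subgroup.center G := h ▸ Subgroup.mem_top b
      exact (Subgroup.mem_center_iff.1 this a)
  · rw [Nat.card_congr Subgroup.topEquiv.toEquiv] at hcop
    have := (Nat.coprime_two_right).1 hcop
    exact (Nat.not_even_iff_odd.2 this) h2

end Cfsg.Agent.S0499
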