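import Cfsg.Statements.S0514
import Cfsg.Agent.Lib.helper8_Dih8

set_option autoImplicit false
open Cfsg

namespace Cfsg.Agent.S0514

open Cfsg.Agent.Lib.helper8_Klein Cfsg.Agent.Lib.helper8_Dih1 Cfsg.Agent.Lib.helper8_Dih5
  Cfsg.Agent.Lib.helper8_Dih8 Cfsg.Agent.Lib.Helper7_ZS1 Cfsg.Agent.Lib.Helper7_ZS13
  Cfsg.Agent.Lib.Helper7_ZS14 Cfsg.Agent.Lib.Helper7_ZS15

theorem klein_case {X : Type*} [Group X] [Finite X] {t a : X} (htt : t * t = 1) (ht1 : t ≠ 1)
    (Q : Subgroup X) (hQ2 : IsPGroup 2 Q) (htQ : t ∈ Q) (haQ : a ∈ Q) (ha1 : a ≠ 1) (hat : a ≠ t)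
    (hQC : Q ≤ Subgroup.centralizer ({t} : Set X))
    (hmax : ∀ T : Subgroup X, IsPGroup 2 T → T ≤ Subgroup.centralizer ({t} : Set X) → Q ≤ T →
      Nat.card T ≤ 4) :
    ∃ N : Subgroup (Subgroup.centralizer ({t} : Set X)), N.Normal ∧ Odd (Nat.card N) ∧
      ∃ k : ℕ, N.index = 2 ^ k := by
  classical
  have : Fact (Nat.Prime 2) := ⟨Nat.prime_two⟩
  set Y := Subgroup.centralizer ({t} : Set X) with hY
  have hQ' : IsPGroup 2 (Q.subgroupOf Y) := hQ2.comap_subtype
  obtain ⟨P', hP'⟩ := hQ'.exists_le_sylow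
  have hT2 : IsPGroup 2 ((P' : Subgroup Y).map Y.subtype) := P'.isPGroup'.map _
  have hTY : (P' : Subgroup Y).map Y.subtype ≤ Y := Subgroup.map_subtype_le _
  have hQT : Q ≤ (P' : Subgroup Y).map Y.subtype := by
    intro x hx
    exact ⟨⟨x, hQC hx⟩, hP' (Subgroup.mem_subgroupOf.mpr hx), rfl⟩
  have hle := hmax _ hT2 hTY hQT
  rw [Subgroup.card_subtype] at hle
  set t' : Y := ⟨t, hQC htQ⟩ with ht'
  set a' : Y := ⟨a, hQC haQ⟩ with ha'
  have htP : t' ∈ (P' : Subgroup Y) := hP' (Subgroup.mem_subgroupOf.mpr htQ)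
  have haP : a' ∈ (P' : Subgroup Y) := hP' (Subgroup.mem_subgroupOf.mpr haQ)
  have hge : 3 ≤ Nat.card (P' : Subgroup Y) := by
    have := Fintype.ofFinite (P' : Subgroup Y)
    rw [Nat.card_eq_fintype_card]
    have h3 : ({1, ⟨t', htP⟩, ⟨a', haP⟩} : Finset (P' : Subgroup Y)).card = 3 := by
      rw [Finset.card_insert_of_notMem, Finset.card_insert_of_notMem, Finset.card_singleton]
      · simp only [Finset.mem_singleton]
        intro h
        exact hat (congrArg (fun x : (P' : Subgroup Y) => ((x : Y) : X)) h).symm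
      · simp only [Finset.mem_insert, Finset.mem_singleton, not_or]
        refine ⟨fun h => ht1 (congrArg (fun x : (P' : Subgroup Y) => ((x : Y) : X)) h).symm,
          fun h => ha1 (congrArg (fun x : (P' : Subgroup Y) => ((x : Y) : X)) h).symm⟩
    rw [← h3]
    exact Finset.card_le_univ _
  have hcard : Nat.card (P' : Subgroup Y) = 4 := by
    obtain ⟨r, hr⟩ := IsPGroup.iff_card.mp P'.isPGroup'
    rw [hr] at hle hge ⊢
    rcases r with _ | _ | _ | r
    · norm_num at hge
    · norm_num at hge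
    · norm_num
    · exfalso
      have : 2 ^ (r + 1 + 1 + 1) = 8 * 2 ^ r := by ring
      have h1 : 1 ≤ 2 ^ r := Nat.one_le_two_pow
      omega
  have hYc : Nat.card Y = 4 * (P' : Subgroup Y).index := by
    rw [← hcard]; exact (Subgroup.card_mul_index _).symm
  have hodd : Odd (P' : Subgroup Y).index := odd_of_not_two_dvd P'.not_dvd_index
  obtain ⟨τ, -, -, -, -, hK⟩ := exists_tau hodd hYc P' (J := t') (a := a')
    (fun h => Subtype.ext (Subgroup.mem_centralizer_singleton_iff.mp h.2)) htP haP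
    (fun h => ht1 (congrArg Subtype.val h)) (fun h => ha1 (congrArg Subtype.val h))
    (fun h => hat (congrArg Subtype.val h)) (Subtype.ext htt)
  refine ⟨τ.ker, MonoidHom.normal_ker τ, by rw [hK]; exact hodd, 2, ?_⟩
  have h1 := τ.ker.card_mul_index
  rw [hK, hYc] at h1
  have h0 : 0 < (P' : Subgroup Y).index := hodd.pos
  have : (P' : Subgroup Y).index * τ.ker.index = (P' : Subgroup Y).index * 4 := by
    rw [h1]; ring
  have := Nat.eq_of_mul_eq_mul_left h0 this
  rw [this]; norm_num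

theorem cent_cases {X : Type*} [Group X] [Finite X] (S : Sylow 2 X) {σ t : X} {h : ℕ}
    (hσS : σ ∈ (S : Subgroup X)) (htS : t ∈ (S : Subgroup X))
    (hq : QLike (⟨σ, hσS⟩ : (S : Subgroup X))) (hσo : orderOf σ = 2 * h)
    (ht : t ∉ Subgroup.zpowers σ) {s : X} (hs : s ∈ (S : Subgroup X)) (hst : Commute s t) :
    s = 1 ∨ s = σ ^ h ∨ s = t ∨ s = σ ^ h * t := by
  have hinv : t * σ * t⁻¹ = σ⁻¹ := by
    rcases act_cases hσS hq htS with h1 | h1
    · exact absurd h1 ht
    · exact h1
  have key : ∀ u ∈ Subgroup.zpowers σ, Commute u t → u = 1 ∨ u = σ ^ h := by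
    intro u hu hc
    apply sq_one_cases hσo hu
    have h1 := conj_inv_of_mem hinv hu
    have h2 : t * u * t⁻¹ = u := by rw [← hc.eq]; group
    rw [h2] at h1
    nth_rewrite 1 [h1]
    exact inv_mul_cancel u
  obtain ⟨i, hi | hi⟩ := mem_cases S hσS htS hq ht hs
  · rcases key _ (Subgroup.zpow_mem_zpowers σ i) (hi ▸ hst) with h1 | h1
    · exact Or.inl (hi.trans h1)
    · exact Or.inr (Or.inl (hi.trans h1))
  · have hc : Commute (σ ^ i) t := by
      have h1 : σ ^ i = s * t⁻¹ := by rw [hi]; group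
      rw [h1]
      exact hst.mul_left ((Commute.refl t).inv_left)
    rcases key _ (Subgroup.zpow_mem_zpowers σ i) hc with h1 | h1
    · right; right; left
      rw [hi, h1, one_mul]
    · right; right; right
      rw [hi, h1]

/-- In a finite group whose Sylow 2-subgroups are dihedral of order at least 4, the centralizer of any involution has a
normal subgroup of odd order whose index in the centralizer is a power of 2. -/
theorem result {X : Type*} [Group X] [Finite X]
    (S : Sylow 2 X) (n : ℕ) (hn : 2 ≤ n) (hS : Nonempty ((S : Subgroup X) ≃* DihedralGroup n)) (t : X)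
    (ht : orderOf t = 2) :
    ∃ N : Subgroup (Subgroup.centralizer ({t} : Set X)), N.Normal ∧ Odd (Nat.card N) ∧ ∃ k : ℕ, N.index = 2 ^ k := by
  classical
  have : Fact (Nat.Prime 2) := ⟨Nat.prime_two⟩
  have := Fintype.ofFinite X
  obtain ⟨e⟩ := hS
  have htt := Cfsg.Agent.Lib.Helper2_Basic.sq_eq_one_of_orderOf_two ht
  have ht1 := Cfsg.Agent.Lib.Helper2_Basic.ne_one_of_orderOf_two ht
  have hcardS : ∀ S' : Sylow 2 X, Nat.card (S' : Subgroup X) = 2 * n := by
    intro S'
    rw [Nat.card_congr ((Sylow.equiv S' S).trans e).toEquiv, DihedralGroup.nat_card]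
  obtain ⟨r, hr⟩ := IsPGroup.iff_card.mp S.isPGroup'
  rw [hcardS S] at hr
  obtain ⟨j, -, hj⟩ := (Nat.dvd_prime_pow Nat.prime_two).mp (⟨2, by rw [← hr]; ring⟩ : n ∣ 2 ^ r)
  have htp : IsPGroup 2 (Subgroup.zpowers t) :=
    IsPGroup.of_card (n := 1) (by rw [Nat.card_zpowers, ht, pow_one])
  obtain ⟨S', hS'⟩ := htp.exists_le_sylow
  have htS' : t ∈ (S' : Subgroup X) := hS' (Subgroup.mem_zpowers t)
  have : NeZero n := ⟨by omega⟩
  by_cases hn2 : n = 2
  · have hc4 : Nat.card (S' : Subgroup X) = 4 := by rw [hcardS S', hn2]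
    obtain ⟨a, haS, ha1, hat⟩ : ∃ a ∈ (S' : Subgroup X), a ≠ 1 ∧ a ≠ t := by
      by_contra hcon
      push Not at hcon
      have hsub : ∀ x : (S' : Subgroup X), x ∈ ({1, ⟨t, htS'⟩} : Finset (S' : Subgroup X)) := by
        intro x
        simp only [Finset.mem_insert, Finset.mem_singleton]
        by_cases hx : (x : X) = 1
        · exact Or.inl (Subtype.ext hx)
        · exact Or.inr (Subtype.ext (hcon x x.2 hx))
      have h1 : Fintype.card (S' : Subgroup X) ≤ ({1, ⟨t, htS'⟩} : Finset (S' : Subgroup X)).card :=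
        Finset.card_le_card (fun x _ => hsub x)
      have h2 := Finset.card_le_two (a := (1 : (S' : Subgroup X))) (b := ⟨t, htS'⟩)
      rw [← Nat.card_eq_fintype_card, hc4] at h1
      omega
    apply klein_case htt ht1 (S' : Subgroup X) S'.isPGroup' htS' haS ha1 hat
    · intro x hx
      rw [Subgroup.mem_centralizer_singleton_iff]
      exact (sylow_comm hc4 hx htS').eq
    · intro T hT _ hle
      rw [S'.is_maximal' hT hle, hc4]
  · have hm : 2 < n := by omega
    obtain ⟨k, rfl⟩ : ∃ k, j = k + 1 := by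
      rcases j with _ | k
      · rw [pow_zero] at hj; omega
      · exact ⟨k, rfl⟩
    have hn' : n = 2 * 2 ^ k := by rw [hj, pow_succ]; ring
    have hgen : ∀ S'' : Sylow 2 X, ∃ σ ∈ (S'' : Subgroup X), orderOf σ = n := by
      intro S''
      refine ⟨(((Sylow.equiv S'' S).trans e).symm (DihedralGroup.r 1) : (S'' : Subgroup X)),
        Subtype.property _, ?_⟩
      rw [Subgroup.orderOf_coe, MulEquiv.orderOf_eq, DihedralGroup.orderOf_r_one]
    by_cases hA : ∃ σ : X, orderOf σ = n ∧ σ ^ 2 ^ k = t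
    · obtain ⟨σ, hσo, hσt⟩ := hA
      have hσp : IsPGroup 2 (Subgroup.zpowers σ) :=
        IsPGroup.of_card (n := k + 1) (by rw [Nat.card_zpowers, hσo, hj])
      obtain ⟨S'', hS''⟩ := hσp.exists_le_sylow
      have hσS : σ ∈ (S'' : Subgroup X) := hS'' (Subgroup.mem_zpowers σ)
      have hd := dlike_all hm S e hσo S'' hσS
      have h1 := centralizer_core_z S'' hσS hd (hσo.trans hn') (n := k + 2)
        (by rw [hcardS S'', hn']; ring)
      rw [hσt] at h1
      exact ⟨Cfsg.pPrimeCore 2 _, Cfsg.pPrimeCore_normal 2 _,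
        Nat.coprime_two_right.mp (Cfsg.Agent.Lib.Helper3_PComp.pPrimeCore_coprime 2 _), k + 2, h1.1⟩
    · push Not at hA
      obtain ⟨σ', hσ'S, hσ'o⟩ := hgen S'
      have hd' := dlike_all hm S e hσ'o S' hσ'S
      have hzc := sylow_le_centralizer S' hσ'S hd'.q (hσ'o.trans hn')
      have hpos : 0 < 2 ^ k := by positivity
      apply klein_case htt ht1 ((S' : Subgroup X) ⊓ Subgroup.centralizer ({t} : Set X))
        (S'.isPGroup'.to_le inf_le_left) (a := σ' ^ 2 ^ k)
        ⟨htS', Subgroup.mem_centralizer_singleton_iff.mpr rfl⟩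
        ⟨Subgroup.pow_mem _ hσ'S _, by
          show σ' ^ 2 ^ k ∈ Subgroup.centralizer ({t} : Set X)
          rw [Subgroup.mem_centralizer_singleton_iff]
          exact (Subgroup.mem_centralizer_singleton_iff.mp (hzc htS')).symm⟩
        (Cfsg.Agent.Lib.helper8_Dih3.pow_ne_one (hσ'o.trans hn') hpos (by omega))
        (hA σ' hσ'o) inf_le_right
      intro T hT hTC hle
      obtain ⟨S'', hS''⟩ := hT.exists_le_sylow
      obtain ⟨σ, hσS, hσo⟩ := hgen S''
      have hd := dlike_all hm S e hσo S'' hσS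
      have htT : t ∈ T := hle ⟨htS', Subgroup.mem_centralizer_singleton_iff.mpr rfl⟩
      have htn : t ∉ Subgroup.zpowers σ := by
        intro hmem
        rcases sq_one_cases (hσo.trans hn') hmem htt with h1 | h1
        · exact ht1 h1
        · exact hA σ hσo h1.symm
      have hsub : ∀ x : X, x ∈ T → x ∈ ({1, σ ^ 2 ^ k, t, σ ^ 2 ^ k * t} : Finset X) := by
        intro x hx
        simp only [Finset.mem_insert, Finset.mem_singleton]
        exact cent_cases S'' hσS (hS'' htT) hd.q (hσo.trans hn') htn (hS'' hx)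
          (Subgroup.mem_centralizer_singleton_iff.mp (hTC hx))
      have h1 : Nat.card T = (Finset.univ.filter (fun x : X => x ∈ T)).card :=
        Nat.subtype_card _ (by simp)
      rw [h1]
      refine (Finset.card_le_card (fun x hx => hsub x (by simpa using hx))).trans ?_
      exact Finset.card_le_four

end Cfsg.Agent.S0514
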