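import Cfsg.Statements.S0529

import Cfsg.Agent.Lib.Helper7_SS
set_option autoImplicit false
open Cfsg

namespace Cfsg.Agent.S0529


open Cfsg.Agent.Lib.Helper7_SS

universe u

theorem exists_normal_largest {G : Type u} [Group G] [Finite G] (h : Cfsg.IsSupersolvable G) :
    ∀ p : ℕ, p.Prime → p ∣ Nat.card G → (∀ q : ℕ, q.Prime → q ∣ Nat.card G → q ≤ p) →
      ∃ N : Subgroup G, N.Normal ∧ Nat.card N = p := by
  refine ss_induction (P := fun G _ => ∀ p : ℕ, p.Prime → p ∣ Nat.card G →
    (∀ q : ℕ, q.Prime → q ∣ Nat.card G → q ≤ p) →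
      ∃ N : Subgroup G, N.Normal ∧ Nat.card N = p) ?_ ?_ G h
  · intro G _ _ p hp hpG _
    rw [Nat.card_eq_one_iff_unique.mpr ⟨inferInstance, ⟨1⟩⟩] at hpG
    exact absurd (Nat.dvd_one.mp hpG) hp.one_lt.ne'
  · intro G _ _ N₁ _ hq _ ih p hp hpG hmax
    haveI := Fact.mk hp
    by_cases hqp : Nat.card N₁ = p
    · exact ⟨N₁, inferInstance, hqp⟩
    have hcard := Subgroup.card_eq_card_quotient_mul_card_subgroup N₁
    have hqle : Nat.card N₁ ≤ p := hmax _ hq (Subgroup.card_subgroup_dvd_card N₁)
    have hqlt : Nat.card N₁ < p := lt_of_le_of_ne hqle hqp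
    have hpQ : p ∣ Nat.card (G ⧸ N₁) := by
      rw [hcard] at hpG
      rcases (Nat.Prime.dvd_mul hp).mp hpG with h1 | h1
      · exact h1
      · exact absurd ((Nat.prime_dvd_prime_iff_eq hp hq).mp h1).symm hqp
    obtain ⟨L', hL'n, hL'c⟩ := ih p hp hpQ (fun q hq' hqd =>
      hmax q hq' (hqd.trans (by rw [hcard]; exact Dvd.intro _ rfl)))
    set L : Subgroup G := L'.comap (QuotientGroup.mk' N₁) with hL
    haveI hLn : L.Normal := hL'n.comap _
    have hLc : Nat.card L = p * Nat.card N₁ := by
      rw [hL, Cfsg.Agent.Lib.Helper1_SZ.card_comap_mk', hL'c]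
    obtain ⟨S⟩ : Nonempty (Sylow p L) := inferInstance
    have hSc : Nat.card (S : Subgroup L) = p := by
      rw [S.card_eq_multiplicity, hLc, Nat.factorization_mul hp.ne_zero hq.ne_zero]
      have h1 : (Nat.card N₁).factorization p = 0 := by
        apply Nat.factorization_eq_zero_of_not_dvd
        intro h2
        exact hqp ((Nat.prime_dvd_prime_iff_eq hp hq).mp h2).symm
      simp [hp.factorization_self, h1]
    have hSi : (S : Subgroup L).index = Nat.card N₁ := by
      have h1 := Subgroup.card_mul_index (S : Subgroup L)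
      rw [hSc, hLc] at h1
      exact Nat.eq_of_mul_eq_mul_left hp.pos h1
    have hn1 : Nat.card (Sylow p L) = 1 := by
      have h1 := S.card_dvd_index
      rw [hSi] at h1
      rcases (Nat.dvd_prime hq).mp h1 with h2 | h2
      · exact h2
      · exfalso
        have h3 := card_sylow_modEq_one p L
        rw [h2] at h3
        have h4 : p ∣ Nat.card N₁ - 1 := (Nat.modEq_iff_dvd' hq.one_lt.le).mp h3.symm
        have h5 := Nat.le_of_dvd (by have := hq.one_lt; omega) h4
        omega
    haveI : Subsingleton (Sylow p L) := (Nat.card_eq_one_iff_unique.mp hn1).1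
    haveI : (S : Subgroup L).Characteristic := Sylow.characteristic_of_subsingleton S
    refine ⟨(S : Subgroup L).map L.subtype, ConjAct.normal_of_characteristic_of_normal, ?_⟩
    rw [Subgroup.card_map_of_injective (Subgroup.subtype_injective _), hSc]

theorem aux (m : ℕ) : ∀ (G : Type u) [Group G] [Finite G], Nat.card G = m →
    Cfsg.IsSupersolvable G →
    ∃ (n : ℕ) (H : Fin (n + 1) → Subgroup G), H 0 = ⊥ ∧ H (Fin.last n) = ⊤ ∧ (∀ i, (H i).Normal) ∧
      (∀ i : Fin n, H i.castSucc ≤ H i.succ ∧ ((H i.castSucc).relIndex (H i.succ)).Prime) ∧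
      ∀ i j : Fin n, i ≤ j →
        (H j.castSucc).relIndex (H j.succ) ≤ (H i.castSucc).relIndex (H i.succ) := by
  induction m using Nat.strong_induction_on with
  | _ m ih =>
    intro G _ _ hm hG
    rcases subsingleton_or_nontrivial G with hs | hs
    · exact ⟨0, fun _ => ⊥, rfl, Subsingleton.elim _ _, fun _ => inferInstance,
        fun i => i.elim0, fun i => i.elim0⟩
    have hpos : 0 < Nat.card G := Nat.card_pos
    have hne1 : 1 < Nat.card G := Finite.one_lt_card
    obtain ⟨p, hp, hpG, hmax⟩ : ∃ p, p.Prime ∧ p ∣ Nat.card G ∧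
        ∀ q, q.Prime → q ∣ Nat.card G → q ≤ p := by
      have hne : (Nat.card G).primeFactors.Nonempty :=
        Nat.nonempty_primeFactors.mpr hne1
      have hmem := Finset.max'_mem _ hne
      refine ⟨(Nat.card G).primeFactors.max' hne, (Nat.mem_primeFactors.mp hmem).1,
        (Nat.mem_primeFactors.mp hmem).2.1, ?_⟩
      intro q hq hqG
      exact Finset.le_max' _ _ (Nat.mem_primeFactors.mpr ⟨hq, hqG, by omega⟩)
    obtain ⟨N, hN, hNc⟩ := exists_normal_largest hG p hp hpG hmax
    have hNne : N ≠ ⊥ := by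
      intro h1
      rw [h1, Subgroup.card_bot] at hNc
      exact hp.one_lt.ne hNc
    obtain ⟨n, H, h0, hn, hnorm, hstep, hmono⟩ :=
      ih _ (hm ▸ card_quotient_lt N hNne) (G ⧸ N) rfl (ss_quotient hG N)
    have hsurj : Function.Surjective (QuotientGroup.mk' N) := QuotientGroup.mk'_surjective N
    have hrel : ∀ A B : Subgroup (G ⧸ N), (A.comap (QuotientGroup.mk' N)).relIndex
        (B.comap (QuotientGroup.mk' N)) = A.relIndex B := by
      intro A B
      rw [Subgroup.relIndex_comap, Subgroup.map_comap_eq_self_of_surjective hsurj]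
    have hle : ∀ j : Fin n, (H j.castSucc).relIndex (H j.succ) ≤ p := by
      intro j
      apply hmax _ (hstep j).2
      refine (Subgroup.relIndex_dvd_card _ _).trans ((Subgroup.card_subgroup_dvd_card _).trans ?_)
      rw [Subgroup.card_eq_card_quotient_mul_card_subgroup N]
      exact Dvd.intro _ rfl
    have hker : (⊥ : Subgroup (G ⧸ N)).comap (QuotientGroup.mk' N) = N := by
      rw [MonoidHom.comap_bot, QuotientGroup.ker_mk']
    refine ⟨n + 1, Fin.cons ⊥ (fun i => (H i).comap (QuotientGroup.mk' N)), by simp, ?_, ?_, ?_, ?_⟩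
    · rw [← Fin.succ_last, Fin.cons_succ, hn, Subgroup.comap_top]
    · intro i
      refine Fin.cases ?_ (fun j => ?_) i
      · rw [Fin.cons_zero]; infer_instance
      · rw [Fin.cons_succ]; exact (hnorm j).comap _
    · intro i
      refine Fin.cases ?_ (fun j => ?_) i
      · rw [Fin.cons_succ, Fin.castSucc_zero, Fin.cons_zero, h0, hker,
          Subgroup.relIndex_bot_left, hNc]
        exact ⟨bot_le, hp⟩
      · rw [Fin.cons_succ, ← Fin.succ_castSucc, Fin.cons_succ, hrel]
        exact ⟨Subgroup.comap_mono (hstep j).1, (hstep j).2⟩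
    · intro i j
      refine Fin.cases ?_ (fun i' => ?_) i
      · intro _
        rw [Fin.cons_succ (α := fun _ => Subgroup G) _ _ (0 : Fin (n + 1)), Fin.castSucc_zero,
          Fin.cons_zero, h0, hker, Subgroup.relIndex_bot_left, hNc]
        refine Fin.cases ?_ (fun j' => ?_) j
        · rw [Fin.cons_succ, Fin.castSucc_zero, Fin.cons_zero, h0, hker,
            Subgroup.relIndex_bot_left, hNc]
        · rw [Fin.cons_succ, ← Fin.succ_castSucc, Fin.cons_succ, hrel]
          exact hle j'
      · refine Fin.cases ?_ (fun j' => ?_) j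
        · intro hij
          exact absurd hij (by simp [Fin.le_def])
        · intro hij
          rw [Fin.cons_succ, ← Fin.succ_castSucc, Fin.cons_succ, hrel,
            Fin.cons_succ, ← Fin.succ_castSucc, Fin.cons_succ, hrel]
          exact hmono i' j' (Fin.succ_le_succ_iff.mp hij)

/-- A finite supersolvable group has a chain of normal subgroups, from the trivial subgroup to the whole group, in which every step has prime index and the primes occurring are non-increasing as one goes up the chain. -/
theorem result {G : Type*} [Group G] [Finite G] (hG : Cfsg.IsSupersolvable G) : ∃ (n : ℕ) (H : Fin (n + 1) → Subgroup G), H 0 = ⊥ ∧ H (Fin.last n) = ⊤ ∧ (∀ i, (H i).Normal) ∧ (∀ i : Fin n, H i.castSucc ≤ H i.succ ∧ ((H i.castSucc).relIndex (H i.succ)).Prime) ∧ ∀ i j : Fin n, i ≤ j → (H j.castSucc).relIndex (H j.succ) ≤ (H i.castSucc).relIndex (H i.succ) := by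
  exact aux _ G rfl hG

end Cfsg.Agent.S0529
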