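import Cfsg.Statements.S0530

import Cfsg.Agent.Lib.Helper7_SS
set_option autoImplicit false
open Cfsg

namespace Cfsg.Agent.S0530


open Cfsg.Agent.Lib.Helper7_SS

universe u

theorem aux (p : ℕ) (hp : p.Prime) (hp2 : p ≠ 2) (n : ℕ) : ∀ (G : Type u) [Group G] [Finite G],
    Nat.card G = 2 * p ^ n → Cfsg.IsSupersolvable G := by
  induction n with
  | zero =>
    intro G _ _ hG
    have : IsPGroup 2 G := IsPGroup.of_card (n := 1) (by simpa using hG)
    exact ss_of_isPGroup 2 this
  | succ n ih =>
    intro G _ _ hG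
    haveI := Fact.mk hp
    obtain ⟨P, hPcard⟩ := Sylow.exists_subgroup_card_pow_prime (G := G) p (n := n + 1)
      (by rw [hG]; exact Dvd.intro_left 2 rfl)
    have hppos : 0 < p ^ (n + 1) := pow_pos hp.pos _
    have hPidx : P.index = 2 := by
      have h1 := Subgroup.card_mul_index P
      rw [hPcard, hG, mul_comm] at h1
      exact Nat.eq_of_mul_eq_mul_right hppos h1
    haveI hPn : P.Normal := Subgroup.normal_of_index_eq_two hPidx
    have hPp : IsPGroup p P := IsPGroup.of_card hPcard
    haveI : Nontrivial P := by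
      rw [← Finite.one_lt_card_iff_nontrivial, hPcard]
      exact Nat.one_lt_pow (by omega) hp.one_lt
    haveI := hPp.center_nontrivial
    have hZp : IsPGroup p (Subgroup.center P) := hPp.to_subgroup _
    have hdvd : p ∣ Nat.card (Subgroup.center P) := by
      rcases hZp.card_eq_or_dvd with h1 | h1
      · exfalso
        have := Finite.one_lt_card_iff_nontrivial.mpr (inferInstance : Nontrivial (Subgroup.center P))
        omega
      · exact h1
    obtain ⟨u0, hu0⟩ := exists_prime_orderOf_dvd_card' (G := Subgroup.center P) p hdvd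
    set u : G := ((u0 : P) : G) with hu
    have huP : u ∈ P := (u0 : P).2
    have huord : orderOf u = p := by
      rw [hu, Subgroup.orderOf_coe, Subgroup.orderOf_coe, hu0]
    have hucomm : ∀ x ∈ P, x * u = u * x := by
      intro x hx
      have h1 := Subgroup.mem_center_iff.mp u0.2 ⟨x, hx⟩
      exact congrArg Subtype.val h1
    obtain ⟨t, ht⟩ := exists_prime_orderOf_dvd_card' (G := G) 2 (by rw [hG]; exact Dvd.intro _ rfl)
    have htP : t ∉ P := by
      intro h1
      have h2 : orderOf (⟨t, h1⟩ : P) ∣ Nat.card P := orderOf_dvd_natCard _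
      rw [← Subgroup.orderOf_coe, hPcard] at h2
      have h3 : orderOf t ∣ p ^ (n + 1) := h2
      rw [ht] at h3
      have h4 := Nat.Prime.dvd_of_dvd_pow Nat.prime_two h3
      exact hp2 ((Nat.prime_dvd_prime_iff_eq Nat.prime_two hp).mp h4).symm
    have htt : t * t = 1 := by
      have := pow_orderOf_eq_one t
      rw [ht, pow_two] at this; exact this
    have htinv : t⁻¹ = t := inv_eq_of_mul_eq_one_left htt
    have hu'P : t * u * t⁻¹ ∈ P := hPn.conj_mem u huP t
    have hu'comm : ∀ x ∈ P, x * (t * u * t⁻¹) = (t * u * t⁻¹) * x := by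
      intro x hx
      have h1 : t⁻¹ * x * t ∈ P := by
        have := hPn.conj_mem x hx t⁻¹
        simpa using this
      have h2 := hucomm _ h1
      calc x * (t * u * t⁻¹) = t * ((t⁻¹ * x * t) * u) * t⁻¹ := by group
        _ = t * (u * (t⁻¹ * x * t)) * t⁻¹ := by rw [h2]
        _ = (t * u * t⁻¹) * x := by group
    have hup : u ^ p = 1 := by rw [← huord]; exact pow_orderOf_eq_one u
    have hu1 : u ≠ 1 := by
      intro h1
      rw [h1, orderOf_one] at huord
      exact hp.one_lt.ne huord
    obtain ⟨w, hw1, hwp, hwcomm, hwt⟩ : ∃ w : G, w ≠ 1 ∧ w ^ p = 1 ∧ (∀ x ∈ P, x * w = w * x) ∧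
        t * w * t⁻¹ ∈ Subgroup.zpowers w := by
      by_cases hc : u * (t * u * t⁻¹) = 1
      · refine ⟨u, hu1, hup, hucomm, ?_⟩
        have : t * u * t⁻¹ = u⁻¹ := (inv_eq_of_mul_eq_one_right hc).symm
        rw [this]
        exact Subgroup.inv_mem _ (Subgroup.mem_zpowers u)
      · refine ⟨u * (t * u * t⁻¹), hc, ?_, ?_, ?_⟩
        · have hcm : Commute u (t * u * t⁻¹) := (hucomm _ hu'P).symm
          rw [hcm.mul_pow, hup, conj_pow, hup]; simp
        · intro x hx
          calc x * (u * (t * u * t⁻¹)) = (x * u) * (t * u * t⁻¹) := (mul_assoc _ _ _).symm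
            _ = u * (x * (t * u * t⁻¹)) := by rw [hucomm x hx]; exact mul_assoc _ _ _
            _ = u * (t * u * t⁻¹) * x := by rw [hu'comm x hx]; exact (mul_assoc _ _ _).symm
        · have h1 : t * (u * (t * u * t⁻¹)) * t⁻¹ = u * (t * u * t⁻¹) := by
            have h2 : t * (u * (t * u * t⁻¹)) * t⁻¹ = (t * u * t⁻¹) * ((t * t) * u * (t * t)⁻¹) := by
              group
            rw [h2, htt]
            simp only [one_mul, inv_one, mul_one]
            exact hucomm _ hu'P
          rw [h1]
          exact Subgroup.mem_zpowers _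
    haveI hN : (Subgroup.zpowers w).Normal := by
      have hconj : ∀ g : G, g * w * g⁻¹ ∈ Subgroup.zpowers w := by
        intro g
        by_cases hg : g ∈ P
        · rw [hwcomm g hg, mul_inv_cancel_right]; exact Subgroup.mem_zpowers w
        · have h1 : t⁻¹ * g ∈ P := by
            rw [Subgroup.mul_mem_iff_of_index_two hPidx]
            constructor
            · intro h2; exact absurd (by simpa using P.inv_mem h2) htP
            · intro h2; exact absurd h2 hg
          have h2 : g * w * g⁻¹ = t * ((t⁻¹ * g) * w * (t⁻¹ * g)⁻¹) * t⁻¹ := by group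
          rw [h2, hwcomm _ h1, mul_inv_cancel_right]
          exact hwt
      constructor
      intro y hy g
      obtain ⟨k, rfl⟩ := Subgroup.mem_zpowers_iff.mp hy
      rw [← conj_zpow]
      exact Subgroup.zpow_mem _ (hconj g) k
    have hNcard : Nat.card (Subgroup.zpowers w) = p := by
      rw [Nat.card_zpowers]; exact orderOf_eq_prime hwp hw1
    apply ss_of_cyclic_normal (Subgroup.zpowers w)
    apply ih
    have h3 := Subgroup.card_eq_card_quotient_mul_card_subgroup (Subgroup.zpowers w)
    rw [hNcard, hG, pow_succ, ← mul_assoc] at h3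
    exact (Nat.eq_of_mul_eq_mul_right hp.pos h3).symm

/-- A finite group whose order is twice a prime power is supersolvable. -/
theorem result {G : Type*} [Group G] [Finite G] (p n : ℕ) (hp : p.Prime) (hG : Nat.card G = 2 * p ^ n) : Cfsg.IsSupersolvable G := by
  by_cases hp2 : p = 2
  · subst hp2
    have : IsPGroup 2 G := IsPGroup.of_card (n := n + 1) (by rw [hG, pow_succ, mul_comm])
    exact ss_of_isPGroup 2 this
  · exact aux p hp hp2 n G hG

end Cfsg.Agent.S0530
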