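import Cfsg.Statements.S0532

import Mathlib
set_option autoImplicit false
open Cfsg

namespace Cfsg.Agent.S0532


universe u

theorem clt_of_equiv {G G' : Type*} [Group G] [Group G'] (e : G ≃* G')
    (h : Cfsg.HasSubgroupOfEveryOrder G) : Cfsg.HasSubgroupOfEveryOrder G' := by
  intro d hd
  rw [← Nat.card_congr e.toEquiv] at hd
  obtain ⟨H, hH⟩ := h d hd
  exact ⟨H.map e.toMonoidHom, by rw [Subgroup.card_map_of_injective e.injective, hH]⟩

theorem aux (n : ℕ) : ∀ (G : Type u) [Group G] [Finite G], Nat.card G = n →
    (∀ H : Subgroup G, Cfsg.HasSubgroupOfEveryOrder H) → ∀ (p : ℕ) [Fact p.Prime],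
    p ∣ Nat.card G → (∀ q : ℕ, q.Prime → q ∣ Nat.card G → q ≤ p) → ∀ P : Sylow p G,
    (P : Subgroup G).Normal := by
  induction n using Nat.strong_induction_on with
  | _ n ih =>
    intro G _ _ hn h p _ hdvd hmax P
    have hp : p.Prime := Fact.out
    have hpos : 0 < Nat.card G := Nat.card_pos
    have hne1 : Nat.card G ≠ 1 := by
      intro h1; rw [h1] at hdvd; exact hp.one_lt.ne' (Nat.dvd_one.mp hdvd)
    have hq : (Nat.card G).minFac.Prime := Nat.minFac_prime hne1
    have hqd : (Nat.card G).minFac ∣ Nat.card G := Nat.minFac_dvd _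
    by_cases hqp : (Nat.card G).minFac = p
    · -- G is a p-group
      have hcard : Nat.card G = p ^ (Nat.card G).primeFactorsList.length := by
        apply Nat.eq_prime_pow_of_unique_prime_dvd hpos.ne'
        intro d hd hdG
        apply le_antisymm (hmax d hd hdG)
        rw [← hqp]
        exact Nat.minFac_le_of_dvd hd.two_le hdG
      have hG : IsPGroup p G := IsPGroup.of_card hcard
      have htop : IsPGroup p (⊤ : Subgroup G) := hG.to_subgroup ⊤
      have := P.is_maximal' htop le_top
      rw [← this]
      infer_instance
    · have hlt : (Nat.card G).minFac < p := lt_of_le_of_ne (hmax _ hq hqd) hqp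
      obtain ⟨m, hm⟩ := hqd
      -- subgroup of order m
      have h1 : m ∣ Nat.card (⊤ : Subgroup G) := by
        rw [Subgroup.card_top]; exact ⟨_, by rw [mul_comm]; exact hm⟩
      obtain ⟨M0, hM0⟩ := h ⊤ m h1
      set M : Subgroup G := M0.map (⊤ : Subgroup G).subtype with hMdef
      have hMcard : Nat.card M = m := by
        rw [hMdef, Subgroup.card_map_of_injective (Subgroup.subtype_injective _), hM0]
      have hmpos : 0 < m := by
        rcases Nat.eq_zero_or_pos m with h0 | h0
        · rw [h0, mul_zero] at hm; omega
        · exact h0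
      have hMidx : M.index = (Nat.card G).minFac := by
        have h2 := Subgroup.card_mul_index M
        rw [hMcard] at h2
        have h3 : m * M.index = m * (Nat.card G).minFac := by
          rw [h2, mul_comm m]; exact hm
        exact Nat.eq_of_mul_eq_mul_left hmpos h3
      haveI hMn : M.Normal := Subgroup.normal_of_index_eq_minFac_card hMidx
      have hpm : p ∣ m := by
        have h2 : p ∣ (Nat.card G).minFac * m := hm ▸ hdvd
        rcases (Nat.Prime.dvd_mul hp).mp h2 with h3 | h3
        · exact absurd ((Nat.prime_dvd_prime_iff_eq hp hq).mp h3).symm hqp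
        · exact h3
      have hPM : (P : Subgroup G) ≤ M := by
        intro x hx
        rw [← QuotientGroup.eq_one_iff (N := M)]
        have h2 : orderOf (x : G ⧸ M) ∣ (Nat.card G).minFac := by
          rw [← hMidx, Subgroup.index_eq_card]; exact orderOf_dvd_natCard _
        obtain ⟨k, hk⟩ := P.isPGroup' ⟨x, hx⟩
        have h3 : x ^ p ^ k = 1 := by
          have := congrArg Subtype.val hk
          simpa using this
        have h4 : orderOf (x : G ⧸ M) ∣ p ^ k := by
          apply orderOf_dvd_of_pow_eq_one
          rw [← QuotientGroup.mk_pow, h3]; rfl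
        have h5 : Nat.Coprime ((Nat.card G).minFac) (p ^ k) :=
          Nat.Coprime.pow_right _ ((Nat.coprime_primes hq hp).mpr hqp)
        have h6 := Nat.eq_one_of_dvd_coprimes h5 h2 h4
        exact orderOf_eq_one_iff.mp h6
      have hlt2 : Nat.card M < n := by
        rw [hMcard, ← hn, hm]
        have := hq.one_lt
        nlinarith
      have hMh : ∀ H : Subgroup M, Cfsg.HasSubgroupOfEveryOrder H := by
        intro H
        exact clt_of_equiv (Subgroup.equivMapOfInjective H M.subtype
          (Subgroup.subtype_injective _)).symm (h (H.map M.subtype))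
      have hnorm : ((P.subtype hPM : Sylow p M) : Subgroup M).Normal := by
        refine ih _ hlt2 M rfl hMh p (by rw [hMcard]; exact hpm) ?_ _
        intro q hq' hqM
        exact hmax q hq' (hqM.trans (Subgroup.card_subgroup_dvd_card M))
      haveI hchar : ((P.subtype hPM : Sylow p M) : Subgroup M).Characteristic :=
        Sylow.characteristic_of_normal _ hnorm
      have h7 := ConjAct.normal_of_characteristic_of_normal (H := M)
        (K := ((P.subtype hPM : Sylow p M) : Subgroup M))
      rw [Sylow.coe_subtype, Subgroup.map_subgroupOf_eq_of_le hPM] at h7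
      exact h7

/-- If each subgroup of a finite group satisfies the converse of Lagrange's theorem, then a Sylow subgroup for the largest prime dividing the group order is normal. -/
theorem result {G : Type*} [Group G] [Finite G] (h : ∀ H : Subgroup G, Cfsg.HasSubgroupOfEveryOrder H) (p : ℕ) [Fact p.Prime] (hdvd : p ∣ Nat.card G) (hmax : ∀ q : ℕ, q.Prime → q ∣ Nat.card G → q ≤ p) (P : Sylow p G) : (P : Subgroup G).Normal := by
  exact aux _ G rfl h p hdvd hmax P

end Cfsg.Agent.S0532
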