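import Cfsg.Statements.S0533

import Cfsg.Agent.S0532
import Cfsg.Agent.Lib.Helper7_SS
import Cfsg.Agent.Lib.Helper7_Prim
import Cfsg.Agent.Lib.Helper7_Subnormal
set_option autoImplicit false
open Cfsg

namespace Cfsg.Agent.S0533

open Cfsg.Agent.Lib.Helper7_SS Cfsg.Agent.Lib.Helper4_Syl Cfsg.Agent.Lib.Helper1_SZ
  Cfsg.Agent.Lib.Helper7_Max Cfsg.Agent.Lib.Helper7_Prim Cfsg.Agent.Lib.Helper7_Subnormal

universe u

theorem mem_sup_of_le_normalizer {G : Type*} [Group G] {R H : Subgroup G}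
    (h : H ≤ Subgroup.normalizer (R : Set G)) {x : G} :
    x ∈ R ⊔ H ↔ ∃ r ∈ R, ∃ y ∈ H, r * y = x := by
  constructor
  · intro hx
    have hle : R ⊔ H ≤ Subgroup.normalizer (R : Set G) := sup_le Subgroup.le_normalizer h
    have h1 : (⟨x, hle hx⟩ : Subgroup.normalizer (R : Set G)) ∈
        (R ⊔ H).subgroupOf (Subgroup.normalizer (R : Set G)) := hx
    rw [Subgroup.subgroupOf_sup Subgroup.le_normalizer h, Subgroup.mem_sup_of_normal_left] at h1
    obtain ⟨r, hr, y, hy, hry⟩ := h1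
    exact ⟨r, hr, y, hy, congrArg Subtype.val hry⟩
  · rintro ⟨r, hr, y, hy, rfl⟩
    exact Subgroup.mul_mem _ (Subgroup.mem_sup_left hr) (Subgroup.mem_sup_right hy)

section
variable {G : Type u} [Group G] [Finite G] (p : ℕ) [hp : Fact p.Prime] (P H : Subgroup G)

/-- the chain hypothesis -/
def Chain : Prop := ∀ R : Subgroup G, R ≤ P → H ≤ Subgroup.normalizer (R : Set G) → R ≠ ⊥ →
  ∃ R₁ : Subgroup G, R₁ ≤ R ∧ H ≤ Subgroup.normalizer (R₁ : Set G) ∧ Nat.card R = p * Nat.card R₁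

theorem descend (hch : Chain p P H) : ∀ (m : ℕ) (R : Subgroup G), Nat.card R = m → R ≤ P →
    H ≤ Subgroup.normalizer (R : Set G) → R ≠ ⊥ →
    ∃ N₀ : Subgroup G, N₀ ≤ R ∧ H ≤ Subgroup.normalizer (N₀ : Set G) ∧ Nat.card N₀ = p := by
  intro m
  induction m using Nat.strong_induction_on with
  | _ m ih =>
  intro R hm hRP hHR hR
  obtain ⟨R₁, hR₁, hHR₁, hc⟩ := hch R hRP hHR hR
  by_cases hb : R₁ = ⊥
  · refine ⟨R, le_rfl, hHR, ?_⟩
    rw [hc, hb]; simp
  · have hlt : Nat.card R₁ < m := by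
      rw [← hm, hc]
      have : 0 < Nat.card R₁ := Nat.card_pos
      nlinarith [hp.out.two_le]
    obtain ⟨N₀, h1, h2, h3⟩ := ih _ hlt R₁ rfl (hR₁.trans hRP) hHR₁ hb
    exact ⟨N₀, h1.trans hR₁, h2, h3⟩

theorem chain_over (hch : Chain p P H) (N₀ : Subgroup G) [hN₀ : N₀.Normal] (hc₀ : Nat.card N₀ = p)
    (R : Subgroup G) (hRP : R ≤ P) (hHR : H ≤ Subgroup.normalizer (R : Set G)) (hNR : N₀ ≤ R)
    (hne : R ≠ N₀) : ∃ R' : Subgroup G, N₀ ≤ R' ∧ R' ≤ R ∧ H ≤ Subgroup.normalizer (R' : Set G) ∧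
      Nat.card R = p * Nat.card R' := by
  have hN₀ne : N₀ ≠ ⊥ := by
    intro h
    rw [h, Subgroup.card_bot] at hc₀
    exact hp.out.one_lt.ne hc₀
  have hRne : R ≠ ⊥ := fun h => hN₀ne (le_bot_iff.mp (h ▸ hNR))
  obtain ⟨R₁, hR₁, hHR₁, hc⟩ := hch R hRP hHR hRne
  by_cases hle : N₀ ≤ R₁
  · exact ⟨R₁, hle, hR₁, hHR₁, hc⟩
  · have hdisj : R₁ ⊓ N₀ = ⊥ := by
      have h1 : Nat.card (R₁ ⊓ N₀ : Subgroup G) ∣ p := hc₀ ▸ Subgroup.card_dvd_of_le inf_le_right
      rcases (Nat.dvd_prime hp.out).mp h1 with h2 | h2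
      · exact Subgroup.card_eq_one.mp h2
      · exfalso
        apply hle
        have : R₁ ⊓ N₀ = N₀ := Subgroup.eq_of_le_of_card_ge inf_le_right (by rw [h2, hc₀])
        exact this ▸ inf_le_left
    have hR₁ne : R₁ ≠ ⊥ := by
      intro h
      apply hne
      rw [h, Subgroup.card_bot, mul_one] at hc
      exact (Subgroup.eq_of_le_of_card_ge hNR (by rw [hc, hc₀])).symm
    obtain ⟨R₂, hR₂, hHR₂, hc₂⟩ := hch R₁ (hR₁.trans hRP) hHR₁ hR₁ne
    refine ⟨R₂ ⊔ N₀, le_sup_right, sup_le (hR₂.trans hR₁) hNR, ?_, ?_⟩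
    · refine le_trans (le_inf hHR₂ ?_) (normalizer_inf_le_normalizer_sup _ _)
      rw [Subgroup.normalizer_eq_top_iff.mpr hN₀]; exact le_top
    · have hd2 : Disjoint R₂ N₀ := by
        rw [disjoint_iff, eq_bot_iff, ← hdisj]
        exact inf_le_inf_right _ hR₂
      rw [card_sup_normal, relIndex_eq_card_of_disjoint hd2, hc₀, ← hc₂, hc]

end

theorem ss_of_chain : ∀ (n : ℕ) (G : Type u) [Group G] [Finite G], Nat.card G = n →
    ∀ (p : ℕ) [Fact p.Prime] (P H : Subgroup G) [P.Normal], IsPGroup p P → P ⊔ H = ⊤ →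
    Cfsg.IsSupersolvable (G ⧸ P) → Chain p P H → Cfsg.IsSupersolvable G := by
  intro n
  induction n using Nat.strong_induction_on with
  | _ n ih =>
  intro G _ _ hn p hp P H hPn hPp hPH hq hch
  by_cases hPb : P = ⊥
  · subst hPb
    exact ss_of_cyclic_normal ⊥ hq
  have hnt : Nontrivial P := (Subgroup.nontrivial_iff_ne_bot P).mpr hPb
  have hcn := hPp.center_nontrivial
  set Z := (Subgroup.center P).map P.subtype with hZ
  have hZn : Z.Normal := ConjAct.normal_of_characteristic_of_normal (H := P) (K := Subgroup.center P)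
  have hZne : Z ≠ ⊥ := by
    intro h
    rw [hZ, Subgroup.map_eq_bot_iff_of_injective _ P.subtype_injective] at h
    exact (Subgroup.nontrivial_iff_ne_bot _).mp hcn h
  obtain ⟨N₀, hN₀Z, hHN₀, hc₀⟩ := descend p P H hch _ Z rfl (Subgroup.map_subtype_le _)
    (by rw [Subgroup.normalizer_eq_top_iff.mpr hZn]; exact le_top) hZne
  have hN₀P : N₀ ≤ P := hN₀Z.trans (Subgroup.map_subtype_le _)
  have hN₀n : N₀.Normal := by
    apply normal_of_sup_eq_top P H N₀ hPH
    · intro a ha d hd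
      obtain ⟨z, hz, rfl⟩ := hN₀Z hd
      have := (Subgroup.mem_center_iff.mp hz) ⟨a, ha⟩
      have h2 : a * (z : G) = (z : G) * a := congrArg Subtype.val this
      show a * (z : G) * a⁻¹ ∈ N₀
      rw [h2, mul_inv_cancel_right]; exact hd
    · intro b hb d hd
      exact (Subgroup.mem_normalizer_iff.mp (hHN₀ hb) d).mp hd
  have hN₀ne : N₀ ≠ ⊥ := by
    intro h
    rw [h, Subgroup.card_bot] at hc₀
    exact hp.out.one_lt.ne hc₀
  have hcyc : IsCyclic N₀ := isCyclic_of_prime_card' N₀ (hc₀ ▸ hp.out)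
  apply ss_of_cyclic_normal N₀
  have hsurj := QuotientGroup.mk'_surjective N₀
  have hPbn : (P.map (QuotientGroup.mk' N₀)).Normal := hPn.map _ hsurj
  apply ih _ (hn ▸ card_quotient_lt N₀ hN₀ne) (G ⧸ N₀) rfl p (P.map (QuotientGroup.mk' N₀))
    (H.map (QuotientGroup.mk' N₀)) (hPp.map _)
  · rw [← Subgroup.map_sup, hPH, ← MonoidHom.range_eq_map, MonoidHom.range_eq_top]
    exact hsurj
  · apply ss_of_surjective (QuotientGroup.map P (P.map (QuotientGroup.mk' N₀))
      (QuotientGroup.mk' N₀) (Subgroup.le_comap_map _ _)) _ hq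
    intro y
    obtain ⟨y', rfl⟩ := QuotientGroup.mk'_surjective _ y
    obtain ⟨x, rfl⟩ := hsurj y'
    exact ⟨QuotientGroup.mk' P x, rfl⟩
  · intro Rb hRbP hHRb hRbne
    set R := Rb.comap (QuotientGroup.mk' N₀) with hR
    have hmapR : R.map (QuotientGroup.mk' N₀) = Rb := Subgroup.map_comap_eq_self_of_surjective hsurj Rb
    have hNR : N₀ ≤ R := by
      intro x hx
      show QuotientGroup.mk' N₀ x ∈ Rb
      rw [mk'_eq_one hx]; exact Rb.one_mem
    have hRP : R ≤ P := by
      intro x hx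
      obtain ⟨y, hy, hyx⟩ := hRbP hx
      have h1 : y⁻¹ * x ∈ N₀ := by rw [← QuotientGroup.eq]; exact hyx
      have h2 : x = y * (y⁻¹ * x) := by group
      rw [h2]; exact P.mul_mem hy (hN₀P h1)
    have hHR : H ≤ Subgroup.normalizer (R : Set G) := by
      intro h hh
      apply Subgroup.le_normalizer_comap
      exact hHRb ⟨h, hh, rfl⟩
    have hRne : R ≠ N₀ := by
      intro h
      apply hRbne
      rw [← hmapR, h, Subgroup.map_eq_bot_iff, QuotientGroup.ker_mk']
    obtain ⟨R', hNR', hR'R, hHR', hc⟩ := chain_over p P H hch N₀ hc₀ R hRP hHR hNR hRne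
    refine ⟨R'.map (QuotientGroup.mk' N₀), hmapR ▸ Subgroup.map_mono hR'R, ?_, ?_⟩
    · exact (Subgroup.map_mono hHR').trans (Subgroup.le_normalizer_map _)
    · have e1 := card_comap_mk' N₀ Rb
      have e2 := card_comap_mk' N₀ (R'.map (QuotientGroup.mk' N₀))
      rw [Subgroup.comap_map_eq, QuotientGroup.ker_mk', sup_eq_left.mpr hNR'] at e2
      rw [← hR] at e1
      rw [e1, e2] at hc
      have hpos : 0 < Nat.card N₀ := Nat.card_pos
      apply Nat.eq_of_mul_eq_mul_right hpos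
      rw [hc]; ring

theorem chain_of_clt {G : Type u} [Group G] [Finite G]
    (h : ∀ H : Subgroup G, Cfsg.HasSubgroupOfEveryOrder H) (p : ℕ) [hp : Fact p.Prime]
    (P : Sylow p G) [hPn : (P : Subgroup G).Normal] (H : Subgroup G)
    (hdisj : (P : Subgroup G) ⊓ H = ⊥) : Chain p (P : Subgroup G) H := by
  intro R hRP hHR hRne
  set X := R ⊔ H with hX
  have hXP : (P : Subgroup G) ⊓ X = R := by
    apply le_antisymm
    · intro x hx
      obtain ⟨r, hr, y, hy, rfl⟩ := (mem_sup_of_le_normalizer hHR).mp hx.2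
      have h1 : y ∈ (P : Subgroup G) ⊓ H := by
        refine Subgroup.mem_inf.mpr ⟨?_, hy⟩
        have := (P : Subgroup G).mul_mem ((P : Subgroup G).inv_mem (hRP hr)) hx.1
        rwa [inv_mul_cancel_left] at this
      rw [hdisj, Subgroup.mem_bot] at h1
      rw [h1, mul_one]; exact hr
    · exact le_inf hRP le_sup_left
  have hRp : IsPGroup p R := P.isPGroup'.to_le hRP
  obtain ⟨j, hj⟩ := IsPGroup.iff_card.mp hRp
  have hj0 : j ≠ 0 := by
    rintro rfl
    rw [pow_zero] at hj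
    exact hRne (Subgroup.card_eq_one.mp hj)
  have hcopidx : ∀ a : ℕ, a ∣ (P : Subgroup G).index → a.Coprime p := fun a ha =>
    Nat.Coprime.coprime_dvd_left ha ((Nat.Prime.coprime_iff_not_dvd hp.out).mpr P.not_dvd_index).symm
  set c := (P : Subgroup G).relIndex X with hc
  have hcX : Nat.card R * c = Nat.card X := by
    have := card_mul_relIndex (inf_le_right : (P : Subgroup G) ⊓ X ≤ X)
    rwa [Subgroup.inf_relIndex_right, hXP] at this
  have hccop : c.Coprime p := hcopidx c (Subgroup.relIndex_dvd_index_of_normal _ _)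
  have hpX : p ∣ Nat.card X := by
    rw [← hcX, hj]
    exact Dvd.dvd.mul_right (dvd_pow_self p hj0) c
  obtain ⟨M', hM'⟩ := h X (Nat.card X / p) (Nat.div_dvd_of_dvd hpX)
  set M := M'.map X.subtype with hM
  have hMX : M ≤ X := Subgroup.map_subtype_le M'
  have hMc : Nat.card M * p = Nat.card X := by
    rw [hM, card_map_subtype, hM']; exact Nat.div_mul_cancel hpX
  have hPM : (P : Subgroup G) ⊓ M = M ⊓ R := by
    rw [← hXP]
    apply le_antisymm
    · exact le_inf inf_le_right (le_inf inf_le_left (inf_le_right.trans hMX))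
    · exact le_inf (inf_le_right.trans inf_le_left) inf_le_left
  set b := (P : Subgroup G).relIndex M with hb
  have hbM : Nat.card (M ⊓ R : Subgroup G) * b = Nat.card M := by
    have := card_mul_relIndex (inf_le_right : (P : Subgroup G) ⊓ M ≤ M)
    rwa [Subgroup.inf_relIndex_right, hPM] at this
  have hbcop : b.Coprime p := hcopidx b (Subgroup.relIndex_dvd_index_of_normal _ _)
  obtain ⟨i, hi⟩ := IsPGroup.iff_card.mp (hRp.to_le (inf_le_right : M ⊓ R ≤ R))
  have heq : p ^ (i + 1) * b = p ^ j * c := by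
    rw [← hj, hcX, ← hMc, ← hbM, hi]; ring
  have hij : p ^ (i + 1) = p ^ j := by
    apply Nat.dvd_antisymm
    · exact (Nat.Coprime.pow_left _ hccop.symm).dvd_of_dvd_mul_right (heq ▸ Dvd.intro _ rfl)
    · exact (Nat.Coprime.pow_left _ hbcop.symm).dvd_of_dvd_mul_right (heq.symm ▸ Dvd.intro _ rfl)
  have hbc : b = c := by
    rw [hij] at heq
    exact Nat.eq_of_mul_eq_mul_left (pow_pos hp.out.pos _) heq
  have hcard : Nat.card R = p * Nat.card (M ⊓ R : Subgroup G) := by
    rw [hj, hi, ← hij, pow_succ, mul_comm]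
  refine ⟨M ⊓ R, inf_le_right, ?_, hcard⟩
  have hXN : X ≤ Subgroup.normalizer (R : Set G) := sup_le Subgroup.le_normalizer hHR
  have hMn : M ≤ Subgroup.normalizer ((M ⊓ R : Subgroup G) : Set G) := by
    intro m hm
    apply mem_normalizer_of_conj_mem
    intro d hd
    exact ⟨M.mul_mem (M.mul_mem hm hd.1) (M.inv_mem hm),
      (Subgroup.mem_normalizer_iff.mp (hXN (hMX hm)) d).mp hd.2⟩
  have hRn : R ≤ Subgroup.normalizer ((M ⊓ R : Subgroup G) : Set G) := by
    rw [← Subgroup.normal_subgroupOf_iff_le_normalizer inf_le_right]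
    apply Subgroup.normal_of_index_eq_minFac_card
    rw [hj, Nat.Prime.pow_minFac hp.out hj0]
    have h1 := card_mul_relIndex (inf_le_right : M ⊓ R ≤ R)
    rw [hcard, mul_comm] at h1
    exact Nat.eq_of_mul_eq_mul_right Nat.card_pos h1
  have hsup : M ⊔ R = X := by
    apply Subgroup.eq_of_le_of_card_ge (sup_le hMX le_sup_left)
    apply Nat.le_of_dvd Nat.card_pos
    rw [← hcX, hj]
    apply Nat.Coprime.mul_dvd_of_dvd_of_dvd (Nat.Coprime.pow_left _ hccop.symm)
    · rw [← hj]; exact Subgroup.card_dvd_of_le le_sup_right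
    · rw [← hbc]
      exact (Dvd.intro_left _ hbM).trans (Subgroup.card_dvd_of_le le_sup_left)
  have hfin : X ≤ Subgroup.normalizer ((M ⊓ R : Subgroup G) : Set G) := by
    rw [← hsup]; exact sup_le hMn hRn
  exact (le_sup_right : H ≤ X).trans hfin

theorem aux : ∀ (n : ℕ) (G : Type u) [Group G] [Finite G], Nat.card G = n →
    (∀ H : Subgroup G, Cfsg.HasSubgroupOfEveryOrder H) → Cfsg.IsSupersolvable G := by
  intro n
  induction n using Nat.strong_induction_on with
  | _ n ih =>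
  intro G _ _ hn h
  by_cases h1 : n = 1
  · have : Subsingleton G := (Nat.card_eq_one_iff_unique.mp (hn.trans h1)).1
    exact ss_of_subsingleton G
  have hn0 : n ≠ 0 := by rw [← hn]; exact Nat.card_pos.ne'
  have hne : n.primeFactors.Nonempty := Nat.nonempty_primeFactors.mpr (by omega)
  set p := n.primeFactors.max' hne with hp
  have hpm := Finset.max'_mem _ hne
  rw [← hp] at hpm
  have hpp : p.Prime := (Nat.mem_primeFactors.mp hpm).1
  have hpn : p ∣ n := (Nat.mem_primeFactors.mp hpm).2.1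
  have hmax : ∀ q : ℕ, q.Prime → q ∣ n → q ≤ p := fun q hq hqn =>
    Finset.le_max' _ q (Nat.mem_primeFactors.mpr ⟨hq, hqn, hn0⟩)
  have := Fact.mk hpp
  obtain ⟨P⟩ : Nonempty (Sylow p G) := inferInstance
  have hPn : (P : Subgroup G).Normal := Cfsg.Agent.S0532.result h p (hn ▸ hpn) (hn ▸ hmax) P
  have hcop : (Nat.card (P : Subgroup G)).Coprime (P : Subgroup G).index := by
    obtain ⟨k, hk⟩ := IsPGroup.iff_card.mp P.isPGroup'
    have hk' : Nat.card (P : Subgroup G) = p ^ k := hk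
    rw [hk']
    exact Nat.Coprime.pow_left _ ((Nat.Prime.coprime_iff_not_dvd hpp).mpr P.not_dvd_index)
  obtain ⟨H, hH⟩ := Subgroup.exists_right_complement'_of_coprime hcop
  have hsup : (P : Subgroup G) ⊔ H = ⊤ := hH.sup_eq_top
  have hdisj : (P : Subgroup G) ⊓ H = ⊥ := hH.disjoint.eq_bot
  have hHtop : H ≠ ⊤ := by
    intro ht
    rw [ht, inf_top_eq] at hdisj
    have h2 : p ∣ Nat.card (P : Subgroup G) := by
      have h3 := P.card_eq_multiplicity
      have h4 : 0 < (Nat.card G).factorization p :=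
        hpp.factorization_pos_of_dvd Nat.card_pos.ne' (hn ▸ hpn)
      show p ∣ Nat.card P
      rw [h3]
      exact dvd_pow_self p h4.ne'
    rw [hdisj, Subgroup.card_bot] at h2
    exact hpp.one_lt.ne' (Nat.dvd_one.mp h2)
  have hHlt : Nat.card H < n := by
    rw [← hn]
    exact lt_of_le_of_ne (Subgroup.card_le_card_group H)
      (fun h => hHtop ((Subgroup.card_eq_iff_eq_top H).mp h))
  have hHs : Cfsg.IsSupersolvable H := by
    apply ih _ hHlt H rfl
    intro L
    exact Cfsg.Agent.S0532.clt_of_equiv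
      (L.equivMapOfInjective H.subtype H.subtype_injective).symm (h (L.map H.subtype))
  have hq : Cfsg.IsSupersolvable (G ⧸ (P : Subgroup G)) := by
    apply ss_of_surjective ((QuotientGroup.mk' (P : Subgroup G)).comp H.subtype) _ hHs
    intro y
    obtain ⟨x, rfl⟩ := QuotientGroup.mk'_surjective _ y
    have hx : x ∈ (P : Subgroup G) ⊔ H := hsup ▸ Subgroup.mem_top x
    rw [Subgroup.mem_sup_of_normal_left] at hx
    obtain ⟨a, ha, b, hb, rfl⟩ := hx
    refine ⟨⟨b, hb⟩, ?_⟩
    show QuotientGroup.mk' (P : Subgroup G) b = QuotientGroup.mk' (P : Subgroup G) (a * b)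
    rw [map_mul, mk'_eq_one ha, one_mul]
  exact ss_of_chain _ G rfl p (P : Subgroup G) H P.isPGroup' hsup hq (chain_of_clt h p P H hdisj)

/-- If every subgroup of a finite group has subgroups of all orders dividing its order, then the group is supersolvable. -/
theorem result {G : Type*} [Group G] [Finite G] (h : ∀ H : Subgroup G, Cfsg.HasSubgroupOfEveryOrder H) : Cfsg.IsSupersolvable G := by
  exact aux _ G rfl h

end Cfsg.Agent.S0533
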