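import Cfsg.Statements.S0534

import Cfsg.Agent.S0003
import Cfsg.Agent.Lib.Helper7_SS
set_option autoImplicit false
open Cfsg

namespace Cfsg.Agent.S0534

open Cfsg.Agent.Lib.Helper7_SS

universe u

theorem ss_of_comm_aux : ∀ (n : ℕ) (A : Type u) [CommGroup A] [Finite A], Nat.card A = n →
    Cfsg.IsSupersolvable A := by
  intro n
  induction n using Nat.strong_induction_on with
  | _ n ih =>
  intro A _ _ hn
  by_cases hs : Subsingleton A
  · exact ss_of_subsingleton A
  · rw [not_subsingleton_iff_nontrivial] at hs
    obtain ⟨x, hx⟩ := exists_ne (1 : A)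
    have hne : Subgroup.zpowers x ≠ ⊥ := by
      intro h
      exact hx (Subgroup.zpowers_eq_bot.mp h)
    apply ss_of_cyclic_normal (Subgroup.zpowers x)
    exact ih _ (hn ▸ card_quotient_lt _ hne) (A ⧸ Subgroup.zpowers x) rfl

theorem arith (g a d : ℕ) (hg : g ≠ 0) (ha : a ≠ 0) (hd : d ∣ g * a)
    (hA : ∀ p : ℕ, p.Prime → p ∣ a → p ∣ g)
    (hexp : ∀ p : ℕ, p.Prime → p ∣ g → a.factorization p + 1 = g.factorization p) :
    ∃ m n e : ℕ, g = m * n ∧ m.Coprime n ∧ e ∣ a ∧ d = m * e := by
  classical
  have hd0 : d ≠ 0 := by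
    rintro rfl
    exact (mul_ne_zero hg ha) (zero_dvd_iff.mp hd)
  set f := g.factorization.filter (fun p => g.factorization p ≤ d.factorization p) with hf
  set f' := g.factorization.filter (fun p => ¬ g.factorization p ≤ d.factorization p) with hf'
  have hfp : ∀ p ∈ f.support, p.Prime := by
    intro p hp
    rw [Finsupp.support_filter] at hp
    have : p ∈ g.factorization.support := (Finset.mem_filter.mp hp).1
    exact Nat.prime_of_mem_primeFactors (Nat.support_factorization g ▸ this)
  have hfp' : ∀ p ∈ f'.support, p.Prime := by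
    intro p hp
    rw [Finsupp.support_filter] at hp
    have : p ∈ g.factorization.support := (Finset.mem_filter.mp hp).1
    exact Nat.prime_of_mem_primeFactors (Nat.support_factorization g ▸ this)
  set m := f.prod (· ^ ·) with hm
  set n := f'.prod (· ^ ·) with hn
  have hmf : m.factorization = f := Nat.prod_pow_factorization_eq_self hfp
  have hnf : n.factorization = f' := Nat.prod_pow_factorization_eq_self hfp'
  have hm0 : m ≠ 0 := by
    rw [hm, Finsupp.prod]
    exact Finset.prod_ne_zero_iff.mpr (fun p hp => pow_ne_zero _ (hfp p hp).ne_zero)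
  have hn0 : n ≠ 0 := by
    rw [hn, Finsupp.prod]
    exact Finset.prod_ne_zero_iff.mpr (fun p hp => pow_ne_zero _ (hfp' p hp).ne_zero)
  have hgmn : g = m * n := by
    apply Nat.eq_of_factorization_eq hg (mul_ne_zero hm0 hn0)
    intro p
    rw [Nat.factorization_mul hm0 hn0, hmf, hnf, hf, hf', Finsupp.filter_pos_add_filter_neg]
  have hcop : m.Coprime n := by
    apply Nat.coprime_of_dvd
    intro p hp hpm hpn
    have h1 := hp.factorization_pos_of_dvd hm0 hpm
    have h2 := hp.factorization_pos_of_dvd hn0 hpn
    rw [hmf, hf, Finsupp.filter_apply] at h1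
    rw [hnf, hf', Finsupp.filter_apply] at h2
    split_ifs at h1 h2 <;> omega
  have hmd : m ∣ d := by
    rw [← Nat.factorization_le_iff_dvd hm0 hd0, hmf]
    intro p
    rw [hf, Finsupp.filter_apply]
    split_ifs with h
    · exact h
    · exact Nat.zero_le _
  refine ⟨m, n, d / m, hgmn, hcop, ?_, (Nat.mul_div_cancel' hmd).symm⟩
  have hdm0 : d / m ≠ 0 := by
    intro h
    have := Nat.mul_div_cancel' hmd
    rw [h, mul_zero] at this
    exact hd0 this.symm
  rw [← Nat.factorization_le_iff_dvd hdm0 ha, Nat.factorization_div hmd, hmf]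
  intro p
  have h1 : d.factorization p ≤ g.factorization p + a.factorization p := by
    have := (Nat.factorization_le_iff_dvd hd0 (mul_ne_zero hg ha)).mpr hd p
    rwa [Nat.factorization_mul hg ha] at this
  rw [Finsupp.coe_tsub, Pi.sub_apply, hf, Finsupp.filter_apply]
  by_cases hp : p.Prime
  · by_cases hpg : p ∣ g
    · have h2 := hexp p hp hpg
      split_ifs with h <;> omega
    · have h2 : g.factorization p = 0 := Nat.factorization_eq_zero_of_not_dvd hpg
      have h3 : a.factorization p = 0 :=
        Nat.factorization_eq_zero_of_not_dvd (fun h => hpg (hA p hp h))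
      split_ifs with h <;> omega
  · have h2 : d.factorization p = 0 := Nat.factorization_eq_zero_of_not_prime d hp
    rw [h2]; simp

/-- Let G be a finite solvable group and A a finite abelian group such that every prime dividing the order of A divides the order of G and, for each prime p dividing the order of G, the exponent of p in the order of A is one less than its exponent in the order of G. Then G × A has a subgroup of every order dividing its order. -/
theorem result {G A : Type*} [Group G] [CommGroup A] [Finite G] [Finite A] [Group.IsSolvable G] (hA : ∀ p : ℕ, p.Prime → p ∣ Nat.card A → p ∣ Nat.card G) (hexp : ∀ p : ℕ, p.Prime → p ∣ Nat.card G → (Nat.card A).factorization p + 1 = (Nat.card G).factorization p) : Cfsg.HasSubgroupOfEveryOrder (G × A) := by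
  intro d hd
  rw [Nat.card_prod] at hd
  obtain ⟨m, n, e, hgmn, hcop, hea, hdme⟩ := arith (Nat.card G) (Nat.card A) d Nat.card_pos.ne'
    Nat.card_pos.ne' hd hA hexp
  obtain ⟨H, hH⟩ := Cfsg.Agent.S0003.result (G := G) m n hgmn hcop
  obtain ⟨B, hB⟩ := hasSubgroupOfEveryOrder (ss_of_comm_aux _ A rfl) e hea
  refine ⟨H.prod B, ?_⟩
  rw [hdme, ← hH, ← hB]
  rw [← Nat.card_prod]
  exact Nat.card_congr (Subgroup.prodEquiv H B).toEquiv

end Cfsg.Agent.S0534
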