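import Cfsg.Statements.S0535

import Cfsg.Agent.S0006
import Cfsg.Agent.Lib.Helper7_SysNorm
set_option autoImplicit false
open Cfsg

namespace Cfsg.Agent.S0535

open Cfsg.Agent.Lib.Helper1_SZ Cfsg.Agent.Lib.Helper7_SysNorm

theorem aux {G : Type*} [Group G] [Finite G] (h : ∀ H : Subgroup G, H ≠ ⊥ → ∀ p : ℕ, p.Prime →
    p ∣ Nat.card H → ∃ K : Subgroup H, K ≠ ⊤ ∧ ∃ k : ℕ, K.index = p ^ k) (p : ℕ) (hp : p.Prime) :
    ∀ (n : ℕ) (L : Subgroup G), Nat.card L = n →
      ∃ X : Subgroup G, X ≤ L ∧ (Nat.card X).Coprime p ∧ ∃ k : ℕ, X.relIndex L = p ^ k := by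
  intro n
  induction n using Nat.strong_induction_on with
  | _ n ih =>
  intro L hL
  by_cases hpL : p ∣ Nat.card L
  · have hLne : L ≠ ⊥ := by
      rintro rfl
      rw [Subgroup.card_bot] at hpL
      exact hp.one_lt.ne' (Nat.dvd_one.mp hpL)
    obtain ⟨K, hK, k, hk⟩ := h L hLne p hp hpL
    have hcard : Nat.card (K.map L.subtype) = Nat.card K := card_map_subtype K
    have hlt : Nat.card K < Nat.card L := by
      have h1 := Subgroup.card_mul_index K
      have h2 : K.index ≠ 1 := fun h => hK (Subgroup.index_eq_one.mp h)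
      have h3 : K.index ≠ 0 := Subgroup.index_ne_zero_of_finite
      have h4 : 0 < Nat.card K := Nat.card_pos
      nlinarith [Nat.two_le_iff K.index |>.mpr ⟨h3, h2⟩]
    obtain ⟨X, hX, hXc, j, hj⟩ := ih (Nat.card K) (hL ▸ hlt) (K.map L.subtype) hcard
    have hKL : K.map L.subtype ≤ L := Subgroup.map_subtype_le K
    refine ⟨X, hX.trans hKL, hXc, j + k, ?_⟩
    rw [← Subgroup.relIndex_mul_relIndex X _ L hX hKL, hj, pow_add]
    congr 1
    rw [Subgroup.relIndex, Subgroup.subgroupOf,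
      Subgroup.comap_map_eq_self_of_injective L.subtype_injective, hk]
  · exact ⟨L, le_rfl, ((Nat.Prime.coprime_iff_not_dvd hp).mpr hpL).symm, 0, by simp⟩

/-- Suppose that for every nontrivial subgroup H of a finite group and every prime p dividing the order of H there is a proper subgroup of H whose index in H is a power of p. Then the group is solvable. -/
theorem result {G : Type*} [Group G] [Finite G] (h : ∀ H : Subgroup G, H ≠ ⊥ → ∀ p : ℕ, p.Prime → p ∣ Nat.card H → ∃ K : Subgroup H, K ≠ ⊤ ∧ ∃ k : ℕ, K.index = p ^ k) : Group.IsSolvable G := by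
  apply Cfsg.Agent.S0006.result
  intro p hp
  obtain ⟨X, -, hXc, k, hk⟩ := aux h p hp _ ⊤ rfl
  rw [Subgroup.relIndex_top_right] at hk
  exact ⟨X, index_eq_of_coprime hp hk hXc⟩

end Cfsg.Agent.S0535
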