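import Cfsg.Statements.S0536

import Cfsg.Agent.Lib.Helper7_Max
import Cfsg.Agent.S0046
set_option autoImplicit false
open Cfsg

namespace Cfsg.Agent.S0536


open Cfsg.Agent.Lib.Helper7_Max

theorem structure_aux {G : Type*} [Group G] [Finite G] (hG : Cfsg.IsMinimalNonNilpotent G) :
    ∃ p q : ℕ, p.Prime ∧ q.Prime ∧ p ≠ q ∧ ∃ (P : Sylow p G) (Q : Sylow q G),
      IsCyclic P ∧ (Q : Subgroup G).Normal ∧ (P : Subgroup G) ⊔ Q = ⊤ ∧
      ¬ (P : Subgroup G).Normal := by
  obtain ⟨hnn, hmin⟩ := hG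
  haveI hsol : Group.IsSolvable G := Cfsg.Agent.S0046.result (fun M hM => hmin M hM.1)
  haveI : Nontrivial G := by
    by_contra h
    rw [not_nontrivial_iff_subsingleton] at h
    exact hnn inferInstance
  obtain ⟨M, hMn, hMp⟩ := exists_normal_prime_index (G := G)
  set p := M.index with hp
  haveI := Fact.mk hMp
  have hMtop : M ≠ ⊤ := by
    intro h; rw [hp, h, Subgroup.index_top] at hMp; exact Nat.not_prime_one hMp
  haveI hMnil : Group.IsNilpotent M := hmin M hMtop
  have hnormal : ∀ (q : ℕ) [Fact q.Prime], q ≠ p → ∀ Q : Sylow q G, (Q : Subgroup G).Normal := by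
    intro q _ hqp Q
    have hq : q.Prime := Fact.out
    have h1 : ¬ q ∣ M.index := by
      intro h2
      exact hqp ((Nat.prime_dvd_prime_iff_eq hq hMp).mp h2)
    have hQM := sylow_le_of_normal Q M h1
    apply sylow_normal_of_normal_subtype Q M hQM
    exact (Group.isNilpotent_of_finite_tfae.out 0 3 rfl rfl).mp hMnil q inferInstance _
  obtain ⟨P, hPn⟩ : ∃ P : Sylow p G, ¬ (P : Subgroup G).Normal := by
    by_contra hcon
    push Not at hcon
    apply hnn
    apply (Group.isNilpotent_of_finite_tfae.out 0 3 rfl rfl).mpr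
    intro q _ Q
    by_cases hqp : q = p
    · subst hqp; exact hcon Q
    · exact hnormal q hqp Q
  have hNtop : Subgroup.normalizer ((P : Subgroup G) : Set G) ≠ ⊤ := by
    intro h2; exact hPn (Subgroup.normalizer_eq_top_iff.mp h2)
  have hcent : ∀ (q : ℕ) [Fact q.Prime], q ≠ p → ∀ (Q : Sylow q G) (H : Subgroup G),
      H ≤ P → H ⊔ Q ≠ ⊤ → ∀ x ∈ H, ∀ y ∈ (Q : Subgroup G), Commute x y := by
    intro q _ hqp Q H hHP hne x hx y hy
    exact commute_of_mem_nilpotent _ (hmin _ hne) (Subgroup.mem_sup_left hx)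
      (Subgroup.mem_sup_right hy) (coprime_orderOf_of_sylow (Ne.symm hqp) P Q (hHP hx) hy)
  obtain ⟨q, hqF, hqp, Q, hPQ⟩ : ∃ (q : ℕ) (_ : Fact q.Prime), q ≠ p ∧ ∃ Q : Sylow q G,
      (P : Subgroup G) ⊔ Q = ⊤ := by
    by_contra hcon
    push Not at hcon
    apply hNtop
    apply eq_top_of_forall_sylow
    intro q _
    by_cases hqp : q = p
    · subst hqp; exact ⟨P, Subgroup.le_normalizer⟩
    · obtain ⟨Q⟩ : Nonempty (Sylow q G) := inferInstance
      refine ⟨Q, ?_⟩
      refine le_trans ?_ (Subgroup.centralizer_le_normalizer _)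
      intro y hy
      rw [Subgroup.mem_centralizer_iff]
      intro x hx
      exact (hcent q hqp Q P le_rfl (hcon q inferInstance hqp Q) x hx y hy).eq
  have hQn := hnormal q hqp Q
  refine ⟨p, q, hMp, hqF.out, Ne.symm hqp, P, Q, ?_, hQn, hPQ, hPn⟩
  by_contra hcyc
  apply hNtop
  rw [eq_top_iff, ← hPQ]
  refine sup_le Subgroup.le_normalizer ?_
  have hall : ∀ x ∈ (P : Subgroup G), ∀ y ∈ (Q : Subgroup G), Commute x y := by
    intro x hx y hy
    refine hcent q hqp Q (Subgroup.zpowers x) (Subgroup.zpowers_le.mpr hx) ?_ x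
      (Subgroup.mem_zpowers x) y hy
    intro htop
    apply hcyc
    refine ⟨⟨⟨x, hx⟩, ?_⟩⟩
    intro z
    have h1 : (z : G) ∈ Subgroup.zpowers x ⊔ (Q : Subgroup G) := by rw [htop]; trivial
    rw [Subgroup.mem_sup_of_normal_right] at h1
    obtain ⟨a, ha, c, hc, hac⟩ := h1
    have h2 : c ∈ (P : Subgroup G) ⊓ Q := by
      refine ⟨?_, hc⟩
      have : c = a⁻¹ * z := by rw [← hac]; group
      rw [this]
      exact Subgroup.mul_mem _ (Subgroup.inv_mem _ (Subgroup.zpowers_le.mpr hx ha)) z.2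
    rw [sylow_inf_eq_bot (Ne.symm hqp) P Q, Subgroup.mem_bot] at h2
    rw [h2, mul_one] at hac
    obtain ⟨k, hk⟩ := Subgroup.mem_zpowers_iff.mp ha
    refine Subgroup.mem_zpowers_iff.mpr ⟨k, ?_⟩
    apply Subtype.ext
    rw [Subgroup.coe_zpow]
    exact hk.trans hac
  refine le_trans ?_ (Subgroup.centralizer_le_normalizer _)
  intro y hy
  rw [Subgroup.mem_centralizer_iff]
  intro x hx
  exact (hall x hx y hy).eq

/-- Structure of minimal non-nilpotent groups: if a finite group is not nilpotent but all its proper subgroups are, then there are distinct primes p and q, a cyclic Sylow p-subgroup P and a normal Sylow q-subgroup Q with G generated by P and Q. -/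
theorem result {G : Type*} [Group G] [Finite G] (hG : Cfsg.IsMinimalNonNilpotent G) : ∃ p q : ℕ, p.Prime ∧ q.Prime ∧ p ≠ q ∧ ∃ (P : Sylow p G) (Q : Sylow q G), IsCyclic P ∧ (Q : Subgroup G).Normal ∧ (P : Subgroup G) ⊔ Q = ⊤ := by
  obtain ⟨p, q, hp, hq, hpq, P, Q, h1, h2, h3, -⟩ := structure_aux hG
  exact ⟨p, q, hp, hq, hpq, P, Q, h1, h2, h3⟩

end Cfsg.Agent.S0536
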