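import Cfsg.Statements.S0537

import Cfsg.Agent.Lib.Helper7_Max
import Cfsg.Agent.Lib.Helper7_AbAct
import Cfsg.Agent.Lib.Helper7_SS
import Cfsg.Agent.S0536
set_option autoImplicit false
open Cfsg

namespace Cfsg.Agent.S0537


open Cfsg.Agent.Lib.Helper7_Max Cfsg.Agent.Lib.Helper7_AbAct Cfsg.Agent.Lib.Helper7_Nilp

open scoped IsMulCommutative in
theorem nilpotent_of_comm {G : Type*} [Group G] (H : Subgroup G) (h : IsMulCommutative H) :
    Group.IsNilpotent H := inferInstance

theorem nilpotent_case {G : Type*} [Group G] [Finite G] (hna : ¬ IsMulCommutative G)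
    (h : ∀ H : Subgroup G, H ≠ ⊤ → IsMulCommutative H) (hnil : Group.IsNilpotent G) :
    ∃ p : ℕ, p.Prime ∧ IsPGroup p G := by
  by_contra hcon
  push Not at hcon
  apply hna
  have hcomm : ∀ H : Subgroup G, H ≠ ⊤ → ∀ a ∈ H, ∀ b ∈ H, a * b = b * a := by
    intro H hH a ha b hb
    haveI := h H hH
    exact comm_of_mem H ha hb
  have hA : ∀ u v : G, (∃ q b : ℕ, q.Prime ∧ True ∧ orderOf u = q ^ b) →
      (∃ q b : ℕ, q.Prime ∧ True ∧ orderOf v = q ^ b) → Commute u v := by
    rintro u v ⟨q, a, hq, -, hu⟩ ⟨r, b, hr, -, hv⟩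
    by_cases hqr : q = r
    · subst hqr
      haveI := Fact.mk hq
      obtain ⟨Q⟩ : Nonempty (Sylow q G) := inferInstance
      have hQn : (Q : Subgroup G).Normal :=
        (Group.isNilpotent_of_finite_tfae.out 0 3 rfl rfl).mp hnil q inferInstance Q
      have hQtop : (Q : Subgroup G) ≠ ⊤ := by
        intro htop
        apply hcon q hq
        intro g
        obtain ⟨k, hk⟩ := Q.isPGroup' ⟨g, by rw [htop]; trivial⟩
        exact ⟨k, by simpa using congrArg Subtype.val hk⟩
      exact hcomm _ hQtop u (mem_sylow_of_orderOf_of_normal Q hQn hu) v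
        (mem_sylow_of_orderOf_of_normal Q hQn hv)
    · exact commute_of_prime_powers hq hr hqr hu hv
  have hB : ∀ u : G, (∃ q b : ℕ, q.Prime ∧ True ∧ orderOf u = q ^ b) → ∀ y : G, Commute u y := by
    intro u hu y
    rw [← mem_centralizer_singleton_iff]
    apply mem_of_prime_power_parts (Subgroup.centralizer ({u} : Set G)) (fun _ => True)
    · intro v hv
      rw [mem_centralizer_singleton_iff]
      exact hA u v hu hv
    · intros; trivial
  refine ⟨⟨fun x y => ?_⟩⟩
  have : Commute y x := by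
    rw [← mem_centralizer_singleton_iff]
    apply mem_of_prime_power_parts (Subgroup.centralizer ({y} : Set G)) (fun _ => True)
    · intro v hv
      rw [mem_centralizer_singleton_iff]
      exact (hB v hv y).symm
    · intros; trivial
  exact this.symm.eq

/-- A finite non-abelian group in which every proper subgroup is abelian is either of prime-power order, or is generated by a cyclic Sylow p-subgroup and a normal Sylow q-subgroup that is elementary abelian, for distinct primes p and q. -/
theorem result {G : Type*} [Group G] [Finite G] (hna : ¬ IsMulCommutative G) (h : ∀ H : Subgroup G, H ≠ ⊤ → IsMulCommutative H) : (∃ p : ℕ, p.Prime ∧ IsPGroup p G) ∨ ∃ p q : ℕ, p.Prime ∧ q.Prime ∧ p ≠ q ∧ ∃ (P : Sylow p G) (Q : Sylow q G), IsCyclic P ∧ (Q : Subgroup G).Normal ∧ Cfsg.IsElementaryAbelian q (Q : Subgroup G) ∧ (P : Subgroup G) ⊔ Q = ⊤ := by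
  by_cases hnil : Group.IsNilpotent G
  · exact Or.inl (nilpotent_case hna h hnil)
  right
  have hmn : Cfsg.IsMinimalNonNilpotent G :=
    ⟨hnil, fun H hH => nilpotent_of_comm H (h H hH)⟩
  obtain ⟨p, q, hp, hq, hpq, P, Q, hcyc, hQn, hPQ, hPn⟩ := Cfsg.Agent.S0536.structure_aux hmn
  haveI := Fact.mk hp
  haveI := Fact.mk hq
  refine ⟨p, q, hp, hq, hpq, P, Q, hcyc, hQn, ?_, hPQ⟩
  have hcomm : ∀ H : Subgroup G, H ≠ ⊤ → ∀ a ∈ H, ∀ b ∈ H, a * b = b * a := by
    intro H hH a ha b hb
    haveI := h H hH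
    exact comm_of_mem H ha hb
  have hinf : (P : Subgroup G) ⊓ Q = ⊥ := sylow_inf_eq_bot hpq P Q
  have hQtop : (Q : Subgroup G) ≠ ⊤ := by
    intro htop
    rw [htop, inf_top_eq] at hinf
    apply hPn
    rw [hinf]; infer_instance
  haveI hQc : IsMulCommutative (Q : Subgroup G) := h _ hQtop
  obtain ⟨x, hx⟩ := Cfsg.Agent.Lib.Helper7_SS.eq_zpowers_of_isCyclic (P : Subgroup G)
  have hxP : x ∈ (P : Subgroup G) := by rw [hx]; exact Subgroup.mem_zpowers x
  have hcop : (orderOf x).Coprime (Nat.card (Q : Subgroup G)) := by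
    obtain ⟨a, ha⟩ := (IsPGroup.iff_orderOf.mp P.isPGroup') ⟨x, hxP⟩
    rw [Subgroup.orderOf_mk] at ha
    rw [ha, Q.card_eq_multiplicity]
    exact Nat.Coprime.pow _ _ ((Nat.coprime_primes hp hq).mpr hpq)
  -- x does not centralize Q
  have hnc : ¬ ∀ y ∈ (Q : Subgroup G), x * y = y * x := by
    intro hall
    apply hna
    apply isMulCommutative_of_sup_eq_top (P : Subgroup G) Q hPQ
    · intro a ha b hb
      rw [hx] at ha hb
      obtain ⟨i, rfl⟩ := Subgroup.mem_zpowers_iff.mp ha
      obtain ⟨j, rfl⟩ := Subgroup.mem_zpowers_iff.mp hb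
      rw [← zpow_add, ← zpow_add, add_comm]
    · intro a ha b hb; exact comm_of_mem _ ha hb
    · intro a ha b hb
      rw [hx] at ha
      obtain ⟨i, rfl⟩ := Subgroup.mem_zpowers_iff.mp ha
      exact (Commute.zpow_left (show Commute x b from hall b hb) i).eq
  -- a normal subgroup D ≤ Q not centralized by x equals Q
  have key : ∀ D : Subgroup G, D ≤ Q → (∀ d ∈ D, x * d * x⁻¹ ∈ D) →
      (¬ ∀ d ∈ D, x * d = d * x) → D = Q := by
    intro D hDQ hxD hnD
    haveI : D.Normal := by
      apply normal_of_sup_eq_top (P : Subgroup G) Q D hPQ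
      · intro a ha
        have h1 : (P : Subgroup G) ≤ Subgroup.normalizer (D : Set G) := by
          rw [hx, Subgroup.zpowers_le]
          exact mem_normalizer_of_conj_mem D x hxD
        intro d hd
        exact (Subgroup.mem_normalizer_iff.mp (h1 ha) d).mp hd
      · intro b hb d hd
        rw [comm_of_mem _ hb (hDQ hd), mul_inv_cancel_right]; exact hd
    apply eq_of_sup_eq_top (P : Subgroup G) Q D hDQ hinf
    by_contra hne
    apply hnD
    intro d hd
    exact hcomm _ hne x (Subgroup.mem_sup_left hxP) d (Subgroup.mem_sup_right hd)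
  have hD : commSub (Q : Subgroup G) x = Q := by
    apply key _ (commSub_le _ x) (fun d hd => conj_mem_commSub _ x hd)
    intro hall
    exact hnc (centralizes_of_centralizes_commSub _ x hcop hall)
  have hC := eq_one_of_commSub_eq (Q : Subgroup G) x hD
  -- Ω₁(Q)
  let Q₁ : Subgroup G :=
    { carrier := {y | y ∈ (Q : Subgroup G) ∧ y ^ q = 1}
      one_mem' := ⟨Subgroup.one_mem _, one_pow _⟩
      mul_mem' := by
        rintro a b ⟨ha, ha'⟩ ⟨hb, hb'⟩
        refine ⟨Subgroup.mul_mem _ ha hb, ?_⟩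
        rw [(show Commute a b from comm_of_mem _ ha hb).mul_pow, ha', hb', one_mul]
      inv_mem' := by
        rintro a ⟨ha, ha'⟩
        exact ⟨Subgroup.inv_mem _ ha, by rw [inv_pow, ha', inv_one]⟩ }
  have hQ₁ : Q₁ = Q := by
    apply key Q₁ (fun y hy => hy.1)
    · rintro d ⟨hd, hd'⟩
      exact ⟨hQn.conj_mem d hd x, by rw [conj_pow, hd']; simp⟩
    · intro hall
      -- an element of order q in Q
      have hQne : (Q : Subgroup G) ≠ ⊥ := by
        intro hbot
        apply hnc
        intro y hy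
        rw [hbot, Subgroup.mem_bot] at hy
        rw [hy]; simp
      have hdvd : q ∣ Nat.card (Q : Subgroup G) := by
        rcases Q.isPGroup'.card_eq_or_dvd with h1 | h1
        · exact absurd (Subgroup.card_eq_one.mp h1) hQne
        · exact h1
      obtain ⟨z, hz⟩ := exists_prime_orderOf_dvd_card' (G := (Q : Subgroup G)) q hdvd
      have hz1 : (z : G) ∈ Q₁ := by
        refine ⟨z.2, ?_⟩
        have := pow_orderOf_eq_one z
        rw [hz] at this
        exact congrArg Subtype.val this
      have hz2 := hC z z.2 (hall z hz1)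
      have hz3 : z = 1 := Subtype.ext hz2
      rw [hz3, orderOf_one] at hz
      exact hq.one_lt.ne hz
  refine ⟨hQc, ?_⟩
  intro a ha
  rw [← hQ₁] at ha
  exact ha.2

end Cfsg.Agent.S0537
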