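import Cfsg.Statements.S0540

import Cfsg.Agent.S0539
import Cfsg.Agent.Lib.Helper7_Max
import Cfsg.Agent.Lib.Helper4_Syl
set_option autoImplicit false
open Pointwise
open Cfsg

namespace Cfsg.Agent.S0540

open Cfsg.Agent.Lib.Helper7_Subnormal Cfsg.Agent.Lib.Helper7_Max Cfsg.Agent.Lib.Helper4_Syl

section
variable {G : Type*} [Group G] [Finite G] (A : Subgroup G) (S : Subgroup G → Set (Subgroup G))
  (hS : ∀ V B : Subgroup G, B ∈ S V ↔ (∃ g : G, B = MulAut.conj g • A) ∧ B ≤ V ∧
    (B.subgroupOf V).IsSubnormal)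

include hS in
theorem conj_mem_S {V B : Subgroup G} (hB : B ∈ S V) {v : G} (hv : v ∈ V) :
    MulAut.conj v • B ∈ S V := by
  rw [hS] at hB ⊢
  obtain ⟨⟨g, hg⟩, hBV, hsn⟩ := hB
  refine ⟨⟨v * g, by rw [hg, conj_mul_smul]⟩, ?_, ?_⟩
  · intro x hx
    rw [mem_conj_smul] at hx
    have := V.mul_mem (V.mul_mem hv (hBV hx)) (V.inv_mem hv)
    simpa [mul_assoc] using this
  · have h1 := isSubnormal_cj hsn (⟨v, hv⟩ : V)
    have h2 : (B.subgroupOf V).map (MulAut.conj (⟨v, hv⟩ : V)).toMonoidHom =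
        (MulAut.conj v • B).subgroupOf V := by
      ext x
      rw [Subgroup.mem_map_equiv, Subgroup.mem_subgroupOf, Subgroup.mem_subgroupOf, mem_conj_smul]
      simp [MulAut.conj_symm_apply]
    rw [← h2]; exact h1

include hS in
theorem le_of_mem_S {V B : Subgroup G} (hB : B ∈ S V) : B ≤ V := ((hS V B).mp hB).2.1

include hS in
theorem key (U : Set (Subgroup G))
    (h2 : ∀ V ∈ U, ∀ W ∈ U, ∀ B ∈ S W, B ≤ V → B ∈ S V)
    (V W X : Subgroup G) (hV : Maximal (· ∈ U) V) (hXU : X ∈ U)
    (hX : Subgroup.normalizer ((sSup (S V ∩ S W) : Subgroup G) : Set G) ≤ X)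
    (hcard : V ≠ X → (S V ∩ S X).ncard ≤ (S V ∩ S W).ncard) : V = X := by
  by_contra hne
  set D := sSup (S V ∩ S W) with hD
  have hsub : S V ∩ S W ⊆ S V ∩ S X := by
    intro B hB
    refine ⟨hB.1, h2 X hXU V hV.1 B hB.1 ?_⟩
    exact ((le_sSup hB).trans Subgroup.le_normalizer).trans hX
  have heq : S V ∩ S W = S V ∩ S X :=
    Set.eq_of_subset_of_ncard_le hsub (hcard hne) (Set.toFinite _)
  by_cases hall : S V ∩ S W = S V
  · apply hne
    apply le_antisymm _ (hV.2 hXU _) 
    · refine le_trans ?_ hX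
      intro v hv
      apply mem_normalizer_of_conj_mem
      have h3 : D ≤ D.comap (MulAut.conj v).toMonoidHom := by
        apply sSup_le
        intro B hB b hb
        have h4 : MulAut.conj v • B ∈ S V ∩ S W := by
          rw [hall]; exact conj_mem_S A S hS hB.1 hv
        exact (le_sSup h4) (conj_mem_conj_smul hb)
      intro d hd
      exact h3 hd
    · refine le_trans ?_ hX
      intro v hv
      apply mem_normalizer_of_conj_mem
      have h3 : D ≤ D.comap (MulAut.conj v).toMonoidHom := by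
        apply sSup_le
        intro B hB b hb
        have h4 : MulAut.conj v • B ∈ S V ∩ S W := by
          rw [hall]; exact conj_mem_S A S hS hB.1 hv
        exact (le_sSup h4) (conj_mem_conj_smul hb)
      intro d hd
      exact h3 hd
  · have hss : S V ∩ S W ⊂ S V := lt_of_le_of_ne Set.inter_subset_left hall
    set T : Set (Subgroup V) := {B' | B'.map V.subtype ∈ S V} with hT
    set T₀ : Set (Subgroup V) := {B' | B'.map V.subtype ∈ S V ∩ S W} with hT₀
    have hTs : ∀ B' ∈ T, B'.IsSubnormal := by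
      intro B' hB'
      have := ((hS V _).mp hB').2.2
      rwa [Subgroup.subgroupOf, Subgroup.comap_map_eq_self_of_injective V.subtype_injective] at this
    have hmapconj : ∀ (B' : Subgroup V) (v : V),
        (MulAut.conj v • B').map V.subtype = MulAut.conj (v : G) • (B'.map V.subtype) := by
      intro B' v
      ext x
      rw [mem_conj_smul]
      constructor
      · rintro ⟨y, hy, rfl⟩
        have hy' : y ∈ MulAut.conj v • B' := hy
        rw [mem_conj_smul] at hy'
        exact ⟨_, hy', by simp⟩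
      · rintro ⟨y, hy, hyx⟩
        refine ⟨v * y * v⁻¹, conj_mem_conj_smul hy, ?_⟩
        simp only [Subgroup.subtype_apply, Subgroup.coe_mul, Subgroup.coe_inv] at hyx ⊢
        rw [hyx]; group
    have hTc : ∀ B' ∈ T, ∀ v : V, MulAut.conj v • B' ∈ T := by
      intro B' hB' v
      show (MulAut.conj v • B').map V.subtype ∈ S V
      rw [hmapconj]
      exact conj_mem_S A S hS hB' v.2
    have hTT : T₀ ⊂ T := by
      obtain ⟨B, hB1, hB2⟩ := Set.exists_of_ssubset hss
      refine (Set.ssubset_iff_of_subset (fun B' hB' => hB'.1)).mpr ⟨B.subgroupOf V, ?_, ?_⟩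
      · show (B.subgroupOf V).map V.subtype ∈ S V
        rw [Subgroup.map_subgroupOf_eq_of_le (le_of_mem_S A S hS hB1)]; exact hB1
      · show ¬ (B.subgroupOf V).map V.subtype ∈ S V ∩ S W
        rw [Subgroup.map_subgroupOf_eq_of_le (le_of_mem_S A S hS hB1)]; exact hB2
    obtain ⟨X', hX'T, hX'T₀, hX'n⟩ := Cfsg.Agent.S0539.result T T₀ hTs hTc hTT
    have hDmap : (sSup T₀).map V.subtype = D := by
      apply le_antisymm
      · rw [Subgroup.map_le_iff_le_comap]
        apply sSup_le
        intro B' hB'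
        rw [← Subgroup.map_le_iff_le_comap]
        exact le_sSup hB'
      · apply sSup_le
        intro B hB
        have hBV := le_of_mem_S A S hS hB.1
        rw [← Subgroup.map_subgroupOf_eq_of_le hBV]
        apply Subgroup.map_mono
        apply le_sSup
        show (B.subgroupOf V).map V.subtype ∈ S V ∩ S W
        rw [Subgroup.map_subgroupOf_eq_of_le hBV]; exact hB
    have hle : X'.map V.subtype ≤ Subgroup.normalizer (D : Set G) := by
      rintro _ ⟨x, hx, rfl⟩
      apply mem_normalizer_of_conj_mem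
      intro d hd
      rw [← hDmap] at hd ⊢
      obtain ⟨d', hd', rfl⟩ := hd
      exact ⟨x * d' * x⁻¹, (Subgroup.mem_normalizer_iff.mp (hX'n hx) d').mp hd', rfl⟩
    apply hX'T₀
    show X'.map V.subtype ∈ S V ∩ S W
    rw [heq]
    exact ⟨hX'T, h2 X hXU V hV.1 _ hX'T (hle.trans hX)⟩

end

/-- A uniqueness lemma of zipper type. Let A be a subgroup of a finite group G and U a nonempty family of subgroups. For V in U write S(V) for the set of conjugates of A that lie in V and are subnormal in V. Assume: A belongs to S(V) for every V in U; a member of some S(W) that lies in V belongs to S(V); and for all V, W in U the normalizer of the join of S(V) ∩ S(W) lies in some member of U. Then U has a greatest element. -/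
theorem result {G : Type*} [Group G] [Finite G] (A : Subgroup G) (U : Set (Subgroup G)) (hU : U.Nonempty) (S : Subgroup G → Set (Subgroup G)) (hS : ∀ V B : Subgroup G, B ∈ S V ↔ (∃ g : G, B = MulAut.conj g • A) ∧ B ≤ V ∧ (B.subgroupOf V).IsSubnormal) (h1 : ∀ V ∈ U, A ∈ S V) (h2 : ∀ V ∈ U, ∀ W ∈ U, ∀ B ∈ S W, B ≤ V → B ∈ S V) (h3 : ∀ V ∈ U, ∀ W ∈ U, ∃ X ∈ U, Subgroup.normalizer ((sSup (S V ∩ S W) : Subgroup G) : Set G) ≤ X) : ∃ M ∈ U, ∀ V ∈ U, V ≤ M := by
  classical
  have hfin : U.Finite := Set.toFinite U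
  have huniq : ∀ V W : Subgroup G, Maximal (· ∈ U) V → Maximal (· ∈ U) W → V = W := by
    by_contra hcon
    push Not at hcon
    obtain ⟨V₀, W₀, hV₀, hW₀, hne₀⟩ := hcon
    set P : Set (Subgroup G × Subgroup G) :=
      {x | Maximal (· ∈ U) x.1 ∧ Maximal (· ∈ U) x.2 ∧ x.1 ≠ x.2} with hP
    obtain ⟨⟨V, W⟩, ⟨hV, hW, hne⟩, hmax⟩ := Set.exists_max_image P
      (fun x => (S x.1 ∩ S x.2).ncard) (Set.toFinite P) ⟨(V₀, W₀), hV₀, hW₀, hne₀⟩
    obtain ⟨X₀, hX₀U, hX₀⟩ := h3 V hV.1 W hW.1
    obtain ⟨X, hX₀X, hX⟩ := hfin.exists_le_maximal hX₀U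
    have e1 : V = X := key A S hS U h2 V W X hV hX.1 (hX₀.trans hX₀X)
      (fun hn => hmax (V, X) ⟨hV, hX, hn⟩)
    have e2 : W = X := by
      apply key A S hS U h2 W V X hW hX.1
      · rw [Set.inter_comm]; exact hX₀.trans hX₀X
      · intro hn
        have := hmax (W, X) ⟨hW, hX, hn⟩
        rw [Set.inter_comm (S W) (S V)]
        exact this
    exact hne (e1.trans e2.symm)
  obtain ⟨V₁, hV₁⟩ := hU
  obtain ⟨M, -, hM⟩ := hfin.exists_le_maximal hV₁
  refine ⟨M, hM.1, ?_⟩
  intro V hV
  obtain ⟨M', hVM', hM'⟩ := hfin.exists_le_maximal hV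
  rw [huniq M M' hM hM']
  exact hVM'

end Cfsg.Agent.S0540
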