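import Cfsg.Statements.S0541

import Cfsg.Agent.S0539
import Cfsg.Agent.Lib.Helper7_Idx
import Cfsg.Agent.Lib.Helper7_Max
set_option autoImplicit false
open Pointwise
open Cfsg

namespace Cfsg.Agent.S0541

open Cfsg.Agent.Lib.Helper7_Subnormal Cfsg.Agent.Lib.Helper7_Max Cfsg.Agent.Lib.Helper4_Syl
  Cfsg.Agent.Lib.Helper7_Idx

/-- relative version of S0539 -/
theorem rel_normalizes {G : Type*} [Group G] [Finite G] (V : Subgroup G) (S S₀ : Set (Subgroup G))
    (hle : ∀ B ∈ S, B ≤ V) (hsn : ∀ B ∈ S, (B.subgroupOf V).IsSubnormal)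
    (hconj : ∀ B ∈ S, ∀ v ∈ V, MulAut.conj v • B ∈ S) (h₀ : S₀ ⊂ S) :
    ∃ X ∈ S, X ∉ S₀ ∧ X ≤ Subgroup.normalizer ((sSup S₀ : Subgroup G) : Set G) := by
  set T : Set (Subgroup V) := {B' | B'.map V.subtype ∈ S} with hT
  set T₀ : Set (Subgroup V) := {B' | B'.map V.subtype ∈ S₀} with hT₀
  have hTs : ∀ B' ∈ T, B'.IsSubnormal := by
    intro B' hB'
    have := hsn _ hB'
    rwa [Subgroup.subgroupOf, Subgroup.comap_map_eq_self_of_injective V.subtype_injective] at this
  have hTc : ∀ B' ∈ T, ∀ v : V, MulAut.conj v • B' ∈ T := by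
    intro B' hB' v
    show (MulAut.conj v • B').map V.subtype ∈ S
    rw [map_subtype_conj_smul]
    exact hconj _ hB' v v.2
  have hTT : T₀ ⊂ T := by
    obtain ⟨B, hB1, hB2⟩ := Set.exists_of_ssubset h₀
    refine (Set.ssubset_iff_of_subset (show T₀ ⊆ T from fun B' hB' => h₀.1 hB')).mpr ⟨B.subgroupOf V, ?_, ?_⟩
    · show (B.subgroupOf V).map V.subtype ∈ S
      rw [Subgroup.map_subgroupOf_eq_of_le (hle B hB1)]; exact hB1
    · show ¬ (B.subgroupOf V).map V.subtype ∈ S₀
      rw [Subgroup.map_subgroupOf_eq_of_le (hle B hB1)]; exact hB2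
  obtain ⟨X', hX'T, hX'T₀, hX'n⟩ := Cfsg.Agent.S0539.result T T₀ hTs hTc hTT
  have hDmap : (sSup T₀).map V.subtype = sSup S₀ := by
    apply le_antisymm
    · rw [Subgroup.map_le_iff_le_comap]
      apply sSup_le
      intro B' hB'
      rw [← Subgroup.map_le_iff_le_comap]
      exact le_sSup hB'
    · apply sSup_le
      intro B hB
      have hBV := hle B (h₀.1 hB)
      rw [← Subgroup.map_subgroupOf_eq_of_le hBV]
      apply Subgroup.map_mono
      apply le_sSup
      show (B.subgroupOf V).map V.subtype ∈ S₀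
      rw [Subgroup.map_subgroupOf_eq_of_le hBV]; exact hB
  refine ⟨X'.map V.subtype, hX'T, hX'T₀, ?_⟩
  rintro _ ⟨x, hx, rfl⟩
  apply mem_normalizer_of_conj_mem
  intro d hd
  rw [← hDmap] at hd ⊢
  obtain ⟨d', hd', rfl⟩ := hd
  exact ⟨x * d' * x⁻¹, (Subgroup.mem_normalizer_iff.mp (hX'n hx) d').mp hd', rfl⟩

section
variable {G : Type*} [Group G] [Finite G] (Z Y : Subgroup G)

/-- the `Y`-closure of a conjugate of `Z` -/
def cl (g : G) : Subgroup G := ⨆ y ∈ Y, MulAut.conj (y * g) • Z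

def gen (W : Subgroup G) : Subgroup G := sSup {B | (∃ g : G, B = MulAut.conj g • Z) ∧ B ≤ W}

theorem gen_le (W : Subgroup G) : gen Z W ≤ W := sSup_le (fun _ hB => hB.2)

theorem gen_mono {W W' : Subgroup G} (h : W ≤ W') : gen Z W ≤ gen Z W' :=
  sSup_le_sSup (fun _ hB => ⟨hB.1, hB.2.trans h⟩)

theorem le_cl (g : G) {y : G} (hy : y ∈ Y) : MulAut.conj (y * g) • Z ≤ cl Z Y g :=
  le_iSup₂ (f := fun y (_ : y ∈ Y) => MulAut.conj (y * g) • Z) y hy

theorem cl_le_normalizer (g : G) : Y ≤ Subgroup.normalizer (cl Z Y g : Set G) := by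
  intro y₀ hy₀
  apply mem_normalizer_of_conj_mem
  have h3 : cl Z Y g ≤ (cl Z Y g).comap (MulAut.conj y₀).toMonoidHom := by
    apply iSup₂_le
    intro y hy b hb
    have h4 : y₀ * b * y₀⁻¹ ∈ MulAut.conj (y₀ * y * g) • Z := by
      rw [mul_assoc, conj_mul_smul]
      exact conj_mem_conj_smul hb
    exact le_cl Z Y g (Y.mul_mem hy₀ hy) h4
  intro d hd
  exact h3 hd

theorem cl_le_gen (g : G) {W : Subgroup G} (h : cl Z Y g ≤ W) : cl Z Y g ≤ gen Z W := by
  apply iSup₂_le
  intro y hy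
  exact le_sSup ⟨⟨_, rfl⟩, (le_cl Z Y g hy).trans h⟩

end

/-- Let Z and Y be subgroups of a finite group G and p a prime. Suppose that for every g in G the subgroup generated by the conjugates of g Z g⁻¹ under Y is a p-group. Then there is a Sylow p-subgroup P of G such that Y normalizes the subgroup generated by all conjugates of Z contained in P. -/
theorem result {G : Type*} [Group G] [Finite G] (p : ℕ) [Fact p.Prime] (Z Y : Subgroup G) (h : ∀ g : G, IsPGroup p ↥(⨆ y ∈ Y, MulAut.conj (y * g) • Z)) : ∃ P : Sylow p G, Y ≤ Subgroup.normalizer ((⨆ g ∈ {g : G | MulAut.conj g • Z ≤ (P : Subgroup G)}, MulAut.conj g • Z : Subgroup G) : Set G) := by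
  classical
  set 𝒲 : Set (Subgroup G) := {W | IsPGroup p W ∧ Y ≤ Subgroup.normalizer (W : Set G) ∧ gen Z W = W}
    with h𝒲
  have hne : 𝒲.Nonempty :=
    ⟨cl Z Y 1, h 1, cl_le_normalizer Z Y 1, le_antisymm (gen_le Z _) (cl_le_gen Z Y 1 le_rfl)⟩
  obtain ⟨W, ⟨hWp, hWY, hWg⟩, hmax⟩ := Set.exists_max_image 𝒲 (fun W => Nat.card W)
    (Set.toFinite _) hne
  obtain ⟨P, hWP⟩ := hWp.exists_le_sylow
  refine ⟨P, ?_⟩
  set V : Subgroup G := ⨆ g ∈ {g : G | MulAut.conj g • Z ≤ (P : Subgroup G)}, MulAut.conj g • Z with hV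
  have hVW : V = W := by
    apply le_antisymm
    · by_contra hcon
      set S : Set (Subgroup G) := {B | (∃ g : G, B = MulAut.conj g • Z) ∧ B ≤ (P : Subgroup G)} with hS
      set S₀ : Set (Subgroup G) := {B | (∃ g : G, B = MulAut.conj g • Z) ∧ B ≤ W} with hS₀
      have hSS : S₀ ⊂ S := by
        refine (Set.ssubset_iff_of_subset (show S₀ ⊆ S from fun B hB => ⟨hB.1, hB.2.trans hWP⟩)).mpr ?_
        by_contra hno
        push Not at hno
        apply hcon
        apply iSup₂_le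
        intro g hg
        exact (hno (MulAut.conj g • Z) ⟨⟨g, rfl⟩, hg⟩).2
      haveI : Group.IsNilpotent (P : Subgroup G) := P.isPGroup'.isNilpotent
      obtain ⟨X, ⟨⟨x, rfl⟩, hXP⟩, hXS₀, hXn⟩ := rel_normalizes (P : Subgroup G) S S₀ (fun B hB => hB.2)
        (fun B _ => isSubnormal_of_isNilpotent _)
        (by
          rintro B ⟨⟨g, rfl⟩, hB⟩ v hv
          refine ⟨⟨v * g, by rw [conj_mul_smul]⟩, ?_⟩
          have := Subgroup.pointwise_smul_le_pointwise_smul_iff (a := MulAut.conj v) |>.mpr hB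
          rwa [conj_smul_eq_of_mem hv] at this) hSS
      have hsS₀ : sSup S₀ = W := hWg
      rw [hsS₀] at hXn
      have hXW : ¬ MulAut.conj x • Z ≤ W := fun hle => hXS₀ ⟨⟨x, rfl⟩, hle⟩
      have hUn : cl Z Y x ≤ Subgroup.normalizer (W : Set G) := by
        apply iSup₂_le
        intro y hy
        rw [conj_mul_smul]
        have h1 := Subgroup.pointwise_smul_le_pointwise_smul_iff (a := MulAut.conj y) |>.mpr hXn
        rwa [← normalizer_conj, mem_normalizer_iff_conj_smul.mp (hWY hy)] at h1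
      have hW' : W ⊔ cl Z Y x ∈ 𝒲 := by
        refine ⟨hWp.to_sup_of_normal_left' (h x) hUn, ?_, ?_⟩
        · exact (le_inf hWY (cl_le_normalizer Z Y x)).trans (normalizer_inf_le_normalizer_sup _ _)
        · apply le_antisymm (gen_le Z _)
          apply sup_le
          · conv_lhs => rw [← hWg]
            exact gen_mono Z le_sup_left
          · exact cl_le_gen Z Y x le_sup_right
      have h1 := hmax _ hW'
      have h2 : W ⊔ cl Z Y x = W := (Subgroup.eq_of_le_of_card_ge le_sup_left h1).symm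
      apply hXW
      have h3 : MulAut.conj (1 * x) • Z ≤ cl Z Y x := le_cl Z Y x Y.one_mem
      rw [one_mul] at h3
      exact h3.trans (h2 ▸ le_sup_right)
    · conv_lhs => rw [← hWg]
      apply sSup_le
      rintro B ⟨⟨g, rfl⟩, hB⟩
      exact le_iSup₂ (f := fun g (_ : g ∈ {g : G | MulAut.conj g • Z ≤ (P : Subgroup G)}) =>
        MulAut.conj g • Z) g (hB.trans hWP)
  rw [hVW]
  exact hWY

end Cfsg.Agent.S0541
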