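import Cfsg.Statements.S0542

import Cfsg.Agent.Lib.Helper7_Subnormal
set_option autoImplicit false
open Cfsg

namespace Cfsg.Agent.S0542

open Cfsg.Agent.Lib.Helper7_Subnormal

/-- A Sylow p-subgroup of a finite group meets every subnormal subgroup H in a Sylow p-subgroup of H. -/
theorem result {G : Type*} [Group G] [Finite G] (p : ℕ) [Fact p.Prime] (H : Subgroup G) (hH : H.IsSubnormal) (S : Sylow p G) : ∃ Q : Sylow p H, (Q : Subgroup H) = (S : Subgroup G).subgroupOf H := by
  have h1 := isSylIn_inf_of_isSubnormal (Cfsg.Agent.Lib.Helper4_Syl.IsSylIn.of_sylow_top S) hH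
  obtain ⟨Q, hQ⟩ := h1.exists_sylow
  refine ⟨Q, ?_⟩
  have h2 := congrArg (fun X => Subgroup.subgroupOf X H) hQ
  simp only [Subgroup.subgroupOf, Subgroup.comap_map_eq_self_of_injective H.subtype_injective] at h2
  rw [h2]
  ext x
  simp [Subgroup.mem_comap]

end Cfsg.Agent.S0542
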