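import Cfsg.Statements.S0547
import Cfsg.Agent.Lib.Helper1_PrimSolv

set_option autoImplicit false
open Cfsg

namespace Cfsg.Agent.S0547

open Subgroup Cfsg.Agent.Lib.Helper1_PrimSolv

/-- Let a finite solvable group G act faithfully and primitively on a set, and let M be a minimal normal subgroup of G. Then M is transitive with trivial point stabilizers, and the number of points equals the order of M, which is a prime power p ^ d with d ≥ 1. -/
theorem result {G : Type*} [Group G] [Finite G] [Group.IsSolvable G] {Ω : Type*} [Nonempty Ω] [MulAction G Ω] [FaithfulSMul G Ω] (hprim : MulAction.IsPreprimitive G Ω) (M : Subgroup G) [M.Normal] (hM : M ≠ ⊥) (hmin : ∀ K : Subgroup G, K.Normal → K ≤ M → K = ⊥ ∨ K = M) : MulAction.IsPretransitive M Ω ∧ (∀ ω : Ω, MulAction.stabilizer M ω = ⊥) ∧ ∃ p d : ℕ, p.Prime ∧ 0 < d ∧ Nat.card Ω = p ^ d ∧ Nat.card M = p ^ d := by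
  haveI : MulAction.IsPretransitive G Ω := hprim.toIsPretransitive
  have hreg : ∀ ω : Ω, MulAction.stabilizer M ω = ⊥ := by
    intro ω
    obtain ⟨-, -, -, hinf⟩ := main hprim M hM hmin ω
    rw [eq_bot_iff]
    intro m hm
    rw [mem_bot]
    have : (m : G) ∈ M ⊓ MulAction.stabilizer G ω := ⟨m.2, hm⟩
    rw [hinf, mem_bot] at this
    exact Subtype.ext this
  obtain ⟨ω⟩ := ‹Nonempty Ω›
  obtain ⟨hab, ⟨p, hp, hpow⟩, hsup, hinf⟩ := main hprim M hM hmin ω
  have hcomp : IsComplement' M (MulAction.stabilizer G ω) := by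
    apply isComplement'_of_disjoint_and_mul_eq_univ (disjoint_iff.mpr hinf)
    rw [← normal_mul, hsup]; rfl
  have htr : ∀ b : Ω, ∃ m ∈ M, m • ω = b := by
    intro b
    obtain ⟨g, rfl⟩ := MulAction.exists_smul_eq G ω b
    obtain ⟨⟨m, h⟩, hmh, -⟩ := hcomp.existsUnique g
    refine ⟨m, m.2, ?_⟩
    have h1 : (m : G) * h = g := hmh
    rw [← h1, mul_smul]
    congr 1
    exact h.2.symm
  refine ⟨⟨?_⟩, hreg, ?_⟩
  · intro a b
    obtain ⟨n, hn, rfl⟩ := htr a
    obtain ⟨m, hm, rfl⟩ := htr b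
    refine ⟨⟨m * n⁻¹, mul_mem hm (inv_mem hn)⟩, ?_⟩
    show (m * n⁻¹) • n • ω = m • ω
    rw [mul_smul, inv_smul_smul]
  · haveI : Fact p.Prime := ⟨hp⟩
    have hPG : IsPGroup p M := Cfsg.Agent.Lib.Helper1_MinNormal.isPGroup_of_pow_eq_one hpow
    obtain ⟨d, hd⟩ := IsPGroup.iff_card.mp hPG
    have hcard : Nat.card Ω = Nat.card M := by
      have h1 : (MulAction.stabilizer G ω).index = Nat.card M := hcomp.index_eq_card
      have h3 : (MulAction.stabilizer G ω).index = Nat.card Ω := MulAction.index_stabilizer_of_transitive G ω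
      rw [← h1, h3]
    refine ⟨p, d, hp, ?_, by rw [hcard, hd], hd⟩
    rcases Nat.eq_zero_or_pos d with h0 | h0
    · rw [h0, pow_zero] at hd
      exact absurd (card_eq_one.mp hd) hM
    · exact h0

end Cfsg.Agent.S0547
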