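import Cfsg.Statements.S0548
import Cfsg.Agent.Lib.Helper1_PrimSolv

set_option autoImplicit false
open Cfsg

namespace Cfsg.Agent.S0548

open Subgroup Cfsg.Agent.Lib.Helper1_PrimSolv

/-- Let a finite solvable group G act faithfully and primitively on a set, let M be a minimal normal subgroup and H the stabilizer of a point. Then H is a complement to M, no non-identity element of H centralizes M, and the only subgroups of M normalized by H are the trivial subgroup and M. -/
theorem result {G : Type*} [Group G] [Finite G] [Group.IsSolvable G] {Ω : Type*} [MulAction G Ω] [FaithfulSMul G Ω] (hprim : MulAction.IsPreprimitive G Ω) (M : Subgroup G) [M.Normal] (hM : M ≠ ⊥) (hmin : ∀ K : Subgroup G, K.Normal → K ≤ M → K = ⊥ ∨ K = M) (ω : Ω) : Subgroup.IsComplement' M (MulAction.stabilizer G ω) ∧ MulAction.stabilizer G ω ⊓ Subgroup.centralizer (M : Set G) = ⊥ ∧ ∀ K : Subgroup G, K ≤ M → MulAction.stabilizer G ω ≤ Subgroup.normalizer (K : Set G) → K = ⊥ ∨ K = M := by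
  haveI : MulAction.IsPretransitive G Ω := hprim.toIsPretransitive
  obtain ⟨hab, -, hsup, hinf⟩ := main hprim M hM hmin ω
  refine ⟨?_, ?_, ?_⟩
  · apply isComplement'_of_disjoint_and_mul_eq_univ (disjoint_iff.mpr hinf)
    rw [← normal_mul, hsup]; rfl
  · apply eq_bot_of_normal_le_stabilizer _ _ ω inf_le_left
    apply normal_of_le_normalizer hsup
    · intro m hm
      rw [mem_normalizer_iff]
      intro k
      have hkey : ∀ k : G, k ∈ centralizer (M : Set G) → m * k * m⁻¹ = k := by
        intro k hk
        have := mem_centralizer_iff.mp hk m hm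
        rw [this]; group
      constructor
      · rintro ⟨hk1, hk2⟩
        rw [hkey k hk2]; exact ⟨hk1, hk2⟩
      · rintro ⟨hk1, hk2⟩
        have h3 : k ∈ centralizer (M : Set G) := by
          have : (centralizer (M : Set G)).Normal := inferInstance
          have := this.conj_mem _ hk2 m⁻¹
          simpa [mul_assoc] using this
        rw [hkey k h3] at hk1
        exact ⟨hk1, h3⟩
    · intro h hh
      have hcn : (centralizer (M : Set G)).Normal := inferInstance
      rw [mem_normalizer_iff]
      intro k
      constructor
      · rintro ⟨hk1, hk2⟩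
        replace hk1 : k ∈ MulAction.stabilizer G ω := hk1
        have h3 : h * k * h⁻¹ ∈ MulAction.stabilizer G ω := mul_mem (mul_mem hh hk1) (inv_mem hh)
        exact ⟨h3, hcn.conj_mem k hk2 h⟩
      · rintro ⟨hk1, hk2⟩
        replace hk1 : h * k * h⁻¹ ∈ MulAction.stabilizer G ω := hk1
        refine ⟨?_, ?_⟩
        · have := mul_mem (mul_mem (inv_mem hh) hk1) hh
          simpa [mul_assoc] using this
        · have := hcn.conj_mem _ hk2 h⁻¹
          simpa [mul_assoc] using this
  · intro K hK hHK
    exact hmin K (normal_of_le_normalizer hsup (le_normalizer_of_comm hab hK) hHK) hK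

end Cfsg.Agent.S0548
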