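import Cfsg.Statements.S0552

import Cfsg.Agent.S0044
set_option autoImplicit false
open Cfsg

namespace Cfsg.Agent.S0552


/-- Let σ be an automorphism of a finite solvable group G fixing every element of the Fitting subgroup. If σ is not the identity then the order of σ and the order of G have a common prime factor. -/
theorem result {G : Type*} [Group G] [Finite G] [Group.IsSolvable G] (σ : G ≃* G) (hσ : ∀ x ∈ Cfsg.fittingSubgroup G, σ x = x) (hne : σ ≠ MulEquiv.refl G) : ¬ (orderOf σ).Coprime (Nat.card G) := by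
  intro hcop
  apply hne
  have hFn := Cfsg.Agent.Lib.Helper3_Comp.fittingSubgroup_normal G
  have hz : ∀ g : G, g⁻¹ * σ g ∈ Cfsg.fittingSubgroup G := by
    intro g
    apply Cfsg.Agent.S0044.result
    rw [Subgroup.mem_centralizer_iff]
    intro x hx
    have h1 : σ (g * x * g⁻¹) = g * x * g⁻¹ := hσ _ (hFn.conj_mem x hx g)
    rw [map_mul, map_mul, map_inv, hσ x hx] at h1
    calc x * (g⁻¹ * σ g) = g⁻¹ * (g * x * g⁻¹) * σ g := by group
      _ = g⁻¹ * (σ g * x * (σ g)⁻¹) * σ g := by rw [h1]
      _ = g⁻¹ * σ g * x := by group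
  have hpow : ∀ (g : G) (n : ℕ), (σ ^ n) g = g * (g⁻¹ * σ g) ^ n := by
    intro g n
    induction n with
    | zero => simp
    | succ n ih =>
      rw [pow_succ', MulAut.mul_apply, ih, map_mul, map_pow, hσ _ (hz g), pow_succ', ← mul_assoc,
        mul_inv_cancel_left]
  ext g
  have h1 := hpow g (orderOf σ)
  rw [pow_orderOf_eq_one, MulAut.one_apply] at h1
  have h2 : (g⁻¹ * σ g) ^ orderOf σ = 1 := by
    have := congrArg (fun t => g⁻¹ * t) h1
    simpa using this.symm
  have h3 : orderOf (g⁻¹ * σ g) ∣ orderOf σ := orderOf_dvd_of_pow_eq_one h2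
  have h4 : orderOf (g⁻¹ * σ g) ∣ Nat.card G := orderOf_dvd_natCard _
  have h5 := Nat.eq_one_of_dvd_coprimes hcop h3 h4
  rw [orderOf_eq_one_iff] at h5
  have : σ g = g * (g⁻¹ * σ g) := by group
  rw [this, h5, mul_one]; rfl

end Cfsg.Agent.S0552
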