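import Cfsg.Statements.S0555


set_option autoImplicit false
open Cfsg

namespace Cfsg.Agent.S0555

open Subgroup
open scoped commutatorElement

theorem exists_gen {G : Type*} [Group G] (A B : Subgroup G) [hn : (B.subgroupOf A).Normal]
    (h : IsCyclic (↥A ⧸ B.subgroupOf A)) : ∃ a ∈ A, ∀ x ∈ A, ∃ k : ℤ, (a ^ k)⁻¹ * x ∈ B := by
  obtain ⟨g, hg⟩ := h.exists_generator
  induction g using QuotientGroup.induction_on with
  | H a =>
    refine ⟨a, a.2, ?_⟩
    intro x hx
    obtain ⟨k, hk⟩ := mem_zpowers_iff.mp (hg ((⟨x, hx⟩ : A) : ↥A ⧸ B.subgroupOf A))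
    refine ⟨k, ?_⟩
    rw [← QuotientGroup.mk_zpow, QuotientGroup.eq] at hk
    exact hk

theorem mulAut_comm {A : Type*} [Group A] [h : IsCyclic A] (φ ψ : MulAut A) : φ * ψ = ψ * φ := by
  apply (IsCyclic.mulAutMulEquiv A).injective
  rw [map_mul, map_mul, mul_comm]

/-- Let i ≥ 1. If in the derived series of a group the quotient of the i-th term by the (i+1)-st and the quotient of the (i+1)-st by the (i+2)-nd are both cyclic, then the (i+1)-st and (i+2)-nd terms coincide. -/
theorem result {G : Type*} [Group G] (i : ℕ) (hi : 1 ≤ i) (h₁ : IsCyclic (↥(derivedSeries G i) ⧸ (derivedSeries G (i + 1)).subgroupOf (derivedSeries G i))) (h₂ : IsCyclic (↥(derivedSeries G (i + 1)) ⧸ (derivedSeries G (i + 2)).subgroupOf (derivedSeries G (i + 1)))) : derivedSeries G (i + 1) = derivedSeries G (i + 2) := by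
  set D0 := derivedSeries G i with hD0
  set D1 := derivedSeries G (i + 1) with hD1
  set D2 := derivedSeries G (i + 2) with hD2
  have hD1eq : D1 = ⁅D0, D0⁆ := rfl
  have hD2eq : D2 = ⁅D1, D1⁆ := rfl
  haveI hD1n : D1.Normal := by rw [hD1]; infer_instance
  haveI hD2n : D2.Normal := by rw [hD2]; infer_instance
  have h21 : D2 ≤ D1 := derivedSeries_antitone G (by omega)
  obtain ⟨a, haD, ha⟩ := exists_gen D1 D2 h₂
  obtain ⟨b, hbD, hb⟩ := exists_gen D0 D1 h₁
  set π := QuotientGroup.mk' D2 with hπ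
  have hπ1 : ∀ x : G, π x = 1 ↔ x ∈ D2 := fun x => QuotientGroup.eq_one_iff x
  have hπa : ∀ x ∈ D1, ∃ k : ℤ, π x = π a ^ k := by
    intro x hx
    obtain ⟨k, hk⟩ := ha x hx
    refine ⟨k, ?_⟩
    rw [← hπ1, map_mul, map_inv, map_zpow, inv_mul_eq_one] at hk
    exact hk.symm
  haveI hAn : (zpowers (π a)).Normal := by
    constructor
    intro y hy g
    obtain ⟨j, rfl⟩ := mem_zpowers_iff.mp hy
    obtain ⟨g₀, rfl⟩ := QuotientGroup.mk'_surjective D2 g
    obtain ⟨k, hk⟩ := hπa (g₀ * a * g₀⁻¹) (hD1n.conj_mem a haD g₀)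
    rw [← conj_zpow]
    apply zpow_mem
    rw [map_mul, map_mul, map_inv] at hk
    rw [hk]
    exact zpow_mem (mem_zpowers _) k
  have hcomm : ∀ g h : G ⧸ D2, ⁅g, h⁆ * π a = π a * ⁅g, h⁆ := by
    intro g h
    have h1 : MulAut.conjNormal (H := zpowers (π a)) ⁅g, h⁆ = 1 := by
      rw [map_commutatorElement, commutatorElement_eq_one_iff_mul_comm]
      exact mulAut_comm _ _
    have h2 := congrArg (fun φ : MulAut (zpowers (π a)) => ((φ ⟨π a, mem_zpowers _⟩ : zpowers (π a)) : G ⧸ D2)) h1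
    simp only [MulAut.conjNormal_apply, MulAut.one_apply] at h2
    calc ⁅g, h⁆ * π a = (⁅g, h⁆ * π a * ⁅g, h⁆⁻¹) * ⁅g, h⁆ := by group
      _ = π a * ⁅g, h⁆ := by rw [h2]
  have hC : commutator G ≤ (centralizer {π a}).comap π := by
    rw [commutator_eq_closure, closure_le]
    rintro _ ⟨g, h, rfl⟩
    rw [SetLike.mem_coe, mem_comap, mem_centralizer_singleton_iff, map_commutatorElement]
    exact (hcomm _ _)
  have hD0c : D0 ≤ commutator G := by
    rw [← derivedSeries_one]
    exact derivedSeries_antitone G hi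
  have hba : π b * π a = π a * π b := by
    have := hC (hD0c hbD)
    rw [mem_comap, mem_centralizer_singleton_iff] at this
    exact this
  have hform : ∀ x ∈ D0, ∃ k j : ℤ, π x = π b ^ k * π a ^ j := by
    intro x hx
    obtain ⟨k, hk⟩ := hb x hx
    obtain ⟨j, hj⟩ := hπa _ hk
    refine ⟨k, j, ?_⟩
    rw [← hj, map_mul, map_inv, map_zpow]; group
  apply le_antisymm _ h21
  rw [hD1eq, commutator_le]
  intro x hx y hy
  rw [← hπ1, map_commutatorElement, commutatorElement_eq_one_iff_mul_comm]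
  obtain ⟨k, j, hxk⟩ := hform x hx
  obtain ⟨k', j', hyk⟩ := hform y hy
  rw [hxk, hyk]
  have hc : Commute (π b) (π a) := hba
  have c1 : Commute (π b ^ k * π a ^ j) (π b ^ k' * π a ^ j') := by
    apply Commute.mul_left <;> apply Commute.mul_right
    · exact (Commute.refl _).zpow_zpow _ _
    · exact hc.zpow_zpow _ _
    · exact hc.symm.zpow_zpow _ _
    · exact (Commute.refl _).zpow_zpow _ _
  exact c1

end Cfsg.Agent.S0555
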