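import Cfsg.Statements.S0559

import Cfsg.Agent.Lib.Helper4_Syl
set_option autoImplicit false
open Pointwise
open Cfsg

namespace Cfsg.Agent.S0559


/-- Let G = HK be a finite group (every element a product of an element of H and an element of K), and let A and B be conjugates of H and K. Then every element is a product of an element of A and one of B, and there is g with A = gHg⁻¹ and B = gKg⁻¹ simultaneously. -/
theorem result {G : Type*} [Group G] [Finite G] (H K A B : Subgroup G) (hHK : ∀ g : G, ∃ h ∈ H, ∃ k ∈ K, g = h * k) (hA : ∃ x : G, A = MulAut.conj x • H) (hB : ∃ y : G, B = MulAut.conj y • K) : (∀ g : G, ∃ a ∈ A, ∃ b ∈ B, g = a * b) ∧ ∃ g : G, A = MulAut.conj g • H ∧ B = MulAut.conj g • K := by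
  obtain ⟨x, rfl⟩ := hA
  obtain ⟨y, rfl⟩ := hB
  obtain ⟨h, hh, k, hk, hxy⟩ := hHK (x⁻¹ * y)
  have e1 : MulAut.conj x • H = MulAut.conj (x * h) • H := by
    rw [Cfsg.Agent.Lib.Helper4_Syl.conj_mul_smul, Cfsg.Agent.Lib.Helper4_Syl.conj_smul_eq_of_mem hh]
  have e2 : MulAut.conj y • K = MulAut.conj (x * h) • K := by
    have : x * h = y * k⁻¹ := by
      have : y = x * (h * k) := by rw [← hxy]; group
      rw [this]; group
    rw [this, Cfsg.Agent.Lib.Helper4_Syl.conj_mul_smul,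
      Cfsg.Agent.Lib.Helper4_Syl.conj_smul_eq_of_mem (K.inv_mem hk)]
  refine ⟨?_, x * h, e1, e2⟩
  intro t
  rw [e1, e2]
  obtain ⟨h', hh', k', hk', ht⟩ := hHK ((x * h)⁻¹ * t * (x * h))
  refine ⟨(x * h) * h' * (x * h)⁻¹, Cfsg.Agent.Lib.Helper4_Syl.conj_mem_conj_smul hh',
    (x * h) * k' * (x * h)⁻¹, Cfsg.Agent.Lib.Helper4_Syl.conj_mem_conj_smul hk', ?_⟩
  have : t = (x * h) * (h' * k') * (x * h)⁻¹ := by rw [← ht]; group
  rw [this]; group

end Cfsg.Agent.S0559
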