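import Cfsg.Statements.S0560
import Cfsg.Agent.Lib.Helper4_Syl
import Cfsg.Agent.Lib.Helper4_Prod

set_option autoImplicit false
open Cfsg

namespace Cfsg.Agent.S0560

open scoped Pointwise
open Cfsg.Agent.Lib.Helper4_Syl Cfsg.Agent.Lib.Helper4_Prod

theorem L1 {G : Type*} [Group G] [Finite G] (p : ℕ) [Fact p.Prime] (H : Subgroup G) :
    ∃ T : Sylow p G, IsSylIn p (H ⊓ (T : Subgroup G)) H := by
  obtain ⟨P₀, hP₀⟩ := exists_isSylIn p H
  obtain ⟨T, hT⟩ := hP₀.isPGroup.exists_le_sylow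
  refine ⟨T, ?_⟩
  have h1 := hP₀.eq_of_le (inf_le_left : H ⊓ (T : Subgroup G) ≤ H) (T.2.to_le inf_le_right)
    (le_inf hP₀.le hT)
  rw [h1]; exact hP₀

theorem L3 {G : Type*} [Group G] [Finite G] (p : ℕ) [Fact p.Prime] {X H : Subgroup G}
    (h : IsSylIn p X H) : ∃ u : ℕ, Nat.card H = Nat.card X * u ∧ ¬ p ∣ u := by
  obtain ⟨S, rfl⟩ := h.exists_sylow
  refine ⟨(S : Subgroup ↥H).index, ?_, S.not_dvd_index⟩
  rw [Subgroup.card_map_of_injective H.subtype_injective]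
  exact ((S : Subgroup ↥H).card_mul_index).symm

/-- Let the finite group G be the product HK of two subgroups and p a prime. Then there are Sylow p-subgroups P of H and Q of K and a Sylow p-subgroup R of G whose underlying set is the product set of P and Q. -/
theorem result {G : Type*} [Group G] [Finite G] (H K : Subgroup G) (hHK : ∀ g : G, ∃ h ∈ H, ∃ k ∈ K, g = h * k) (p : ℕ) [Fact p.Prime] : ∃ (P : Sylow p H) (Q : Sylow p K) (R : Sylow p G), ((R : Subgroup G) : Set G) = (((P : Subgroup H).map H.subtype : Subgroup G) : Set G) * (((Q : Subgroup K).map K.subtype : Subgroup G) : Set G) := by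
  have hp : p.Prime := Fact.out
  obtain ⟨TH, hTH⟩ := L1 p H
  obtain ⟨TK, hTK⟩ := L1 p K
  obtain ⟨c, hc⟩ := MulAction.exists_smul_eq G TH TK
  obtain ⟨h', hh', k', hk', hck⟩ := hHK c⁻¹
  have hcS : MulAut.conj c • (TH : Subgroup G) = (TK : Subgroup G) := by
    rw [← hc]; rfl
  have hS1 : IsSylIn p (H ⊓ MulAut.conj h'⁻¹ • (TH : Subgroup G)) H := by
    have h1 := hTH.smul_of_mem (H.inv_mem hh')
    rwa [Subgroup.smul_inf, conj_smul_eq_of_mem (H.inv_mem hh')] at h1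
  have hS2 : IsSylIn p (K ⊓ MulAut.conj h'⁻¹ • (TH : Subgroup G)) K := by
    have h1 := hTK.smul_of_mem hk'
    rw [Subgroup.smul_inf, conj_smul_eq_of_mem hk', ← hcS, ← conj_mul_smul] at h1
    have h2 : k' * c = h'⁻¹ := by
      have h3 : c = (h' * k')⁻¹ := by rw [← hck, inv_inv]
      rw [h3]; group
    rwa [h2] at h1
  have hSeq : ((h'⁻¹ • TH : Sylow p G) : Subgroup G) = MulAut.conj h'⁻¹ • (TH : Subgroup G) := rfl
  rw [← hSeq] at hS1 hS2
  generalize (h'⁻¹ • TH : Sylow p G) = S at hS1 hS2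
  obtain ⟨P, hP⟩ := hS1.exists_sylow
  obtain ⟨Q, hQ⟩ := hS2.exists_sylow
  refine ⟨P, Q, S, ?_⟩
  rw [hP, hQ]
  symm
  apply Set.eq_of_subset_of_ncard_le
  · rintro _ ⟨a, ha, b, hb, rfl⟩
    exact (S : Subgroup G).mul_mem ha.2 hb.2
  · rw [← Nat.card_coe_set_eq, ← Nat.card_coe_set_eq]
    show Nat.card ↥(S : Subgroup G) ≤ _
    have e1 := card_mul_card_eq H K
    have huniv : ((H : Set G) * (K : Set G) : Set G) = Set.univ := by
      ext g
      simp only [Set.mem_univ, iff_true]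
      obtain ⟨a, ha, b, hb, rfl⟩ := hHK g
      exact ⟨a, ha, b, hb, rfl⟩
    rw [huniv, Nat.card_coe_set_eq, Set.ncard_univ] at e1
    have e2 := card_mul_card_eq (H ⊓ (S : Subgroup G)) (K ⊓ (S : Subgroup G))
    obtain ⟨ua, hua, hpa⟩ := L3 p hS1
    obtain ⟨ub, hub, hpb⟩ := L3 p hS2
    obtain ⟨x, hx⟩ := IsPGroup.iff_card.1 S.2
    have hEp : IsPGroup p ↥((H ⊓ (S : Subgroup G)) ⊓ (K ⊓ (S : Subgroup G)) : Subgroup G) :=
      S.2.to_le (inf_le_left.trans inf_le_right)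
    obtain ⟨y, hy⟩ := IsPGroup.iff_card.1 hEp
    have hed : Nat.card ↥((H ⊓ (S : Subgroup G)) ⊓ (K ⊓ (S : Subgroup G)) : Subgroup G) ∣
        Nat.card ↥(H ⊓ K : Subgroup G) :=
      Subgroup.card_dvd_of_le (le_inf (inf_le_left.trans inf_le_left)
        (inf_le_right.trans inf_le_left))
    have hsg : Nat.card ↥(S : Subgroup G) ∣ Nat.card G := Subgroup.card_subgroup_dvd_card _
    have h1 : Nat.card ↥(S : Subgroup G) *
        Nat.card ↥((H ⊓ (S : Subgroup G)) ⊓ (K ⊓ (S : Subgroup G)) : Subgroup G) ∣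
        (Nat.card ↥(H ⊓ (S : Subgroup G) : Subgroup G) *
          Nat.card ↥(K ⊓ (S : Subgroup G) : Subgroup G)) * (ua * ub) := by
      have h2 := Nat.mul_dvd_mul hsg hed
      rw [← e1, hua, hub] at h2
      convert h2 using 1
      ring
    have hcop : Nat.Coprime (Nat.card ↥(S : Subgroup G) *
        Nat.card ↥((H ⊓ (S : Subgroup G)) ⊓ (K ⊓ (S : Subgroup G)) : Subgroup G)) (ua * ub) := by
      rw [hx, hy, ← pow_add]
      apply Nat.Coprime.pow_left
      exact Nat.Coprime.mul_right ((Nat.Prime.coprime_iff_not_dvd hp).2 hpa)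
        ((Nat.Prime.coprime_iff_not_dvd hp).2 hpb)
    have h3 := hcop.dvd_of_dvd_mul_right h1
    rw [e2] at h3
    have hepos : 0 < Nat.card ↥((H ⊓ (S : Subgroup G)) ⊓ (K ⊓ (S : Subgroup G)) : Subgroup G) :=
      Nat.card_pos
    have h4 := Nat.dvd_of_mul_dvd_mul_right hepos h3
    refine Nat.le_of_dvd ?_ h4
    haveI : Nonempty ↥(((H ⊓ (S : Subgroup G) : Subgroup G) : Set G) *
        ((K ⊓ (S : Subgroup G) : Subgroup G) : Set G) : Set G) :=
      ⟨⟨1 * 1, ⟨1, Subgroup.one_mem _, 1, Subgroup.one_mem _, rfl⟩⟩⟩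
    exact Nat.card_pos
  · exact Set.toFinite _

end Cfsg.Agent.S0560
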