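import Cfsg.Statements.S0562

import Cfsg.Agent.Lib.Helper4_Syl
set_option autoImplicit false
open Cfsg

namespace Cfsg.Agent.S0562

open Pointwise Cfsg.Agent.Lib.Helper4_Syl

/-- Let the finite group G be the product HK of subgroups, A normal in H, B normal in K, and L the normalizer of the subgroup generated by A and B. Then every element of L is a product of an element of L ∩ H and an element of L ∩ K. -/
theorem result {G : Type*} [Group G] [Finite G] (H K A B : Subgroup G) (hHK : ∀ g : G, ∃ h ∈ H, ∃ k ∈ K, g = h * k) (hA : A ≤ H) (hAn : (A.subgroupOf H).Normal) (hB : B ≤ K) (hBn : (B.subgroupOf K).Normal) : ∀ g ∈ Subgroup.normalizer ((A ⊔ B : Subgroup G) : Set G), ∃ h ∈ Subgroup.normalizer ((A ⊔ B : Subgroup G) : Set G) ⊓ H, ∃ k ∈ Subgroup.normalizer ((A ⊔ B : Subgroup G) : Set G) ⊓ K, g = h * k := by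
  intro g hg
  obtain ⟨h, hh, k, hk, rfl⟩ := hHK g
  set X := A ⊔ B with hX
  rw [mem_normalizer_iff_conj_smul, conj_mul_smul] at hg
  have hAh : MulAut.conj h⁻¹ • A = A := by
    rw [← mem_normalizer_iff_conj_smul]
    exact (Subgroup.normal_subgroupOf_iff_le_normalizer hA).mp hAn (H.inv_mem hh)
  have hBk : MulAut.conj k • B = B := by
    rw [← mem_normalizer_iff_conj_smul]
    exact (Subgroup.normal_subgroupOf_iff_le_normalizer hB).mp hBn hk
  have e : MulAut.conj k • X = MulAut.conj h⁻¹ • X := by
    conv_rhs => rw [← hg]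
    rw [conj_inv_smul_smul]
  have hle : X ≤ MulAut.conj k • X := by
    apply sup_le
    · rw [e]
      conv_lhs => rw [← hAh]
      exact Subgroup.pointwise_smul_le_pointwise_smul_iff.mpr le_sup_left
    · conv_lhs => rw [← hBk]
      exact Subgroup.pointwise_smul_le_pointwise_smul_iff.mpr le_sup_right
  have hkX : MulAut.conj k • X = X :=
    (Subgroup.eq_of_le_of_card_ge hle (card_conj_smul k X).le).symm
  have hhX : MulAut.conj h • X = X := by
    rw [hkX] at hg; exact hg
  exact ⟨h, ⟨mem_normalizer_iff_conj_smul.mpr hhX, hh⟩, k,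
    ⟨mem_normalizer_iff_conj_smul.mpr hkX, hk⟩, rfl⟩

end Cfsg.Agent.S0562
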