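import Mathlib
import Cfsg.Agent.Lib.helper6_Kegel
import Cfsg.Statements.S0566

set_option autoImplicit false
open Pointwise
open Cfsg

namespace Cfsg.Agent.S0566

/-- Let A and B be nontrivial subgroups of a finite group G such that for every x the product set of A and xBx⁻¹ is a proper subgroup of G. Then there is a proper normal subgroup of G containing A or containing B. -/
theorem result {G : Type*} [Group G] [Finite G] (A B : Subgroup G) (hA : A ≠ ⊥) (hB : B ≠ ⊥) (h : ∀ x : G, ∃ S : Subgroup G, S ≠ ⊤ ∧ (S : Set G) = (A : Set G) * ((MulAut.conj x • B : Subgroup G) : Set G)) : ∃ N : Subgroup G, N.Normal ∧ N ≠ ⊤ ∧ (A ≤ N ∨ B ≤ N) := by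
  apply Cfsg.Agent.Lib.helper6_Kegel.kegel B A
  intro x
  obtain ⟨S, hS, hset⟩ := h x
  refine ⟨S, hS, ?_⟩
  intro g
  rw [← SetLike.mem_coe, hset, Set.mem_mul]
  constructor
  · rintro ⟨a, ha, d, hd, rfl⟩
    rw [SetLike.mem_coe, Subgroup.mem_smul_pointwise_iff_exists] at hd
    obtain ⟨c, hc, rfl⟩ := hd
    exact ⟨a, ha, c, hc, rfl⟩
  · rintro ⟨a, ha, c, hc, rfl⟩
    refine ⟨a, ha, x * c * x⁻¹, ?_, rfl⟩
    rw [SetLike.mem_coe, Subgroup.mem_smul_pointwise_iff_exists]
    exact ⟨c, hc, rfl⟩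
end Cfsg.Agent.S0566
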