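import Cfsg.Statements.S0567
import Cfsg.Agent.Lib.Helper4_Syl

set_option autoImplicit false
open Cfsg

namespace Cfsg.Agent.S0567

open scoped commutatorElement
open Cfsg.Agent.Lib.Helper4_Syl

theorem fwd {G : Type*} [Group G] (H : Subgroup G) {X : Subgroup G} (hX : X.IsSubnormal) :
    H ≤ X → ∃ m : ℕ, (fun K : Subgroup G => ⁅K, H⁆)^[m] ⊤ ≤ X := by
  induction hX with
  | top => intro _; exact ⟨0, le_top⟩
  | step X K hle _ hN ih =>
    intro hHX
    obtain ⟨m, hm⟩ := ih (hHX.trans hle)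
    refine ⟨m + 1, ?_⟩
    rw [Function.iterate_succ_apply']
    show ⁅(fun K : Subgroup G => ⁅K, H⁆)^[m] ⊤, H⁆ ≤ X
    rw [Subgroup.commutator_le]
    intro k hk x hx
    have hKN : K ≤ Subgroup.normalizer (X : Set G) :=
      (Subgroup.normal_subgroupOf_iff_le_normalizer hle).1 hN
    rw [commutatorElement_def]
    exact X.mul_mem (conj_mem_of_mem_normalizer (hKN (hm hk)) (hHX hx)) (X.inv_mem (hHX hx))

theorem norm_step {G : Type*} [Group G] (H C : Subgroup G) :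
    H ⊔ C ≤ Subgroup.normalizer ((H ⊔ ⁅C, H⁆ : Subgroup G) : Set G) := by
  have hgen : ∀ l : G, l ∈ Subgroup.normalizer ((⁅C, H⁆ : Subgroup G) : Set G) →
      (∀ h ∈ H, l * h * l⁻¹ ∈ H ⊔ ⁅C, H⁆) → ∀ m ∈ H ⊔ ⁅C, H⁆, l * m * l⁻¹ ∈ H ⊔ ⁅C, H⁆ := by
    intro l hl hlH m hm
    have h1 : l * m * l⁻¹ ∈ (H ⊔ ⁅C, H⁆).map (MulAut.conj l).toMonoidHom := ⟨m, hm, rfl⟩
    rw [Subgroup.map_sup] at h1
    refine (sup_le ?_ ?_ : _ ≤ H ⊔ ⁅C, H⁆) h1
    · rintro _ ⟨h, hh, rfl⟩
      exact hlH h hh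
    · rintro _ ⟨d, hd, rfl⟩
      exact (le_sup_right : ⁅C, H⁆ ≤ H ⊔ ⁅C, H⁆) (conj_mem_of_mem_normalizer hl hd)
  refine sup_le ?_ ?_
  · refine le_normalizer_of_conj_mem ?_
    intro l hl m hm
    refine hgen l (Subgroup.normalizer_commutator_ge_right C H hl) ?_ m hm
    intro h hh
    exact (le_sup_left : H ≤ H ⊔ ⁅C, H⁆) (H.mul_mem (H.mul_mem hl hh) (H.inv_mem hl))
  · refine le_normalizer_of_conj_mem ?_
    intro l hl m hm
    refine hgen l (Subgroup.normalizer_commutator_ge_left C H hl) ?_ m hm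
    intro h hh
    have h1 : l * h * l⁻¹ = ⁅l, h⁆ * h := by rw [commutatorElement_def]; group
    rw [h1]
    exact (H ⊔ ⁅C, H⁆).mul_mem
      ((le_sup_right : ⁅C, H⁆ ≤ H ⊔ ⁅C, H⁆) (Subgroup.commutator_mem_commutator hl hh))
      ((le_sup_left : H ≤ H ⊔ ⁅C, H⁆) hh)

/-- A subgroup H of a group G is subnormal exactly when, for some m, the subgroup obtained from G by taking the commutator with H m times in succession is contained in H. -/
theorem result {G : Type*} [Group G] (H : Subgroup G) : H.IsSubnormal ↔ ∃ m : ℕ, (fun K : Subgroup G => ⁅K, H⁆)^[m] ⊤ ≤ H := by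
  constructor
  · intro h
    exact fwd H h le_rfl
  · rintro ⟨m, hm⟩
    have hall : ∀ i : ℕ, (H ⊔ (fun K : Subgroup G => ⁅K, H⁆)^[i] ⊤).IsSubnormal := by
      intro i
      induction i with
      | zero =>
        have h1 : H ⊔ (fun K : Subgroup G => ⁅K, H⁆)^[0] ⊤ = ⊤ := by
          rw [Function.iterate_zero]; exact sup_top_eq H
        rw [h1]; exact Subgroup.IsSubnormal.top
      | succ i ih =>
        rw [Function.iterate_succ_apply']
        have hle : H ⊔ ⁅(fun K : Subgroup G => ⁅K, H⁆)^[i] ⊤, H⁆ ≤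
            H ⊔ (fun K : Subgroup G => ⁅K, H⁆)^[i] ⊤ := by
          refine sup_le le_sup_left ?_
          rw [Subgroup.commutator_le]
          intro x hx y hy
          rw [commutatorElement_def]
          have hx' : x ∈ H ⊔ (fun K : Subgroup G => ⁅K, H⁆)^[i] ⊤ :=
            (le_sup_right : _ ≤ H ⊔ (fun K : Subgroup G => ⁅K, H⁆)^[i] ⊤) hx
          have hy' : y ∈ H ⊔ (fun K : Subgroup G => ⁅K, H⁆)^[i] ⊤ :=
            (le_sup_left : H ≤ H ⊔ (fun K : Subgroup G => ⁅K, H⁆)^[i] ⊤) hy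
          exact Subgroup.mul_mem _ (Subgroup.mul_mem _ (Subgroup.mul_mem _ hx' hy')
            (Subgroup.inv_mem _ hx')) (Subgroup.inv_mem _ hy')
        exact Subgroup.IsSubnormal.step _ _ hle ih
          (Subgroup.normal_subgroupOf_of_le_normalizer (norm_step H _))
    have h1 := hall m
    rwa [sup_eq_left.2 hm] at h1

end Cfsg.Agent.S0567
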