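import Cfsg.Statements.S0570

import Cfsg.Agent.Lib.Helper7_Carter2
set_option autoImplicit false
open Cfsg

namespace Cfsg.Agent.S0570


/-- Let G be a finite group with a nilpotent normal subgroup F such that G modulo F is nilpotent (nilpotent length at most two). Then a subgroup of G is a Carter subgroup if and only if it is the system normalizer of some Hall complement system. -/
theorem result {G : Type*} [Group G] [Finite G] (F : Subgroup G) [F.Normal] (hF : Group.IsNilpotent F) (hGF : Group.IsNilpotent (G ⧸ F)) (C : Subgroup G) : Cfsg.IsCarterSubgroup C ↔ ∃ K : Nat.Primes → Subgroup G, Cfsg.IsComplementSystem K ∧ C = Cfsg.systemNormalizer K := by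
  exact Cfsg.Agent.Lib.Helper7_Carter2.carter_iff_systemNormalizer F hF hGF C

end Cfsg.Agent.S0570
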