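import Cfsg.Statements.S0572
import Cfsg.Agent.Lib.Helper1_Comm

set_option autoImplicit false
open Cfsg

namespace Cfsg.Agent.S0572

open Subgroup Cfsg.Agent.Lib.Helper1_Comm
open scoped commutatorElement

theorem comm_mul_right {G : Type*} [Group G] (x y z : G) : ⁅x, y * z⁆ = ⁅x, y⁆ * (y * ⁅x, z⁆ * y⁻¹) := by
  simp only [commutatorElement_def]; group

theorem comm_mul_left {G : Type*} [Group G] (x y z : G) : ⁅x * y, z⁆ = (x * ⁅y, z⁆ * x⁻¹) * ⁅x, z⁆ := by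
  simp only [commutatorElement_def]; group

theorem conj_comm {G : Type*} [Group G] (g x y : G) :
    g * ⁅x, y⁆ * g⁻¹ = ⁅g * x * g⁻¹, g * y * g⁻¹⁆ := by
  simp only [commutatorElement_def]; group

theorem key {G : Type*} [Group G] (A B : Subgroup G) [IsMulCommutative A] [IsMulCommutative B]
    (hAB : ∀ g : G, ∃ a ∈ A, ∃ b ∈ B, g = a * b) (a : G) (ha : a ∈ A) (b : G) (hb : b ∈ B)
    (a1 : G) (ha1 : a1 ∈ A) (b1 : G) (hb1 : b1 ∈ B) :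
    (b1 * a1) * ⁅a, b⁆ * (b1 * a1)⁻¹ = (a1 * b1) * ⁅a, b⁆ * (a1 * b1)⁻¹ := by
  have hBA : ∀ g : G, ∃ b ∈ B, ∃ a ∈ A, g = b * a := by
    intro g
    obtain ⟨a, ha, b, hb, h⟩ := hAB g⁻¹
    exact ⟨b⁻¹, B.inv_mem hb, a⁻¹, A.inv_mem ha, by rw [← mul_inv_rev, ← h, inv_inv]⟩
  have hA : ∀ x ∈ A, ∀ y ∈ A, ⁅x, y⁆ = 1 := fun x hx y hy =>
    commutatorElement_eq_one_iff_mul_comm.mpr (setLike_mul_comm hx hy)
  have hB : ∀ x ∈ B, ∀ y ∈ B, ⁅x, y⁆ = 1 := fun x hx y hy =>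
    commutatorElement_eq_one_iff_mul_comm.mpr (setLike_mul_comm hx hy)
  have hAc : ∀ x ∈ A, ∀ y ∈ A, x * y * x⁻¹ = y := fun x hx y hy => by
    rw [setLike_mul_comm hx hy]; group
  have hBc : ∀ x ∈ B, ∀ y ∈ B, x * y * x⁻¹ = y := fun x hx y hy => by
    rw [setLike_mul_comm hx hy]; group
  obtain ⟨b2, hb2, a2, ha2, h2⟩ := hBA (a1 * b * a1⁻¹)
  obtain ⟨a3, ha3, b3, hb3, h3⟩ := hAB (b1 * a * b1⁻¹)
  have e1 : ∀ x ∈ A, ⁅x, b2 * a2⁆ = ⁅x, b2⁆ := by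
    intro x hx
    rw [comm_mul_right, hA x hx a2 ha2]; group
  have e2 : ∀ y ∈ B, ⁅a3 * b3, y⁆ = ⁅a3, y⁆ := by
    intro y hy
    rw [comm_mul_left, hB b3 hb3 y hy]; group
  have l : (b1 * a1) * ⁅a, b⁆ * (b1 * a1)⁻¹ = ⁅a3, b2⁆ := by
    calc (b1 * a1) * ⁅a, b⁆ * (b1 * a1)⁻¹ = b1 * (a1 * ⁅a, b⁆ * a1⁻¹) * b1⁻¹ := by group
      _ = b1 * ⁅a, b2⁆ * b1⁻¹ := by rw [conj_comm, hAc a1 ha1 a ha, h2, e1 a ha]
      _ = ⁅a3, b2⁆ := by rw [conj_comm, hBc b1 hb1 b2 hb2, h3, e2 b2 hb2]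
  have r : (a1 * b1) * ⁅a, b⁆ * (a1 * b1)⁻¹ = ⁅a3, b2⁆ := by
    calc (a1 * b1) * ⁅a, b⁆ * (a1 * b1)⁻¹ = a1 * (b1 * ⁅a, b⁆ * b1⁻¹) * a1⁻¹ := by group
      _ = a1 * ⁅a3, b⁆ * a1⁻¹ := by rw [conj_comm, hBc b1 hb1 b hb, h3, e2 b hb]
      _ = ⁅a3, b2⁆ := by rw [conj_comm, hAc a1 ha1 a3 ha3, h2, e1 a3 ha3]
  rw [l, r]

theorem comm_comm {G : Type*} [Group G] (A B : Subgroup G) [IsMulCommutative A] [IsMulCommutative B]
    (hAB : ∀ g : G, ∃ a ∈ A, ∃ b ∈ B, g = a * b) : ⁅⁅A, B⁆, ⁅A, B⁆⁆ = ⊥ := by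
  rw [commutator_eq_bot_iff_le_centralizer, commutator_le]
  intro a1 ha1 b1 hb1
  rw [mem_centralizer_iff]
  intro c hc
  -- `c` ranges over `[A,B]`; show `[A,B] ≤ C([a1,b1])`
  have : ⁅A, B⁆ ≤ centralizer {⁅a1, b1⁆} := by
    rw [commutator_le]
    intro a ha b hb
    rw [mem_centralizer_singleton_iff]
    have h := key A B hAB a ha b hb a1⁻¹ (A.inv_mem ha1) b1⁻¹ (B.inv_mem hb1)
    -- (b1⁻¹ a1⁻¹) c (b1⁻¹ a1⁻¹)⁻¹ = (a1⁻¹ b1⁻¹) c (a1⁻¹ b1⁻¹)⁻¹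
    have h' : ⁅a1, b1⁆ * ⁅a, b⁆ * ⁅a1, b1⁆⁻¹ = ⁅a, b⁆ := by
      have e : ⁅a1, b1⁆ = (b1⁻¹ * a1⁻¹)⁻¹ * (a1⁻¹ * b1⁻¹) := by
        simp only [commutatorElement_def]; group
      calc ⁅a1, b1⁆ * ⁅a, b⁆ * ⁅a1, b1⁆⁻¹
          = (b1⁻¹ * a1⁻¹)⁻¹ * ((a1⁻¹ * b1⁻¹) * ⁅a, b⁆ * (a1⁻¹ * b1⁻¹)⁻¹) * (b1⁻¹ * a1⁻¹) := by
            rw [e]; group
        _ = (b1⁻¹ * a1⁻¹)⁻¹ * ((b1⁻¹ * a1⁻¹) * ⁅a, b⁆ * (b1⁻¹ * a1⁻¹)⁻¹) * (b1⁻¹ * a1⁻¹) := by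
            rw [h]
        _ = ⁅a, b⁆ := by group
    calc ⁅a, b⁆ * ⁅a1, b1⁆ = (⁅a1, b1⁆ * ⁅a, b⁆ * ⁅a1, b1⁆⁻¹) * ⁅a1, b1⁆ := by rw [h']
      _ = ⁅a1, b1⁆ * ⁅a, b⁆ := by group
  have h2 := this hc
  rw [mem_centralizer_singleton_iff] at h2
  exact h2

theorem commutator_le_comm {G : Type*} [Group G] (A B : Subgroup G) [IsMulCommutative A]
    [IsMulCommutative B] (hAB : ∀ g : G, ∃ a ∈ A, ∃ b ∈ B, g = a * b) :
    ⁅(⊤ : Subgroup G), (⊤ : Subgroup G)⁆ ≤ ⁅A, B⁆ := by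
  have hn : (⁅A, B⁆ : Subgroup G).Normal := by
    rw [← normalizer_eq_top_iff, eq_top_iff]
    intro g _
    obtain ⟨a, ha, b, hb, rfl⟩ := hAB g
    refine mul_mem (le_normalizer_commutator_left A B ha) ?_
    have := le_normalizer_commutator_left B A hb
    rwa [commutator_comm] at this
  rw [commutator_le]
  intro g _ h _
  rw [← QuotientGroup.eq_one_iff, ← QuotientGroup.mk'_apply, map_commutatorElement,
    commutatorElement_eq_one_iff_commute]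
  obtain ⟨a, ha, b, hb, rfl⟩ := hAB g
  obtain ⟨a', ha', b', hb', rfl⟩ := hAB h
  have hAA : ∀ x ∈ A, ∀ y ∈ A, Commute (QuotientGroup.mk' ⁅A, B⁆ x) (QuotientGroup.mk' ⁅A, B⁆ y) :=
    fun x hx y hy => (show Commute x y from setLike_mul_comm hx hy).map _
  have hBB : ∀ x ∈ B, ∀ y ∈ B, Commute (QuotientGroup.mk' ⁅A, B⁆ x) (QuotientGroup.mk' ⁅A, B⁆ y) :=
    fun x hx y hy => (show Commute x y from setLike_mul_comm hx hy).map _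
  have hABc : ∀ x ∈ A, ∀ y ∈ B, Commute (QuotientGroup.mk' ⁅A, B⁆ x) (QuotientGroup.mk' ⁅A, B⁆ y) := by
    intro x hx y hy
    rw [← commutatorElement_eq_one_iff_commute, ← map_commutatorElement, QuotientGroup.mk'_apply,
      QuotientGroup.eq_one_iff]
    exact commutator_mem_commutator hx hy
  rw [map_mul, map_mul]
  exact Commute.mul_left (Commute.mul_right (hAA a ha a' ha') (hABc a ha b' hb'))
    (Commute.mul_right (hABc a' ha' b hb).symm (hBB b hb b' hb'))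

/-- Itô's Theorem: if a group G is the product AB of two abelian subgroups, then the commutator subgroup of G is abelian, i.e. the second term of the derived series is trivial. -/
theorem result {G : Type*} [Group G] (A B : Subgroup G) [IsMulCommutative A] [IsMulCommutative B] (hAB : ∀ g : G, ∃ a ∈ A, ∃ b ∈ B, g = a * b) : derivedSeries G 2 = ⊥ := by
  rw [derivedSeries_succ, derivedSeries_succ, derivedSeries_zero, eq_bot_iff, ← comm_comm A B hAB]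
  exact commutator_mono (commutator_le_comm A B hAB) (commutator_le_comm A B hAB)

end Cfsg.Agent.S0572
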