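import Cfsg.Statements.S0576

import Cfsg.Agent.Lib.Helper7_Frat
set_option autoImplicit false
open Cfsg

namespace Cfsg.Agent.S0576

open Cfsg.Agent.Lib.Helper7_Frat

/-- Let H be a normal subgroup of a finite group G with H contained in the Frattini subgroup of G. Then the group of inner automorphisms of H is contained in the Frattini subgroup of the automorphism group of H. -/
theorem result {G : Type*} [Group G] [Finite G] (H : Subgroup G) [H.Normal] (hH : H ≤ frattini G) : (MulAut.conj : ↥H →* MulAut ↥H).range ≤ frattini (MulAut ↥H) := by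
  rw [le_frattini_iff]
  intro M hM
  by_contra hle
  haveI hInn : ((MulAut.conj : ↥H →* MulAut ↥H).range).Normal := by
    constructor
    rintro _ ⟨x, rfl⟩ φ
    refine ⟨φ x, ?_⟩
    ext y
    simp [MulAut.conj_apply]
  have hsup := sup_eq_top_of_coatom hM hle
  have hK : M.comap (MulAut.conjNormal : G →* MulAut ↥H) ⊔ frattini G = ⊤ := by
    rw [eq_top_iff]
    intro g _
    have h1 : (MulAut.conjNormal g : MulAut ↥H) ∈ (MulAut.conj : ↥H →* MulAut ↥H).range ⊔ M :=
      hsup ▸ Subgroup.mem_top _
    rw [Subgroup.mem_sup_of_normal_left] at h1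
    obtain ⟨_, ⟨x, rfl⟩, m, hm, hxm⟩ := h1
    have h2 : (MulAut.conjNormal ((x : G)⁻¹ * g) : MulAut ↥H) = m := by
      rw [map_mul, map_inv, MulAut.conjNormal_val, ← hxm]
      group
    have h3 : g = ((x : G)⁻¹ * g) * ((g⁻¹ * x * g)) := by group
    rw [h3]
    apply Subgroup.mul_mem _ (Subgroup.mem_sup_left _) (Subgroup.mem_sup_right _)
    · show (MulAut.conjNormal ((x : G)⁻¹ * g) : MulAut ↥H) ∈ M
      rw [h2]; exact hm
    · apply hH
      have := (inferInstance : H.Normal).conj_mem x x.2 g⁻¹
      simpa using this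
  have hK2 := frattini_nongenerating hK
  apply hle
  rintro _ ⟨x, rfl⟩
  have h1 : (x : G) ∈ M.comap (MulAut.conjNormal : G →* MulAut ↥H) := hK2 ▸ Subgroup.mem_top _
  rw [Subgroup.mem_comap, MulAut.conjNormal_val] at h1
  exact h1

end Cfsg.Agent.S0576
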