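import Cfsg.Statements.S0577

import Cfsg.Agent.S0536
import Cfsg.Agent.Lib.Helper7_Frat2
set_option autoImplicit false
open Cfsg

namespace Cfsg.Agent.S0577

open Cfsg.Agent.Lib.Helper7_Nilp Cfsg.Agent.Lib.Helper7_Max Cfsg.Agent.Lib.Helper7_Frat
  Cfsg.Agent.Lib.Helper7_Frat2 Cfsg.Agent.Lib.Helper1_SZ

/-- a hom from a finite group has commutative image as soon as images of prime power order
elements commute -/
theorem comm_of_prime_powers {K H : Type*} [Group K] [Finite K] [Group H] (f : K →* H)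
    (h : ∀ u v : K, (∃ r a : ℕ, r.Prime ∧ orderOf u = r ^ a) → (∃ s b : ℕ, s.Prime ∧ orderOf v = s ^ b) →
      f u * f v = f v * f u) : ∀ x y : K, f x * f y = f y * f x := by
  have step1 : ∀ u : K, (∃ r a : ℕ, r.Prime ∧ orderOf u = r ^ a) → ∀ y : K, f u * f y = f y * f u := by
    intro u hu y
    have : y ∈ (Subgroup.centralizer ({f u} : Set H)).comap f := by
      apply mem_of_prime_power_parts _ (fun _ => True)
      · rintro v ⟨s, b, hs, -, hv⟩
        rw [Subgroup.mem_comap, mem_centralizer_singleton_iff]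
        exact h u v hu ⟨s, b, hs, hv⟩
      · intro _ _ _; trivial
    rw [Subgroup.mem_comap, mem_centralizer_singleton_iff] at this
    exact this
  intro x y
  have : x ∈ (Subgroup.centralizer ({f y} : Set H)).comap f := by
    apply mem_of_prime_power_parts _ (fun _ => True)
    · rintro v ⟨s, b, hs, -, hv⟩
      rw [Subgroup.mem_comap, mem_centralizer_singleton_iff]
      exact (step1 v ⟨s, b, hs, hv⟩ y).symm
    · intro _ _ _; trivial
  rw [Subgroup.mem_comap, mem_centralizer_singleton_iff] at this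
  exact this.symm

/-- Let G be a finite minimal non-nilpotent group and Q a normal Sylow q-subgroup of G, and let D be the commutator subgroup of Q regarded in G (a normal subgroup). Then G modulo D is non-abelian and all its proper subgroups are abelian. -/
theorem result {G : Type*} [Group G] [Finite G] (hG : Cfsg.IsMinimalNonNilpotent G) (q : ℕ) [Fact q.Prime] (hq : q ∣ Nat.card G) (Q : Sylow q G) (hQ : (Q : Subgroup G).Normal) (D : Subgroup G) [D.Normal] (hD : D = (commutator ↥(Q : Subgroup G)).map (Q : Subgroup G).subtype) : ¬ IsMulCommutative (G ⧸ D) ∧ ∀ K : Subgroup (G ⧸ D), K ≠ ⊤ → IsMulCommutative K := by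
  obtain ⟨p₀, q₀, hp₀, hq₀, hpq, P₀, Q₀, hP₀c, hQ₀n, hsup, hP₀n⟩ := Cfsg.Agent.S0536.structure_aux hG
  have hqp : Nat.Prime q := Fact.out
  have := Fact.mk hp₀
  have := Fact.mk hq₀
  -- identify `q`
  have hq' : q = q₀ := by
    have h1 : Nat.card G = Nat.card (Q₀ : Subgroup G) * (Q₀ : Subgroup G).relIndex P₀ := by
      have := card_sup_normal (P₀ : Subgroup G) (Q₀ : Subgroup G)
      rw [hsup] at this
      rw [← this]; simp
    rw [h1, hqp.dvd_mul] at hq
    rcases hq with h | h
    · obtain ⟨j, hj⟩ := IsPGroup.iff_card.mp Q₀.isPGroup'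
      have hj' : Nat.card (Q₀ : Subgroup G) = q₀ ^ j := hj
      rw [hj'] at h
      exact (Nat.prime_dvd_prime_iff_eq hqp hq₀).mp (hqp.dvd_of_dvd_pow h)
    · exfalso
      have h2 := h.trans (Subgroup.relIndex_dvd_card _ _)
      obtain ⟨j, hj⟩ := IsPGroup.iff_card.mp P₀.isPGroup'
      have hj' : Nat.card (P₀ : Subgroup G) = p₀ ^ j := hj
      rw [hj'] at h2
      have h3 := (Nat.prime_dvd_prime_iff_eq hqp hp₀).mp (hqp.dvd_of_dvd_pow h2)
      subst h3
      have := Sylow.unique_of_normal Q hQ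
      exact hP₀n ((Subsingleton.elim Q P₀) ▸ hQ)
  subst hq'
  have hQQ : Q₀ = Q := by
    have := Sylow.unique_of_normal Q hQ
    exact Subsingleton.elim _ _
  subst hQQ
  have hQnil : Group.IsNilpotent (Q₀ : Subgroup G) := Q₀.isPGroup'.isNilpotent
  have hDΦ : D ≤ frattini G := by
    rw [hD]
    exact (Subgroup.map_mono commutator_le_frattini_of_nilpotent).trans (frattini_map_le _)
  have hDmem : ∀ u ∈ (Q₀ : Subgroup G), ∀ v ∈ (Q₀ : Subgroup G), u * v * u⁻¹ * v⁻¹ ∈ D := by
    intro u hu v hv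
    rw [hD]
    exact ⟨(⟨u, hu⟩ : (Q₀ : Subgroup G)) * ⟨v, hv⟩ * (⟨u, hu⟩ : (Q₀ : Subgroup G))⁻¹ * (⟨v, hv⟩ : (Q₀ : Subgroup G))⁻¹,
      Subgroup.commutator_mem_commutator (Subgroup.mem_top _) (Subgroup.mem_top _), rfl⟩
  -- `G ⧸ Q` is commutative
  have hGQ : ∀ g h : G, g * h * g⁻¹ * h⁻¹ ∈ (Q₀ : Subgroup G) := by
    intro g h
    have hg : g ∈ (P₀ : Subgroup G) ⊔ Q₀ := hsup ▸ Subgroup.mem_top g
    have hh : h ∈ (P₀ : Subgroup G) ⊔ Q₀ := hsup ▸ Subgroup.mem_top h
    rw [Subgroup.mem_sup_of_normal_right] at hg hh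
    obtain ⟨x₁, hx₁, y₁, hy₁, rfl⟩ := hg
    obtain ⟨x₂, hx₂, y₂, hy₂, rfl⟩ := hh
    rw [← QuotientGroup.eq_one_iff]
    have e1 : ((y₁ : G) : G ⧸ (Q₀ : Subgroup G)) = 1 := (QuotientGroup.eq_one_iff _).mpr hy₁
    have e2 : ((y₂ : G) : G ⧸ (Q₀ : Subgroup G)) = 1 := (QuotientGroup.eq_one_iff _).mpr hy₂
    have e3 : x₁ * x₂ = x₂ * x₁ := by
      have := (IsCyclic.commGroup (α := (P₀ : Subgroup G))).mul_comm ⟨x₁, hx₁⟩ ⟨x₂, hx₂⟩
      exact congrArg Subtype.val this
    simp only [QuotientGroup.mk_mul, QuotientGroup.mk_inv, e1, e2, mul_one]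
    rw [← QuotientGroup.mk_mul, e3, QuotientGroup.mk_mul]
    group
  constructor
  · intro hc
    apply hG.1
    rw [← Group.isNilpotent_top]
    have hq2 : IsMulCommutative (↥(⊤ : Subgroup G) ⧸ D.subgroupOf ⊤) := by
      rw [Subgroup.Normal.quotient_commutative_iff_commutator_le, commutator_def,
        Subgroup.commutator_le]
      intro a _ b _
      rw [Subgroup.mem_subgroupOf]
      show (a : G) * b * (a : G)⁻¹ * (b : G)⁻¹ ∈ D
      have h1 := Subgroup.Normal.quotient_commutative_iff_commutator_le.mp hc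
      exact h1 (Subgroup.commutator_mem_commutator (Subgroup.mem_top (a : G)) (Subgroup.mem_top (b : G)))
    have hnil : Group.IsNilpotent (↥(⊤ : Subgroup G) ⧸ D.subgroupOf ⊤) := by
      open scoped IsMulCommutative in infer_instance
    exact nilpotent_of_mod_frattini ⊤ D le_top hDΦ hnil
  · intro Kb hKb
    set K := Kb.comap (QuotientGroup.mk' D) with hK
    have hKne : K ≠ ⊤ := by
      intro h
      apply hKb
      rw [eq_top_iff]
      intro y _
      obtain ⟨x, rfl⟩ := QuotientGroup.mk'_surjective D y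
      have : x ∈ K := h ▸ Subgroup.mem_top x
      exact this
    have hKnil : Group.IsNilpotent K := hG.2 K hKne
    have key := comm_of_prime_powers ((QuotientGroup.mk' D).comp K.subtype) (by
      rintro u v ⟨r, a, hr, hu⟩ ⟨s, b, hs, hv⟩
      by_cases hrs : r = s
      · subst hrs
        have := Fact.mk hr
        by_cases hrq : r = q
        · subst hrq
          have hu' : (u : G) ∈ (Q₀ : Subgroup G) :=
            mem_sylow_of_orderOf_of_normal Q₀ hQ (a := a) (by rw [Subgroup.orderOf_coe]; exact hu)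
          have hv' : (v : G) ∈ (Q₀ : Subgroup G) :=
            mem_sylow_of_orderOf_of_normal Q₀ hQ (a := b) (by rw [Subgroup.orderOf_coe]; exact hv)
          have h1 := hDmem u hu' v hv'
          have h2 : QuotientGroup.mk' D ((u : G) * v * (u : G)⁻¹ * (v : G)⁻¹) = 1 :=
            (QuotientGroup.eq_one_iff _).mpr h1
          show QuotientGroup.mk' D (u : G) * QuotientGroup.mk' D (v : G) =
            QuotientGroup.mk' D (v : G) * QuotientGroup.mk' D (u : G)
          rw [← map_mul, ← map_mul]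
          have h3 : (u : G) * v = ((u : G) * v * (u : G)⁻¹ * (v : G)⁻¹) * (v * u) := by group
          rw [h3, map_mul, h2, one_mul]
        · obtain ⟨R⟩ : Nonempty (Sylow r K) := inferInstance
          have hRn : (R : Subgroup K).Normal := inferInstance
          have hu' := mem_sylow_of_orderOf_of_normal R hRn hu
          have hv' := mem_sylow_of_orderOf_of_normal R hRn hv
          have h1 : u * v * u⁻¹ * v⁻¹ ∈ (R : Subgroup K) :=
            Subgroup.mul_mem _ (Subgroup.mul_mem _ (Subgroup.mul_mem _ hu' hv')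
              (Subgroup.inv_mem _ hu')) (Subgroup.inv_mem _ hv')
          obtain ⟨c, hc⟩ := (IsPGroup.iff_orderOf.mp R.isPGroup') ⟨_, h1⟩
          rw [Subgroup.orderOf_mk, ← Subgroup.orderOf_coe] at hc
          have h2 := hGQ (u : G) (v : G)
          obtain ⟨d, hd⟩ := (IsPGroup.iff_orderOf.mp Q₀.isPGroup') ⟨_, h2⟩
          rw [Subgroup.orderOf_mk] at hd
          have h3 : ((u * v * u⁻¹ * v⁻¹ : K) : G) = (u : G) * v * (u : G)⁻¹ * (v : G)⁻¹ := rfl
          rw [h3] at hc
          have h4 : orderOf ((u : G) * v * (u : G)⁻¹ * (v : G)⁻¹) = 1 := by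
            have h5 : (r ^ c).Coprime (q ^ d) :=
              Nat.Coprime.pow _ _ ((Nat.coprime_primes hr hqp).mpr hrq)
            exact Nat.eq_one_of_dvd_coprimes h5 (hc ▸ dvd_rfl) (hd ▸ dvd_rfl)
          rw [orderOf_eq_one_iff] at h4
          have h6 : (u : G) * v = v * u := by
            calc (u : G) * v = ((u : G) * v * (u : G)⁻¹ * (v : G)⁻¹) * (v * u) := by group
              _ = v * u := by rw [h4, one_mul]
          show QuotientGroup.mk' D (u : G) * QuotientGroup.mk' D (v : G) =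
            QuotientGroup.mk' D (v : G) * QuotientGroup.mk' D (u : G)
          rw [← map_mul, ← map_mul, h6]
      · have h1 : u * v = v * u := commute_of_prime_powers hr hs hrs hu hv
        rw [← map_mul, ← map_mul, h1])
    refine ⟨⟨fun a b => ?_⟩⟩
    obtain ⟨x, hx⟩ := QuotientGroup.mk'_surjective D (a : G ⧸ D)
    obtain ⟨y, hy⟩ := QuotientGroup.mk'_surjective D (b : G ⧸ D)
    have hxK : x ∈ K := by show QuotientGroup.mk' D x ∈ Kb; rw [hx]; exact a.2
    have hyK : y ∈ K := by show QuotientGroup.mk' D y ∈ Kb; rw [hy]; exact b.2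
    have := key ⟨x, hxK⟩ ⟨y, hyK⟩
    apply Subtype.ext
    show (a : G ⧸ D) * b = b * a
    rw [← hx, ← hy]
    exact this

end Cfsg.Agent.S0577
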