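import Cfsg.Statements.S0578
import Cfsg.Agent.Lib.Helper1_MaxAb

set_option autoImplicit false
open Cfsg

namespace Cfsg.Agent.S0578

open Subgroup

theorem sylow_comm {G : Type*} [Group G] [Finite G] (h : ∀ A : Subgroup G, IsMulCommutative A → Subgroup.normalizer (A : Set G) = Subgroup.centralizer (A : Set G))
    (p : ℕ) [Fact p.Prime] (P : Sylow p G) : ∀ a ∈ (P : Subgroup G), ∀ b ∈ (P : Subgroup G), a * b = b * a := by
  haveI : Group.IsNilpotent (P : Subgroup G) := P.isPGroup'.isNilpotent
  obtain ⟨A, hAn, hAab, hmax⟩ := Cfsg.Agent.Lib.Helper1_MaxAb.exists_maximal_normal_abelian (G := (P : Subgroup G))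
  have hC := Cfsg.Agent.Lib.Helper1_MaxAb.centralizer_le_of_maximal A hmax hAab
  set A' : Subgroup G := A.map (P : Subgroup G).subtype with hA'
  have hA'c : IsMulCommutative A' := by
    refine ⟨⟨?_⟩⟩
    rintro ⟨x, hx⟩ ⟨y, hy⟩
    obtain ⟨x', hx', rfl⟩ := mem_map.mp hx
    obtain ⟨y', hy', rfl⟩ := mem_map.mp hy
    apply Subtype.ext
    have := hAab x' hx' y' hy'
    exact congrArg (fun z : (P : Subgroup G) => (z : G)) this
  have hN := h A' hA'c
  have hPN : (P : Subgroup G) ≤ normalizer (A' : Set G) := by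
    intro g hg
    rw [mem_normalizer_iff]
    intro x
    constructor
    · intro hx
      obtain ⟨x', hx', rfl⟩ := mem_map.mp hx
      exact mem_map.mpr ⟨⟨g, hg⟩ * x' * ⟨g, hg⟩⁻¹, hAn.conj_mem x' hx' ⟨g, hg⟩, rfl⟩
    · intro hx
      obtain ⟨x', hx', hxx⟩ := mem_map.mp hx
      refine mem_map.mpr ⟨⟨g, hg⟩⁻¹ * x' * ⟨g, hg⟩, ?_, ?_⟩
      · have := hAn.conj_mem x' hx' (⟨g, hg⟩⁻¹ : (P : Subgroup G))
        simpa using this
      · simp only [Subgroup.coe_subtype, Subgroup.coe_mul, Subgroup.coe_inv] at hxx ⊢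
        rw [hxx]; group
  rw [hN] at hPN
  have htop : A = ⊤ := by
    rw [eq_top_iff]
    refine le_trans ?_ hC
    intro g _
    rw [mem_centralizer_iff]
    intro x hx
    have h1 := (mem_centralizer_iff.mp (hPN g.2)) (x : G) (mem_map.mpr ⟨x, hx, rfl⟩)
    exact Subtype.ext h1
  intro a ha b hb
  have := hAab ⟨a, ha⟩ (htop ▸ mem_top _) ⟨b, hb⟩ (htop ▸ mem_top _)
  exact congrArg Subtype.val this

/-- If in a finite group the normalizer of each abelian subgroup coincides with its centralizer, then the group is abelian. -/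
theorem result {G : Type*} [Group G] [Finite G] (h : ∀ A : Subgroup G, IsMulCommutative A → Subgroup.normalizer (A : Set G) = Subgroup.centralizer (A : Set G)) : IsMulCommutative G := by
  classical
  refine ⟨⟨?_⟩⟩
  intro x y
  have key : orderOf (x * y * x⁻¹ * y⁻¹) = 1 := by
    by_contra hne
    obtain ⟨p, hp, hpd⟩ := Nat.exists_prime_and_dvd hne
    haveI : Fact p.Prime := ⟨hp⟩
    obtain ⟨P⟩ : Nonempty (Sylow p G) := inferInstance
    have hPc := sylow_comm h p P
    haveI hPcomm : IsMulCommutative (P : Subgroup G) := ⟨⟨fun a b => Subtype.ext (hPc a a.2 b b.2)⟩⟩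
    have hN : normalizer ((P : Subgroup G) : Set G) ≤ centralizer ((P : Subgroup G) : Set G) := (h P hPcomm).le
    have hcomp := MonoidHom.ker_transferSylow_isComplement' P hN
    have hmem : x * y * x⁻¹ * y⁻¹ ∈ (MonoidHom.transferSylow P hN).ker := by
      rw [MonoidHom.mem_ker]
      simp only [map_mul, map_inv]
      have := mul_comm' ((MonoidHom.transferSylow P hN) x) ((MonoidHom.transferSylow P hN) y)
      rw [this]; group
    have h1 : orderOf (x * y * x⁻¹ * y⁻¹) ∣ Nat.card (MonoidHom.transferSylow P hN).ker := by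
      have := orderOf_dvd_natCard (⟨_, hmem⟩ : (MonoidHom.transferSylow P hN).ker)
      rwa [Subgroup.orderOf_mk] at this
    have h2 : Nat.card (MonoidHom.transferSylow P hN).ker = (P : Subgroup G).index := by
      have := hcomp.index_eq_card
      exact this.symm
    have h3 : ¬ p ∣ (P : Subgroup G).index := P.not_dvd_index
    exact h3 (h2 ▸ (hpd.trans h1))
  have := orderOf_eq_one_iff.mp key
  calc x * y = (x * y * x⁻¹ * y⁻¹) * (y * x) := by group
    _ = y * x := by rw [this, one_mul]

end Cfsg.Agent.S0578
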