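import Cfsg.Statements.S4203

import Cfsg.Agent.S0144
set_option autoImplicit false
open Cfsg

namespace Cfsg.Agent.S4203


universe u

theorem index_modEq_one {G : Type*} [Group G] [Finite G] (p : ℕ) [Fact p.Prime] (P : Sylow p G)
    (M : Subgroup G) (hM : Subgroup.normalizer ((P : Subgroup G) : Set G) ≤ M) :
    M.index ≡ 1 [MOD p] := by
  have hPM : (P : Subgroup G) ≤ M := Subgroup.le_normalizer.trans hM
  have h1 : Nat.card (Sylow p G) = (Subgroup.normalizer ((P : Subgroup G) : Set G)).index :=
    Sylow.card_eq_index_normalizer P
  have h2 := card_sylow_modEq_one p G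
  have h3 : Nat.card (Sylow p M)
      = (Subgroup.normalizer (((P.subtype hPM : Sylow p M) : Subgroup M) : Set M)).index :=
    Sylow.card_eq_index_normalizer (P.subtype hPM)
  have h4 := card_sylow_modEq_one p M
  have h5 : Subgroup.normalizer (((P.subtype hPM : Sylow p M) : Subgroup M) : Set M)
      = (Subgroup.normalizer ((P : Subgroup G) : Set G)).subgroupOf M := by
    rw [Sylow.coe_subtype, Subgroup.subgroupOf_normalizer_eq hPM]
  have h6 : (Subgroup.normalizer ((P : Subgroup G) : Set G)).relIndex M * M.index
      = (Subgroup.normalizer ((P : Subgroup G) : Set G)).index := Subgroup.relIndex_mul_index hM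
  rw [h5] at h3
  have h7 : (Subgroup.normalizer ((P : Subgroup G) : Set G)).relIndex M ≡ 1 [MOD p] := by
    rw [Subgroup.relIndex, ← h3]; exact h4
  have h8 : (Subgroup.normalizer ((P : Subgroup G) : Set G)).relIndex M * M.index ≡ 1 [MOD p] := by
    rw [h6, ← h1]; exact h2
  calc M.index = 1 * M.index := (one_mul _).symm
    _ ≡ (Subgroup.normalizer ((P : Subgroup G) : Set G)).relIndex M * M.index [MOD p] :=
        Nat.ModEq.mul_right _ h7.symm
    _ ≡ 1 [MOD p] := h8

theorem isCoatom_comap {G : Type*} [Group G] (N : Subgroup G) [N.Normal] (M : Subgroup (G ⧸ N))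
    (hM : IsCoatom M) : IsCoatom (M.comap (QuotientGroup.mk' N)) := by
  have hsurj : Function.Surjective (QuotientGroup.mk' N) := QuotientGroup.mk'_surjective N
  refine ⟨?_, ?_⟩
  · intro h
    apply hM.1
    have := Subgroup.map_comap_eq_self_of_surjective hsurj M
    rw [h, Subgroup.map_top_of_surjective _ hsurj] at this
    exact this.symm
  · intro b hb
    have h1 : M ≤ b.map (QuotientGroup.mk' N) := by
      rw [← Subgroup.map_comap_eq_self_of_surjective hsurj M]
      exact Subgroup.map_mono hb.le
    have hker : (QuotientGroup.mk' N).ker ≤ b := by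
      refine le_trans ?_ hb.le
      intro x hx
      rw [Subgroup.mem_comap]
      rw [MonoidHom.mem_ker] at hx
      rw [hx]; exact M.one_mem
    have h2 : (b.map (QuotientGroup.mk' N)).comap (QuotientGroup.mk' N) = b := by
      rw [Subgroup.comap_map_eq, sup_eq_left.mpr hker]
    rcases h1.lt_or_eq with h3 | h3
    · have := hM.2 _ h3
      rw [this, Subgroup.comap_top] at h2
      exact h2.symm
    · exfalso
      rw [← h3] at h2
      exact absurd h2 hb.ne

theorem aux (n : ℕ) : ∀ (G : Type u) [Group G] [Finite G], Nat.card G = n →
    (∀ M : Subgroup G, IsCoatom M → ∃ p : ℕ, p.Prime ∧ (M.index = p ∨ M.index = p ^ 2)) →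
    Group.IsSolvable G := by
  induction n using Nat.strong_induction_on with
  | _ n ih =>
    intro G _ _ hn h
    by_cases h1 : Nat.card G = 1
    · have : Subsingleton G := (Nat.card_eq_one_iff_unique.mp h1).1
      infer_instance
    have hpos : 0 < Nat.card G := Nat.card_pos
    obtain ⟨p, hp, hpG, hmax⟩ : ∃ p, p.Prime ∧ p ∣ Nat.card G ∧
        ∀ q, q.Prime → q ∣ Nat.card G → q ≤ p := by
      have hne : (Nat.card G).primeFactors.Nonempty :=
        Nat.nonempty_primeFactors.mpr (by omega)
      have hmem := Finset.max'_mem _ hne
      refine ⟨(Nat.card G).primeFactors.max' hne, (Nat.mem_primeFactors.mp hmem).1,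
        (Nat.mem_primeFactors.mp hmem).2.1, ?_⟩
      intro q hq hqG
      exact Finset.le_max' _ _ (Nat.mem_primeFactors.mpr ⟨hq, hqG, by omega⟩)
    haveI := Fact.mk hp
    obtain ⟨P⟩ : Nonempty (Sylow p G) := inferInstance
    by_cases hPn : (P : Subgroup G).Normal
    · have hPne : 1 < Nat.card (P : Subgroup G) := by
        have h2 := P.card_eq_multiplicity
        have h3 : 0 < (Nat.card G).factorization p :=
          (hp.factorization_pos_of_dvd (by omega) hpG)
        rw [h2]
        exact Nat.one_lt_pow h3.ne' hp.one_lt
      have hcard : Nat.card (G ⧸ (P : Subgroup G)) < n := by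
        have h2 := Subgroup.card_eq_card_quotient_mul_card_subgroup (P : Subgroup G)
        rw [← hn, h2]
        have h3 : 0 < Nat.card (G ⧸ (P : Subgroup G)) := Nat.card_pos
        nlinarith
      have hq : Group.IsSolvable (G ⧸ (P : Subgroup G)) := by
        refine ih _ hcard (G ⧸ (P : Subgroup G)) rfl ?_
        intro M hM
        obtain ⟨q, hq, hqi⟩ := h _ (isCoatom_comap _ M hM)
        rw [Subgroup.index_comap_of_surjective _ (QuotientGroup.mk'_surjective _)] at hqi
        exact ⟨q, hq, hqi⟩
      have hPs : Group.IsSolvable (P : Subgroup G) := by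
        haveI : Group.IsNilpotent (P : Subgroup G) := P.isPGroup'.isNilpotent
        infer_instance
      exact solvable_of_ker_le_range (P : Subgroup G).subtype (QuotientGroup.mk' (P : Subgroup G))
        (by simp)
    · have hNtop : Subgroup.normalizer ((P : Subgroup G) : Set G) ≠ ⊤ := by
        intro h2; exact hPn (Subgroup.normalizer_eq_top_iff.mp h2)
      obtain ⟨M, hM, hNM⟩ := (eq_top_or_exists_le_coatom _).resolve_left hNtop
      have hmod := index_modEq_one p P M hNM
      obtain ⟨q, hq, hqi⟩ := h M hM
      have hqG : q ∣ Nat.card G := by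
        have h2 : M.index ∣ Nat.card G := Subgroup.index_dvd_card M
        rcases hqi with h3 | h3
        · rw [h3] at h2; exact h2
        · rw [h3] at h2; exact (dvd_pow_self q two_ne_zero).trans h2
      have hqp : q ≤ p := hmax q hq hqG
      have hq2 := hq.two_le
      have hp2 := hp.two_le
      have hqne : q ≠ p := by
        rintro rfl
        rcases hqi with h3 | h3
        · rw [h3] at hmod
          have : q ∣ 1 := (Nat.modEq_zero_iff_dvd.mp ((hmod.symm).trans (by simp [Nat.ModEq])))
          exact hq.one_lt.ne' (Nat.dvd_one.mp this)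
        · rw [h3] at hmod
          have : q ∣ 1 := (Nat.modEq_zero_iff_dvd.mp ((hmod.symm).trans
            (Nat.modEq_zero_iff_dvd.mpr (dvd_pow_self q two_ne_zero))))
          exact hq.one_lt.ne' (Nat.dvd_one.mp this)
      have hlt : q < p := lt_of_le_of_ne hqp hqne
      have key : q = 2 ∧ p = 3 := by
        rcases hqi with h3 | h3
        · exfalso
          rw [h3] at hmod
          have h4 : p ∣ q - 1 := (Nat.modEq_iff_dvd' (by omega)).mp hmod.symm
          have := Nat.le_of_dvd (by omega) h4
          omega
        · rw [h3] at hmod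
          have h4 : p ∣ q ^ 2 - 1 := (Nat.modEq_iff_dvd' (Nat.one_le_pow _ _ (by omega))).mp hmod.symm
          have h5 : q ^ 2 - 1 = (q - 1) * (q + 1) := by
            obtain ⟨k, rfl⟩ : ∃ k, q = k + 1 := ⟨q - 1, by omega⟩
            simp only [Nat.add_sub_cancel]
            have : (k + 1) ^ 2 = k * (k + 1 + 1) + 1 := by ring
            omega
          rw [h5] at h4
          rcases (Nat.Prime.dvd_mul hp).mp h4 with h6 | h6
          · have := Nat.le_of_dvd (by omega) h6
            omega
          · have h7 := Nat.le_of_dvd (by omega) h6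
            have h8 : p = q + 1 := by omega
            rcases hq.eq_two_or_odd' with h9 | h9
            · exact ⟨h9, by omega⟩
            · exfalso
              rcases hp.eq_two_or_odd' with h10 | h10
              · omega
              · rw [h8] at h10
                exact (Nat.not_even_iff_odd.mpr h10) (h9.add_one)
      obtain ⟨rfl, rfl⟩ := key
      -- card is 2^a 3^b
      have hform : Nat.card G = 2 ^ (Nat.card G).factorization 2 * 3 ^ (Nat.card G).factorization 3 := by
        conv_lhs => rw [← Nat.factorization_prod_pow_eq_self hpos.ne']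
        have hsub : (Nat.card G).factorization.support ⊆ {2, 3} := by
          intro r hr
          rw [Nat.support_factorization, Nat.mem_primeFactors] at hr
          have h2 := hmax r hr.1 hr.2.1
          have h3 := hr.1.two_le
          simp only [Finset.mem_insert, Finset.mem_singleton]
          omega
        rw [Finsupp.prod_of_support_subset _ hsub _ (by intros; simp)]
        rw [Finset.prod_pair (by norm_num)]
      exact Cfsg.Agent.S0144.result 2 3 _ _ Nat.prime_two Nat.prime_three hform

/-- A finite group in which every maximal subgroup has index a prime or the square of a prime is solvable. -/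
theorem result {G : Type*} [Group G] [Finite G] (h : ∀ M : Subgroup G, IsCoatom M → ∃ p : ℕ, p.Prime ∧ (M.index = p ∨ M.index = p ^ 2)) : Group.IsSolvable G := by
  exact aux _ G rfl h

end Cfsg.Agent.S4203
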