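import Cfsg.Statements.S0582

import Cfsg.Agent.S0532
import Cfsg.Agent.Lib.Helper7_SS
import Cfsg.Agent.Lib.Helper7_Hall
set_option autoImplicit false
open Pointwise
open Cfsg

namespace Cfsg.Agent.S0582

open Cfsg.Agent.Lib.Helper7_SS Cfsg.Agent.Lib.Helper4_Syl Cfsg.Agent.Lib.Helper1_SZ
  Cfsg.Agent.Lib.Helper7_Max Cfsg.Agent.Lib.Helper7_Hall

theorem isSylIn_card {G : Type*} [Group G] [Finite G] {p : ℕ} [Fact p.Prime] {S M : Subgroup G}
    (h : IsSylIn p S M) : Nat.card S = p ^ (Nat.card M).factorization p := by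
  obtain ⟨T, rfl⟩ := h.exists_sylow
  rw [card_map_subtype]
  exact T.card_eq_multiplicity

theorem isSylIn_of_not_dvd {G : Type*} [Group G] [Finite G] {p : ℕ} [hp : Fact p.Prime]
    {P H M : Subgroup G} (h : IsSylIn p P H) (hHM : H ≤ M) (hnd : ¬ p ∣ H.relIndex M) :
    IsSylIn p P M := by
  obtain ⟨S, hS, hPS⟩ := exists_isSylIn_ge (p := p) (h.le.trans hHM) h.isPGroup
  have h1 := card_mul_relIndex hHM
  have h2 : (Nat.card M).factorization p = (Nat.card H).factorization p := by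
    rw [← h1, Nat.factorization_mul Nat.card_pos.ne' (by
      intro h0; rw [h0, mul_zero] at h1; exact Nat.card_pos.ne' h1.symm)]
    simp [Nat.factorization_eq_zero_of_not_dvd hnd]
  have h3 : Nat.card S = Nat.card P := by rw [isSylIn_card hS, isSylIn_card h, h2]
  have h4 : P = S := Subgroup.eq_of_le_of_card_ge hPS h3.le
  rw [h4]; exact hS

theorem ss_of_equiv {A B : Type*} [Group A] [Group B] (e : A ≃* B) (h : Cfsg.IsSupersolvable A) :
    Cfsg.IsSupersolvable B := ss_of_surjective e.toMonoidHom e.surjective h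

theorem ss_of_le {G : Type*} [Group G] [Finite G] {H₁ H : Subgroup G} (h : Cfsg.IsSupersolvable H)
    (hle : H₁ ≤ H) : Cfsg.IsSupersolvable H₁ :=
  ss_of_equiv (Subgroup.subgroupOfEquivOfLe hle) (ss_subgroup h (H₁.subgroupOf H))

/-- a supersolvable subgroup has a normal Sylow subgroup for its largest prime -/
theorem exists_normal_syl {G : Type*} [Group G] [Finite G] (H : Subgroup G)
    (hH : Cfsg.IsSupersolvable H) (p : ℕ) [Fact p.Prime] (hp : p ∣ Nat.card H)
    (hmax : ∀ q : ℕ, q.Prime → q ∣ Nat.card H → q ≤ p) :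
    ∃ P : Subgroup G, IsSylIn p P H ∧ H ≤ Subgroup.normalizer (P : Set G) := by
  obtain ⟨P⟩ : Nonempty (Sylow p H) := inferInstance
  have hn : (P : Subgroup H).Normal :=
    Cfsg.Agent.S0532.result (fun L => hasSubgroupOfEveryOrder (ss_subgroup hH L)) p hp hmax P
  refine ⟨_, IsSylIn.of_sylow H P, ?_⟩
  intro h hh
  apply mem_normalizer_of_conj_mem
  rintro _ ⟨d, hd, rfl⟩
  exact ⟨⟨h, hh⟩ * d * ⟨h, hh⟩⁻¹, hn.conj_mem d hd _, rfl⟩

theorem sup_eq_of_card {G : Type*} [Group G] [Finite G] {P H₁ H : Subgroup G} (hP : P ≤ H)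
    (hH₁ : H₁ ≤ H) (hcard : Nat.card H₁ = P.relIndex H)
    (hcop : (Nat.card P).Coprime (P.relIndex H)) : P ⊔ H₁ = H := by
  apply Subgroup.eq_of_le_of_card_ge (sup_le hP hH₁)
  rw [← card_mul_relIndex hP, ← hcard]
  apply Nat.le_of_dvd Nat.card_pos
  apply Nat.Coprime.mul_dvd_of_dvd_of_dvd (hcard ▸ hcop)
  · exact Subgroup.card_dvd_of_le le_sup_left
  · exact Subgroup.card_dvd_of_le le_sup_right

theorem aux {G : Type*} [Group G] [Finite G] : ∀ (n : ℕ) (M H K : Subgroup G), H ≤ M → K ≤ M →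
    Nat.card H = n → Cfsg.IsSupersolvable H → Cfsg.IsSupersolvable K → Nat.card H = Nat.card K →
    (Nat.card H).Coprime (H.relIndex M) → ∃ x ∈ M, MulAut.conj x • H = K := by
  intro n
  induction n using Nat.strong_induction_on with
  | _ n ih =>
  intro M H K hHM hKM hn hHs hKs hcard hHall
  by_cases h1 : n = 1
  · refine ⟨1, M.one_mem, ?_⟩
    have e1 : H = ⊥ := Subgroup.card_eq_one.mp (hn.trans h1)
    have e2 : K = ⊥ := Subgroup.card_eq_one.mp (hcard ▸ hn.trans h1)
    rw [e1, e2]; simp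
  have hn0 : n ≠ 0 := by rw [← hn]; exact Nat.card_pos.ne'
  have hne : n.primeFactors.Nonempty := Nat.nonempty_primeFactors.mpr (by omega)
  set p := n.primeFactors.max' hne with hp
  have hpm := Finset.max'_mem _ hne
  rw [← hp] at hpm
  have hpp : p.Prime := (Nat.mem_primeFactors.mp hpm).1
  have hpn : p ∣ n := (Nat.mem_primeFactors.mp hpm).2.1
  have hmax : ∀ q : ℕ, q.Prime → q ∣ n → q ≤ p := fun q hq hqn =>
    Finset.le_max' _ q (Nat.mem_primeFactors.mpr ⟨hq, hqn, hn0⟩)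
  have := Fact.mk hpp
  obtain ⟨P₁, hP₁, hHP₁⟩ := exists_normal_syl H hHs p (hn ▸ hpn) (hn ▸ hmax)
  obtain ⟨P₂, hP₂, hKP₂⟩ := exists_normal_syl K hKs p (hcard ▸ hn ▸ hpn) (hcard ▸ hn ▸ hmax)
  have hrelK : K.relIndex M = H.relIndex M := by
    have a1 := card_mul_relIndex hHM
    have a2 := card_mul_relIndex hKM
    rw [← a1, ← hcard] at a2
    exact Nat.eq_of_mul_eq_mul_left Nat.card_pos a2
  have hnd : ¬ p ∣ H.relIndex M := fun hd =>
    hpp.one_lt.ne' (Nat.eq_one_of_dvd_coprimes hHall (hn ▸ hpn) hd)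
  obtain ⟨g, hgM, hg⟩ := (isSylIn_of_not_dvd hP₁ hHM hnd).conj
    (isSylIn_of_not_dvd hP₂ hKM (hrelK ▸ hnd))
  set H' := MulAut.conj g • H with hH'
  have hH'M : H' ≤ M := by
    have := Subgroup.pointwise_smul_le_pointwise_smul_iff (a := MulAut.conj g) |>.mpr hHM
    rwa [conj_smul_eq_of_mem hgM] at this
  have hH'c : Nat.card H' = Nat.card H := card_conj_smul g H
  have hH's : Cfsg.IsSupersolvable H' := ss_of_equiv (Subgroup.equivSMul (MulAut.conj g) H) hHs
  have hP₂H' : IsSylIn p P₂ H' := hg ▸ hP₁.smul g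
  have hH'P₂ : H' ≤ Subgroup.normalizer (P₂ : Set G) := by
    rw [← hg, normalizer_conj]
    exact Subgroup.pointwise_smul_le_pointwise_smul_iff.mpr hHP₁
  have hrel' : P₂.relIndex H' = P₂.relIndex K := by
    have a1 := card_mul_relIndex hP₂H'.le
    have a2 := card_mul_relIndex hP₂.le
    rw [hH'c, hcard, ← a2] at a1
    exact Nat.eq_of_mul_eq_mul_left Nat.card_pos a1
  have hcopK : (Nat.card P₂).Coprime (P₂.relIndex K) := by
    obtain ⟨T, hT⟩ := hP₂.exists_sylow
    obtain ⟨j, hj⟩ := IsPGroup.iff_card.mp hP₂.isPGroup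
    rw [hj]
    apply Nat.Coprime.pow_left
    rw [Nat.Prime.coprime_iff_not_dvd hpp, ← hT]
    have : ((T : Subgroup K).map K.subtype).relIndex K = (T : Subgroup K).index := by
      rw [Subgroup.relIndex, Subgroup.subgroupOf,
        Subgroup.comap_map_eq_self_of_injective K.subtype_injective]
    rw [this]
    exact T.not_dvd_index
  obtain ⟨H₁, hH₁, hH₁c⟩ := SZ_rel_exists hP₂H'.le hH'P₂ (hrel' ▸ hcopK)
  obtain ⟨K₁, hK₁, hK₁c⟩ := SZ_rel_exists hP₂.le hKP₂ hcopK
  set M' := M ⊓ Subgroup.normalizer (P₂ : Set G) with hM'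
  have hH'M' : H' ≤ M' := le_inf hH'M hH'P₂
  have hKM' : K ≤ M' := le_inf hKM hKP₂
  have hP₂1 : 1 < Nat.card P₂ := by
    rw [isSylIn_card hP₂]
    apply Nat.one_lt_pow _ hpp.one_lt
    have : 0 < (Nat.card K).factorization p :=
      hpp.factorization_pos_of_dvd Nat.card_pos.ne' (hcard ▸ hn ▸ hpn)
    omega
  have hlt : Nat.card H₁ < n := by
    have a1 := card_mul_relIndex hP₂H'.le
    rw [hH'c, hn, ← hH₁c] at a1
    have : 0 < Nat.card H₁ := Nat.card_pos
    nlinarith
  have hHall₁ : (Nat.card H₁).Coprime (H₁.relIndex M') := by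
    rw [← Subgroup.relIndex_mul_relIndex H₁ H' M' hH₁ hH'M']
    apply Nat.Coprime.mul_right
    · have a1 := card_mul_relIndex hH₁
      have a2 := card_mul_relIndex hP₂H'.le
      rw [← a2, hH₁c, mul_comm] at a1
      have a3 : H₁.relIndex H' = Nat.card P₂ := Nat.eq_of_mul_eq_mul_right
        (Nat.pos_of_ne_zero (by rw [← hH₁c]; exact Nat.card_pos.ne')) a1
      rw [a3, hH₁c, hrel']
      exact hcopK.symm
    · have a1 : Nat.card H₁ ∣ Nat.card H := hH'c ▸ Subgroup.card_dvd_of_le hH₁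
      have a2 : H'.relIndex M' ∣ H.relIndex M := by
        have b1 := Subgroup.relIndex_mul_relIndex H' M' M hH'M' inf_le_left
        have b2 : H'.relIndex M = H.relIndex M := by
          have c1 := card_mul_relIndex hHM
          have c2 := card_mul_relIndex hH'M
          rw [← c1, hH'c] at c2
          exact Nat.eq_of_mul_eq_mul_left Nat.card_pos c2
        rw [← b2, ← b1]
        exact Dvd.intro _ rfl
      exact Nat.Coprime.coprime_dvd_left a1 (Nat.Coprime.coprime_dvd_right a2 hHall)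
  obtain ⟨m, hm, hmH⟩ := ih (Nat.card H₁) hlt M' H₁ K₁ (hH₁.trans hH'M') (hK₁.trans hKM') rfl
    (ss_of_le hH's hH₁) (ss_of_le hKs hK₁) (by rw [hH₁c, hK₁c, hrel']) hHall₁
  refine ⟨m * g, M.mul_mem hm.1 hgM, ?_⟩
  rw [conj_mul_smul, ← hH', ← sup_eq_of_card hP₂H'.le hH₁ hH₁c (hrel' ▸ hcopK), Subgroup.smul_sup,
    hmH, mem_normalizer_iff_conj_smul.mp hm.2]
  exact sup_eq_of_card hP₂.le hK₁ hK₁c hcopK

/-- Let H and K be supersolvable subgroups of a finite group G of the same order, that order being coprime to their index. Then H and K are conjugate in G. -/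
theorem result {G : Type*} [Group G] [Finite G] (H K : Subgroup G) (hH : Cfsg.IsSupersolvable H) (hK : Cfsg.IsSupersolvable K) (hcard : Nat.card H = Nat.card K) (hHall : (Nat.card H).Coprime H.index) : ∃ x : G, MulAut.conj x • H = K := by
  obtain ⟨x, -, hx⟩ := aux _ ⊤ H K le_top le_top rfl hH hK hcard
    (by rw [Subgroup.relIndex_top_right]; exact hHall)
  exact ⟨x, hx⟩

end Cfsg.Agent.S0582
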