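import Cfsg.Statements.S0586

import Cfsg.Agent.Lib.Helper7_Frat2
set_option autoImplicit false
open Cfsg

namespace Cfsg.Agent.S0586


/-- If the Frattini subgroup of a finite group G is trivial, then the Fitting subgroup of G equals the join of all abelian minimal normal subgroups of G. -/
theorem result {G : Type*} [Group G] [Finite G] (hΦ : frattini G = ⊥) : Cfsg.fittingSubgroup G = sSup {N : Subgroup G | N.Normal ∧ N ≠ ⊥ ∧ IsMulCommutative N ∧ ∀ K : Subgroup G, K.Normal → K ≤ N → K = ⊥ ∨ K = N} := by
  exact Cfsg.Agent.Lib.Helper7_Frat2.fitting_eq_socle hΦ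

end Cfsg.Agent.S0586
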