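import Cfsg.Statements.S0587
import Cfsg.Agent.Lib.Helper1_PrimSolv
import Cfsg.Agent.Lib.Helper1_ExtraIdx
import Cfsg.Agent.Lib.Helper4_Core

set_option autoImplicit false
open Cfsg

namespace Cfsg.Agent.S0587

open Subgroup Cfsg.Agent.Lib.Helper1_PrimSolv Cfsg.Agent.Lib.Helper1_MinNormal

theorem card_modEq_group {G : Type*} [Group G] {L A : Subgroup G} [Finite L] (hA : A ≤ normalizer (L : Set G)) {r : ℕ}
    [Fact r.Prime] (hr : IsPGroup r A) (hfix : ∀ x ∈ L, (∀ a ∈ A, a * x * a⁻¹ = x) → x = 1) :
    Nat.card L ≡ 1 [MOD r] := by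
  let φ : A →* MulAut L := L.normalizerMonoidHom.comp (inclusion hA)
  letI : MulAction A L := MulAction.compHom L φ
  have key := hr.card_modEq_card_fixedPoints L
  have hsmul : ∀ (y : A) (q : L), ((y • q : L) : G) = y.1 * q.1 * y.1⁻¹ := fun y q => rfl
  have h1 : Nat.card (MulAction.fixedPoints A L) = 1 := by
    rw [Nat.card_eq_one_iff_unique]
    refine ⟨⟨?_⟩, ⟨⟨1, ?_⟩⟩⟩
    · have hone : ∀ a : MulAction.fixedPoints A L, a.1 = 1 := by
        intro a
        apply Subtype.ext
        apply hfix _ a.1.2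
        intro y hy
        have := congrArg Subtype.val (a.2 ⟨y, hy⟩)
        rw [hsmul] at this
        exact this
      intro a b
      exact Subtype.ext ((hone a).trans (hone b).symm)
    · intro y
      apply Subtype.ext
      rw [hsmul]; simp
  rwa [h1] at key

/-- Let G be a finite group whose largest normal p-subgroup L is nontrivial, and M a maximal subgroup of G with trivial normal core. Then L is elementary abelian, M is a complement to L, L is a minimal normal subgroup of G, the centralizer of L is L, and for every prime q such that the largest normal q-subgroup of M is nontrivial, the order of L is congruent to 1 modulo q and q ≠ p. -/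
theorem result {G : Type*} [Group G] [Finite G] (p : ℕ) [Fact p.Prime] (hL : Cfsg.pCore p G ≠ ⊥) (M : Subgroup G) (hM : IsCoatom M) (hcore : M.normalCore = ⊥) : Cfsg.IsElementaryAbelian p (Cfsg.pCore p G) ∧ Subgroup.IsComplement' (Cfsg.pCore p G) M ∧ (∀ K : Subgroup G, K.Normal → K ≤ Cfsg.pCore p G → K = ⊥ ∨ K = Cfsg.pCore p G) ∧ Subgroup.centralizer ((Cfsg.pCore p G : Subgroup G) : Set G) = Cfsg.pCore p G ∧ ∀ (q : ℕ) [Fact q.Prime], Cfsg.pCore q ↥M ≠ ⊥ → Nat.card (Cfsg.pCore p G) % q = 1 % q ∧ q ≠ p := by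
  classical
  set L := Cfsg.pCore p G with hLdef
  have hp : p.Prime := Fact.out
  haveI hLn : L.Normal := by rw [hLdef]; infer_instance
  have hLp : IsPGroup p L := Cfsg.Agent.Lib.Helper4_Core.pCore_isPGroup p G
  -- basic facts about `M`
  have hB : ∀ D : Subgroup G, D.Normal → D ≤ M → D = ⊥ := by
    intro D hD hDM
    have : D ≤ M.normalCore := (Subgroup.normal_le_normalCore).mpr hDM
    rw [hcore] at this
    exact eq_bot_iff.mpr this
  have hA : ∀ N : Subgroup G, N.Normal → N ≠ ⊥ → N ⊔ M = ⊤ := by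
    intro N hN hN1
    apply hM.2
    exact lt_of_le_of_ne le_sup_right (fun h => hN1 (hB N hN (h ▸ le_sup_left)))
  have hmul : ∀ N : Subgroup G, N.Normal → N ≠ ⊥ → ∀ g : G, ∃ n ∈ N, ∃ m ∈ M, g = n * m := by
    intro N hN hN1 g
    have h1 : g ∈ N ⊔ M := by rw [hA N hN hN1]; exact mem_top g
    haveI := hN
    rw [← SetLike.mem_coe, Subgroup.normal_mul] at h1
    obtain ⟨n, hn, m, hm, rfl⟩ := Set.mem_mul.mp h1
    exact ⟨n, hn, m, hm, rfl⟩
  have hconjM : ∀ (D : Subgroup G), D.Normal → M ≤ normalizer ((D ⊓ M : Subgroup G) : Set G) := by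
    intro D hD h hh
    rw [mem_normalizer_iff]
    intro k
    constructor
    · rintro ⟨hk1, hk2⟩
      replace hk2 : k ∈ M := hk2
      have h3 : h * k * h⁻¹ ∈ M := mul_mem (mul_mem hh hk2) (inv_mem hh)
      exact ⟨hD.conj_mem k hk1 h, h3⟩
    · rintro ⟨hk1, hk2⟩
      replace hk2 : h * k * h⁻¹ ∈ M := hk2
      refine ⟨?_, ?_⟩
      · have := hD.conj_mem _ hk1 h⁻¹
        simpa [mul_assoc] using this
      · have := mul_mem (mul_mem (inv_mem hh) hk2) hh
        simpa [mul_assoc] using this
  have hcentN : ∀ (Z D : Subgroup G), (∀ z ∈ Z, ∀ d ∈ D, z * d = d * z) → ∀ E : Subgroup G, E ≤ D →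
      Z ≤ normalizer (E : Set G) := by
    intro Z D hZD E hED z hz
    rw [mem_normalizer_iff]
    intro k
    constructor
    · intro hk
      rw [hZD z hz k (hED hk)]; simpa using hk
    · intro hk
      have h1 := hZD z hz _ (hED hk)
      have : z * k * z⁻¹ = k := by
        have h2 : z * (z * k * z⁻¹) = z * k := by rw [h1]; group
        exact mul_left_cancel h2
      rwa [this] at hk
  -- the centre of `L`
  set Z : Subgroup G := (center L).map L.subtype with hZdef
  haveI hZn : Z.Normal := Cfsg.Agent.Lib.Helper1_ExtraIdx.center_map_normal L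
  haveI : Nontrivial L := (Subgroup.nontrivial_iff_ne_bot L).mpr hL
  haveI : Nontrivial (center L) := hLp.center_nontrivial
  have hZ1 : Z ≠ ⊥ := by
    intro h
    rw [hZdef, Subgroup.map_eq_bot_iff_of_injective _ L.subtype_injective] at h
    exact (Subgroup.nontrivial_iff_ne_bot _).mp ‹Nontrivial (center L)› h
  have hZL : Z ≤ L := by
    rintro _ ⟨z, -, rfl⟩; exact z.2
  have hZc : ∀ z ∈ Z, ∀ d ∈ L, z * d = d * z := by
    rintro _ ⟨z, hz, rfl⟩ d hd
    exact (congrArg Subtype.val (mem_center_iff.mp hz ⟨d, hd⟩)).symm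
  have hLM : L ⊓ M = ⊥ := by
    apply hB _ _ inf_le_right
    exact normal_of_le_normalizer (hA Z hZn hZ1) (hcentN Z L hZc _ inf_le_left) (hconjM L hLn)
  have hC : ∀ K : Subgroup G, K.Normal → K ≤ L → K = ⊥ ∨ K = L := by
    intro K hK hKL
    by_cases hK1 : K = ⊥
    · exact Or.inl hK1
    right
    apply le_antisymm hKL
    intro x hx
    obtain ⟨n, hn, m, hm, rfl⟩ := hmul K hK hK1 x
    have h1 : m ∈ L ⊓ M := ⟨by simpa using mul_mem (inv_mem (hKL hn)) hx, hm⟩
    rw [hLM, mem_bot] at h1
    rw [h1, mul_one]; exact hn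
  have hZeq : Z = L := (hC Z hZn hZL).resolve_left hZ1
  have hLc : ∀ a ∈ L, ∀ b ∈ L, a * b = b * a := by
    intro a ha b hb
    exact hZc a (hZeq ▸ ha) b hb
  haveI hLab : IsMulCommutative L := ⟨⟨fun a b => Subtype.ext (hLc a a.2 b b.2)⟩⟩
  have hpL : p ∣ Nat.card L := by
    obtain ⟨n, hn⟩ := IsPGroup.iff_card.mp hLp
    rcases Nat.eq_zero_or_pos n with h0 | h0
    · rw [h0, pow_zero] at hn
      exact absurd (Subgroup.card_eq_one.mp hn) hL
    · rw [hn]; exact dvd_pow_self p (by omega)
  have hOm : omegaSub L p = L :=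
    (hC _ (omegaSub_normal L p) (omegaSub_le L p)).resolve_left (omegaSub_ne_bot L p hpL)
  have hsup : L ⊔ M = ⊤ := hA L hLn hL
  refine ⟨⟨hLab, fun a ha => ?_⟩, ?_, hC, ?_, ?_⟩
  · rw [← hOm] at ha; exact ha.2
  · apply isComplement'_of_disjoint_and_mul_eq_univ (disjoint_iff.mpr hLM)
    rw [← normal_mul, hsup]; rfl
  · have hCn : (centralizer (L : Set G)).Normal := inferInstance
    have hCM : centralizer (L : Set G) ⊓ M = ⊥ := by
      apply hB _ _ inf_le_right
      refine normal_of_le_normalizer hsup (hcentN L (centralizer (L : Set G)) ?_ _ inf_le_left) (hconjM _ hCn)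
      intro z hz d hd
      exact mem_centralizer_iff.mp hd z hz
    apply le_antisymm
    · intro c hc
      obtain ⟨n, hn, m, hm, rfl⟩ := hmul L hLn hL c
      have hnC : n ∈ centralizer (L : Set G) := by
        rw [mem_centralizer_iff]; intro y hy; exact hLc y hy n hn
      have h1 : m ∈ centralizer (L : Set G) ⊓ M := ⟨by simpa using mul_mem (inv_mem hnC) hc, hm⟩
      rw [hCM, mem_bot] at h1
      rw [h1, mul_one]; exact hn
    · intro n hn
      rw [mem_centralizer_iff]; intro y hy; exact hLc y hy n hn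
  · intro q hq hQ1
    set Q : Subgroup G := (Cfsg.pCore q M).map M.subtype with hQdef
    have hQM : Q ≤ M := by rintro _ ⟨z, -, rfl⟩; exact z.2
    have hQne : Q ≠ ⊥ := by
      intro h
      rw [hQdef, Subgroup.map_eq_bot_iff_of_injective _ M.subtype_injective] at h
      exact hQ1 h
    have hQq : IsPGroup q Q := (Cfsg.Agent.Lib.Helper4_Core.pCore_isPGroup q M).map _
    have hMN : M ≤ normalizer (Q : Set G) := by
      have hn : (Cfsg.pCore q M).Normal := inferInstance
      intro m hm
      rw [mem_normalizer_iff]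
      intro k
      constructor
      · rintro ⟨z, hz, rfl⟩
        exact ⟨⟨m, hm⟩ * z * ⟨m, hm⟩⁻¹, hn.conj_mem z hz _, rfl⟩
      · rintro ⟨z, hz, hzk⟩
        refine ⟨⟨m, hm⟩⁻¹ * z * ⟨m, hm⟩, ?_, ?_⟩
        · have := hn.conj_mem z hz (⟨m, hm⟩⁻¹ : M)
          simpa using this
        · simp only [Subgroup.coe_subtype, Subgroup.coe_mul, Subgroup.coe_inv] at hzk ⊢
          rw [hzk]; group
    have hNQ : normalizer (Q : Set G) = M := by
      rcases eq_or_lt_of_le hMN with h | h
      · exact h.symm
      · exfalso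
        have := hM.2 _ h
        exact hQne (hB Q (normalizer_eq_top_iff.mp this) hQM)
    have hmod : Nat.card L ≡ 1 [MOD q] := by
      apply card_modEq_group (A := Q) _ hQq
      · intro x hx hfix
        have h1 : x ∈ normalizer (Q : Set G) := by
          rw [mem_normalizer_iff]
          intro k
          have hkey : ∀ k ∈ Q, x * k * x⁻¹ = k := by
            intro k hk
            have := hfix k hk
            calc x * k * x⁻¹ = (k * x * k⁻¹) * k * x⁻¹ := by rw [this]
              _ = k := by group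
          constructor
          · intro hk; rw [hkey k hk]; exact hk
          · intro hk
            have h2 := hkey _ hk
            have h3 : x * k * x⁻¹ = k := by
              have : x * (x * k * x⁻¹) * x⁻¹ = x * k * x⁻¹ := h2
              have h4 : x * (x * k * x⁻¹) = x * k := by
                calc x * (x * k * x⁻¹) = (x * (x * k * x⁻¹) * x⁻¹) * x := by group
                  _ = x * k * x⁻¹ * x := by rw [this]
                  _ = x * k := by group
              exact mul_left_cancel h4
            rwa [h3] at hk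
        rw [hNQ] at h1
        have h2 : x ∈ L ⊓ M := ⟨hx, h1⟩
        rw [hLM, mem_bot] at h2
        exact h2
      · rw [normalizer_eq_top]; exact le_top
    refine ⟨hmod, ?_⟩
    rintro rfl
    have h1 : Nat.card L % q = 0 := Nat.mod_eq_zero_of_dvd hpL
    have h2 : Nat.card L % q = 1 % q := hmod
    rw [h1, Nat.mod_eq_of_lt hp.one_lt] at h2
    exact absurd h2 (by norm_num)

end Cfsg.Agent.S0587
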