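import Cfsg.Statements.S0588

import Mathlib
set_option autoImplicit false
open Cfsg

namespace Cfsg.Agent.S0588


/-- If a subgroup H of a finite group G contains the centralizer of every non-identity element of H, then the order of H is coprime to its index. -/
theorem result {G : Type*} [Group G] [Finite G] (H : Subgroup G) (h : ∀ x ∈ H, x ≠ 1 → Subgroup.centralizer ({x} : Set G) ≤ H) : (Nat.card H).Coprime H.index := by
  apply Nat.Coprime.symm
  apply Nat.coprime_of_dvd
  intro p hp hpi hpH
  haveI := Fact.mk hp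
  obtain ⟨x, hx⟩ := exists_prime_orderOf_dvd_card' (G := H) p hpH
  have hx1 : (x : G) ≠ 1 := by
    intro h1
    have : x = 1 := Subtype.ext h1
    rw [this, orderOf_one] at hx
    exact hp.one_lt.ne hx
  have hpg : IsPGroup p (Subgroup.zpowers (x : G)) :=
    IsPGroup.of_card (n := 1) (by rw [Nat.card_zpowers, Subgroup.orderOf_coe, hx, pow_one])
  obtain ⟨P, hP⟩ := hpg.exists_le_sylow
  have hxP : (x : G) ∈ (P : Subgroup G) := hP (Subgroup.mem_zpowers _)
  haveI : Nontrivial (P : Subgroup G) := ⟨⟨⟨x, hxP⟩, 1, fun h1 => hx1 (congrArg Subtype.val h1)⟩⟩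
  haveI := P.isPGroup'.center_nontrivial
  obtain ⟨z, hz⟩ := exists_ne (1 : Subgroup.center (P : Subgroup G))
  have hz1 : ((z : (P : Subgroup G)) : G) ≠ 1 := by
    intro h1
    apply hz
    exact Subtype.ext (Subtype.ext h1)
  have hzc : ∀ y : (P : Subgroup G), (y : G) * ((z : (P : Subgroup G)) : G) =
      ((z : (P : Subgroup G)) : G) * y := by
    intro y
    exact congrArg Subtype.val ((Subgroup.mem_center_iff.mp z.2) y)
  have hzH : ((z : (P : Subgroup G)) : G) ∈ H := by
    apply h x x.2 hx1
    rw [Subgroup.mem_centralizer_singleton_iff]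
    exact (hzc ⟨x, hxP⟩).symm
  have hPH : (P : Subgroup G) ≤ H := by
    intro y hy
    apply h _ hzH hz1
    rw [Subgroup.mem_centralizer_singleton_iff]
    exact hzc ⟨y, hy⟩
  exact P.not_dvd_index (hpi.trans (Subgroup.index_dvd_of_le hPH))

end Cfsg.Agent.S0588
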