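import Cfsg.Statements.S0589
import Cfsg.Agent.S0037
import Cfsg.Agent.S0034

set_option autoImplicit false
open Pointwise
open Cfsg

namespace Cfsg.Agent.S0589

open Subgroup
open scoped Pointwise

/-- Let H be a Frobenius complement in a finite group G and L a subgroup of G whose order divides the order of H. Then L is contained in some conjugate of H. -/
theorem result {G : Type*} [Group G] [Finite G] (H : Subgroup G) (hH : Cfsg.IsFrobeniusComplement H) (L : Subgroup G) (hL : Nat.card L ∣ Nat.card H) : ∃ x : G, L ≤ MulAut.conj x • H := by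
  obtain ⟨N, hN, hNn, hNc⟩ := Cfsg.Agent.Lib.Helper1_FrobThm.exists_kernel H hH.2.2
  apply Cfsg.Agent.S0037.conj_le_of_disjoint H hH.2.2 L
  intro x hx hxk
  rw [← hN] at hxk
  have h34 := Cfsg.Agent.S0034.result H hH
  have hcN : Nat.card N = H.index := by
    rw [← h34.1, ← hN]; rfl
  have hcop : Nat.Coprime H.index (Nat.card H) := by
    have h1 : H.index ≡ 1 [MOD Nat.card H] := h34.2
    have h2 := h1.gcd_eq
    rw [Nat.gcd_one_left] at h2
    exact h2
  have h1 : orderOf x ∣ Nat.card H := (Subgroup.orderOf_dvd_natCard L hx).trans hL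
  have h2 : orderOf x ∣ H.index := hcN ▸ Subgroup.orderOf_dvd_natCard N hxk
  have h3 : orderOf x ∣ 1 := by
    have := Nat.dvd_gcd h2 h1
    rwa [hcop] at this
  exact orderOf_eq_one_iff.mp (Nat.dvd_one.mp h3)

end Cfsg.Agent.S0589
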