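import Cfsg.Statements.S0590
import Mathlib
import Cfsg.Agent.Lib.Helper2_EA


set_option autoImplicit false
open Cfsg

namespace Cfsg.Agent.S0590

/-- Quadratic action on an elementary abelian p-group forces the acting group modulo the kernel of the action to be elementary abelian. -/
theorem result {G : Type*} [Group G] [Finite G] {p : ℕ} [Fact p.Prime] (V H : Subgroup G) (hV : Cfsg.IsElementaryAbelian p V) (hHV : H ≤ Subgroup.normalizer (V : Set G)) (hq : ⁅⁅V, H⁆, H⁆ = ⊥) : ⁅H, H⁆ ≤ Subgroup.centralizer (V : Set G) ∧ ∀ a ∈ H, a ^ p ∈ Subgroup.centralizer (V : Set G) := by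
  open scoped commutatorElement in
  constructor
  · rw [← Subgroup.commutator_eq_bot_iff_le_centralizer]
    apply Subgroup.commutator_commutator_eq_bot_of_rotate
    · rw [Subgroup.commutator_comm H V]; exact hq
    · exact hq
  · intro a ha
    rw [Subgroup.mem_centralizer_iff]
    intro v hv
    have hw : ⁅v, a⁆ ∈ ⁅V, H⁆ := Subgroup.commutator_mem_commutator hv ha
    have hwa : ⁅⁅v, a⁆, a⁆ = 1 := by
      have : ⁅⁅v, a⁆, a⁆ ∈ ⁅⁅V, H⁆, H⁆ := Subgroup.commutator_mem_commutator hw ha
      rw [hq] at this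
      exact this
    have hcomm : Commute ⁅v, a⁆ a := by
      rw [commutatorElement_eq_one_iff_mul_comm] at hwa
      exact hwa
    have hwV : ⁅v, a⁆ ∈ V := by
      have h1 : a * v⁻¹ * a⁻¹ ∈ V := by
        have := (Subgroup.mem_normalizer_iff.mp (hHV ha) v⁻¹).mp (V.inv_mem hv)
        exact this
      have : ⁅v, a⁆ = v * (a * v⁻¹ * a⁻¹) := by
        rw [commutatorElement_def]; group
      rw [this]
      exact V.mul_mem hv h1
    have hp1 : ⁅v, a⁆ ^ p = 1 := hV.2 _ hwV
    have h2 : v * a * v⁻¹ = ⁅v, a⁆ * a := by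
      rw [commutatorElement_def]; group
    have h3 : v * a ^ p * v⁻¹ = a ^ p := by
      rw [← conj_pow, h2, hcomm.mul_pow, hp1, one_mul]
    exact mul_inv_eq_iff_eq_mul.mp h3

end Cfsg.Agent.S0590
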