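import Cfsg.Statements.S0591
import Mathlib
import Cfsg.Agent.Lib.Helper2_EA


set_option autoImplicit false
open Cfsg

namespace Cfsg.Agent.S0591

/-- For a quadratically acting element a on an elementary abelian p-group V, the fixed points C_V(a) have order at least the square root of the order of V. -/
theorem result {G : Type*} [Group G] [Finite G] {p : ℕ} [Fact p.Prime] (V : Subgroup G) (hV : Cfsg.IsElementaryAbelian p V) (a : G) (ha : a ∈ Subgroup.normalizer (V : Set G)) (hq : ⁅⁅V, Subgroup.zpowers a⁆, Subgroup.zpowers a⁆ = ⊥) : Nat.card V ≤ Nat.card ↥(V ⊓ Subgroup.centralizer (Subgroup.zpowers a : Set G)) ^ 2 := by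
  open scoped commutatorElement in
  have hcV := Cfsg.Agent.Lib.Helper2_EA.ea_comm hV
  have haz : a ∈ Subgroup.zpowers a := Subgroup.mem_zpowers a
  have hn : ∀ v ∈ V, a * v * a⁻¹ ∈ V := fun v hv => (Subgroup.mem_normalizer_iff.mp ha v).mp hv
  have hfm : ∀ v ∈ V, v * (a * v⁻¹ * a⁻¹) ∈ V := fun v hv => V.mul_mem hv (hn _ (V.inv_mem hv))
  let f : V →* V := MonoidHom.mk' (fun v => ⟨v * (a * (v:G)⁻¹ * a⁻¹), hfm v v.2⟩) (by
    intro x y
    apply Subtype.ext
    simp only [Subgroup.coe_mul]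
    have h1 := hcV _ y.2 _ (hn _ (V.inv_mem x.2))
    calc (x:G) * y * (a * ((x:G) * y)⁻¹ * a⁻¹) = x * (y * (a * (x:G)⁻¹ * a⁻¹)) * (a * (y:G)⁻¹ * a⁻¹) := by
            have := hcV _ (V.inv_mem x.2) _ (V.inv_mem y.2)
            rw [mul_inv_rev, ← this]; group
      _ = x * ((a * (x:G)⁻¹ * a⁻¹) * y) * (a * (y:G)⁻¹ * a⁻¹) := by rw [h1]
      _ = _ := by group)
  have hfv : ∀ v : V, ((f v : V) : G) = v * (a * (v:G)⁻¹ * a⁻¹) := fun v => rfl
  set C := V ⊓ Subgroup.centralizer (Subgroup.zpowers a : Set G) with hC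
  have hCmem : ∀ x : G, x ∈ V → x * a = a * x → x ∈ C := by
    intro x hx hxa
    refine Subgroup.mem_inf.mpr ⟨hx, ?_⟩
    rw [Subgroup.zpowers_eq_closure, Subgroup.centralizer_closure,
      Subgroup.mem_centralizer_singleton_iff]
    exact hxa
  have hker : f.ker.map V.subtype ≤ C := by
    rintro _ ⟨v, hv, rfl⟩
    apply hCmem _ v.2
    have h1 : ((f v : V) : G) = 1 := by
      rw [MonoidHom.mem_ker.mp hv]; rfl
    rw [hfv] at h1
    have : (v : G) * a * (v:G)⁻¹ * a⁻¹ = 1 := by rw [← h1]; group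
    rw [mul_inv_eq_one, mul_inv_eq_iff_eq_mul] at this
    exact this
  have hran : f.range.map V.subtype ≤ C := by
    rintro _ ⟨_, ⟨v, rfl⟩, rfl⟩
    apply hCmem _ (f v).2
    have e : ((f v : V) : G) = ⁅(v:G), a⁆ := by
      rw [hfv, commutatorElement_def]; group
    have hw : ⁅(v:G), a⁆ ∈ ⁅V, Subgroup.zpowers a⁆ := Subgroup.commutator_mem_commutator v.2 haz
    have hwa : ⁅⁅(v:G), a⁆, a⁆ = 1 := by
      have : ⁅⁅(v:G), a⁆, a⁆ ∈ ⁅⁅V, Subgroup.zpowers a⁆, Subgroup.zpowers a⁆ :=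
        Subgroup.commutator_mem_commutator hw haz
      rw [hq] at this
      exact this
    rw [commutatorElement_eq_one_iff_mul_comm] at hwa
    change ((f v : V) : G) * a = a * ((f v : V) : G)
    rw [e]
    exact hwa
  have k1 : Nat.card f.ker ≤ Nat.card C := by
    rw [← Subgroup.card_map_of_injective V.subtype_injective]
    exact Subgroup.card_le_of_le hker
  have k2 : Nat.card f.range ≤ Nat.card C := by
    rw [← Subgroup.card_map_of_injective V.subtype_injective]
    exact Subgroup.card_le_of_le hran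
  rw [← Subgroup.card_mul_index f.ker, Subgroup.index_ker, pow_two]
  exact Nat.mul_le_mul k1 k2

end Cfsg.Agent.S0591
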