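import Cfsg.Statements.S0600
import Cfsg.Agent.Lib.Helper4_Syl
import Cfsg.Agent.Lib.Helper4_PRed
import Cfsg.Agent.Lib.Helper4_PRed2

set_option autoImplicit false
open Cfsg

namespace Cfsg.Agent.S0600

open Cfsg.Agent.Lib.Helper4_Syl Cfsg.Agent.Lib.Helper4_PRed Cfsg.Agent.Lib.Helper4_PRed2

/-- A normal elementary abelian p-subgroup generated by the fixed points of the Sylow p-subgroups admits no nontrivial normal p-subgroup of G modulo its centralizer. -/
theorem result {G : Type*} [Group G] [Finite G] {p : ℕ} [Fact p.Prime] (V : Subgroup G) [V.Normal] (hV : Cfsg.IsElementaryAbelian p V) (hgen : V = ⨆ S : Sylow p G, V ⊓ Subgroup.centralizer ((S : Subgroup G) : Set G)) : Cfsg.pCore p (G ⧸ Subgroup.centralizer (V : Set G)) = ⊥ := by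
  have key : Cfsg.IsPReducedNormal p V := by
    rw [isPReducedNormal_iff]
    refine ⟨inferInstance, hV, fun D hD hpow => ?_⟩
    rw [Subgroup.le_centralizer_iff, hgen]
    refine iSup_le fun S => ?_
    rw [Subgroup.le_centralizer_iff]
    have hS : IsSylIn p ((S : Subgroup G) ⊓ D) D := (IsSylIn.of_sylow_top S).inf_normal D
    apply le_of_sylow_le hS
    · refine inf_le_left.trans ?_
      rw [Subgroup.le_centralizer_iff]
      exact inf_le_right
    · intro d hd
      obtain ⟨k, hk⟩ := hpow d hd
      exact ⟨k, Subgroup.centralizer_le (by exact_mod_cast (inf_le_left : V ⊓ _ ≤ V)) hk⟩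
  obtain ⟨_, _, _, h⟩ := key
  exact h

end Cfsg.Agent.S0600
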