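import Cfsg.Statements.S0601
import Cfsg.Agent.Lib.Helper4_Syl
import Cfsg.Agent.Lib.Helper4_PRed
import Cfsg.Agent.Lib.Helper4_PRed2
import Cfsg.Agent.Lib.Helper4_Core
import Cfsg.Agent.Lib.Helper4_PSol

set_option autoImplicit false
open Cfsg

namespace Cfsg.Agent.S0601

open Cfsg.Agent.Lib.Helper4_Syl Cfsg.Agent.Lib.Helper4_PRed Cfsg.Agent.Lib.Helper4_PRed2
open Cfsg.Agent.Lib.Helper4_Core Cfsg.Agent.Lib.Helper4_PSol
open scoped Pointwise

/-- When O_p(G) contains its centralizer, the normal closure of Ω₁(Z(S)) is elementary abelian and G has no nontrivial normal p-subgroup modulo its centralizer. -/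
theorem result {G : Type*} [Group G] [Finite G] {p : ℕ} [Fact p.Prime] (hc : Subgroup.centralizer (Cfsg.pCore p G : Set G) ≤ Cfsg.pCore p G) : (⨆ S : Sylow p G, Cfsg.omegaOne p (((S : Subgroup G)) ⊓ Subgroup.centralizer ((S : Subgroup G) : Set G))).Normal ∧ Cfsg.IsElementaryAbelian p (⨆ S : Sylow p G, Cfsg.omegaOne p (((S : Subgroup G)) ⊓ Subgroup.centralizer ((S : Subgroup G) : Set G))) ∧ ∀ D : Subgroup G, D.Normal → Subgroup.centralizer ((⨆ S : Sylow p G, Cfsg.omegaOne p (((S : Subgroup G)) ⊓ Subgroup.centralizer ((S : Subgroup G) : Set G)) : Subgroup G) : Set G) ≤ D → (∃ k : ℕ, (Subgroup.centralizer ((⨆ S : Sylow p G, Cfsg.omegaOne p (((S : Subgroup G)) ⊓ Subgroup.centralizer ((S : Subgroup G) : Set G)) : Subgroup G) : Set G)).relIndex D = p ^ k) → D = Subgroup.centralizer ((⨆ S : Sylow p G, Cfsg.omegaOne p (((S : Subgroup G)) ⊓ Subgroup.centralizer ((S : Subgroup G) : Set G)) : Subgroup G) : Set G) := by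
  set W : Subgroup G := ⨆ S : Sylow p G, Cfsg.omegaOne p
    ((S : Subgroup G) ⊓ Subgroup.centralizer ((S : Subgroup G) : Set G)) with hW
  set O := Cfsg.pCore p G with hO
  have hWle : W ≤ Cfsg.omegaOne p (O ⊓ Subgroup.centralizer (O : Set G)) := by
    refine iSup_le fun S => ?_
    unfold Cfsg.omegaOne
    apply Subgroup.closure_mono
    rintro x ⟨⟨hxS, hxC⟩, hxp⟩
    have h1 : x ∈ Subgroup.centralizer (O : Set G) :=
      Subgroup.centralizer_le (pCore_le_sylow S) hxC
    exact ⟨⟨hc h1, h1⟩, hxp⟩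
  have hWn : W.Normal := by
    constructor
    intro w hw g
    have hle : W ≤ W.comap (MulAut.conj g).toMonoidHom := by
      refine iSup_le fun S => ?_
      unfold Cfsg.omegaOne
      rw [Subgroup.closure_le]
      rintro x ⟨⟨hxS, hxC⟩, hxp⟩
      show g * x * g⁻¹ ∈ W
      refine (le_iSup (fun S : Sylow p G => Cfsg.omegaOne p
        ((S : Subgroup G) ⊓ Subgroup.centralizer ((S : Subgroup G) : Set G))) (g • S)) ?_
      apply mem_omegaOne
      · refine ⟨?_, ?_⟩
        · show g * x * g⁻¹ ∈ MulAut.conj g • (S : Subgroup G)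
          exact conj_mem_conj_smul hxS
        · show g * x * g⁻¹ ∈ Subgroup.centralizer ((MulAut.conj g • (S : Subgroup G) : Subgroup G) : Set G)
          rw [Subgroup.mem_centralizer_iff]
          intro y hy
          have hy' : g⁻¹ * y * g ∈ (S : Subgroup G) := mem_conj_smul.1 hy
          have := (Subgroup.mem_centralizer_iff.1 hxC) _ hy'
          calc y * (g * x * g⁻¹) = g * ((g⁻¹ * y * g) * x) * g⁻¹ := by group
            _ = g * (x * (g⁻¹ * y * g)) * g⁻¹ := by rw [this]
            _ = g * x * g⁻¹ * y := by group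
      · rw [conj_pow, hxp]; group
    exact hle hw
  refine ⟨hWn, ea_mono (omega_ea p O) hWle, ?_⟩
  rintro D hD hCD ⟨k, hk⟩
  apply le_antisymm ?_ hCD
  rw [Subgroup.le_centralizer_iff]
  refine iSup_le fun S => ?_
  rw [Subgroup.le_centralizer_iff]
  have hS : IsSylIn p ((S : Subgroup G) ⊓ D) D := (IsSylIn.of_sylow_top S).inf_normal D
  apply le_of_sylow_le hS
  · refine inf_le_left.trans ?_
    rw [Subgroup.le_centralizer_iff]
    exact (omega_le p _).trans inf_le_right
  · intro d hd
    refine ⟨k, ?_⟩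
    have h1 : d ^ p ^ k ∈ Subgroup.centralizer (W : Set G) := by
      rw [← hk]
      exact pow_relIndex_mem hd
    exact Subgroup.centralizer_le (by
      exact_mod_cast (le_iSup (fun S : Sylow p G => Cfsg.omegaOne p
        ((S : Subgroup G) ⊓ Subgroup.centralizer ((S : Subgroup G) : Set G))) S)) h1

end Cfsg.Agent.S0601
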