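import Cfsg.Statements.S0603
import Mathlib
import Cfsg.Agent.Lib.Helper2_EA

set_option autoImplicit false
open Cfsg

namespace Cfsg.Agent.S0603

open Cfsg.Agent.Lib.Helper2_Basic Cfsg.Agent.Lib.Helper2_Sylow Cfsg.Agent.Lib.Helper2_EA

/-- The Thompson subgroup of any subgroup containing J(G) is J(G) itself. -/
theorem result {G : Type*} [Group G] [Finite G] {p : ℕ} [Fact p.Prime] (U : Subgroup G) (hU : Cfsg.thompsonSubgroup p G ≤ U) : Cfsg.thompsonSubgroupOf p U = Cfsg.thompsonSubgroup p G := by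
  obtain ⟨A₀, hA₀⟩ := maxEA_nonempty (G := G) p
  apply le_antisymm
  · exact thompsonOf_le hA₀ ((le_thompson hA₀).trans hU)
  · apply sSup_le
    intro A hA
    exact le_thompsonOf hA ((le_thompson hA).trans hU)

end Cfsg.Agent.S0603
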