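import Cfsg.Statements.S0604
import Mathlib
import Cfsg.Agent.Lib.Helper2_EA

set_option autoImplicit false
open Cfsg

namespace Cfsg.Agent.S0604

open Cfsg.Agent.Lib.Helper2_Basic Cfsg.Agent.Lib.Helper2_Sylow Cfsg.Agent.Lib.Helper2_EA

/-- The Thompson subgroup of G is the join of the Thompson subgroups of its Sylow p-subgroups. -/
theorem result {G : Type*} [Group G] [Finite G] {p : ℕ} [Fact p.Prime] : Cfsg.thompsonSubgroup p G = ⨆ S : Sylow p G, Cfsg.thompsonSubgroupOf p (S : Subgroup G) := by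
  apply le_antisymm
  · apply sSup_le
    intro A hA
    obtain ⟨S, hS⟩ := (ea_isPGroup hA.1).exists_le_sylow
    exact (le_thompsonOf hA hS).trans
      (le_iSup (fun S : Sylow p G => Cfsg.thompsonSubgroupOf p (S : Subgroup G)) S)
  · apply iSup_le
    intro S
    obtain ⟨A₀, hA₀⟩ := maxEA_nonempty (G := G) p
    obtain ⟨k, hk⟩ := le_conj_sylow S (ea_isPGroup hA₀.1)
    have h1 : A₀.map (MulAut.conj k⁻¹).toMonoidHom ≤ S := by
      rw [cj_le_iff, inv_inv]; exact hk
    exact thompsonOf_le (maxEA_map_equiv hA₀ (MulAut.conj k⁻¹)) h1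

end Cfsg.Agent.S0604
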