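import Cfsg.Statements.S0605
import Mathlib
import Cfsg.Agent.Lib.Helper2_EA

set_option autoImplicit false
open Cfsg

namespace Cfsg.Agent.S0605

open Cfsg.Agent.Lib.Helper2_Basic Cfsg.Agent.Lib.Helper2_Sylow Cfsg.Agent.Lib.Helper2_EA
theorem mem_of_centralizes {G : Type*} [Group G] [Finite G] {p : ℕ} {A : Subgroup G}
    (hA : A ∈ Cfsg.maxElementaryAbelianSubgroups p G) {x : G} (hxp : x ^ p = 1)
    (hx : ∀ a ∈ A, a * x = x * a) : x ∈ A := by
  have hcomm : ∀ a ∈ A, ∀ b ∈ Subgroup.zpowers x, a * b = b * a := by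
    intro a ha b hb
    obtain ⟨i, rfl⟩ := Subgroup.mem_zpowers_iff.mp hb
    exact ((show Commute a x from hx a ha).zpow_right i).eq
  have hEA := ea_sup_of_comm hA.1 (ea_zpowers hxp) hcomm
  have h2 : A = A ⊔ Subgroup.zpowers x := Subgroup.eq_of_le_of_card_ge le_sup_left (hA.2 _ hEA)
  rw [h2]
  exact (le_sup_right : Subgroup.zpowers x ≤ _) (Subgroup.mem_zpowers x)

/-- Elements of order p in the centralizer of the Thompson subgroup belong to the Thompson subgroup (so to its centre). -/
theorem result {G : Type*} [Group G] [Finite G] {p : ℕ} [Fact p.Prime] (x : G) (hx : x ∈ Subgroup.centralizer (Cfsg.thompsonSubgroup p G : Set G)) (ho : orderOf x = p) : x ∈ Cfsg.thompsonSubgroup p G := by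
  obtain ⟨A, hA⟩ := maxEA_nonempty (G := G) p
  have hxp : x ^ p = 1 := by rw [← ho]; exact pow_orderOf_eq_one x
  exact le_thompson hA (mem_of_centralizes hA hxp
    (fun a ha => Subgroup.mem_centralizer_iff.mp hx a (le_thompson hA ha)))

end Cfsg.Agent.S0605
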