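import Cfsg.Statements.S0606
import Mathlib
import Cfsg.Agent.Lib.Helper2_EA

set_option autoImplicit false
open Cfsg

namespace Cfsg.Agent.S0606

open Cfsg.Agent.Lib.Helper2_Basic Cfsg.Agent.Lib.Helper2_Sylow Cfsg.Agent.Lib.Helper2_EA

/-- Elementary abelian p-subgroups of maximal order are best offenders on any normal elementary abelian p-subgroup. -/
theorem result {G : Type*} [Group G] [Finite G] {p : ℕ} [Fact p.Prime] (V : Subgroup G) [V.Normal] (hV : Cfsg.IsElementaryAbelian p V) (A : Subgroup G) (hA : A ∈ Cfsg.maxElementaryAbelianSubgroups p G) : Cfsg.IsBestOffenderOn p V A := by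
  have hAc := ea_comm hA.1
  refine ⟨?_, ?_, ?_⟩
  · intro B hB
    set D := V ⊓ Subgroup.centralizer (B : Set G) with hD
    have hBD : ∀ b ∈ B, ∀ d ∈ D, b * d = d * b :=
      fun b hb d hd => Subgroup.mem_centralizer_iff.mp hd.2 b hb
    have hEA := ea_sup_of_comm (ea_mono hA.1 hB) (ea_mono hV (inf_le_left : D ≤ V)) hBD
    have h1 : Nat.card (B ⊔ D : Subgroup G) ≤ Nat.card A := hA.2 _ hEA
    have h2 := card_sup_mul_card_inf B D
      ((le_centralizer_of_comm hBD).trans (Subgroup.centralizer_le_normalizer _))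
    have h3 : B ⊓ D ≤ V ⊓ Subgroup.centralizer (A : Set G) := by
      intro x hx
      exact ⟨hx.2.1, Subgroup.mem_centralizer_iff.mpr (fun a ha => hAc a ha x (hB hx.1))⟩
    have h4 : Nat.card (B ⊓ D : Subgroup G) ≤ Nat.card (V ⊓ Subgroup.centralizer (A : Set G) : Subgroup G) :=
      Subgroup.card_le_of_le h3
    calc Nat.card B * Nat.card D = Nat.card (B ⊔ D : Subgroup G) * Nat.card (B ⊓ D : Subgroup G) := h2.symm
      _ ≤ _ := Nat.mul_le_mul h1 h4
  · have : ⁅A, A⁆ = ⊥ := by
      rw [Subgroup.commutator_eq_bot_iff_le_centralizer]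
      exact le_centralizer_of_comm hAc
    rw [this]
    exact bot_le
  · intro a ha
    rw [hA.1.2 a ha]
    exact one_mem _

end Cfsg.Agent.S0606
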