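import Cfsg.Statements.S0629
import Cfsg.Agent.Lib.Helper4_PSol2

set_option autoImplicit false
open Cfsg

namespace Cfsg.Agent.S0629

open Subgroup Cfsg.Agent.Lib.Helper4_CharP Cfsg.Agent.Lib.Helper4_Core Cfsg.Agent.Lib.Helper4_PCons Cfsg.Agent.Lib.Helper4_PSol2 in
theorem aux {G : Type*} [Group G] [Finite G] {p : ℕ} [hp : Fact p.Prime] (P : Sylow p ↥(Cfsg.pPrimePCore p G)) (hsol : Cfsg.IsPSolvable p ↥(Subgroup.centralizer (((P : Subgroup ↥(Cfsg.pPrimePCore p G)).map (Cfsg.pPrimePCore p G).subtype : Subgroup G) : Set G))) : Cfsg.IsPConstrained p G := by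
  rw [isPConstrained_iff_cp]
  apply cp_of_psol (Cfsg.Agent.Lib.Helper3_PComp.pPrimeCore_quotient_eq_bot p G)
  set PX := (P : Subgroup ↥(Cfsg.pPrimePCore p G)).map (Cfsg.pPrimePCore p G).subtype with hPX
  have hPp : IsPGroup p PX := P.2.map _
  have h1 := Cfsg.Agent.Lib.Helper3_Frat.sylow_pPrimePCore_map P
  have h2 := Cfsg.Agent.Lib.Helper3_Frat.map_centralizer_eq (O := Cfsg.pPrimeCore p G)
    (pPrimeCore_coprime p) hPp
  rw [← h1, ← h2]
  exact isPSolvable_of_surjective hp.out ((QuotientGroup.mk' (Cfsg.pPrimeCore p G)).subgroupMap _)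
    (MonoidHom.subgroupMap_surjective _ _) hsol

/-- A group in which the centralizer of a Sylow p-subgroup of O_{p',p}(G) is p-solvable is p-constrained. -/
theorem result {G : Type*} [Group G] [Finite G] {p : ℕ} [Fact p.Prime] (P : Sylow p ↥(Cfsg.pPrimePCore p G)) (hsol : Cfsg.IsPSolvable p ↥(Subgroup.centralizer (((P : Subgroup ↥(Cfsg.pPrimePCore p G)).map (Cfsg.pPrimePCore p G).subtype : Subgroup G) : Set G))) : Cfsg.IsPConstrained p G := by
  exact aux P hsol

end Cfsg.Agent.S0629
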