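import Cfsg.Statements.S0635
import Cfsg.Agent.Lib.Helper4_PLen

set_option autoImplicit false
open Cfsg

namespace Cfsg.Agent.S0635

open scoped commutatorElement in
open Cfsg.Agent.Lib.Helper4_PLen in
theorem ups_le_succ (p : ℕ) (G : Type*) [Group G] (n : ℕ) :
    (Cfsg.upperPSeries p G n).1 ≤ (Cfsg.upperPSeries p G (n + 1)).1 := by
  by_cases h : Even n
  · rw [ups_succ_even p G n h]
    conv_lhs => rw [← QuotientGroup.ker_mk' (Cfsg.upperPSeries p G n).1]
    exact Subgroup.ker_le_comap _ _
  · rw [ups_succ_odd p G n h]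
    conv_lhs => rw [← QuotientGroup.ker_mk' (Cfsg.upperPSeries p G n).1]
    exact Subgroup.ker_le_comap _ _

open scoped commutatorElement in
open Cfsg.Agent.Lib.Helper4_PLen in
theorem ucs_le {G : Type*} [Group G] [Finite G] {p : ℕ} [Fact p.Prime]
    (hsol : Cfsg.IsPSolvable p G) (S : Sylow p G) (k : ℕ) :
    ∀ z : ↥(S : Subgroup G), z ∈ Subgroup.upperCentralSeries ↥(S : Subgroup G) k →
      (z : G) ∈ (Cfsg.upperPSeries p G (2 * k)).1 := by
  induction k with
  | zero =>
    intro z hz
    rw [Subgroup.upperCentralSeries_zero, Subgroup.mem_bot] at hz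
    rw [hz]; exact one_mem _
  | succ k ih =>
    intro z hz
    rw [Subgroup.mem_upperCentralSeries_succ_iff] at hz
    set U := (Cfsg.upperPSeries p G (2 * k + 1)).1 with hU
    have hcf := centralizer_factor_le hsol k
    have hmem : (QuotientGroup.mk' U) (z : G) ∈ Subgroup.centralizer
        ((((Cfsg.upperPSeries p G (2 * k + 2)).1.map (QuotientGroup.mk' U)) :
          Subgroup (G ⧸ U)) : Set (G ⧸ U)) := by
      rw [Subgroup.mem_centralizer_iff]
      intro y hy
      rw [SetLike.mem_coe, map_even_succ] at hy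
      have hS := Cfsg.Agent.Lib.Helper4_Core.pCore_le_sylow
        (S.mapSurjective (QuotientGroup.mk'_surjective U)) hy
      rw [Sylow.coe_mapSurjective] at hS
      obtain ⟨s, hs, rfl⟩ := hS
      have h1 := ih _ (hz ⟨s, hs⟩)
      have h2 : ⁅(z : G), s⁆ ∈ U := ups_le_succ p G (2 * k) h1
      have h3 : (QuotientGroup.mk' U) ⁅(z : G), s⁆ = 1 := (QuotientGroup.eq_one_iff _).2 h2
      rw [map_commutatorElement, commutatorElement_eq_one_iff_commute] at h3
      exact h3.symm
    obtain ⟨w, hw, hwz⟩ := hcf hmem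
    have h4 : w⁻¹ * (z : G) ∈ U := by
      rw [← QuotientGroup.eq_one_iff]
      show (QuotientGroup.mk' U) (w⁻¹ * (z : G)) = 1
      rw [map_mul, map_inv, hwz, inv_mul_cancel]
    have h5 := (Cfsg.upperPSeries p G (2 * k + 2)).1.mul_mem hw
      (ups_le_succ p G (2 * k + 1) h4)
    have e : w * (w⁻¹ * (z : G)) = z := by group
    rw [e] at h5
    exact h5

open Cfsg.Agent.Lib.Helper4_PLen in

/-- The p-length of a p-soluble group is at most the nilpotency class of its Sylow p-subgroups. -/
theorem result {G : Type*} [Group G] [Finite G] {p : ℕ} [Fact p.Prime] (hsol : Cfsg.IsPSolvable p G) (S : Sylow p G) : Cfsg.PLengthLE p (Group.nilpotencyClass ↥(S : Subgroup G)) G := by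
  haveI : Group.IsNilpotent ↥(S : Subgroup G) := S.2.isNilpotent
  set c := Group.nilpotencyClass ↥(S : Subgroup G) with hc
  have hSU : (S : Subgroup G) ≤ (Cfsg.upperPSeries p G (2 * c)).1 := by
    intro s hs
    exact ucs_le hsol S c ⟨s, hs⟩ (by
      rw [hc, Subgroup.upperCentralSeries_nilpotencyClass]; trivial)
  unfold Cfsg.PLengthLE
  rw [ups_succ_even p G (2 * c) (even_two_mul c)]
  have htop : Cfsg.pPrimeCore p (G ⧸ (Cfsg.upperPSeries p G (2 * c)).1) = ⊤ := by
    rw [eq_top_iff]
    apply le_sSup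
    refine ⟨inferInstance, ?_⟩
    rw [Subgroup.card_top]
    have h1 : (Cfsg.upperPSeries p G (2 * c)).1.index ∣ (S : Subgroup G).index :=
      Subgroup.index_dvd_of_le hSU
    have h2 : ¬ p ∣ (Cfsg.upperPSeries p G (2 * c)).1.index := fun h =>
      S.not_dvd_index (h.trans h1)
    exact ((Nat.Prime.coprime_iff_not_dvd Fact.out).2 h2).symm
  rw [htop, Subgroup.comap_top]

end Cfsg.Agent.S0635
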