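import Cfsg.Statements.S0641
import Mathlib


set_option autoImplicit false
open Cfsg

namespace Cfsg.Agent.S0641

/-- Regularity of a p-group passes to quotient groups. -/
theorem result {G : Type*} [Group G] {p : ℕ} [Fact p.Prime] (hG : Cfsg.IsRegularPGroup p G) (N : Subgroup G) [N.Normal] : Cfsg.IsRegularPGroup p (G ⧸ N) := by
  obtain ⟨hP, hreg⟩ := hG
  refine ⟨hP.to_quotient N, ?_⟩
  intro a' b' n
  obtain ⟨a, rfl⟩ := QuotientGroup.mk'_surjective N a'
  obtain ⟨b, rfl⟩ := QuotientGroup.mk'_surjective N b'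
  obtain ⟨c, hc, h⟩ := hreg a b n
  refine ⟨QuotientGroup.mk' N c, ?_, ?_⟩
  · have h1 : (Cfsg.powerClosure p n ⁅Subgroup.closure ({a, b} : Set G), Subgroup.closure ({a, b} : Set G)⁆).map (QuotientGroup.mk' N)
        ≤ Cfsg.powerClosure p n ⁅Subgroup.closure ({QuotientGroup.mk' N a, QuotientGroup.mk' N b} : Set (G ⧸ N)), Subgroup.closure ({QuotientGroup.mk' N a, QuotientGroup.mk' N b} : Set (G ⧸ N))⁆ := by
      unfold Cfsg.powerClosure
      rw [MonoidHom.map_closure]
      apply Subgroup.closure_mono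
      rintro _ ⟨y, ⟨x, hx, rfl⟩, rfl⟩
      refine ⟨QuotientGroup.mk' N x, ?_, by rw [map_pow]⟩
      have := Subgroup.mem_map_of_mem (QuotientGroup.mk' N) hx
      rw [Subgroup.map_commutator, MonoidHom.map_closure, Set.image_pair] at this
      exact this
    exact h1 (Subgroup.mem_map_of_mem _ hc)
  · rw [← map_mul, ← map_pow, h]
    simp only [map_mul, map_pow]

end Cfsg.Agent.S0641
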