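import Cfsg.Statements.S0642
import Mathlib


set_option autoImplicit false
open Cfsg

namespace Cfsg.Agent.S0642

theorem exists_proper {p : ℕ} [Fact p.Prime] {P : Type*} [Group P] [Finite P] (hP : IsPGroup p P)
    [Nontrivial P] : ∃ M : Subgroup P, M ≠ ⊤ ∧ ∀ x : P, x ^ p ∈ M := by
  obtain ⟨k, hk⟩ := IsPGroup.iff_card.mp hP
  have hk0 : k ≠ 0 := by
    rintro rfl
    have := Finite.one_lt_card (α := P)
    rw [pow_zero] at hk
    omega
  obtain ⟨j, rfl⟩ := Nat.exists_eq_succ_of_ne_zero hk0
  obtain ⟨M, hM⟩ := Sylow.exists_subgroup_card_pow_prime (G := P) p (n := j)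
    (by rw [hk]; exact pow_dvd_pow p (Nat.le_succ j))
  have hp := (Fact.out : p.Prime)
  have hidx : M.index = p := by
    have := M.card_mul_index
    rw [hM, hk, pow_succ] at this
    exact Nat.eq_of_mul_eq_mul_left (pow_pos hp.pos j) this
  have hn : M.Normal := by
    apply Subgroup.normal_of_index_eq_minFac_card
    rw [hidx, hk, Nat.pow_minFac (Nat.succ_ne_zero j), hp.minFac_eq]
  refine ⟨M, ?_, ?_⟩
  · rintro rfl
    rw [Subgroup.index_top] at hidx
    exact hp.one_lt.ne hidx
  · intro x
    rw [← QuotientGroup.eq_one_iff, QuotientGroup.mk_pow]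
    have : Nat.card (P ⧸ M) = p := hidx
    rw [← this]
    exact pow_card_eq_one'

/-- Among finite 2-groups the regular ones are exactly the abelian ones. -/
theorem result {G : Type*} [Group G] [Finite G] (hG : IsPGroup 2 G) : Cfsg.IsRegularPGroup 2 G ↔ ∀ a b : G, a * b = b * a := by
  open scoped commutatorElement in
  constructor
  · rintro ⟨-, hreg⟩
    set D : Subgroup G := ⁅(⊤ : Subgroup G), ⊤⁆ with hD
    set K := Cfsg.powerClosure 2 1 D with hK
    have hDn : D.Normal := by rw [hD]; infer_instance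
    have hKn : ∀ g : G, ∀ x ∈ K, g * x * g⁻¹ ∈ K := by
      intro g x hx
      have h1 : K.map (MulAut.conj g).toMonoidHom ≤ K := by
        rw [hK]
        unfold Cfsg.powerClosure
        rw [MonoidHom.map_closure]
        apply Subgroup.closure_mono
        rintro _ ⟨y, ⟨x, hx, rfl⟩, rfl⟩
        refine ⟨g * x * g⁻¹, hDn.conj_mem x hx g, ?_⟩
        simp
      exact h1 ⟨x, hx, by simp⟩
    have hDK : D ≤ K := by
      rw [hD, Subgroup.commutator_le]
      intro x _ y _
      obtain ⟨c, hc, h⟩ := hreg y⁻¹ x⁻¹ 1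
      have hcK : c ∈ K := by
        revert hc
        apply Subgroup.closure_mono
        rintro _ ⟨z, hz, rfl⟩
        exact ⟨z, Subgroup.commutator_mono le_top le_top hz, rfl⟩
      have : ⁅x, y⁆ = x⁻¹ * c * x⁻¹⁻¹ := by
        have hc' : c = (y⁻¹ ^ 2 ^ 1 * x⁻¹ ^ 2 ^ 1)⁻¹ * (y⁻¹ * x⁻¹) ^ 2 ^ 1 := by
          rw [h]; group
        rw [hc', commutatorElement_def]
        simp only [pow_one, pow_two]
        group
      rw [this]
      exact hKn _ _ hcK
    have hDbot : D = ⊥ := by
      by_contra hne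
      haveI : Nontrivial D := (Subgroup.nontrivial_iff_ne_bot D).mpr hne
      obtain ⟨M, hM, hMp⟩ := exists_proper (p := 2) (hG.to_subgroup D)
      apply hM
      have hKM : K ≤ M.map D.subtype := by
        rw [hK]
        unfold Cfsg.powerClosure
        rw [Subgroup.closure_le]
        rintro _ ⟨z, hz, rfl⟩
        exact ⟨⟨z, hz⟩ ^ 2, hMp _, by simp⟩
      rw [eq_top_iff]
      intro d _
      obtain ⟨m, hm, hmd⟩ := hKM (hDK d.2)
      have : m = d := Subtype.ext hmd
      rwa [← this]
    intro a b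
    have : ⁅a, b⁆ ∈ D := Subgroup.commutator_mem_commutator (Subgroup.mem_top a) (Subgroup.mem_top b)
    rw [hDbot, Subgroup.mem_bot, commutatorElement_eq_one_iff_mul_comm] at this
    exact this
  · intro hab
    refine ⟨hG, ?_⟩
    intro a b n
    refine ⟨1, Subgroup.one_mem _, ?_⟩
    rw [mul_one]
    exact (show Commute a b from hab a b).mul_pow _

end Cfsg.Agent.S0642
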