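import Mathlib
import Cfsg.Agent.Lib.helper6_EANormal
import Cfsg.Statements.S0645

set_option autoImplicit false
open Cfsg

namespace Cfsg.Agent.S0645

open Subgroup Cfsg.Agent.Lib.helper6_EANormal

theorem eq_top_of_lt {G : Type*} [Group G] {p : ℕ} (hp : p.Prime) {C K : Subgroup G}
    (hCi : C.index = p) (hCK : C ≤ K) {b : G} (hb : b ∈ K) (hbC : b ∉ C) : K = ⊤ := by
  have h1 := relIndex_mul_index hCK
  rw [hCi] at h1
  have h2 : C.relIndex K ≠ 1 := by
    intro h
    exact hbC (relIndex_eq_one.1 h hb)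
  have h3 : C.relIndex K ∣ p := ⟨_, h1.symm⟩
  rcases (Nat.dvd_prime hp).1 h3 with h | h
  · exact absurd h h2
  · rw [h] at h1
    have h4 : K.index = 1 := by
      have := hp.pos
      nlinarith
    exact index_eq_one.1 h4

/-- Classification of p-groups with a cyclic maximal subgroup, odd p: a non-abelian one of order p^n has generators a of order p^(n-1) and b of order p, b outside the cyclic subgroup generated by a, with b a b⁻¹ = a^(1 + p^(n-2)). -/
theorem result {G : Type*} [Group G] [Finite G] {p : ℕ} [Fact p.Prime] (hp : p ≠ 2) (n : ℕ) (hn : 3 ≤ n) (hG : Nat.card G = p ^ n) (C : Subgroup G) (hC : IsCyclic C) (hCi : C.index = p) (hna : ∃ x y : G, x * y ≠ y * x) : ∃ a b : G, orderOf a = p ^ (n - 1) ∧ orderOf b = p ∧ b ∉ Subgroup.zpowers a ∧ b * a * b⁻¹ = a ^ (1 + p ^ (n - 2)) := by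
  have hpp : p.Prime := Fact.out
  have hPG : IsPGroup p G := IsPGroup.of_card hG
  obtain ⟨m, rfl⟩ : ∃ m, n = m + 2 := ⟨n - 2, by omega⟩
  have hm : 1 ≤ m := by omega
  -- generator of `C`
  obtain ⟨a', ha'⟩ := hC.exists_generator
  have hCcard : Nat.card C = p ^ (m + 1) := by
    have h1 := C.card_mul_index
    rw [hCi, hG, pow_succ] at h1
    exact Nat.eq_of_mul_eq_mul_right hpp.pos h1
  obtain ⟨a, haC, hao, hCa⟩ : ∃ a : G, a ∈ C ∧ orderOf a = p ^ (m + 1) ∧ C = zpowers a := by
    refine ⟨a', a'.2, ?_, ?_⟩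
    · rw [Subgroup.orderOf_coe, orderOf_eq_card_of_forall_mem_zpowers ha', hCcard]
    · apply le_antisymm
      · intro c hc
        obtain ⟨i, hi⟩ := ha' ⟨c, hc⟩
        exact ⟨i, by simpa using congrArg Subtype.val hi⟩
      · rw [zpowers_le]; exact a'.2
  have hCn : C.Normal := by
    apply normal_of_index_eq_minFac_card
    rw [hCi, hG, Nat.Prime.pow_minFac hpp (by omega)]
  -- the elementary abelian normal subgroup
  have hnc : ¬ IsCyclic (⊤ : Subgroup G) := by
    intro h
    obtain ⟨x, y, hxy⟩ := hna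
    have hcyc : IsCyclic G := isCyclic_of_surjective (Subgroup.topEquiv : (⊤ : Subgroup G) ≃* G)
      Subgroup.topEquiv.surjective
    obtain ⟨g, hg⟩ := hcyc.exists_generator
    obtain ⟨i, rfl⟩ := hg x
    obtain ⟨j, rfl⟩ := hg y
    apply hxy
    show g ^ i * g ^ j = g ^ j * g ^ i
    rw [← zpow_add, ← zpow_add, add_comm]
  obtain ⟨A, -, hAn, ⟨hAc, hAe⟩, hAcard⟩ := main hp _ G rfl hPG ⊤ hnc
  have hAC : ¬ A ≤ C := by
    intro hle
    haveI : IsCyclic (A.subgroupOf C) := inferInstance
    have hcyc : IsCyclic A := isCyclic_of_surjective (subgroupOfEquivOfLe hle)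
      (subgroupOfEquivOfLe hle).surjective
    obtain ⟨g, hg⟩ := hcyc.exists_generator
    have h1 := orderOf_eq_card_of_forall_mem_zpowers hg
    rw [hAcard] at h1
    have h2 : g ^ p = 1 := Subtype.ext (hAe g g.2)
    have h3 := orderOf_dvd_of_pow_eq_one h2
    rw [h1] at h3
    have h4 := Nat.le_of_dvd hpp.pos h3
    have := hpp.one_lt
    nlinarith
  obtain ⟨b, hbA, hbC⟩ := SetLike.not_le_iff_exists.1 hAC
  set z := b * a * b⁻¹ * a⁻¹ with hz
  have hzA : z ∈ A := by
    have : z = b * (a * b⁻¹ * a⁻¹) := by rw [hz]; group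
    rw [this]
    exact A.mul_mem hbA (hAn.conj_mem _ (A.inv_mem hbA) a)
  have hzC : z ∈ C := C.mul_mem (hCn.conj_mem a haC b) (C.inv_mem haC)
  have hzb : Commute b z := congrArg Subtype.val (hAc.is_comm.comm ⟨b, hbA⟩ ⟨z, hzA⟩)
  have hza : Commute z a := by
    rw [hCa] at hzC
    obtain ⟨i, hi⟩ := hzC
    rw [← hi]
    exact (Commute.refl a).zpow_left i
  have hz1 : z ≠ 1 := by
    intro h1
    have hab : b * a = a * b := by
      have := congrArg (fun t => t * a * b) h1
      simpa [hz] using this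
    have hCcen : ∀ c ∈ C, Commute c b ∧ Commute c a := by
      intro c hc
      rw [hCa] at hc
      obtain ⟨i, rfl⟩ := hc
      exact ⟨(Commute.zpow_left (show Commute a b from hab.symm) i),
        (Commute.refl a).zpow_left i⟩
    have hatop : centralizer ({a} : Set G) = ⊤ := by
      apply eq_top_of_lt hpp hCi (C := C) _ (b := b) _ hbC
      · intro c hc
        rw [mem_centralizer_iff]
        intro y hy
        rw [Set.mem_singleton_iff.1 hy]
        exact ((hCcen c hc).2).eq.symm
      · rw [mem_centralizer_iff]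
        intro y hy
        rw [Set.mem_singleton_iff.1 hy]
        exact hab.symm
    have hbtop : centralizer ({b} : Set G) = ⊤ := by
      apply eq_top_of_lt hpp hCi (C := C) _ (b := b) _ hbC
      · intro c hc
        rw [mem_centralizer_iff]
        intro y hy
        rw [Set.mem_singleton_iff.1 hy]
        exact ((hCcen c hc).1).eq.symm
      · rw [mem_centralizer_iff]
        intro y hy
        rw [Set.mem_singleton_iff.1 hy]
    have hcen : center G = ⊤ := by
      apply eq_top_of_lt hpp hCi (C := C) _ (b := b) _ hbC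
      · rw [hCa, zpowers_le, mem_center_iff]
        intro g
        have : g ∈ centralizer ({a} : Set G) := by rw [hatop]; trivial
        exact ((mem_centralizer_iff.1 this) a rfl).symm
      · rw [mem_center_iff]
        intro g
        have : g ∈ centralizer ({b} : Set G) := by rw [hbtop]; trivial
        exact ((mem_centralizer_iff.1 this) b rfl).symm
    obtain ⟨x, y, hxy⟩ := hna
    apply hxy
    have : y ∈ center G := by rw [hcen]; trivial
    exact mem_center_iff.1 this x
  set w := a ^ (p ^ m) with hw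
  have hwp : w ^ p = 1 := by
    rw [hw, ← pow_mul, ← pow_succ, ← hao, pow_orderOf_eq_one]
  have hzw : z ∈ zpowers w := by
    have hzC' := hzC
    rw [hCa] at hzC'
    obtain ⟨i, hi⟩ := hzC'
    have hi' : a ^ i = z := hi
    have h1 : a ^ (i * p) = 1 := by
      rw [zpow_mul, hi', zpow_natCast]
      exact hAe z hzA
    rw [← orderOf_dvd_iff_zpow_eq_one, hao, pow_succ] at h1
    push_cast at h1
    have h2 : ((p : ℤ) ^ m) ∣ i :=
      Int.dvd_of_mul_dvd_mul_right (by exact_mod_cast hpp.ne_zero) h1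
    obtain ⟨k, rfl⟩ := h2
    refine ⟨k, ?_⟩
    show w ^ k = z
    rw [← hi', hw, zpow_mul]
    congr 1
    rw [← zpow_natCast]
    push_cast
    rfl
  have hwz : w ∈ zpowers z := mem_zpowers_of_prime hpp hwp hzw hz1
  rw [← mem_powers_iff_mem_zpowers] at hwz
  obtain ⟨j, hj⟩ := hwz
  have hj' : z ^ j = w := hj
  have hconj : ∀ k : ℕ, b ^ k * a * (b ^ k)⁻¹ = z ^ k * a := by
    intro k
    induction k with
    | zero => simp
    | succ k ih =>
      have h1 : b * z ^ k = z ^ k * b := (hzb.pow_right k).eq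
      calc b ^ (k + 1) * a * (b ^ (k + 1))⁻¹ = b * (b ^ k * a * (b ^ k)⁻¹) * b⁻¹ := by
            rw [pow_succ']; group
        _ = (b * z ^ k) * a * b⁻¹ := by rw [ih]; group
        _ = z ^ k * (b * a * b⁻¹ * a⁻¹) * a := by rw [h1]; group
        _ = z ^ (k + 1) * a := by rw [← hz, pow_succ]
  have hw1 : w ≠ 1 := by
    intro h0
    rw [h0] at hzw
    simp at hzw
    exact hz1 hzw
  have hcj := hconj j
  rw [hj'] at hcj
  have hncomm : ¬ Commute (b ^ j) a := by
    intro h
    apply hw1
    have h1 : b ^ j * a * (b ^ j)⁻¹ = a := by rw [h.eq]; group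
    rw [h1] at hcj
    have := congrArg (fun t => t * a⁻¹) hcj
    simpa using this.symm
  refine ⟨a, b ^ j, by simpa using hao, ?_, ?_, ?_⟩
  · apply orderOf_eq_prime
    · rw [← pow_mul, mul_comm, pow_mul, hAe b hbA, one_pow]
    · intro h0
      apply hncomm
      rw [h0]
      exact Commute.one_left a
  · rintro ⟨i, hi⟩
    apply hncomm
    rw [← hi]
    exact (Commute.refl a).zpow_left i
  · rw [hcj, hw, add_comm, pow_add, pow_one]
    simp

end Cfsg.Agent.S0645
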