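import Cfsg.Statements.S0660
import Mathlib

set_option autoImplicit false
open Cfsg

namespace Cfsg.Agent.S0660

/-- conjugation on `V` by an element of `A`. -/
def cj {G : Type*} [Group G] (A V : Subgroup G) (hAV : A ≤ Subgroup.normalizer (V : Set G))
    (a : A) : V →* V where
  toFun v := ⟨a * v * (a:G)⁻¹, (Subgroup.mem_normalizer_iff.mp (hAV a.2) v).mp v.2⟩
  map_one' := by ext; simp
  map_mul' x y := by ext; simp

theorem uniq {G : Type*} [Group G] (K H : Subgroup G) (hKH : K ⊓ H = ⊥) {k k' h h' : G}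
    (hk : k ∈ K) (hk' : k' ∈ K) (hh : h ∈ H) (hh' : h' ∈ H) (e : k * h = k' * h') :
    k = k' ∧ h = h' := by
  have h1 : k'⁻¹ * k = h' * h⁻¹ := by
    calc k'⁻¹ * k = k'⁻¹ * (k * h) * h⁻¹ := by group
      _ = k'⁻¹ * (k' * h') * h⁻¹ := by rw [e]
      _ = _ := by group
  have h2 : k'⁻¹ * k ∈ K ⊓ H :=
    ⟨K.mul_mem (K.inv_mem hk') hk, h1 ▸ H.mul_mem hh' (H.inv_mem hh)⟩
  rw [hKH, Subgroup.mem_bot] at h2
  have h3 : k = k' := by
    calc k = k' * (k'⁻¹ * k) := by group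
      _ = k' := by rw [h2, mul_one]
  refine ⟨h3, ?_⟩
  subst h3
  exact mul_left_cancel e

theorem dec {G : Type*} [Group G] (V U W : Subgroup G) (hc : ∀ x ∈ V, ∀ y ∈ V, x * y = y * x)
    (hUV : U ≤ V) (hWV : W ≤ V) (hUWV : U ⊔ W = V) (g : G) (hg : g ∈ V) :
    ∃ u ∈ U, ∃ w ∈ W, g = u * w := by
  let T : Subgroup G :=
    { carrier := {g | ∃ u ∈ U, ∃ w ∈ W, g = u * w}
      one_mem' := ⟨1, U.one_mem, 1, W.one_mem, by simp⟩
      mul_mem' := by
        rintro _ _ ⟨u, hu, w, hw, rfl⟩ ⟨u', hu', w', hw', rfl⟩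
        refine ⟨u * u', U.mul_mem hu hu', w * w', W.mul_mem hw hw', ?_⟩
        have := hc w (hWV hw) u' (hUV hu')
        calc u * w * (u' * w') = u * (w * u') * w' := by group
          _ = u * (u' * w) * w' := by rw [this]
          _ = _ := by group
      inv_mem' := by
        rintro _ ⟨u, hu, w, hw, rfl⟩
        refine ⟨u⁻¹, U.inv_mem hu, w⁻¹, W.inv_mem hw, ?_⟩
        have := hc w⁻¹ (hWV (W.inv_mem hw)) u⁻¹ (hUV (U.inv_mem hu))
        rw [mul_inv_rev, this] }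
  have h1 : U ⊔ W ≤ T := sup_le (fun u hu => ⟨u, hu, 1, W.one_mem, by simp⟩)
    (fun w hw => ⟨1, U.one_mem, w, hw, by simp⟩)
  rw [hUWV] at h1
  exact h1 hg


/-- Under a coprime action on an abelian group, an invariant subgroup that is complemented admits an invariant complement. -/
theorem result {G : Type*} [Group G] [Finite G] (V A U : Subgroup G) (hVab : IsMulCommutative V) (hAV : A ≤ Subgroup.normalizer (V : Set G)) (hcop : (Nat.card A).Coprime (Nat.card V)) (hUV : U ≤ V) (hAU : A ≤ Subgroup.normalizer (U : Set G)) (W : Subgroup G) (hWV : W ≤ V) (hUW : U ⊓ W = ⊥) (hUWV : U ⊔ W = V) : ∃ W' : Subgroup G, W' ≤ V ∧ A ≤ Subgroup.normalizer (W' : Set G) ∧ U ⊓ W' = ⊥ ∧ U ⊔ W' = V := by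
  classical
  have := Fintype.ofFinite A
  have hcV : ∀ x y : V, x * y = y * x := fun x y => hVab.is_comm.comm x y
  have hc : ∀ x ∈ V, ∀ y ∈ V, x * y = y * x := fun x hx y hy =>
    congrArg Subtype.val (hcV ⟨x, hx⟩ ⟨y, hy⟩)
  let _ : CommGroup V := { (inferInstance : Group V) with mul_comm := hcV }
  choose pu hpuU pw hpwW hpe using fun v : V => dec V U W hc hUV hWV hUWV v.1 v.2
  have hpu_mul : ∀ v v' : V, pu (v * v') = pu v * pu v' := by
    intro v v'
    refine (uniq U W hUW (hpuU (v * v')) (U.mul_mem (hpuU v) (hpuU v')) (hpwW (v * v'))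
      (W.mul_mem (hpwW v) (hpwW v')) ?_).1
    rw [← hpe (v * v'), Subgroup.coe_mul, hpe v, hpe v']
    have := hc (pw v) (hWV (hpwW v)) (pu v') (hUV (hpuU v'))
    calc pu v * pw v * (pu v' * pw v') = pu v * (pw v * pu v') * pw v' := by group
      _ = pu v * (pu v' * pw v) * pw v' := by rw [this]
      _ = _ := by group
  have hpu_U : ∀ v : V, (v : G) ∈ U → pu v = v := by
    intro v hv
    exact (uniq U W hUW (hpuU v) hv (hpwW v) W.one_mem (by rw [← hpe v, mul_one])).1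
  let π : V →* V := MonoidHom.mk' (fun v => ⟨pu v, hUV (hpuU v)⟩)
    (fun v v' => Subtype.ext (hpu_mul v v'))
  have hπ : ∀ v : V, ((π v : V) : G) = pu v := fun v => rfl
  have hcjU : ∀ (a : A) (v : V), (v : G) ∈ U → ((cj A V hAV a v : V) : G) ∈ U := by
    intro a v hv
    exact (Subgroup.mem_normalizer_iff.mp (hAU a.2) v).mp hv
  have hcj_mul : ∀ (a b : A) (v : V), cj A V hAV (a * b) v = cj A V hAV a (cj A V hAV b v) := by
    intro a b v
    ext; simp [cj, mul_assoc]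
  have hcj_inv : ∀ (a : A) (v : V), cj A V hAV a (cj A V hAV a⁻¹ v) = v := by
    intro a v
    ext; simp [cj, mul_assoc]
  have hcj_inv' : ∀ (a : A) (v : V), cj A V hAV a⁻¹ (cj A V hAV a v) = v := by
    intro a v
    ext; simp [cj, mul_assoc]
  let θ : V →* V := MonoidHom.mk'
    (fun v => ∏ a : A, cj A V hAV a (π (cj A V hAV a⁻¹ v)))
    (fun v v' => by simp only [map_mul, Finset.prod_mul_distrib])
  have hθ : ∀ v, θ v = ∏ a : A, cj A V hAV a (π (cj A V hAV a⁻¹ v)) := fun v => rfl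
  have hθU : ∀ v, ((θ v : V) : G) ∈ U := by
    intro v
    have h1 : θ v ∈ U.subgroupOf V := by
      rw [hθ]
      refine Subgroup.prod_mem _ fun a _ => ?_
      exact hcjU a _ (hpuU _)
    exact h1
  have hθu : ∀ v : V, (v : G) ∈ U → θ v = v ^ Fintype.card A := by
    intro v hv
    rw [hθ, Finset.prod_congr rfl (fun a _ => ?_), Finset.prod_const, Finset.card_univ]
    have h1 : π (cj A V hAV a⁻¹ v) = cj A V hAV a⁻¹ v :=
      Subtype.ext (hpu_U _ (hcjU a⁻¹ v hv))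
    rw [h1, hcj_inv]
  have hθeq : ∀ (b : A) (v : V), θ (cj A V hAV b v) = cj A V hAV b (θ v) := by
    intro b v
    rw [hθ, hθ, map_prod]
    symm
    refine Fintype.prod_equiv (Equiv.mulLeft b) _ _ ?_
    intro a
    show cj A V hAV b (cj A V hAV a (π (cj A V hAV a⁻¹ v))) =
      cj A V hAV (b * a) (π (cj A V hAV (b * a)⁻¹ (cj A V hAV b v)))
    rw [hcj_mul, mul_inv_rev, hcj_mul, hcj_inv']
  have hmem : ∀ g : G, g ∈ θ.ker.map V.subtype ↔ ∃ v : V, θ v = 1 ∧ (v : G) = g := by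
    intro g
    rw [Subgroup.mem_map]
    constructor
    · rintro ⟨v, hv, e⟩; exact ⟨v, MonoidHom.mem_ker.mp hv, e⟩
    · rintro ⟨v, hv, e⟩; exact ⟨v, MonoidHom.mem_ker.mpr hv, e⟩
  refine ⟨θ.ker.map V.subtype, Subgroup.map_subtype_le _, ?_, ?_, ?_⟩
  · intro b hb
    rw [Subgroup.mem_normalizer_iff]
    intro h
    show h ∈ θ.ker.map V.subtype ↔ b * h * b⁻¹ ∈ θ.ker.map V.subtype
    rw [hmem, hmem]
    constructor
    · rintro ⟨v, hv, rfl⟩
      exact ⟨cj A V hAV ⟨b, hb⟩ v, by rw [hθeq, hv, map_one], rfl⟩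
    · rintro ⟨v, hv, e⟩
      refine ⟨cj A V hAV (⟨b, hb⟩ : A)⁻¹ v, by rw [hθeq, hv, map_one], ?_⟩
      show b⁻¹ * (v : G) * b⁻¹⁻¹ = h
      rw [e]; group
  · rw [Subgroup.eq_bot_iff_forall]
    rintro g ⟨hgU, hgW⟩
    obtain ⟨v, hv, rfl⟩ := (hmem g).mp hgW
    rw [hθu v hgU] at hv
    have h2 : orderOf v ∣ Nat.card A := by
      rw [Nat.card_eq_fintype_card]; exact orderOf_dvd_of_pow_eq_one hv
    have h3 : orderOf v ∣ Nat.card V := orderOf_dvd_natCard _
    have h4 := Nat.dvd_gcd h2 h3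
    rw [Nat.Coprime.gcd_eq_one hcop, Nat.dvd_one] at h4
    exact congrArg Subtype.val (orderOf_eq_one_iff.mp h4)
  · refine le_antisymm (sup_le hUV (Subgroup.map_subtype_le _)) ?_
    intro g hg
    obtain ⟨x, y, hxy⟩ := (Nat.isCoprime_iff_coprime.mpr hcop)
    set v : V := ⟨g, hg⟩ with hv
    set t := θ v with ht
    have htU : ((t ^ x : V) : G) ∈ U := by
      rw [Subgroup.coe_zpow]; exact U.zpow_mem (hθU v) x
    have h1 : θ (t ^ x) = t := by
      rw [hθu _ htU, ← Nat.card_eq_fintype_card, ← zpow_natCast, ← zpow_mul]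
      have h2 : x * (Nat.card A : ℤ) = 1 - y * (Nat.card V : ℤ) := by linarith
      rw [h2, zpow_sub, zpow_one, zpow_mul', zpow_natCast, pow_card_eq_one', one_zpow, inv_one,
        mul_one]
    have h3 : θ ((t ^ x)⁻¹ * v) = 1 := by rw [map_mul, map_inv, h1, inv_mul_cancel]
    have h4 : g = ((t ^ x : V) : G) * (((t ^ x)⁻¹ * v : V) : G) := by
      rw [← Subgroup.coe_mul, mul_inv_cancel_left]
    rw [h4]
    exact Subgroup.mul_mem_sup htU ((hmem _).mpr ⟨_, h3, rfl⟩)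

end Cfsg.Agent.S0660
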