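import Cfsg.Statements.S0661
import Cfsg.Agent.Lib.Helper4_CharP
import Cfsg.Agent.Lib.Helper4_Core
import Cfsg.Agent.Lib.Helper3_Frat

set_option autoImplicit false
open Cfsg

namespace Cfsg.Agent.S0661

open Subgroup Cfsg.Agent.Lib.Helper4_CharP Cfsg.Agent.Lib.Helper4_Core in
theorem aux {G : Type*} [Group G] [Finite G] {p : ℕ} [Fact p.Prime] (hc : Subgroup.centralizer (Cfsg.pCore p (G ⧸ Cfsg.pPrimeCore p G) : Set (G ⧸ Cfsg.pPrimeCore p G)) ≤ Cfsg.pCore p (G ⧸ Cfsg.pPrimeCore p G)) (P : Subgroup G) (hP : IsPGroup p P) : (Cfsg.pPrimeCore p ↥(Subgroup.normalizer (P : Set G))).map (Subgroup.normalizer (P : Set G)).subtype = Cfsg.pPrimeCore p G ⊓ Subgroup.normalizer (P : Set G) := by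
  set K := Cfsg.pPrimeCore p G with hK
  set N := normalizer (P : Set G) with hN
  set π := QuotientGroup.mk' K with hπ
  have hKc : (Nat.card K).Coprime p := pPrimeCore_coprime p
  have hWc : (Nat.card (Cfsg.pPrimeCore p N)).Coprime p := pPrimeCore_coprime p
  have hWn : (Cfsg.pPrimeCore p N).Normal := inferInstance
  apply le_antisymm
  · apply le_inf _ (Subgroup.map_subtype_le _)
    have hcp : CP p (G ⧸ K) := cp_iff_cent.2 hc
    have hcp2 := cp_normalizer hcp (P.map π) (hP.map π)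
    have hNN := Cfsg.Agent.Lib.Helper3_Frat.map_normalizer_eq (O := K) hKc hP
    set Nb := normalizer ((P.map π : Subgroup (G ⧸ K)) : Set (G ⧸ K)) with hNb
    set W := (Cfsg.pPrimeCore p N).map N.subtype with hW
    have hWN : W ≤ N := Subgroup.map_subtype_le _
    have hWNb : W.map π ≤ Nb := by
      rw [← hNN]; exact Subgroup.map_mono hWN
    have hcardW : (Nat.card (W.map π)).Coprime p := by
      apply Nat.Coprime.coprime_dvd_left (Subgroup.card_map_dvd _ _)
      apply Nat.Coprime.coprime_dvd_left (Subgroup.card_map_dvd _ _) hWc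
    have h1 : ((W.map π).subgroupOf Nb) ≤ Cfsg.pPrimeCore p Nb := by
      apply le_pPrimeCore
      · rw [Subgroup.normal_subgroupOf_iff_le_normalizer hWNb]
        rw [← hNN]
        rintro _ ⟨n, hn, rfl⟩
        rw [Cfsg.Agent.Lib.Helper3_Local.mem_normalizer_iff_conj_le]
        rintro _ ⟨w, hw, rfl⟩
        obtain ⟨w', hw', rfl⟩ := hw
        refine ⟨n * w' * n⁻¹, ?_, by rw [map_mul, map_mul, map_inv]; rfl⟩
        exact ⟨⟨n, hn⟩ * w' * ⟨n, hn⟩⁻¹, hWn.conj_mem _ hw' _, rfl⟩
      · rw [Nat.card_congr (Subgroup.subgroupOfEquivOfLe hWNb).toEquiv]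
        exact hcardW
    rw [hcp2.2, le_bot_iff, Subgroup.subgroupOf_eq_bot, disjoint_iff, inf_eq_left.2 hWNb,
      Subgroup.map_eq_bot_iff, QuotientGroup.ker_mk'] at h1
    exact h1
  · have h1 : (K ⊓ N).subgroupOf N ≤ Cfsg.pPrimeCore p N := by
      apply le_pPrimeCore
      · rw [Subgroup.inf_subgroupOf_right]
        infer_instance
      · rw [Nat.card_congr (Subgroup.subgroupOfEquivOfLe inf_le_right).toEquiv]
        exact Nat.Coprime.coprime_dvd_left (Subgroup.card_dvd_of_le inf_le_left) hKc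
    intro x hx
    exact ⟨⟨x, hx.2⟩, h1 (by rw [Subgroup.mem_subgroupOf]; exact hx), rfl⟩

/-- If, modulo the largest normal subgroup of order prime to p, the largest normal p-subgroup contains its centralizer, then for every p-subgroup P the p'-core of N_G(P) is just O_p'(G) ∩ N_G(P). -/
theorem result {G : Type*} [Group G] [Finite G] {p : ℕ} [Fact p.Prime] (hc : Subgroup.centralizer (Cfsg.pCore p (G ⧸ Cfsg.pPrimeCore p G) : Set (G ⧸ Cfsg.pPrimeCore p G)) ≤ Cfsg.pCore p (G ⧸ Cfsg.pPrimeCore p G)) (P : Subgroup G) (hP : IsPGroup p P) : (Cfsg.pPrimeCore p ↥(Subgroup.normalizer (P : Set G))).map (Subgroup.normalizer (P : Set G)).subtype = Cfsg.pPrimeCore p G ⊓ Subgroup.normalizer (P : Set G) := by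
  exact aux hc P hP

end Cfsg.Agent.S0661
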