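import Cfsg.Statements.S0666
import Cfsg.Agent.Lib.Helper1_FrobAct
import Cfsg.Agent.Lib.Helper1_FrobThm
import Cfsg.Agent.S0039

set_option autoImplicit false
open Cfsg

namespace Cfsg.Agent.S0666

open Subgroup Cfsg.Agent.Lib.Helper1_FrobAct

/-- A Frobenius group acting on a nontrivial abelian group of order prime to that of its kernel, with the kernel acting without nontrivial fixed points, has a complement with a nontrivial fixed point. -/
theorem result {G : Type*} [Group G] [Finite G] (V F : Subgroup G) (hVab : IsMulCommutative V) (hV1 : V ≠ ⊥) (hFV : F ≤ Subgroup.normalizer (V : Set G)) (H : Subgroup ↥F) (hH : Cfsg.IsFrobeniusComplement H) (hcop : (Nat.card V).Coprime (Nat.card (Cfsg.frobeniusKernel H))) (hCK : V ⊓ Subgroup.centralizer (Subtype.val '' Cfsg.frobeniusKernel H : Set G) = ⊥) : V ⊓ Subgroup.centralizer ((H.map F.subtype : Subgroup G) : Set G) ≠ ⊥ := by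
  classical
  intro hcon
  obtain ⟨N, hN, hNn, hNc⟩ := Cfsg.Agent.Lib.Helper1_FrobThm.exists_kernel H hH.2.2
  haveI := hNn
  haveI := hVab
  have hNbot : N ≠ ⊥ := by
    intro h
    apply hH.2.1
    have := hNc.isCompl.sup_eq_top
    rwa [h, bot_sup_eq] at this
  have h39 := (Cfsg.Agent.S0039.result N H hNc hNbot hH.1).mp hH
  have hpow := pow_card_eq_one_sub F V hFV N H
    (by
      intro v hv hk
      have : v ∈ V ⊓ centralizer (Subtype.val '' Cfsg.frobeniusKernel H : Set G) := by
        refine ⟨hv, ?_⟩
        show v ∈ centralizer (Subtype.val '' Cfsg.frobeniusKernel H : Set G)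
        rw [mem_centralizer_iff]
        rintro _ ⟨k, hkk, rfl⟩
        rw [← hN] at hkk
        exact hk k hkk
      rwa [hCK, mem_bot] at this)
    (by
      intro v hv hk
      have : v ∈ V ⊓ centralizer ((H.map F.subtype : Subgroup G) : Set G) := by
        refine ⟨hv, ?_⟩
        show v ∈ centralizer ((H.map F.subtype : Subgroup G) : Set G)
        rw [mem_centralizer_iff]
        rintro _ ⟨k, hkk, rfl⟩
        exact hk k hkk
      rwa [hcon, mem_bot] at this)
    (by
      intro c hc hc1 k hk hcomm
      have : k ∈ N ⊓ centralizer {c} := by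
        refine ⟨hk, ?_⟩
        show k ∈ centralizer {c}
        rw [mem_centralizer_singleton_iff]
        exact hcomm
      rwa [h39 c hc hc1, mem_bot] at this)
  apply hV1
  rw [eq_bot_iff]
  intro v hv
  rw [mem_bot]
  have h1 : orderOf v ∣ Nat.card N := orderOf_dvd_of_pow_eq_one (hpow v hv)
  have h2 : Nat.card N = Nat.card (Cfsg.frobeniusKernel H) := by rw [← hN]; rfl
  have h3 : orderOf v ∣ Nat.card V := Subgroup.orderOf_dvd_natCard V hv
  have h4 := Nat.dvd_gcd h3 (h2 ▸ h1)
  rw [hcop] at h4
  exact orderOf_eq_one_iff.mp (Nat.dvd_one.mp h4)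

end Cfsg.Agent.S0666
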