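import Cfsg.Statements.S0669
import Mathlib


set_option autoImplicit false
open Cfsg

namespace Cfsg.Agent.S0669

/-- The rank of a transitive action: orbits on ordered pairs correspond to orbits of a point stabiliser. -/
theorem result {G : Type*} [Group G] {Ω : Type*} [Finite Ω] [MulAction G Ω] [MulAction.IsPretransitive G Ω] (a : Ω) : Nat.card (MulAction.orbitRel.Quotient G (Ω × Ω)) = Nat.card (MulAction.orbitRel.Quotient (MulAction.stabilizer G a) Ω) := by
  symm
  apply Nat.card_congr
  refine Equiv.ofBijective (Quotient.map' (fun x => (a, x)) ?_) ⟨?_, ?_⟩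
  · intro x y hxy
    obtain ⟨s, hs⟩ := hxy
    refine ⟨s.1, ?_⟩
    have h1 : s.1 • a = a := s.2
    have h2 : s.1 • y = x := hs
    simp only [Prod.smul_mk, h1, h2]
  · intro q1 q2
    induction q1 using Quotient.inductionOn' with | _ x => ?_
    induction q2 using Quotient.inductionOn' with | _ y => ?_
    intro h
    rw [Quotient.map'_mk'', Quotient.map'_mk'', Quotient.eq''] at h
    obtain ⟨g, hg⟩ := h
    simp only [Prod.smul_mk, Prod.mk.injEq] at hg
    apply Quotient.sound'
    exact ⟨⟨g, hg.1⟩, hg.2⟩
  · intro q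
    induction q using Quotient.inductionOn' with | _ xy => ?_
    obtain ⟨x, y⟩ := xy
    obtain ⟨g, hg⟩ := MulAction.exists_smul_eq G x a
    refine ⟨Quotient.mk'' (g • y), ?_⟩
    rw [Quotient.map'_mk'']
    apply Quotient.sound'
    exact ⟨g, by simp only [Prod.smul_mk, hg]⟩

end Cfsg.Agent.S0669
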