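import Cfsg.Statements.S0680
import Cfsg.Agent.Lib.Helper1_RegNormal
import Cfsg.Agent.Lib.Helper1_FrobThm
import Cfsg.Agent.S0039

set_option autoImplicit false
open Cfsg

namespace Cfsg.Agent.S0680

open Subgroup Cfsg.Agent.Lib.Helper1_Basic
open scoped Pointwise

/-- A finite sharply doubly transitive permutation group has degree a prime power `p ^ j`; a Sylow `p`-subgroup is normal, elementary abelian and regular, and consists of the identity together with the elements without fixed points. (Frobenius' Theorem is not needed.) -/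
theorem result {α : Type*} [Fintype α] [DecidableEq α] (G : Subgroup (Equiv.Perm α)) [MulAction.IsMultiplyPretransitive G α 2] (hsharp : ∀ x : Fin 2 ↪ α, MulAction.stabilizer G x = ⊥) (h2 : 2 ≤ Fintype.card α) : ∃ p j : ℕ, p.Prime ∧ 1 ≤ j ∧ Fintype.card α = p ^ j ∧ ∀ (hp : Fact p.Prime) (P : Sylow p G), (P : Subgroup G).Normal ∧ IsMulCommutative (P : Subgroup G) ∧ (∀ x ∈ (P : Subgroup G), x ^ p = 1) ∧ MulAction.IsPretransitive (P : Subgroup G) α ∧ (∀ a : α, MulAction.stabilizer (P : Subgroup G) a = ⊥) ∧ ∀ g : G, g ∈ (P : Subgroup G) ↔ g = 1 ∨ ∀ a : α, g • a ≠ a := by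
  classical
  have h2t : MulAction.IsMultiplyPretransitive G α 2 := inferInstance
  haveI htr : MulAction.IsPretransitive G α := MulAction.isPretransitive_of_is_two_pretransitive
  haveI hne : Nonempty α := by
    rw [← Fintype.card_pos_iff]; omega
  obtain ⟨a₀⟩ := id hne
  -- sharpness in elementary form
  have hsh : ∀ (x : G) (a b : α), a ≠ b → x • a = a → x • b = b → x = 1 := by
    intro x a b hab ha hb
    have : x ∈ MulAction.stabilizer G (Function.Embedding.embFinTwo hab) := by
      rw [MulAction.mem_stabilizer_iff]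
      ext i
      by_cases hi : i = 0
      · subst hi; exact ha
      · have : i = 1 := Fin.eq_one_of_ne_zero i hi
        subst this; exact hb
    rw [hsharp, mem_bot] at this
    exact this
  set H : Subgroup G := MulAction.stabilizer G a₀ with hH
  have hconjH : ∀ (k x : G), x ∈ MulAut.conj k • H ↔ x • (k • a₀) = k • a₀ := by
    intro k x
    rw [mem_conj_smul, hH, MulAction.mem_stabilizer_iff, mul_smul, mul_smul, inv_smul_eq_iff]
  have hTI : ∀ g : G, g ∉ H → H ⊓ (MulAut.conj g • H) = ⊥ := by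
    intro g hg
    rw [eq_bot_iff]
    rintro x ⟨hx1, hx2⟩
    rw [mem_bot]
    have hx2' : x • (g • a₀) = g • a₀ := (hconjH g x).mp hx2
    refine hsh x a₀ (g • a₀) ?_ hx1 hx2'
    intro h; exact hg h.symm
  obtain ⟨N, hNk, hNn, hcomp⟩ := Cfsg.Agent.Lib.Helper1_FrobThm.exists_kernel H hTI
  have hNmem : ∀ x : G, x ∈ N ↔ x = 1 ∨ ∀ a : α, x • a ≠ a := by
    intro x
    have : x ∈ N ↔ x ∈ Cfsg.frobeniusKernel H := by rw [← hNk]; rfl
    rw [this]
    unfold Cfsg.frobeniusKernel
    constructor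
    · rintro (h | h)
      · exact Or.inl h
      · right
        intro a
        obtain ⟨k, rfl⟩ := MulAction.exists_smul_eq G a₀ a
        exact fun hfix => h k ((hconjH k x).mpr hfix)
    · rintro (h | h)
      · exact Or.inl h
      · right
        intro k hk
        exact h _ ((hconjH k x).mp hk)
  have hreg : ∀ a : α, MulAction.stabilizer N a = ⊥ := by
    intro a
    rw [eq_bot_iff]
    intro n hn
    rw [mem_bot]
    rcases (hNmem n).mp n.2 with h | h
    · exact Subtype.ext h
    · exact absurd hn (h a)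
  obtain ⟨hNc, p, hp, hpow, hPG⟩ := Cfsg.Agent.Lib.Helper1_RegNormal.elementary_of_two h2t N hreg
  have hcardN : Nat.card N = Fintype.card α := by
    have h1 : H.index = Nat.card N := hcomp.index_eq_card
    have h3 : H.index = Nat.card α := MulAction.index_stabilizer_of_transitive G a₀
    rw [← h1, h3, Nat.card_eq_fintype_card]
  haveI hpF0 : Fact p.Prime := ⟨hp⟩
  obtain ⟨j, hj⟩ := IsPGroup.iff_card.mp hPG
  have hj1 : 1 ≤ j := by
    rcases Nat.eq_zero_or_pos j with h0 | h0
    · rw [h0, pow_zero, hcardN] at hj; omega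
    · exact h0
  have hNtr : ∀ b : α, ∃ n ∈ N, n • a₀ = b := by
    intro b
    obtain ⟨g, rfl⟩ := MulAction.exists_smul_eq G a₀ b
    obtain ⟨n, hn, h, hh, rfl⟩ := Cfsg.Agent.S0039.exists_mul hcomp g
    refine ⟨n, hn, ?_⟩
    rw [mul_smul]
    congr 1
    exact hh.symm
  refine ⟨p, j, hp, hj1, by rw [← hcardN, hj], ?_⟩
  intro hpF P
  have hNP : N ≤ (P : Subgroup G) := by
    obtain ⟨Q, hQ⟩ := hPG.exists_le_sylow
    obtain ⟨g, rfl⟩ := MulAction.exists_smul_eq G Q P
    intro x hx
    rw [Sylow.coe_subgroup_smul, mem_conj_smul]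
    apply hQ
    simpa using hNn.conj_mem x hx g⁻¹
  have hPH : ∀ h ∈ (P : Subgroup G), h ∈ H → h = 1 := by
    intro h hhP hhH
    set D : Subgroup G := (P : Subgroup G) ⊓ H with hD
    have hDp : IsPGroup p D := P.isPGroup'.to_le inf_le_left
    have hpα : p ∣ Nat.card α := by
      rw [Nat.card_eq_fintype_card, ← hcardN, hj]
      exact dvd_pow_self p (by omega)
    have ha₀ : a₀ ∈ MulAction.fixedPoints D α := by
      intro d
      exact d.2.2
    obtain ⟨b, hb, hab⟩ := hDp.exists_fixed_point_of_prime_dvd_card_of_fixed_point α hpα ha₀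
    exact hsh h a₀ b hab hhH (hb ⟨h, hhP, hhH⟩)
  have hPN : (P : Subgroup G) = N := by
    apply le_antisymm _ hNP
    intro x hx
    obtain ⟨n, hn, h, hh, rfl⟩ := Cfsg.Agent.S0039.exists_mul hcomp x
    have h1 : h ∈ (P : Subgroup G) := by
      have := mul_mem (inv_mem (hNP hn)) hx
      simpa using this
    rw [hPH h h1 hh, mul_one]; exact hn
  rw [hPN]
  refine ⟨hNn, hNc, hpow, ⟨?_⟩, hreg, hNmem⟩
  intro a b
  obtain ⟨n, hn, rfl⟩ := hNtr a
  obtain ⟨m, hm, rfl⟩ := hNtr b
  refine ⟨⟨m * n⁻¹, mul_mem hm (inv_mem hn)⟩, ?_⟩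
  show (m * n⁻¹) • n • a₀ = m • a₀
  rw [mul_smul, inv_smul_smul]

end Cfsg.Agent.S0680
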