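import Cfsg.Statements.S0681
import Cfsg.Agent.Lib.Helper1_NearField

set_option autoImplicit false
open Cfsg

namespace Cfsg.Agent.S0681

open Cfsg.Agent.Lib.Helper1_NearField

/-- The affine maps `x ↦ x * a + b`, `a ≠ 0`, of a near-field form a sharply doubly transitive permutation group. -/
theorem result {F : Type*} [Cfsg.NearField F] : ∃ H : Subgroup (Equiv.Perm F), (∀ σ : Equiv.Perm F, σ ∈ H ↔ ∃ a b : F, a ≠ 0 ∧ ∀ x : F, σ x = x * a + b) ∧ MulAction.IsMultiplyPretransitive H F 2 ∧ ∀ x : Fin 2 ↪ F, MulAction.stabilizer H x = ⊥ := by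
  refine ⟨affGroup F, mem_affGroup, ?_, ?_⟩
  · rw [MulAction.is_two_pretransitive_iff]
    intro x y u v hxy huv
    exact exists_aff hxy huv
  · intro e
    rw [eq_bot_iff]
    intro σ hσ
    rw [Subgroup.mem_bot]
    rw [MulAction.mem_stabilizer_iff] at hσ
    have h0 : (σ : Equiv.Perm F) (e 0) = e 0 := congrArg (fun f : Fin 2 ↪ F => f 0) hσ
    have h1 : (σ : Equiv.Perm F) (e 1) = e 1 := congrArg (fun f : Fin 2 ↪ F => f 1) hσ
    have hne : e 0 ≠ e 1 := e.injective.ne (by decide)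
    exact Subtype.ext (eq_one_of_fix σ.2 hne h0 h1)

end Cfsg.Agent.S0681
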