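import Cfsg.Statements.S0701
import Mathlib


set_option autoImplicit false
open Cfsg

namespace Cfsg.Agent.S0701

/-- The centraliser in the full symmetric group of a transitive permutation group `G` is semiregular, and it is transitive if and only if `G` is regular. -/
theorem result {α : Type*} (G : Subgroup (Equiv.Perm α)) [MulAction.IsPretransitive G α] : (∀ c ∈ Subgroup.centralizer (G : Set (Equiv.Perm α)), ∀ a : α, c a = a → c = 1) ∧ (MulAction.IsPretransitive (Subgroup.centralizer (G : Set (Equiv.Perm α))) α ↔ ∀ a : α, MulAction.stabilizer G a = ⊥) := by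
  have comm : ∀ c ∈ Subgroup.centralizer (G : Set (Equiv.Perm α)), ∀ g ∈ G, ∀ x, c (g x) = g (c x) := by
    intro c hc g hg x
    have := Subgroup.mem_centralizer_iff.mp hc g hg
    exact (congrArg (fun σ : Equiv.Perm α => σ x) this).symm
  refine ⟨?_, ?_, ?_⟩
  · intro c hc a hca
    ext x
    obtain ⟨g, rfl⟩ := MulAction.exists_smul_eq G a x
    change c (g.1 a) = g.1 a
    rw [comm c hc g.1 g.2, hca]
  · intro htr a
    rw [eq_bot_iff]
    intro g hg
    rw [Subgroup.mem_bot]
    apply Subtype.ext
    ext x
    obtain ⟨c, rfl⟩ := MulAction.exists_smul_eq (Subgroup.centralizer (G : Set (Equiv.Perm α))) a x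
    change g.1 (c.1 a) = c.1 a
    rw [← comm c.1 c.2 g.1 g.2]
    have : g.1 a = a := hg
    rw [this]
  · intro hreg
    constructor
    intro a b
    have bij : ∀ a : α, Function.Bijective (fun g : G => g.1 a) := by
      intro a
      constructor
      · intro g k hgk
        have : k⁻¹ * g ∈ MulAction.stabilizer G a := by
          rw [MulAction.mem_stabilizer_iff, mul_smul]
          change k⁻¹ • (g.1 a) = a
          have h' : g.1 a = k.1 a := hgk
          rw [h']
          exact inv_smul_smul k a
        rw [hreg a, Subgroup.mem_bot] at this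
        exact (inv_mul_eq_one.mp this).symm
      · intro x
        exact MulAction.exists_smul_eq G a x
    let ea := Equiv.ofBijective _ (bij a)
    let eb := Equiv.ofBijective _ (bij b)
    have hea : ∀ g : G, ea g = g.1 a := fun g => rfl
    have heb : ∀ g : G, eb g = g.1 b := fun g => rfl
    refine ⟨⟨ea.symm.trans eb, ?_⟩, ?_⟩
    · rw [Subgroup.mem_centralizer_iff]
      intro h hh
      ext x
      obtain ⟨g, rfl⟩ := ea.surjective x
      have h1 : h (ea g) = ea (⟨h, hh⟩ * g) := rfl
      simp only [Equiv.Perm.coe_mul, Function.comp_apply, Equiv.trans_apply, h1,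
        Equiv.symm_apply_apply]
      rfl
    · change (ea.symm.trans eb) a = b
      have : a = ea 1 := rfl
      rw [Equiv.trans_apply]
      conv_lhs => rw [this]
      rw [Equiv.symm_apply_apply]
      rfl

end Cfsg.Agent.S0701
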