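import Cfsg.Statements.S0703
import Mathlib
import Cfsg.Agent.Lib.Helper2_Perm2


set_option autoImplicit false
open Cfsg

namespace Cfsg.Agent.S0703

/-- An abelian transitive minimal normal subgroup `M` of a permutation group on a finite set is self-centralising in the symmetric group, regular, elementary abelian, and is the unique minimal normal subgroup. -/
theorem result {α : Type*} [Finite α] (G : Subgroup (Equiv.Perm α)) (M : Subgroup G) [M.Normal] (hM : M ≠ ⊥) (hmin : ∀ L : Subgroup G, L.Normal → L ≤ M → L = ⊥ ∨ L = M) (hab : IsMulCommutative M) (htrans : MulAction.IsPretransitive M α) : Subgroup.centralizer ((M.map G.subtype : Subgroup (Equiv.Perm α)) : Set (Equiv.Perm α)) = M.map G.subtype ∧ (∀ a : α, MulAction.stabilizer M a = ⊥) ∧ (∃ p : ℕ, p.Prime ∧ ∀ m ∈ M, m ^ p = 1) ∧ ∀ L : Subgroup G, L.Normal → L ≠ ⊥ → (∀ L' : Subgroup G, L'.Normal → L' ≤ L → L' = ⊥ ∨ L' = L) → L = M := by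
  have hT := Cfsg.Agent.Lib.Helper2_Perm2.trans_map M htrans
  have hcM : ∀ x ∈ M, ∀ y ∈ M, Commute x y := isMulCommutative_iff_of_setLike.mp hab
  have hle := Cfsg.Agent.Lib.Helper2_Perm2.map_le_centralizer_map hcM
  have hC := Cfsg.Agent.Lib.Helper2_Perm2.centralizer_eq_of_transitive_le hT hT hle
  refine ⟨hC, Cfsg.Agent.Lib.Helper2_Perm2.stabilizer_eq_bot hT hle, ?_, ?_⟩
  · haveI : Nontrivial M := (Subgroup.nontrivial_iff_ne_bot M).mpr hM
    have hcard : Nat.card M ≠ 1 := by
      have := Finite.one_lt_card (α := M)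
      omega
    set p := (Nat.card M).minFac with hp
    have hpp : p.Prime := Nat.minFac_prime hcard
    haveI : Fact p.Prime := ⟨hpp⟩
    refine ⟨p, hpp, ?_⟩
    let L : Subgroup G :=
      { carrier := {x | x ∈ M ∧ x ^ p = 1}
        one_mem' := ⟨M.one_mem, one_pow p⟩
        mul_mem' := by
          rintro x y ⟨hx, hx1⟩ ⟨hy, hy1⟩
          exact ⟨M.mul_mem hx hy, by rw [(hcM x hx y hy).mul_pow, hx1, hy1, one_mul]⟩
        inv_mem' := by
          rintro x ⟨hx, hx1⟩
          exact ⟨M.inv_mem hx, by rw [inv_pow, hx1, inv_one]⟩ }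
    have hLn : L.Normal := by
      constructor
      rintro x ⟨hx, hx1⟩ g
      exact ⟨Subgroup.Normal.conj_mem inferInstance x hx g, by rw [conj_pow, hx1]; simp⟩
    have hLM : L ≤ M := fun x hx => hx.1
    obtain ⟨x, hx⟩ := exists_prime_orderOf_dvd_card' (G := M) p (Nat.minFac_dvd _)
    rcases hmin L hLn hLM with h | h
    · exfalso
      have hxL : (x : G) ∈ L := by
        refine ⟨x.2, ?_⟩
        have := pow_orderOf_eq_one x
        rw [hx] at this
        exact congrArg Subtype.val this
      rw [h, Subgroup.mem_bot] at hxL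
      have : x = 1 := Subtype.ext hxL
      rw [this, orderOf_one] at hx
      exact hpp.one_lt.ne hx
    · intro m hm
      rw [← h] at hm
      exact hm.2
  · intro L hLn hL0 hLmin
    by_contra hne
    have hdis := Cfsg.Agent.Lib.Helper2_Perm2.min_normal_disjoint hLn hM hmin hLmin hne
    have hcomm : ∀ x ∈ L, ∀ y ∈ M, Commute x y := fun x hx y hy =>
      Subgroup.commute_of_normal_of_disjoint L M hLn inferInstance hdis x y hx hy
    have h1 := Cfsg.Agent.Lib.Helper2_Perm2.map_le_centralizer_map hcomm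
    rw [hC] at h1
    have h2 : L ≤ M := (Subgroup.map_le_map_iff_of_injective G.subtype_injective).mp h1
    apply hL0
    rw [eq_bot_iff]
    exact hdis.le_bot.trans' (le_inf le_rfl h2)

end Cfsg.Agent.S0703
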