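import Cfsg.Statements.S0704
import Mathlib
import Cfsg.Agent.Lib.Helper2_Perm2


set_option autoImplicit false
open Cfsg

namespace Cfsg.Agent.S0704

/-- Two distinct transitive minimal normal subgroups `M`, `N` of a permutation group are regular, non-abelian, isomorphic, each other's centraliser in the symmetric group, and the only minimal normal subgroups. -/
theorem result {α : Type*} (G : Subgroup (Equiv.Perm α)) (M N : Subgroup G) [M.Normal] [N.Normal] (hM : M ≠ ⊥) (hN : N ≠ ⊥) (hMmin : ∀ L : Subgroup G, L.Normal → L ≤ M → L = ⊥ ∨ L = M) (hNmin : ∀ L : Subgroup G, L.Normal → L ≤ N → L = ⊥ ∨ L = N) (hMN : M ≠ N) (hMt : MulAction.IsPretransitive M α) (hNt : MulAction.IsPretransitive N α) : (∀ a : α, MulAction.stabilizer M a = ⊥) ∧ (∀ a : α, MulAction.stabilizer N a = ⊥) ∧ ¬ IsMulCommutative M ∧ Nonempty (M ≃* N) ∧ Subgroup.centralizer ((M.map G.subtype : Subgroup (Equiv.Perm α)) : Set (Equiv.Perm α)) = N.map G.subtype ∧ Subgroup.centralizer ((N.map G.subtype : Subgroup (Equiv.Perm α)) : Set (Equiv.Perm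 α)) = M.map G.subtype ∧ ∀ L : Subgroup G, L.Normal → L ≠ ⊥ → (∀ L' : Subgroup G, L'.Normal → L' ≤ L → L' = ⊥ ∨ L' = L) → L = M ∨ L = N := by
  have hTM := Cfsg.Agent.Lib.Helper2_Perm2.trans_map M hMt
  have hTN := Cfsg.Agent.Lib.Helper2_Perm2.trans_map N hNt
  have hdis : Disjoint N M :=
    Cfsg.Agent.Lib.Helper2_Perm2.min_normal_disjoint inferInstance hM hMmin hNmin (Ne.symm hMN)
  have hcNM : ∀ x ∈ N, ∀ y ∈ M, Commute x y := fun x hx y hy =>
    Subgroup.commute_of_normal_of_disjoint N M inferInstance inferInstance hdis x y hx hy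
  have hcMN : ∀ x ∈ M, ∀ y ∈ N, Commute x y := fun x hx y hy => (hcNM y hy x hx).symm
  have hleN := Cfsg.Agent.Lib.Helper2_Perm2.map_le_centralizer_map hcNM
  have hleM := Cfsg.Agent.Lib.Helper2_Perm2.map_le_centralizer_map hcMN
  have hCM := Cfsg.Agent.Lib.Helper2_Perm2.centralizer_eq_of_transitive_le hTM hTN hleN
  have hCN := Cfsg.Agent.Lib.Helper2_Perm2.centralizer_eq_of_transitive_le hTN hTM hleM
  have hsM := Cfsg.Agent.Lib.Helper2_Perm2.stabilizer_eq_bot hTN hleM
  have hsN := Cfsg.Agent.Lib.Helper2_Perm2.stabilizer_eq_bot hTM hleN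
  refine ⟨hsM, hsN, ?_, ?_, hCM, hCN, ?_⟩
  · intro hab
    have hcM : ∀ x ∈ M, ∀ y ∈ M, Commute x y := isMulCommutative_iff_of_setLike.mp hab
    have hle := Cfsg.Agent.Lib.Helper2_Perm2.map_le_centralizer_map hcM
    rw [hCM] at hle
    have h2 : M ≤ N := (Subgroup.map_le_map_iff_of_injective G.subtype_injective).mp hle
    apply hM
    rw [eq_bot_iff]
    exact hdis.le_bot.trans' (le_inf h2 le_rfl)
  · rcases isEmpty_or_nonempty α with he | ⟨⟨a⟩⟩
    · exfalso
      apply hM
      rw [eq_bot_iff]
      intro m _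
      rw [Subgroup.mem_bot]
      apply Subtype.ext
      ext x
      exact (he.false x).elim
    have bij : ∀ (L : Subgroup G), MulAction.IsPretransitive L α →
        (∀ a : α, MulAction.stabilizer L a = ⊥) → Function.Bijective (fun g : L => g • a) := by
      intro L hLt hLs
      constructor
      · intro g k hgk
        have : k⁻¹ * g ∈ MulAction.stabilizer L a := by
          rw [MulAction.mem_stabilizer_iff, mul_smul]
          have h' : g • a = k • a := hgk
          rw [h']
          exact inv_smul_smul k a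
        rw [hLs a, Subgroup.mem_bot] at this
        exact (inv_mul_eq_one.mp this).symm
      · intro x
        exact MulAction.exists_smul_eq L a x
    let eM := Equiv.ofBijective _ (bij M hMt hsM)
    let eN := Equiv.ofBijective _ (bij N hNt hsN)
    have heM : ∀ m : M, eM m = m • a := fun _ => rfl
    have heN : ∀ n : N, eN n = n • a := fun _ => rfl
    -- φ m is the element of N with φ m • a = m⁻¹ • a
    let φ : M → N := fun m => eN.symm (eM m⁻¹)
    have hφ : ∀ m : M, φ m • a = m⁻¹ • a := by
      intro m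
      rw [← heN, ← heM]
      exact Equiv.apply_symm_apply eN _
    have hsw : ∀ (m : M) (n : N) (x : α), m • n • x = n • m • x := by
      intro m n x
      have := hcMN m m.2 n n.2
      change ((m : G) * (n : G)) • x = ((n : G) * (m : G)) • x
      rw [this.eq]
    refine ⟨MulEquiv.mk' (Equiv.ofBijective φ ⟨?_, ?_⟩) ?_⟩
    · intro m m' h
      have h1 : m⁻¹ • a = m'⁻¹ • a := by rw [← hφ, ← hφ, h]
      have := eM.injective (a₁ := m⁻¹) (a₂ := m'⁻¹) h1
      exact inv_injective this
    · intro n
      refine ⟨(eM.symm (eN n))⁻¹, ?_⟩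
      apply eN.injective
      rw [heN, hφ, inv_inv, ← heM]
      exact Equiv.apply_symm_apply eM _
    · intro m m'
      apply eN.injective
      change φ (m * m') • a = (φ m * φ m') • a
      rw [hφ, mul_smul, hφ, ← hsw, hφ, mul_inv_rev, mul_smul]
  · intro L hLn hL0 hLmin
    by_contra hne
    push_neg at hne
    have hdis' := Cfsg.Agent.Lib.Helper2_Perm2.min_normal_disjoint hLn hM hMmin hLmin hne.1
    have hcomm : ∀ x ∈ L, ∀ y ∈ M, Commute x y := fun x hx y hy =>
      Subgroup.commute_of_normal_of_disjoint L M hLn inferInstance hdis' x y hx hy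
    have h1 := Cfsg.Agent.Lib.Helper2_Perm2.map_le_centralizer_map hcomm
    rw [hCM] at h1
    have h2 : L ≤ N := (Subgroup.map_le_map_iff_of_injective G.subtype_injective).mp h1
    rcases hNmin L hLn h2 with h | h
    · exact hL0 h
    · exact hne.2 h

end Cfsg.Agent.S0704
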