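import Cfsg.Statements.S0707
import Mathlib


set_option autoImplicit false
open Cfsg

namespace Cfsg.Agent.S0707

/-- In a primitive permutation group, distinct points have distinct stabilisers unless the group is regular of prime degree. -/
theorem result {α : Type*} (G : Subgroup (Equiv.Perm α)) [MulAction.IsPreprimitive G α] (h : ¬ (Nat.card α).Prime ∨ ∃ a : α, MulAction.stabilizer G a ≠ ⊥) {a b : α} (hab : a ≠ b) : MulAction.stabilizer G a ≠ MulAction.stabilizer G b := by
  intro heq
  haveI : Nontrivial α := ⟨a, b, hab⟩
  have hco := MulAction.IsPreprimitive.isCoatom_stabilizer_of_isPreprimitive (G := G) a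
  obtain ⟨g, hg⟩ := MulAction.exists_smul_eq G a b
  have hgN : g ∈ Subgroup.normalizer (MulAction.stabilizer G a : Set G) := by
    rw [Subgroup.mem_normalizer_iff_map_conj_eq]
    have := MulAction.stabilizer_smul_eq_stabilizer_map_conj g a
    rw [hg, ← heq] at this
    exact this.symm
  have hgS : g ∉ MulAction.stabilizer G a := by
    intro h
    rw [MulAction.mem_stabilizer_iff] at h
    exact hab (h.symm.trans hg)
  have hN : Subgroup.normalizer (MulAction.stabilizer G a : Set G) = ⊤ := by
    apply hco.2
    apply lt_of_le_of_ne Subgroup.le_normalizer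
    intro h
    apply hgS
    rw [h]
    exact hgN
  have hall : ∀ x : α, MulAction.stabilizer G x = MulAction.stabilizer G a := by
    intro x
    obtain ⟨k, rfl⟩ := MulAction.exists_smul_eq G a x
    rw [MulAction.stabilizer_smul_eq_stabilizer_map_conj]
    have hk : k ∈ Subgroup.normalizer (MulAction.stabilizer G a : Set G) := by
      rw [hN]
      exact Subgroup.mem_top k
    exact Subgroup.mem_normalizer_iff_map_conj_eq.mp hk
  have hbot : MulAction.stabilizer G a = ⊥ := by
    rw [eq_bot_iff]
    intro s hs
    rw [Subgroup.mem_bot]
    apply Subtype.ext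
    ext x
    have : s ∈ MulAction.stabilizer G x := by rw [hall]; exact hs
    exact this
  rcases h with h | ⟨c, hc⟩
  · apply h
    have bij : Function.Bijective (fun g : G => g • a) := by
      constructor
      · intro g k hgk
        have : k⁻¹ * g ∈ MulAction.stabilizer G a := by
          rw [MulAction.mem_stabilizer_iff, mul_smul]
          have h' : g • a = k • a := hgk
          rw [h']
          exact inv_smul_smul k a
        rw [hbot, Subgroup.mem_bot] at this
        exact (inv_mul_eq_one.mp this).symm
      · intro x
        exact MulAction.exists_smul_eq G a x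
    rw [← Nat.card_congr (Equiv.ofBijective _ bij)]
    rw [hbot] at hco hgS
    have hg1 : g ≠ 1 := fun h => hgS (by rw [h]; exact Subgroup.one_mem _)
    have hz : Subgroup.zpowers g = ⊤ := by
      apply hco.2
      rw [bot_lt_iff_ne_bot]
      intro h0
      rw [Subgroup.zpowers_eq_bot] at h0
      exact hg1 h0
    haveI : IsCyclic G := ⟨g, fun x => by
      have : x ∈ Subgroup.zpowers g := by rw [hz]; exact Subgroup.mem_top x
      exact this⟩
    haveI : Nontrivial G := ⟨g, 1, hg1⟩
    haveI : IsSimpleGroup G := ⟨fun H _ => by
      rcases eq_bot_or_bot_lt H with h0 | h0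
      · left; exact h0
      · right; exact hco.2 _ h0⟩
    exact Group.is_simple_iff_prime_card.mp inferInstance
  · exact hc ((hall c).trans hbot)

end Cfsg.Agent.S0707
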