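import Cfsg.Statements.S0710
import Mathlib

set_option autoImplicit false
open Cfsg

namespace Cfsg.Agent.S0710

/-- No transitive permutation group on 13 points has order `13 * 12 * 11 * 10 * 9 * 8`. -/
theorem result {α : Type*} [Fintype α] [DecidableEq α] (hα : Fintype.card α = 13) (G : Subgroup (Equiv.Perm α)) [MulAction.IsPretransitive G α] : Nat.card G ≠ 13 * 12 * 11 * 10 * 9 * 8 := by
  intro h0
  have h : Nat.card G = 1235520 := by rw [h0]
  haveI : Fact (Nat.Prime 13) := ⟨by norm_num⟩
  obtain ⟨P⟩ : Nonempty (Sylow 13 G) := inferInstance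
  have hcP : Nat.card (P : Subgroup G) = 13 := by
    obtain ⟨k, hk⟩ := P.2.exists_card_eq
    have h1 : 13 ^ k ∣ 1235520 := by rw [← hk, ← h]; exact Subgroup.card_subgroup_dvd_card _
    have h2 : 13 ∣ Nat.card (P : Subgroup G) := P.dvd_card_of_dvd_card (by rw [h]; norm_num)
    rcases Nat.lt_or_ge k 2 with hk2 | hk2
    · interval_cases k
      · rw [hk] at h2; norm_num at h2
      · simpa using hk
    · exfalso
      have : 13 ^ 2 ∣ 1235520 := (pow_dvd_pow 13 hk2).trans h1
      norm_num at this
  have hα' : Nat.card α = 13 := by rw [Nat.card_eq_fintype_card]; exact hα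
  have hfaith : ∀ x : G, (∀ a : α, x • a = a) → x = 1 := by
    intro x hx
    exact Subtype.ext (Equiv.ext fun a => hx a)
  -- no point fixed by all of P
  have hA : ∀ a : α, ¬ (∀ x ∈ (P : Subgroup G), x • a = a) := by
    intro a ha
    have h1 := P.2.card_modEq_card_fixedPoints α
    rw [hα'] at h1
    have h2 : a ∈ MulAction.fixedPoints (P : Subgroup G) α := fun x => ha x x.2
    have h3 : 0 < Nat.card (MulAction.fixedPoints (P : Subgroup G) α) := by
      haveI : Nonempty (MulAction.fixedPoints (P : Subgroup G) α) := ⟨⟨a, h2⟩⟩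
      exact Nat.card_pos
    have h4 : Nat.card (MulAction.fixedPoints (P : Subgroup G) α) ≤ 13 := by
      have h00 : Nat.card (MulAction.fixedPoints (P : Subgroup G) α) ≤ Nat.card α :=
        Nat.card_le_card_of_injective _ Subtype.val_injective
      omega
    unfold Nat.ModEq at h1
    have h5 : Nat.card (MulAction.fixedPoints (P : Subgroup G) α) = 13 := by omega
    have h6 : MulAction.fixedPoints (P : Subgroup G) α = Set.univ := by
      apply Set.eq_of_subset_of_ncard_le (Set.subset_univ _) _ (Set.toFinite _)
      rw [Set.ncard_univ, hα', ← Nat.card_coe_set_eq, h5]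
    have h7 : ∀ x : (P : Subgroup G), x = 1 := by
      intro x
      apply Subtype.ext
      apply hfaith
      intro b
      have : b ∈ MulAction.fixedPoints (P : Subgroup G) α := by rw [h6]; trivial
      exact this x
    have : Subsingleton (P : Subgroup G) := ⟨fun x y => (h7 x).trans (h7 y).symm⟩
    have := Nat.card_eq_one_iff_unique.mpr ⟨this, ⟨1⟩⟩
    omega
  have hB : ∀ a : α, ∀ x ∈ (P : Subgroup G), x • a = a → x = 1 := by
    intro a x hx hxa
    by_contra hx1
    apply hA a
    have hzx : Subgroup.zpowers x = (P : Subgroup G) := by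
      apply Subgroup.eq_of_le_of_card_ge
      · rw [Subgroup.zpowers_le]; exact hx
      · rw [hcP, Nat.card_zpowers]
        have h1 : orderOf x ∣ 13 := by
          have h0 := orderOf_dvd_natCard (⟨x, hx⟩ : (P : Subgroup G))
          rwa [hcP, Subgroup.orderOf_mk] at h0
        rcases (Nat.dvd_prime (by norm_num)).1 h1 with h2 | h2
        · exact absurd (orderOf_eq_one_iff.mp h2) hx1
        · exact h2.ge
    intro y hy
    rw [← hzx] at hy
    have hst : Subgroup.zpowers x ≤ MulAction.stabilizer G a := by
      rw [Subgroup.zpowers_le]; exact hxa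
    exact hst hy
  have htrans : ∀ a b : α, ∃ u ∈ (P : Subgroup G), u • a = b := by
    intro a b
    have hstab : MulAction.stabilizer (P : Subgroup G) a = ⊥ := by
      rw [eq_bot_iff]; intro x hx
      exact Subgroup.mem_bot.mpr (Subtype.ext (hB a x x.2 hx))
    have hcard : (MulAction.orbit (P : Subgroup G) a).ncard = 13 := by
      rw [← MulAction.index_stabilizer, hstab, Subgroup.index_bot, hcP]
    have heq : MulAction.orbit (P : Subgroup G) a = Set.univ := by
      apply Set.eq_of_subset_of_ncard_le (Set.subset_univ _) _ (Set.toFinite _)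
      rw [hcard, Set.ncard_univ, hα']
    have hb' : b ∈ MulAction.orbit (P : Subgroup G) a := by rw [heq]; trivial
    obtain ⟨u, hu⟩ := hb'
    exact ⟨u, u.2, hu⟩
  have hCP : Subgroup.centralizer ((P : Subgroup G) : Set G) ≤ P := by
    intro c hc
    obtain ⟨a⟩ : Nonempty α := by
      rw [← Fintype.card_pos_iff, hα]; norm_num
    obtain ⟨u, hu, hua⟩ := htrans a (c • a)
    have hcu : u⁻¹ * c = 1 := by
      apply hfaith
      intro b
      obtain ⟨v, hv, rfl⟩ := htrans a b
      have e1 : v * c = c * v := Subgroup.mem_centralizer_iff.mp hc v hv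
      have e2 : c • (v • a) = v • (u • a) := by
        rw [← mul_smul, ← e1, mul_smul, hua]
      have hPab : u * v = v * u := by
        haveI : IsCyclic (P : Subgroup G) := isCyclic_of_prime_card hcP
        obtain ⟨g, hg⟩ := IsCyclic.exists_generator (α := (P : Subgroup G))
        obtain ⟨i, hi⟩ := Subgroup.mem_zpowers_iff.mp (hg ⟨u, hu⟩)
        obtain ⟨j, hj⟩ := Subgroup.mem_zpowers_iff.mp (hg ⟨v, hv⟩)
        have := ((Commute.refl g).zpow_zpow i j).eq
        rw [hi, hj] at this
        exact congrArg Subtype.val this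
      rw [mul_smul, e2, ← mul_smul, ← mul_smul, mul_assoc, ← hPab, inv_mul_cancel_left]
    have : c = u := by
      have := congrArg (fun z => u * z) hcu
      simpa using this
    rw [this]; exact hu
  set N := Subgroup.normalizer ((P : Subgroup G) : Set G) with hN
  haveI : IsCyclic (P : Subgroup G) := isCyclic_of_prime_card hcP
  have hAut : Nat.card (MulAut (P : Subgroup G)) = 12 := by
    rw [IsCyclic.card_mulAut, hcP]; rfl
  have hd : (P : Subgroup G).relIndex N ∣ 12 := by
    have h1 := Subgroup.index_ker (P : Subgroup G).normalizerMonoidHom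
    have h2 := Subgroup.card_subgroup_dvd_card (P : Subgroup G).normalizerMonoidHom.range
    rw [hAut, ← h1, Subgroup.normalizerMonoidHom_ker] at h2
    have h3 : (P : Subgroup G).relIndex N ∣
        (Subgroup.centralizer ((P : Subgroup G) : Set G)).relIndex N :=
      Subgroup.relIndex_dvd_of_le_left N hCP
    exact h3.trans h2
  have hcN : 13 * (P : Subgroup G).relIndex N = Nat.card N := by
    have h1 := Subgroup.relIndex_mul_relIndex ⊥ (P : Subgroup G) N bot_le Subgroup.le_normalizer
    rw [Subgroup.relIndex_bot_left, Subgroup.relIndex_bot_left, hcP] at h1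
    exact h1
  have hn1 : Nat.card (Sylow 13 G) = N.index := Sylow.card_eq_index_normalizer P
  have hn2 := card_sylow_modEq_one 13 G
  have hn3 := Subgroup.card_mul_index N
  rw [← hcN, ← hn1, h] at hn3
  unfold Nat.ModEq at hn2
  generalize Nat.card (Sylow 13 G) = n at *
  generalize (P : Subgroup G).relIndex N = d at *
  have hd12 : d ≤ 12 := Nat.le_of_dvd (by norm_num) hd
  interval_cases d <;> omega

end Cfsg.Agent.S0710
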