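import Cfsg.Statements.S0724
import Mathlib

set_option autoImplicit false
open Cfsg

namespace Cfsg.Agent.S0724

section aux

variable {G Ω : Type*} [Group G] [Fintype G] [MulAction G Ω] [Fintype Ω] [DecidableEq Ω]

theorem sum_pow (k : ℕ) :
    (Fintype.card G : ℤ) ∣ ∑ g : G, ((Nat.card (MulAction.fixedBy Ω g) : ℕ) : ℤ) ^ k := by
  classical
  have h := MulAction.sum_card_fixedBy_eq_card_orbits_mul_card_group G (Fin k → Ω)
  have hk : ∀ g : G, Fintype.card (MulAction.fixedBy (Fin k → Ω) g) =
      Nat.card (MulAction.fixedBy Ω g) ^ k := by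
    intro g
    have e : MulAction.fixedBy (Fin k → Ω) g ≃ (Fin k → MulAction.fixedBy Ω g) :=
      { toFun := fun x i => ⟨x.1 i, congrFun x.2 i⟩
        invFun := fun y => ⟨fun i => (y i).1, funext fun i => (y i).2⟩
        left_inv := fun x => rfl
        right_inv := fun y => rfl }
    rw [Fintype.card_congr e, Fintype.card_fun, Fintype.card_fin, Nat.card_eq_fintype_card]
  have h2 : ∑ g : G, ((Nat.card (MulAction.fixedBy Ω g) : ℕ) : ℤ) ^ k =
      ((Fintype.card (Quotient (MulAction.orbitRel G (Fin k → Ω))) * Fintype.card G : ℕ) : ℤ) := by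
    rw [← h]
    push_cast
    exact Finset.sum_congr rfl fun g _ => by rw [hk g]; push_cast; rfl
  rw [h2]
  push_cast
  exact Dvd.intro_left _ rfl

theorem sum_poly (P : Polynomial ℤ) :
    (Fintype.card G : ℤ) ∣ ∑ g : G, P.eval ((Nat.card (MulAction.fixedBy Ω g) : ℕ) : ℤ) := by
  simp only [Polynomial.eval_eq_sum_range]
  rw [Finset.sum_comm]
  refine Finset.dvd_sum fun i _ => ?_
  rw [← Finset.mul_sum]
  exact Dvd.dvd.mul_left (sum_pow i) _

end aux


/-- Blichfeldt's Theorem: if a finite set `L` of natural numbers contains the number of fixed points of every non-identity element of a permutation group `G` of degree `n`, then the order of `G` divides `∏ (n - l)` over `l ∈ L`. -/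
theorem result {α : Type*} [Fintype α] [DecidableEq α] (G : Subgroup (Equiv.Perm α)) (L : Finset ℕ) (hL : ∀ g ∈ G, g ≠ 1 → Nat.card (MulAction.fixedBy α g) ∈ L) : Nat.card G ∣ ∏ l ∈ L, (Fintype.card α - l) := by
  classical
  by_cases hbig : ∃ l ∈ L, Fintype.card α ≤ l
  · obtain ⟨l, hl, hle⟩ := hbig
    rw [Finset.prod_eq_zero hl (Nat.sub_eq_zero_of_le hle)]
    exact dvd_zero _
  push Not at hbig
  have h1 := sum_poly (G := ↥G) (Ω := α) (∏ l ∈ L, (Polynomial.X - Polynomial.C (l : ℤ)))
  have h2 : ∑ g : ↥G, (∏ l ∈ L, (Polynomial.X - Polynomial.C (l : ℤ))).eval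
      ((Nat.card (MulAction.fixedBy α g) : ℕ) : ℤ) = ((∏ l ∈ L, (Fintype.card α - l) : ℕ) : ℤ) := by
    rw [Finset.sum_eq_single (1 : ↥G)]
    · rw [Polynomial.eval_prod]
      push_cast
      refine Finset.prod_congr rfl fun l hl => ?_
      rw [Nat.cast_sub (hbig l hl).le]
      simp [MulAction.fixedBy]
    · intro g _ hg
      rw [Polynomial.eval_prod]
      have h3 := hL g.1 g.2 (fun h => hg (Subtype.ext h))
      refine Finset.prod_eq_zero h3 ?_
      simp only [Polynomial.eval_sub, Polynomial.eval_X, Polynomial.eval_C]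
      exact sub_eq_zero.mpr rfl
    · intro h; exact absurd (Finset.mem_univ _) h
  rw [h2, ← Nat.card_eq_fintype_card] at h1
  exact_mod_cast h1

end Cfsg.Agent.S0724
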