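import Cfsg.Statements.S0726
import Mathlib


set_option autoImplicit false
open Cfsg

namespace Cfsg.Agent.S0726

/-- The left and right regular permutation representations of a group are each other's centralisers in the symmetric group: the centraliser of the left regular image is the right regular image, and a transitive subgroup centralising the left regular image is the whole right regular image. -/
theorem result {G : Type*} [Group G] : Subgroup.centralizer ((MulAction.toPermHom G G).range : Set (Equiv.Perm G)) = (MulAction.toPermHom Gᵐᵒᵖ G).range ∧ ∀ H : Subgroup (Equiv.Perm G), H ≤ Subgroup.centralizer ((MulAction.toPermHom G G).range : Set (Equiv.Perm G)) → MulAction.IsPretransitive H G → H = (MulAction.toPermHom Gᵐᵒᵖ G).range := by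
  have key : ∀ c ∈ Subgroup.centralizer ((MulAction.toPermHom G G).range : Set (Equiv.Perm G)),
      c = MulAction.toPermHom Gᵐᵒᵖ G (MulOpposite.op (c 1)) := by
    intro c hc
    ext x
    have := Subgroup.mem_centralizer_iff.mp hc (MulAction.toPermHom G G x) ⟨x, rfl⟩
    have h2 := congrArg (fun σ : Equiv.Perm G => σ 1) this
    simp at h2
    simp [h2]
  refine ⟨le_antisymm (fun c hc => ⟨_, (key c hc).symm⟩) ?_, ?_⟩
  · rintro _ ⟨g, rfl⟩
    rw [Subgroup.mem_centralizer_iff]
    rintro _ ⟨h, rfl⟩
    ext x
    simp [mul_assoc]
  · intro H hH htr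
    apply le_antisymm
    · intro c hc; exact ⟨_, (key c (hH hc)).symm⟩
    · rintro _ ⟨g, rfl⟩
      obtain ⟨h, hh⟩ := MulAction.exists_smul_eq H (1:G) (MulOpposite.unop g)
      have h1 := key h.1 (hH h.2)
      have h2 : h.1 1 = MulOpposite.unop g := hh
      rw [h2, MulOpposite.op_unop] at h1
      rw [← h1]
      exact h.2

end Cfsg.Agent.S0726
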