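import Cfsg.Statements.S0753
import Mathlib


set_option autoImplicit false
open Cfsg

namespace Cfsg.Agent.S0753

/-- If σ is a ring endomorphism of the field F other than the identity and B is a σ-sesquilinear conjugate-symmetric form with B v v = 0 for every v, then B = 0. -/
theorem result {F V : Type*} [Field F] [AddCommGroup V] [Module F V] (σ : F →+* F) (hσ : σ ≠ RingHom.id F) (B : V →ₛₗ[σ] V →ₗ[F] F) (hS : B.IsSymm) (h0 : ∀ v : V, B v v = 0) : B = 0 := by
  by_contra hB
  have hex : ∃ u v, B u v ≠ 0 := by
    by_contra hcon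
    push Not at hcon
    apply hB
    ext u v
    exact hcon u v
  obtain ⟨u, v, huv⟩ := hex
  have hanti : ∀ u v, B v u = - B u v := by
    intro u v
    have h := h0 (u + v)
    simp only [map_add, LinearMap.add_apply, h0, zero_add, add_zero] at h
    exact eq_neg_of_add_eq_zero_left h
  have hneg : ∀ c : F, σ c = - c := by
    intro c
    have h1 : B u ((c * (B u v)⁻¹) • v) = c := by
      rw [map_smul, smul_eq_mul, mul_assoc, inv_mul_cancel₀ huv, mul_one]
    have h2 := hS.eq u ((c * (B u v)⁻¹) • v)
    rw [hanti u, h1] at h2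
    exact h2
  apply hσ
  ext c
  have h1 : (1 : F) = -1 := by
    have := hneg 1
    rwa [map_one] at this
  rw [hneg c, RingHom.id_apply]
  calc -c = (-1) * c := by ring
    _ = 1 * c := by rw [← h1]
    _ = c := one_mul c

end Cfsg.Agent.S0753
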