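import Cfsg.Statements.S0754

set_option autoImplicit false

open Cfsg

namespace Cfsg.Agent.S0754

theorem result {F : Type*} [Field F] [Fintype F] {q : ℕ} (hF : Fintype.card F = q ^ 2) (μ : F) (hμ : μ ≠ 0) (hμq : μ ^ q = μ) : Nat.card {x : F // x ^ (q + 1) = μ} = q + 1 := by
  classical
  have hq2 : 2 ≤ q := by
    have := Fintype.one_lt_card (α := F)
    rw [hF] at this
    by_contra h
    have : q ≤ 1 := by omega
    interval_cases q <;> simp at *
  have hcard : Nat.card Fˣ = (q - 1) * (q + 1) := by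
    rw [Nat.card_eq_fintype_card, Fintype.card_units, hF]
    obtain ⟨k, rfl⟩ : ∃ k, q = k + 1 := ⟨q - 1, by omega⟩
    simp only [Nat.add_sub_cancel]
    have : (k + 1) ^ 2 = k * (k + 1 + 1) + 1 := by ring
    omega
  set φ : Fˣ →* Fˣ := powMonoidHom (q + 1) with hφ
  set ψ : Fˣ →* Fˣ := powMonoidHom (q - 1) with hψ
  have h1 : Nat.card φ.ker = q + 1 := by
    rw [hφ, IsCyclic.card_powMonoidHom_ker, hcard]
    exact Nat.gcd_eq_right (Dvd.intro_left _ rfl)
  have h2 : Nat.card φ.range = q - 1 := by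
    rw [hφ, IsCyclic.card_powMonoidHom_range, hcard, Nat.gcd_eq_right (Dvd.intro_left _ rfl)]
    exact Nat.mul_div_cancel _ (by omega)
  have h3 : Nat.card ψ.ker = q - 1 := by
    rw [hψ, IsCyclic.card_powMonoidHom_ker, hcard]
    exact Nat.gcd_eq_right (Dvd.intro _ rfl)
  have h4 : φ.range ≤ ψ.ker := by
    rintro _ ⟨x, rfl⟩
    rw [MonoidHom.mem_ker]
    show (x ^ (q + 1)) ^ (q - 1) = 1
    rw [← pow_mul, mul_comm, ← hcard]
    exact pow_card_eq_one'
  have h5 : φ.range = ψ.ker := Subgroup.eq_of_le_of_card_ge h4 (by rw [h2, h3])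
  have h6 : Units.mk0 μ hμ ∈ ψ.ker := by
    rw [MonoidHom.mem_ker]
    apply Units.ext
    show μ ^ (q - 1) = 1
    apply mul_left_cancel₀ hμ
    rw [← pow_succ', mul_one, show q - 1 + 1 = q by omega, hμq]
  rw [← h5] at h6
  obtain ⟨x0, hx0⟩ := h6
  have hx0' : (x0 : F) ^ (q + 1) = μ := by
    have := congrArg Units.val hx0
    simpa [hφ] using this
  refine Eq.trans ?_ h1
  apply Nat.card_congr
  refine ⟨fun x => ⟨Units.mk0 x.1 (by
      intro h0
      have := x.2
      rw [h0, zero_pow (by omega)] at this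
      exact hμ this.symm) * x0⁻¹, by
      rw [MonoidHom.mem_ker]
      apply Units.ext
      show (x.1 * ((x0⁻¹ : Fˣ) : F)) ^ (q + 1) = 1
      rw [mul_pow, x.2, Units.val_inv_eq_inv_val, inv_pow, hx0']
      exact mul_inv_cancel₀ hμ⟩,
    fun u => ⟨(u.1 : F) * x0, by
      have := u.2
      rw [MonoidHom.mem_ker] at this
      have h7 : ((u.1 : Fˣ) : F) ^ (q + 1) = 1 := by
        have := congrArg Units.val this
        simpa [hφ] using this
      rw [mul_pow, h7, hx0', one_mul]⟩, ?_, ?_⟩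
  · intro x
    apply Subtype.ext
    simp
  · intro u
    apply Subtype.ext
    apply Units.ext
    simp

end Cfsg.Agent.S0754
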