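import Cfsg.Statements.S0756
import Cfsg.Agent.Lib.Helper5_QFDiag

set_option autoImplicit false

open Cfsg

namespace Cfsg.Agent.S0756

open Cfsg.Agent.Lib.Helper5_QFDiag Cfsg.Agent.Lib.Helper5_QFDisc

theorem result {F V : Type*} [Field F] [Finite F] [AddCommGroup V] [Module F V] [FiniteDimensional F V] (h2 : (2 : F) ≠ 0) (B : LinearMap.BilinForm F V) (hS : B.IsSymm) (hB : B.Nondegenerate) {n : ℕ} (hn : Module.finrank F V = n + 1) (α : F) (hα : ¬ IsSquare α) : ∃ b : Module.Basis (Fin (n + 1)) F V, (∀ i j, i ≠ j → B (b i) (b j) = 0) ∧ (∀ i, i ≠ Fin.last n → B (b i) (b i) = 1) ∧ (B (b (Fin.last n)) (b (Fin.last n)) = 1 ∨ B (b (Fin.last n)) (b (Fin.last n)) = α) := by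
  classical
  have := Fintype.ofFinite F
  set Q : QuadraticForm F V := B.toQuadraticMap with hQdef
  have hQ : ∀ v, Q v = B v v := fun v => rfl
  have hsym : ∀ u v, B u v = B v u := fun u v => by
    have := hS.eq u v
    simpa using this
  have hpol : ∀ u v, Q.polarBilin u v = 2 * B u v := by
    intro u v
    simp only [QuadraticMap.polarBilin_apply_apply, QuadraticMap.polar, hQ, map_add, LinearMap.add_apply]
    rw [hsym v u]; ring
  have hnd : Q.polarBilin.Nondegenerate := by
    constructor
    · intro x hx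
      apply hB.1 x
      intro y
      have := hx y
      rw [hpol] at this
      exact (mul_eq_zero.1 this).resolve_left h2
    · intro y hy
      apply hB.2 y
      intro x
      have := hy x
      rw [hpol] at this
      exact (mul_eq_zero.1 this).resolve_left h2
  obtain ⟨c, hc1, hcd, hco⟩ := exists_diag_basis Q h2 n hnd hn
  set d := Q (c (Sum.inr ())) with hd
  obtain ⟨s, hs0, hs⟩ : ∃ s : F, s ≠ 0 ∧ (s ^ 2 * d = 1 ∨ s ^ 2 * d = α) := by
    by_cases hsq : IsSquare d
    · obtain ⟨t, ht⟩ := hsq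
      have ht0 : t ≠ 0 := by
        rintro rfl
        apply hcd
        rw [ht]; simp
      refine ⟨t⁻¹, inv_ne_zero ht0, Or.inl ?_⟩
      rw [ht]; field_simp
    · have h1 := (isSquare_mul_nonsquare h2 hcd hα).2 hsq
      obtain ⟨t, ht⟩ := h1
      have hα0 : α ≠ 0 := by rintro rfl; exact hα ⟨0, by simp⟩
      have ht0 : t ≠ 0 := by
        rintro rfl
        exact (mul_ne_zero hcd hα0) (by rw [ht]; simp)
      refine ⟨t / d, div_ne_zero ht0 hcd, Or.inr ?_⟩
      field_simp
      rw [sq, ← ht]
  let w : Fin n ⊕ Unit → Fˣ := Sum.elim (fun _ => 1) (fun _ => Units.mk0 s hs0)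
  let c' := c.unitsSMul w
  have hc'l : ∀ i, c' (Sum.inl i) = c (Sum.inl i) := fun i => by
    simp [c', w, Module.Basis.unitsSMul_apply]
  have hc'r : c' (Sum.inr ()) = s • c (Sum.inr ()) := by
    simp [c', w, Module.Basis.unitsSMul_apply, Units.smul_def]
  have hBo : ∀ a b, a ≠ b → B (c a) (c b) = 0 := by
    intro a b hab
    have := hco a b hab
    rw [hpol] at this
    exact (mul_eq_zero.1 this).resolve_left h2
  have hBo' : ∀ a b, a ≠ b → B (c' a) (c' b) = 0 := by
    intro a b hab
    simp only [c', Module.Basis.unitsSMul_apply, Units.smul_def, map_smul, LinearMap.smul_apply, hBo a b hab, smul_zero]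
  let e : Fin n ⊕ Unit ≃ Fin (n + 1) :=
    (Equiv.sumCongr (Equiv.refl _) (Equiv.ofUnique Unit (Fin 1))).trans finSumFinEquiv
  have hel : e (Sum.inr ()) = Fin.last n := by
    simp [e, Fin.ext_iff]
  refine ⟨c'.reindex e, ?_, ?_, ?_⟩
  · intro i j hij
    rw [Module.Basis.reindex_apply, Module.Basis.reindex_apply]
    exact hBo' _ _ (fun h => hij (e.symm.injective h))
  · intro i hi
    rw [Module.Basis.reindex_apply]
    rcases h : e.symm i with k | k
    · rw [hc'l, ← hQ]; exact hc1 k
    · exfalso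
      apply hi
      rw [← hel, ← h]; simp
  · have h1 : e.symm (Fin.last n) = Sum.inr () := by rw [← hel]; simp
    rw [Module.Basis.reindex_apply, h1, hc'r]
    simp only [map_smul, LinearMap.smul_apply, smul_eq_mul]
    rw [← hQ, ← hd]
    rcases hs with h | h
    · left; rw [← h]; ring
    · right; rw [← h]; ring

end Cfsg.Agent.S0756
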