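import Cfsg.Statements.S0757
import Mathlib


set_option autoImplicit false
open Cfsg

namespace Cfsg.Agent.S0757

theorem discr_wss {F : Type*} [Field F] [Invertible (2 : F)] {ι : Type*} [Fintype ι] [DecidableEq ι]
    (w : ι → F) : QuadraticForm.discr' (QuadraticMap.weightedSumSquares F w) = ∏ i, w i := by
  have h1 : QuadraticMap.weightedSumSquares F w =
      LinearMap.BilinMap.toQuadraticMap (Matrix.toLinearMap₂' F (Matrix.diagonal w)) := by
    ext x
    simp only [QuadraticMap.weightedSumSquares_apply, LinearMap.BilinMap.toQuadraticMap_apply,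
      Matrix.toLinearMap₂'_apply', Matrix.mulVec_diagonal, dotProduct, smul_eq_mul]
    apply Finset.sum_congr rfl
    intros
    ring
  have hsym : ∀ x y : ι → F, Matrix.toLinearMap₂' F (Matrix.diagonal w) x y =
      Matrix.toLinearMap₂' F (Matrix.diagonal w) y x := by
    intro x y
    simp only [Matrix.toLinearMap₂'_apply', Matrix.mulVec_diagonal, dotProduct]
    apply Finset.sum_congr rfl
    intros
    ring
  unfold QuadraticForm.discr' QuadraticForm.toMatrix'
  rw [h1, QuadraticMap.associated_left_inverse _ hsym, LinearMap.toMatrix'_toLinearMap₂',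
    Matrix.det_diagonal]

/-- The two diagonal forms Σ x_i^2 and Σ_(i<n) x_i^2 + α x_n^2 on F^(n+1), with α a non-square and 2 ≠ 0 in F, are inequivalent quadratic forms (so over a finite field of odd order there are exactly two classes of non-singular symmetric bilinear forms in each dimension). -/
theorem result {F : Type*} [Field F] (h2 : (2 : F) ≠ 0) (n : ℕ) (α : F) (hα : ¬ IsSquare α) : ¬ (QuadraticMap.weightedSumSquares F (fun _ : Fin (n + 1) => (1 : F))).Equivalent (QuadraticMap.weightedSumSquares F (fun i : Fin (n + 1) => if i = Fin.last n then α else (1 : F))) := by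
  rintro ⟨e⟩
  haveI : Invertible (2 : F) := invertibleOfNonzero h2
  set w : Fin (n + 1) → F := fun i => if i = Fin.last n then α else (1 : F) with hw
  have h1 : QuadraticMap.weightedSumSquares F (fun _ : Fin (n + 1) => (1 : F)) =
      (QuadraticMap.weightedSumSquares F w).comp (e.toLinearEquiv : (Fin (n+1) → F) →ₗ[F] (Fin (n+1) → F)) := by
    ext x
    exact (e.map_app' x).symm
  have h2' := congrArg QuadraticForm.discr' h1
  rw [QuadraticForm.discr'_comp, discr_wss, discr_wss] at h2'
  have hprod : ∏ i, w i = α := by
    rw [hw, Finset.prod_ite_eq']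
    simp
  rw [hprod] at h2'
  simp only [Finset.prod_const_one] at h2'
  set d := (LinearMap.toMatrix' (e.toLinearEquiv : (Fin (n+1) → F) →ₗ[F] (Fin (n+1) → F))).det with hd
  have hd0 : d ≠ 0 := by
    rintro h0
    rw [h0] at h2'
    simp at h2'
  apply hα
  refine ⟨d⁻¹, ?_⟩
  field_simp
  linear_combination -h2'

end Cfsg.Agent.S0757
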