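import Cfsg.Statements.S0759
import Cfsg.Agent.Lib.Helper5_QFDiag
import Cfsg.Agent.Lib.Helper5_QFType

set_option autoImplicit false

open Cfsg

namespace Cfsg.Agent.S0759

open Module Cfsg.Agent.Lib.Helper5_QF Cfsg.Agent.Lib.Helper5_QFStd Cfsg.Agent.Lib.Helper5_QFStd2
  Cfsg.Agent.Lib.Helper5_QFDisc Cfsg.Agent.Lib.Helper5_QFDiag Cfsg.Agent.Lib.Helper5_QFType

variable {F : Type*} [Field F]

noncomputable def sq (F : Type*) [Field F] (ι : Type*) [Fintype ι] : QuadraticForm F (ι → F) :=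
  QuadraticMap.weightedSumSquares F (fun _ : ι => (1 : F))

theorem sq_apply {ι : Type*} [Fintype ι] (v : ι → F) : sq F ι v = ∑ i, v i ^ 2 := by
  simp [sq, QuadraticMap.weightedSumSquares_apply, pow_two]

theorem sq_polar {ι : Type*} [Fintype ι] (u v : ι → F) : (sq F ι).polarBilin u v = 2 * ∑ i, u i * v i := by
  simp only [QuadraticMap.polarBilin_apply_apply, QuadraticMap.polar, sq_apply, Pi.add_apply]
  rw [Finset.mul_sum, ← Finset.sum_sub_distrib, ← Finset.sum_sub_distrib]
  refine Finset.sum_congr rfl fun i _ => ?_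
  ring

theorem sq_nondeg (h2 : (2 : F) ≠ 0) {ι : Type*} [Fintype ι] [DecidableEq ι] : (sq F ι).polarBilin.Nondegenerate := by
  constructor
  · intro x hx
    funext i
    have := hx (Pi.single i 1)
    rw [sq_polar] at this
    simpa [Pi.single_apply, h2] using this
  · intro x hx
    funext i
    have := hx (Pi.single i 1)
    rw [sq_polar] at this
    simpa [Pi.single_apply, h2] using this

theorem sq_gram {ι : Type*} [Fintype ι] [DecidableEq ι] :
    (Matrix.of fun i j : ι => (sq F ι).polarBilin (Pi.basisFun F ι i) (Pi.basisFun F ι j)).det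
      = 2 ^ Fintype.card ι := by
  have : (Matrix.of fun i j : ι => (sq F ι).polarBilin (Pi.basisFun F ι i) (Pi.basisFun F ι j))
      = (2 : F) • (1 : Matrix ι ι F) := by
    ext i j
    simp only [Matrix.of_apply, sq_polar, Pi.basisFun_apply, Matrix.smul_apply, smul_eq_mul, Matrix.one_apply]
    congr 1
    simp [Pi.single_apply, eq_comm]
  rw [this, Matrix.det_smul, Matrix.det_one, mul_one]

theorem plus_nondeg (m : ℕ) : (qPlus m F).polarBilin.Nondegenerate := by
  have key : ∀ x, (∀ y, (qPlus m F).polarBilin y x = 0) → x = 0 := by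
    intro x hx
    apply perpPlus m F x
    rw [mem_perp]
    intro i
    exact ⟨hx _, hx _⟩
  constructor
  · intro x hx
    apply key
    intro y
    rw [pb_comm]; exact hx y
  · intro x hx
    exact key x hx

theorem lemmaA [Fintype F] (h2 : (2 : F) ≠ 0) (m : ℕ) :
    (∃ W : Submodule F (Fin m ⊕ Fin m → F), finrank F W = m ∧ ∀ w ∈ W, ∑ i, w i ^ 2 = 0) ↔
      IsSquare ((-1 : F) ^ m) := by
  classical
  constructor
  · rintro ⟨U, hdim, hU⟩
    obtain ⟨b, hb⟩ := plus_basis_of_singular (sq F (Fin m ⊕ Fin m)) (by simp; ring) (sq_nondeg h2) U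
      (fun u hu => by rw [sq_apply]; exact hU u hu) hdim.ge
    have h := isSquare_gram_iff (sq F (Fin m ⊕ Fin m)).polarBilin (Pi.basisFun F (Fin m ⊕ Fin m)) b
    rw [sq_gram] at h
    have h3 : (Matrix.of fun i j => (sq F (Fin m ⊕ Fin m)).polarBilin (b i) (b j))
        = (Matrix.of fun i j : Fin m ⊕ Fin m =>
            (qPlus m F).polarBilin (Pi.basisFun F _ i) (Pi.basisFun F _ j)) := by
      ext i j
      simp only [Matrix.of_apply, QuadraticMap.polarBilin_apply_apply, QuadraticMap.polar, hb, map_add,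
        equivFun_basis, Pi.basisFun_apply, qPlus_apply]
    rw [h3, det_gramPlus] at h
    apply h.2
    refine ⟨2 ^ m, ?_⟩
    simp [pow_add]
  · intro hsq
    obtain ⟨g, hg⟩ := exists_isometry h2 (qPlus m F) (sq F (Fin m ⊕ Fin m)) (plus_nondeg m) (sq_nondeg h2)
      (Pi.basisFun F (Fin m ⊕ Fin m)) (by
        rw [det_gramPlus, sq_gram]
        obtain ⟨r, hr⟩ := hsq
        refine ⟨r * 2 ^ m, ?_⟩
        rw [hr]
        simp [pow_add]
        ring)
    refine ⟨(LinearMap.range (inlMap F (Fin m) (Fin m))).map (g : _ →ₗ[F] _), ?_, ?_⟩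
    · rw [LinearEquiv.finrank_map_eq, finrank_range_inlMap, Fintype.card_fin]
    · rintro _ ⟨_, ⟨x, rfl⟩, rfl⟩
      have := hg (inlMap F (Fin m) (Fin m) x)
      rw [sq_apply] at this
      rw [LinearEquiv.coe_coe, this, qPlus_apply]
      simp [quadFormPlus, inlMap]

theorem result {F : Type*} [Field F] [Fintype F] (h2 : (2 : F) ≠ 0) (m : ℕ) (hm : 1 ≤ m) : (∃ W : Submodule F (Fin (2 * m) → F), Module.finrank F W = m ∧ ∀ w ∈ W, ∑ i, w i ^ 2 = 0) ↔ ¬ (Fintype.card F % 4 = 3 ∧ Odd m) := by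
  classical
  let σ : Fin m ⊕ Fin m ≃ Fin (2 * m) := finSumFinEquiv.trans (finCongr (by ring))
  let L : (Fin (2 * m) → F) ≃ₗ[F] (Fin m ⊕ Fin m → F) := LinearEquiv.funCongrLeft F F σ
  have hL : ∀ w : Fin (2 * m) → F, ∑ s, (L w s) ^ 2 = ∑ k, w k ^ 2 := by
    intro w
    exact Equiv.sum_comp σ (fun k => w k ^ 2)
  have h1 : (∃ W : Submodule F (Fin (2 * m) → F), Module.finrank F W = m ∧ ∀ w ∈ W, ∑ i, w i ^ 2 = 0) ↔
      (∃ W : Submodule F (Fin m ⊕ Fin m → F), finrank F W = m ∧ ∀ w ∈ W, ∑ i, w i ^ 2 = 0) := by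
    constructor
    · rintro ⟨W, hd, hW⟩
      refine ⟨W.map (L : _ →ₗ[F] _), by rw [LinearEquiv.finrank_map_eq, hd], ?_⟩
      rintro _ ⟨w, hw, rfl⟩
      rw [LinearEquiv.coe_coe, hL]
      exact hW w hw
    · rintro ⟨W, hd, hW⟩
      refine ⟨W.map (L.symm : _ →ₗ[F] _), by rw [LinearEquiv.finrank_map_eq, hd], ?_⟩
      rintro _ ⟨w, hw, rfl⟩
      rw [LinearEquiv.coe_coe, ← hL, LinearEquiv.apply_symm_apply]
      exact hW w hw
  have hchar : ringChar F ≠ 2 := by
    intro h
    apply h2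
    have := CharP.cast_eq_zero F (ringChar F)
    rw [h] at this
    exact_mod_cast this
  have hodd : Odd (Fintype.card F) := Nat.odd_iff.2 (FiniteField.odd_card_of_char_ne_two hchar)
  rw [h1, lemmaA h2 m, isSquare_neg_one_pow rfl hodd]
  obtain ⟨k, hk⟩ := hodd
  have h3 : m * (Fintype.card F - 1) / 2 = m * k := by
    rw [hk, Nat.add_sub_cancel, mul_left_comm, Nat.mul_div_cancel_left _ (by norm_num)]
  rw [h3, Nat.even_mul, hk]
  constructor
  · rintro (h | h) ⟨h4, h5⟩
    · exact (Nat.not_even_iff_odd.2 h5) h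
    · obtain ⟨j, rfl⟩ := h
      omega
  · intro h
    by_cases hme : Even m
    · exact Or.inl hme
    · right
      rw [Nat.not_even_iff_odd] at hme
      by_contra hk'
      rw [Nat.not_even_iff_odd] at hk'
      obtain ⟨j, rfl⟩ := hk'
      exact h ⟨by omega, hme⟩

end Cfsg.Agent.S0759
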