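import Cfsg.Statements.S0760

set_option autoImplicit false

open Cfsg

namespace Cfsg.Agent.S0760

open Module

variable {F V : Type*} [Field F] [AddCommGroup V] [Module F V] [FiniteDimensional F V]

theorem pb_comm (Q : QuadraticForm F V) (x y : V) : Q.polarBilin x y = Q.polarBilin y x := by
  simp only [QuadraticMap.polarBilin_apply_apply]
  exact QuadraticMap.polar_comm Q x y

theorem isotropic (Q : QuadraticForm F V) (E : Submodule F V) (hE : ∀ w ∈ E, Q w = 0) (x y : V) (hx : x ∈ E)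
    (hy : y ∈ E) : Q.polarBilin x y = 0 := by
  simp only [QuadraticMap.polarBilin_apply_apply, QuadraticMap.polar]
  rw [hE _ (E.add_mem hx hy), hE _ hx, hE _ hy]; simp

theorem key (Q : QuadraticForm F V) (hQ : (QuadraticMap.polarBilin Q).Nondegenerate) (W E : Submodule F V)
    (hW : ∀ w ∈ W, Q w = 0) (hE : ∀ w ∈ E, Q w = 0)
    (hmax : ∀ W' : Submodule F V, W ≤ W' → (∀ w ∈ W', Q w = 0) → W' = W) :
    finrank F E ≤ finrank F W := by
  set B : LinearMap.BilinForm F V := Q.polarBilin with hB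
  have hrefl : B.IsRefl := fun x y h => by rw [hB, pb_comm]; exact h
  -- every vector of `E ⊓ W^⊥` lies in `W`
  have h1 : E ⊓ B.orthogonal W ≤ W := by
    intro v hv
    have hvE : v ∈ E := hv.1
    have hvW : ∀ w ∈ W, B w v = 0 := fun w hw => (LinearMap.BilinForm.mem_orthogonal_iff.1 hv.2) w hw
    have h2 := hmax (W ⊔ Submodule.span F {v}) le_sup_left (by
      intro x hx
      obtain ⟨w, hw, y, hy, rfl⟩ := Submodule.mem_sup.1 hx
      obtain ⟨c, rfl⟩ := Submodule.mem_span_singleton.1 hy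
      have h3 : Q (w + c • v) = Q w + Q (c • v) + B w (c • v) := by
        simp only [hB, QuadraticMap.polarBilin_apply_apply, QuadraticMap.polar]; ring
      rw [h3, hW w hw, QuadraticMap.map_smul, hE v hvE, map_smul, hvW w hw]; simp)
    rw [← h2]
    exact Submodule.mem_sup_right (Submodule.mem_span_singleton_self v)
  have h2 : E ⊓ B.orthogonal W ≤ B.orthogonal E ⊓ W := by
    intro v hv
    refine ⟨?_, h1 hv⟩
    show v ∈ B.orthogonal E
    rw [LinearMap.BilinForm.mem_orthogonal_iff]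
    intro x hx
    exact isotropic Q E hE x v hx hv.1
  have h3 : B.orthogonal (B.orthogonal E ⊔ W) ≤ E ⊓ B.orthogonal W := by
    apply le_inf
    · have := LinearMap.BilinForm.orthogonal_le (B := B) (le_sup_left : B.orthogonal E ≤ B.orthogonal E ⊔ W)
      rwa [LinearMap.BilinForm.orthogonal_orthogonal hQ hrefl] at this
    · exact LinearMap.BilinForm.orthogonal_le (B := B) (le_sup_right : W ≤ B.orthogonal E ⊔ W)
  have e1 := Submodule.finrank_mono (h3.trans h2)
  have e2 := LinearMap.BilinForm.finrank_orthogonal hQ (B.orthogonal E ⊔ W)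
  have e3 := LinearMap.BilinForm.finrank_orthogonal hQ E
  have e4 := Submodule.finrank_sup_add_finrank_inf_eq (B.orthogonal E) W
  have e5 := Submodule.finrank_le (B.orthogonal E ⊔ W)
  have e6 := Submodule.finrank_le E
  omega

theorem result {F V : Type*} [Field F] [Finite F] [AddCommGroup V] [Module F V] [FiniteDimensional F V] (Q : QuadraticForm F V) (hQ : (QuadraticMap.polarBilin Q).Nondegenerate) (W₁ W₂ : Submodule F V) (h₁ : ∀ w ∈ W₁, Q w = 0) (h₂ : ∀ w ∈ W₂, Q w = 0) (hmax₁ : ∀ W : Submodule F V, W₁ ≤ W → (∀ w ∈ W, Q w = 0) → W = W₁) (hmax₂ : ∀ W : Submodule F V, W₂ ≤ W → (∀ w ∈ W, Q w = 0) → W = W₂) : Module.finrank F W₁ = Module.finrank F W₂ ∧ 2 * Module.finrank F W₁ ≤ Module.finrank F V := by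
  refine ⟨le_antisymm (key Q hQ W₂ W₁ h₂ h₁ hmax₂) (key Q hQ W₁ W₂ h₁ h₂ hmax₁), ?_⟩
  have hle : W₁ ≤ LinearMap.BilinForm.orthogonal (Q.polarBilin) W₁ := by
    intro v hv
    rw [LinearMap.BilinForm.mem_orthogonal_iff]
    intro x hx
    exact isotropic Q W₁ h₁ x v hx hv
  have e1 := Submodule.finrank_mono hle
  have e2 := LinearMap.BilinForm.finrank_orthogonal hQ W₁
  omega

end Cfsg.Agent.S0760
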