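import Cfsg.Statements.S0761
import Mathlib


set_option autoImplicit false
open Cfsg

namespace Cfsg.Agent.S0761

/-- Hyperbolic partners: let B be a non-degenerate bilinear form on a finite-dimensional space, either alternating, or symmetric with 2 ≠ 0. If Z is a subspace on which B vanishes, x ∉ Z is isotropic and orthogonal to Z, then there is an isotropic y with B x y = 1 which is orthogonal to Z. -/
theorem result {F V : Type*} [Field F] [AddCommGroup V] [Module F V] [FiniteDimensional F V] (B : LinearMap.BilinForm F V) (hB : B.Nondegenerate) (hform : B.IsAlt ∨ (B.IsSymm ∧ (2 : F) ≠ 0)) (x : V) (Z : Submodule F V) (hxZ : x ∉ Z) (hx : B x x = 0) (hxz : ∀ z ∈ Z, B x z = 0) (hZ : ∀ z ∈ Z, ∀ z' ∈ Z, B z z' = 0) : ∃ y : V, B y y = 0 ∧ B x y = 1 ∧ ∀ z ∈ Z, B z y = 0 := by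
  obtain ⟨φ, hφx, hφZ⟩ := Submodule.exists_le_ker_of_notMem hxZ
  set y₀ := (φ x)⁻¹ • (B.flip.toDual hB.flip).symm φ with hy₀
  have hy : ∀ w, B w y₀ = (φ x)⁻¹ * φ w := by
    intro w
    rw [hy₀, map_smul, smul_eq_mul]
    congr 1
    have := LinearMap.BilinForm.apply_toDual_symm_apply (B := B.flip) (hB := hB.flip) φ w
    rw [← this]
    rfl
  have hxy : B x y₀ = 1 := by rw [hy, inv_mul_cancel₀ hφx]
  have hzy : ∀ z ∈ Z, B z y₀ = 0 := by
    intro z hz
    have : φ z = 0 := hφZ hz
    rw [hy, this, mul_zero]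
  rcases hform with halt | ⟨hsym, h2⟩
  · exact ⟨y₀, halt y₀, hxy, hzy⟩
  · set c := B y₀ y₀ / 2 with hc
    refine ⟨y₀ - c • x, ?_, ?_, ?_⟩
    · have hyx : B y₀ x = 1 := by rw [← hsym.eq x y₀]; simpa using hxy
      simp only [map_sub, map_smul, LinearMap.sub_apply, LinearMap.smul_apply, smul_eq_mul, hx, hxy,
        hyx]
      rw [hc]
      field_simp
      ring
    · simp only [map_sub, map_smul, smul_eq_mul, hx, hxy]
      ring
    · intro z hz
      have hzx : B z x = 0 := by rw [← hsym.eq x z]; simpa using hxz z hz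
      simp only [map_sub, map_smul, smul_eq_mul, hzy z hz, hzx]
      ring

end Cfsg.Agent.S0761
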