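import Cfsg.Statements.S0762
import Mathlib


set_option autoImplicit false
open Cfsg

namespace Cfsg.Agent.S0762

/-- In characteristic two over a finite field, a quadratic form on a space of dimension at least 3 vanishes on some non-zero vector. -/
theorem result {F V : Type*} [Field F] [Finite F] [CharP F 2] [AddCommGroup V] [Module F V] [FiniteDimensional F V] (Q : QuadraticForm F V) (h3 : 3 ≤ Module.finrank F V) : ∃ v : V, v ≠ 0 ∧ Q v = 0 := by
  have hnt : Nontrivial V := by
    apply Module.nontrivial_of_finrank_pos (R := F)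
    omega
  obtain ⟨u, hu⟩ := exists_ne (0 : V)
  by_cases hQu : Q u = 0
  · exact ⟨u, hu, hQu⟩
  set φ : V →ₗ[F] F := QuadraticMap.polarBilin Q u with hφ
  have hker : 2 ≤ Module.finrank F (LinearMap.ker φ) := by
    have h1 := LinearMap.finrank_range_add_finrank_ker φ
    have h2 : Module.finrank F (LinearMap.range φ) ≤ 1 := by
      have := Submodule.finrank_le (LinearMap.range φ)
      simpa using this
    omega
  have hex : ∃ w ∈ LinearMap.ker φ, w ∉ Submodule.span F {u} := by
    by_contra hcon
    push Not at hcon
    have hle : LinearMap.ker φ ≤ Submodule.span F {u} := hcon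
    have h1 := Submodule.finrank_mono hle
    have h2 : Module.finrank F (Submodule.span F {u}) = 1 := finrank_span_singleton hu
    omega
  obtain ⟨w, hw, hwu⟩ := hex
  have hpol : QuadraticMap.polar Q u w = 0 := hw
  obtain ⟨a, ha⟩ : ∃ a : F, a ^ 2 = Q w / Q u := by
    obtain ⟨a, ha⟩ := FiniteField.isSquare_of_char_two (ringChar.eq F 2) (Q w / Q u)
    exact ⟨a, by rw [ha, pow_two]⟩
  refine ⟨a • u + w, ?_, ?_⟩
  · intro h
    apply hwu
    have : w = (-a) • u := by
      rw [neg_smul]
      exact eq_neg_of_add_eq_zero_right h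
    rw [this]
    exact Submodule.smul_mem _ _ (Submodule.mem_span_singleton_self u)
  · have h1 : Q (a • u + w) = Q (a • u) + Q w + QuadraticMap.polar Q (a • u) w := by
      rw [QuadraticMap.polar]; ring
    rw [h1, QuadraticMap.polar_smul_left, hpol, QuadraticMap.map_smul, smul_eq_mul, smul_eq_mul, mul_zero, add_zero,
      ← pow_two, ha, div_mul_cancel₀ _ hQu]
    exact CharTwo.add_self_eq_zero _

end Cfsg.Agent.S0762
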