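import Cfsg.Statements.S0763
import Mathlib


set_option autoImplicit false
open Cfsg

namespace Cfsg.Agent.S0763

/-- Binary quadratic forms in characteristic two over a finite field: if Q is a quadratic form on a 2-dimensional space whose polar form is non-degenerate, then either there are vectors v, w with Q v = Q w = 0 and polar value 1 (Q is xy in these coordinates), or there are v, w and μ with Q v = 1, Q w = μ, polar value 1 and x² + x + μ without roots in F (Q is x² + xy + μy²). -/
theorem result {F V : Type*} [Field F] [Finite F] [CharP F 2] [AddCommGroup V] [Module F V] (Q : QuadraticForm F V) (h2 : Module.finrank F V = 2) (hQ : (QuadraticMap.polarBilin Q).Nondegenerate) : (∃ v w : V, LinearIndependent F ![v, w] ∧ Q v = 0 ∧ Q w = 0 ∧ QuadraticMap.polar Q v w = 1) ∨ (∃ (v w : V) (μ : F), LinearIndependent F ![v, w] ∧ (∀ x : F, x ^ 2 + x + μ ≠ 0) ∧ Q v = 1 ∧ Q w = μ ∧ QuadraticMap.polar Q v w = 1) := by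
  have hff : ∀ x, QuadraticMap.polar Q x x = 0 := by
    intro x
    rw [QuadraticMap.polar_self, two_smul]
    exact CharTwo.add_self_eq_zero _
  have hsep : ∀ v : V, v ≠ 0 → ∃ w, QuadraticMap.polar Q v w = 1 := by
    intro v hv
    have : ∃ w, QuadraticMap.polar Q v w ≠ 0 := by
      by_contra h
      push Not at h
      exact hv (hQ.1 v h)
    obtain ⟨w, hw⟩ := this
    exact ⟨(QuadraticMap.polar Q v w)⁻¹ • w, by
      rw [QuadraticMap.polar_smul_right, smul_eq_mul, inv_mul_cancel₀ hw]⟩
  have hind : ∀ v w, QuadraticMap.polar Q v w = 1 → LinearIndependent F ![v, w] := by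
    intro v w h
    rw [LinearIndependent.pair_iff]
    intro s t hst
    have h1 : QuadraticMap.polar Q v (s • v + t • w) = 0 := by rw [hst]; simp
    have h2 : QuadraticMap.polar Q (s • v + t • w) w = 0 := by rw [hst]; simp
    rw [QuadraticMap.polar_add_right, QuadraticMap.polar_smul_right, QuadraticMap.polar_smul_right,
      hff, h] at h1
    rw [QuadraticMap.polar_add_left, QuadraticMap.polar_smul_left, QuadraticMap.polar_smul_left,
      hff, h] at h2
    simp at h1 h2
    exact ⟨h2, h1⟩
  by_cases hiso : ∃ v, v ≠ 0 ∧ Q v = 0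
  · left
    obtain ⟨v, hv0, hv⟩ := hiso
    obtain ⟨w₀, hw₀⟩ := hsep v hv0
    have hpol : QuadraticMap.polar Q v (w₀ + Q w₀ • v) = 1 := by
      rw [QuadraticMap.polar_add_right, QuadraticMap.polar_smul_right, hff, hw₀]; simp
    refine ⟨v, w₀ + Q w₀ • v, hind _ _ hpol, hv, ?_, hpol⟩
    rw [QuadraticMap.map_add (⇑Q), QuadraticMap.map_smul, hv, QuadraticMap.polar_smul_right,
      QuadraticMap.polar_comm, hw₀]
    simp only [smul_eq_mul, mul_zero, add_zero, mul_one]
    exact CharTwo.add_self_eq_zero _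
  · right
    push Not at hiso
    have hnt : Nontrivial V := by
      apply Module.nontrivial_of_finrank_pos (R := F)
      omega
    obtain ⟨v₀, hv₀⟩ := exists_ne (0 : V)
    have ha : Q v₀ ≠ 0 := hiso v₀ hv₀
    obtain ⟨s, hs⟩ := FiniteField.isSquare_of_char_two (ringChar.eq F 2) (Q v₀)
    have hs0 : s ≠ 0 := by
      rintro rfl
      apply ha
      rw [hs, mul_zero]
    have hv1 : Q (s⁻¹ • v₀) = 1 := by
      rw [QuadraticMap.map_smul, hs, smul_eq_mul]
      field_simp
    have hvne : s⁻¹ • v₀ ≠ 0 := smul_ne_zero (inv_ne_zero hs0) hv₀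
    obtain ⟨w, hw⟩ := hsep _ hvne
    refine ⟨s⁻¹ • v₀, w, Q w, hind _ _ hw, ?_, hv1, rfl, hw⟩
    intro x hx
    set v := s⁻¹ • v₀ with hv
    have hli := hind _ _ hw
    rw [LinearIndependent.pair_iff] at hli
    have hne : x • v + (1 : F) • w ≠ 0 := by
      intro h
      exact one_ne_zero (hli x 1 h).2
    apply hiso _ hne
    rw [one_smul, QuadraticMap.map_add (⇑Q), QuadraticMap.map_smul, hv1,
      QuadraticMap.polar_smul_left, hw, ← hx]
    simp only [smul_eq_mul]
    ring

end Cfsg.Agent.S0763
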