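import Cfsg.Statements.S0765
import Cfsg.Agent.Lib.Helper5_SympGen

set_option autoImplicit false
open Cfsg

namespace Cfsg.Agent.S0765

theorem result {F : Type*} [Field F] (m : ℕ) : Subgroup.closure {A : Matrix.symplecticGroup (Fin m) F | ∃ (w : Fin m ⊕ Fin m → F) (c : F), (A : Matrix (Fin m ⊕ Fin m) (Fin m ⊕ Fin m) F) = Cfsg.sympTransvection m w c} = ⊤ :=
  Cfsg.Agent.Lib.Helper5_SympGen.T_eq_top

end Cfsg.Agent.S0765
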