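import Cfsg.Statements.S0767
import Mathlib
import Cfsg.Agent.Lib.Helper2_Symp


set_option autoImplicit false
open Cfsg

namespace Cfsg.Agent.S0767

/-- The root group of a point: T_v(c) T_v(d) = T_v(c + d), and for A in the symplectic group with A v = a v, the conjugate A T_v(c) A⁻¹ is again some T_v(d). -/
theorem result {F : Type*} [Field F] (m : ℕ) (v : Fin m ⊕ Fin m → F) : (∀ c d : F, Cfsg.sympTransvection m v c * Cfsg.sympTransvection m v d = Cfsg.sympTransvection m v (c + d)) ∧ ∀ (A : Matrix (Fin m ⊕ Fin m) (Fin m ⊕ Fin m) F) (a : F), A ∈ Matrix.symplecticGroup (Fin m) F → A.mulVec v = a • v → ∀ c : F, ∃ d : F, A * Cfsg.sympTransvection m v c * A⁻¹ = Cfsg.sympTransvection m v d := by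
  refine ⟨Cfsg.Agent.Lib.Helper2_Symp.sympTransvection_mul m v, ?_⟩
  intro A a hA hAv c
  refine ⟨a * a * c, ?_⟩
  have hdet := SymplecticGroup.symplectic_det hA
  have hA' := SymplecticGroup.mem_iff'.mp hA
  have h1 : a • Matrix.vecMul ((Matrix.J (Fin m) F).mulVec v) A = (Matrix.J (Fin m) F).mulVec v := by
    rw [← Matrix.mulVec_transpose, ← Matrix.mulVec_smul, ← Matrix.mulVec_smul, ← hAv,
      Matrix.mulVec_mulVec, Matrix.mulVec_mulVec, hA']
  have key : A * Cfsg.sympTransvection m v c = Cfsg.sympTransvection m v (a * a * c) * A := by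
    unfold Cfsg.sympTransvection
    rw [mul_add, mul_one, add_mul, one_mul, Matrix.mul_smul, Matrix.mul_vecMulVec, hAv,
      Matrix.smul_mul, Matrix.vecMulVec_mul]
    congr 1
    conv_lhs => rw [← h1]
    rw [Matrix.smul_vecMulVec, Matrix.vecMulVec_smul, smul_smul, smul_smul]
    congr 1
    ring
  rw [key]
  exact Matrix.mul_nonsing_inv_cancel_right A _ hdet

end Cfsg.Agent.S0767
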