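import Cfsg.Statements.S0769
import Cfsg.Agent.Lib.Helper5_TriCount

set_option autoImplicit false

open Cfsg

namespace Cfsg.Agent.S0769

open Cfsg.Agent.Lib.Helper5_TriCount

theorem result {F : Type*} [Field F] [Fintype F] {q : ℕ} (hF : Fintype.card F = q) (n : ℕ) : Nat.card {g : Matrix.GeneralLinearGroup (Fin n) F // ∀ i j : Fin n, i < j → (g : Matrix (Fin n) (Fin n) F) i j = 0} = q ^ (n * (n - 1) / 2) * (q - 1) ^ n := by
  rw [← hF, ← card_tri]
  apply Nat.card_congr
  exact
    { toFun := fun g => ⟨g.1.1, g.2, (isUnit_iff_of_lower _ g.2).1 g.1.isUnit⟩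
      invFun := fun M => ⟨((isUnit_iff_of_lower _ M.2.1).2 M.2.2).unit, M.2.1⟩
      left_inv := fun g => Subtype.ext (Units.ext rfl)
      right_inv := fun M => rfl }

end Cfsg.Agent.S0769
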