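import Cfsg.Statements.S0770

set_option autoImplicit false
open Cfsg

namespace Cfsg.Agent.S0770

variable {F : Type*} [Field F] {n : ℕ}

lemma mem_T (h : Matrix.GeneralLinearGroup (Fin n) F) :
    h ∈ ((Units.map (Matrix.diagonalRingHom (Fin n) F).toMonoidHom).range :
      Subgroup (Matrix.GeneralLinearGroup (Fin n) F)) ↔
      ∃ d : Fin n → F, (h : Matrix (Fin n) (Fin n) F) = Matrix.diagonal d := by
  constructor
  · rintro ⟨d, rfl⟩
    exact ⟨(d : Fin n → F), rfl⟩
  · rintro ⟨d, hd⟩
    have hne : ∀ i, d i ≠ 0 := by
      intro i h0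
      have h1 : ((h * h⁻¹ : Matrix.GeneralLinearGroup (Fin n) F) :
          Matrix (Fin n) (Fin n) F) i i = 1 := by
        rw [mul_inv_cancel]; simp
      rw [Units.val_mul, hd, Matrix.diagonal_mul, h0, zero_mul] at h1
      exact zero_ne_one h1
    refine ⟨⟨d, fun i => (d i)⁻¹, ?_, ?_⟩, ?_⟩
    · funext i; simp [hne i]
    · funext i; simp [hne i]
    · apply Units.ext
      simp [hd]

lemma val_mul_inv (g : Matrix.GeneralLinearGroup (Fin n) F) :
    (g : Matrix (Fin n) (Fin n) F) * ((g⁻¹ : Matrix.GeneralLinearGroup (Fin n) F) :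
      Matrix (Fin n) (Fin n) F) = 1 := by
  rw [← Units.val_mul, mul_inv_cancel]; rfl

lemma val_inv_mul (g : Matrix.GeneralLinearGroup (Fin n) F) :
    ((g⁻¹ : Matrix.GeneralLinearGroup (Fin n) F) : Matrix (Fin n) (Fin n) F) *
      (g : Matrix (Fin n) (Fin n) F) = 1 := by
  rw [← Units.val_mul, inv_mul_cancel]; rfl

lemma conj_iff (g h : Matrix.GeneralLinearGroup (Fin n) F) (D : Matrix (Fin n) (Fin n) F) :
    ((g * h * g⁻¹ : Matrix.GeneralLinearGroup (Fin n) F) : Matrix (Fin n) (Fin n) F) = D ↔
      (g : Matrix (Fin n) (Fin n) F) * (h : Matrix (Fin n) (Fin n) F) =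
        D * (g : Matrix (Fin n) (Fin n) F) := by
  rw [Units.val_mul, Units.val_mul]
  constructor
  · intro hh
    rw [← hh, Matrix.mul_assoc, val_inv_mul, Matrix.mul_one]
  · intro hh
    rw [hh, Matrix.mul_assoc, val_mul_inv, Matrix.mul_one]

theorem result {F : Type*} [Field F] (hF : ∃ a : F, a ≠ 0 ∧ a ≠ 1) (n : ℕ) (g : Matrix.GeneralLinearGroup (Fin n) F) : g ∈ Subgroup.normalizer ((Units.map (Matrix.diagonalRingHom (Fin n) F).toMonoidHom).range : Subgroup (Matrix.GeneralLinearGroup (Fin n) F)) ↔ ∀ i : Fin n, ∃! j : Fin n, (g : Matrix (Fin n) (Fin n) F) i j ≠ 0 := by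
  rw [Subgroup.mem_normalizer_iff]
  constructor
  · intro hg i
    apply existsUnique_of_exists_of_unique
    · by_contra hcon
      push_neg at hcon
      have h1 := congrFun (congrFun (val_mul_inv g) i) i
      rw [Matrix.mul_apply, Matrix.one_apply_eq] at h1
      rw [Finset.sum_eq_zero (fun j _ => by rw [hcon j, zero_mul])] at h1
      exact zero_ne_one h1
    · intro j k hj hk
      by_contra hjk
      obtain ⟨a, ha0, ha1⟩ := hF
      have hdet : (Matrix.diagonal (Function.update (1 : Fin n → F) j a)).det ≠ 0 := by
        rw [Matrix.det_diagonal, Finset.prod_ne_zero_iff]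
        intro l _
        by_cases hl : l = j
        · subst hl; simpa using ha0
        · simp [Function.update_of_ne hl]
      have hmem := (hg (Matrix.GeneralLinearGroup.mkOfDetNeZero _ hdet)).1
        ((mem_T _).2 ⟨_, rfl⟩)
      obtain ⟨d', hd'⟩ := (mem_T _).1 hmem
      rw [conj_iff] at hd'
      have e1 := congrFun (congrFun hd' i) j
      have e2 := congrFun (congrFun hd' i) k
      rw [Matrix.diagonal_mul] at e1 e2
      change ((g : Matrix (Fin n) (Fin n) F) *
        Matrix.diagonal (Function.update (1 : Fin n → F) j a)) i j = _ at e1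
      change ((g : Matrix (Fin n) (Fin n) F) *
        Matrix.diagonal (Function.update (1 : Fin n → F) j a)) i k = _ at e2
      rw [Matrix.mul_diagonal] at e1 e2
      rw [Function.update_self] at e1
      rw [Function.update_of_ne (Ne.symm hjk), Pi.one_apply, mul_one] at e2
      have h3 : d' i = a := by
        have : (g : Matrix (Fin n) (Fin n) F) i j * (d' i - a) = 0 := by
          linear_combination -e1
        rcases mul_eq_zero.1 this with h | h
        · exact absurd h hj
        · exact sub_eq_zero.1 h
      have h4 : d' i = 1 := by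
        have : (g : Matrix (Fin n) (Fin n) F) i k * (d' i - 1) = 0 := by
          linear_combination -e2
        rcases mul_eq_zero.1 this with h | h
        · exact absurd h hk
        · exact sub_eq_zero.1 h
      exact ha1 (h3.symm.trans h4)
  · intro hmono
    choose σ hσ huniq using hmono
    have key : ∀ d : Fin n → F, (g : Matrix (Fin n) (Fin n) F) * Matrix.diagonal d =
        Matrix.diagonal (d ∘ σ) * (g : Matrix (Fin n) (Fin n) F) := by
      intro d
      ext i j
      rw [Matrix.mul_diagonal, Matrix.diagonal_mul]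
      by_cases hij : (g : Matrix (Fin n) (Fin n) F) i j = 0
      · rw [hij, zero_mul, mul_zero]
      · rw [huniq i j hij, Function.comp_apply, mul_comm]
    have hinj : Function.Injective σ := by
      intro i i' hii
      by_contra hne
      have h1 := congrFun (congrFun (val_mul_inv g) i) i
      have h2 := congrFun (congrFun (val_mul_inv g) i') i
      rw [Matrix.mul_apply, Matrix.one_apply_eq] at h1
      rw [Matrix.mul_apply, Matrix.one_apply_ne (Ne.symm hne)] at h2
      rw [Finset.sum_eq_single (σ i)] at h1
      · rw [Finset.sum_eq_single (σ i')] at h2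
        · rcases mul_eq_zero.1 h2 with h | h
          · exact hσ i' h
          · rw [hii, h, mul_zero] at h1
            exact zero_ne_one h1
        · intro b _ hb
          have : (g : Matrix (Fin n) (Fin n) F) i' b = 0 := by
            by_contra hh
            exact hb (huniq i' b hh)
          rw [this, zero_mul]
        · intro hh; exact absurd (Finset.mem_univ _) hh
      · intro b _ hb
        have : (g : Matrix (Fin n) (Fin n) F) i b = 0 := by
          by_contra hh
          exact hb (huniq i b hh)
        rw [this, zero_mul]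
      · intro hh; exact absurd (Finset.mem_univ _) hh
    have hbij : Function.Bijective σ := Finite.injective_iff_bijective.1 hinj
    intro h
    rw [mem_T, mem_T]
    constructor
    · rintro ⟨d, hd⟩
      refine ⟨d ∘ σ, ?_⟩
      rw [conj_iff, hd, key]
    · rintro ⟨d', hd'⟩
      rw [conj_iff] at hd'
      obtain ⟨τ, hτ⟩ := hbij.2.hasRightInverse
      refine ⟨d' ∘ τ, ?_⟩
      have h5 : (g : Matrix (Fin n) (Fin n) F) * (h : Matrix (Fin n) (Fin n) F) =
          (g : Matrix (Fin n) (Fin n) F) * Matrix.diagonal (d' ∘ τ) := by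
        rw [hd', key]
        congr 2
        funext i
        have hl : τ (σ i) = i := hinj (hτ (σ i))
        simp [hl]
      have h6 := congrArg (fun M => ((g⁻¹ : Matrix.GeneralLinearGroup (Fin n) F) :
        Matrix (Fin n) (Fin n) F) * M) h5
      simpa only [← Matrix.mul_assoc, val_inv_mul, Matrix.one_mul] using h6

end Cfsg.Agent.S0770
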