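import Cfsg.Statements.S0771
import Cfsg.Agent.Lib.Helper5_GLPar

set_option autoImplicit false

open Cfsg

namespace Cfsg.Agent.S0771

open Matrix Cfsg.Agent.Lib.Helper5_GLPar

variable {F : Type*} [Field F]

noncomputable def glEquiv (n : ℕ) : {A : Matrix (Fin n) (Fin n) F // A.det ≠ 0} ≃
    Matrix.GeneralLinearGroup (Fin n) F where
  toFun A := Matrix.GeneralLinearGroup.mkOfDetNeZero A.1 A.2
  invFun g := ⟨g.1, Matrix.GeneralLinearGroup.det_ne_zero g⟩
  left_inv A := rfl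
  right_inv g := Units.ext rfl

noncomputable def step1 (k r : ℕ) : {g : Matrix.GeneralLinearGroup (Fin (k + r)) F //
      ∀ i j : Fin (k + r), k ≤ (i : ℕ) → (j : ℕ) < k →
        (g : Matrix (Fin (k + r)) (Fin (k + r)) F) i j = 0} ≃
    {M : Matrix (Fin k ⊕ Fin r) (Fin k ⊕ Fin r) F // M.toBlocks₂₁ = 0 ∧ M.det ≠ 0} where
  toFun g := ⟨g.1.1.submatrix finSumFinEquiv finSumFinEquiv, by
      ext i j
      exact g.2 (finSumFinEquiv (Sum.inr i)) (finSumFinEquiv (Sum.inl j)) (by simp) (by simp), by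
      rw [det_submatrix_equiv_self]
      exact Matrix.GeneralLinearGroup.det_ne_zero g.1⟩
  invFun M := ⟨Matrix.GeneralLinearGroup.mkOfDetNeZero
      (M.1.submatrix finSumFinEquiv.symm finSumFinEquiv.symm) (by
        rw [det_submatrix_equiv_self]; exact M.2.2), by
      intro i j hi hj
      obtain ⟨x, rfl⟩ := finSumFinEquiv.surjective i
      obtain ⟨y, rfl⟩ := finSumFinEquiv.surjective j
      change M.1 (finSumFinEquiv.symm (finSumFinEquiv x)) (finSumFinEquiv.symm (finSumFinEquiv y)) = 0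
      rw [Equiv.symm_apply_apply, Equiv.symm_apply_apply]
      rcases x with a | a
      · simp at hi
        omega
      · rcases y with b | b
        · exact congrFun (congrFun M.2.1 a) b
        · simp at hj⟩
  left_inv g := by
    apply Subtype.ext
    apply Units.ext
    ext i j
    change g.1.1 (finSumFinEquiv (finSumFinEquiv.symm i)) (finSumFinEquiv (finSumFinEquiv.symm j)) = _
    rw [Equiv.apply_symm_apply, Equiv.apply_symm_apply]
  right_inv M := by
    apply Subtype.ext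
    ext i j
    change M.1 (finSumFinEquiv.symm (finSumFinEquiv i)) (finSumFinEquiv.symm (finSumFinEquiv j)) = _
    rw [Equiv.symm_apply_apply, Equiv.symm_apply_apply]

theorem blocks_eq {k r : ℕ} (M : Matrix (Fin k ⊕ Fin r) (Fin k ⊕ Fin r) F) (h : M.toBlocks₂₁ = 0) :
    fromBlocks M.toBlocks₁₁ M.toBlocks₁₂ 0 M.toBlocks₂₂ = M := by
  conv_rhs => rw [← fromBlocks_toBlocks M, h]

def step2 (k r : ℕ) :
    {M : Matrix (Fin k ⊕ Fin r) (Fin k ⊕ Fin r) F // M.toBlocks₂₁ = 0 ∧ M.det ≠ 0} ≃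
      Matrix (Fin k) (Fin r) F × {A : Matrix (Fin k) (Fin k) F // A.det ≠ 0} ×
        {A : Matrix (Fin r) (Fin r) F // A.det ≠ 0} where
  toFun M :=
    have h : M.1.toBlocks₁₁.det * M.1.toBlocks₂₂.det ≠ 0 := by
      rw [← det_fromBlocks_zero₂₁ _ M.1.toBlocks₁₂, blocks_eq M.1 M.2.1]
      exact M.2.2
    (M.1.toBlocks₁₂, ⟨M.1.toBlocks₁₁, left_ne_zero_of_mul h⟩, ⟨M.1.toBlocks₂₂, right_ne_zero_of_mul h⟩)
  invFun p := ⟨fromBlocks p.2.1.1 p.1 0 p.2.2.1, by simp, by
    rw [det_fromBlocks_zero₂₁]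
    exact mul_ne_zero p.2.1.2 p.2.2.2⟩
  left_inv M := by
    apply Subtype.ext
    exact blocks_eq M.1 M.2.1
  right_inv p := by
    obtain ⟨B, ⟨A, hA⟩, ⟨D, hD⟩⟩ := p
    simp

theorem result {F : Type*} [Field F] [Fintype F] {q : ℕ} (hF : Fintype.card F = q) (n k : ℕ) (hk : k ≤ n) : Nat.card ↥(Cfsg.stabilizing (Cfsg.glToMat (Fin n) F) {v : Fin n → F | ∀ i : Fin n, k ≤ (i : ℕ) → v i = 0}) = q ^ (k * (n - k)) * (∏ i : Fin k, (q ^ k - q ^ (i : ℕ))) * ∏ i : Fin (n - k), (q ^ (n - k) - q ^ (i : ℕ)) := by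
  classical
  obtain ⟨r, rfl⟩ := Nat.exists_eq_add_of_le hk
  rw [Nat.add_sub_cancel_left]
  have e0 : ↥(Cfsg.stabilizing (Cfsg.glToMat (Fin (k + r)) F)
      {v : Fin (k + r) → F | ∀ i : Fin (k + r), k ≤ (i : ℕ) → v i = 0}) ≃
      {g : Matrix.GeneralLinearGroup (Fin (k + r)) F //
      ∀ i j : Fin (k + r), k ≤ (i : ℕ) → (j : ℕ) < k →
        (g : Matrix (Fin (k + r)) (Fin (k + r)) F) i j = 0} :=
    Equiv.subtypeEquivRight (mem_stab_iff (k + r) k)
  rw [Nat.card_congr (e0.trans ((step1 k r).trans (step2 k r))), Nat.card_prod, Nat.card_prod,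
    Nat.card_congr (glEquiv k), Nat.card_congr (glEquiv r), Matrix.card_GL_field, Matrix.card_GL_field,
    hF, mul_assoc]
  congr 1
  have h1 : Nat.card (Matrix (Fin k) (Fin r) F) = Nat.card (Fin k → Fin r → F) := rfl
  rw [h1, Nat.card_fun, Nat.card_fun, Nat.card_eq_fintype_card, Nat.card_eq_fintype_card,
    Nat.card_eq_fintype_card, hF, Fintype.card_fin, Fintype.card_fin, ← pow_mul, mul_comm]

end Cfsg.Agent.S0771
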