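import Cfsg.Statements.S0772
import Cfsg.Agent.Lib.Helper5_GLPar

set_option autoImplicit false

open Cfsg

namespace Cfsg.Agent.S0772

open Matrix Cfsg.Agent.Lib.Helper5_GLPar

variable {F : Type*} [Field F] {n : ℕ}

noncomputable def T (i j : Fin n) (hij : i ≠ j) (c : F) : Matrix.GeneralLinearGroup (Fin n) F :=
  Matrix.GeneralLinearGroup.mkOfDetNeZero (transvection i j c) (by
    rw [det_transvection_of_ne _ _ hij]; exact one_ne_zero)

theorem T_mulVec (i j : Fin n) (hij : i ≠ j) (c : F) (x : Fin n → F) :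
    (T i j hij c : Matrix (Fin n) (Fin n) F) *ᵥ x = x + (c * x j) • Pi.single i 1 := by
  change transvection i j c *ᵥ x = _
  rw [transvection, add_mulVec, one_mulVec, single_mulVec_eq]

theorem T_mem [Finite F] (k : ℕ) (i j : Fin n) (hij : i ≠ j) (c : F) (h : ¬ (k ≤ (i : ℕ) ∧ (j : ℕ) < k)) :
    T i j hij c ∈ Cfsg.stabilizing (Cfsg.glToMat (Fin n) F) (Wk F n k) := by
  rw [mem_stab_iff]
  intro a b ha hb
  change transvection i j c a b = 0
  have hab : a ≠ b := by
    intro h; subst h; omega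
  rw [transvection, Matrix.add_apply, Matrix.one_apply_ne hab, zero_add, Matrix.single_apply, if_neg]
  rintro ⟨rfl, rfl⟩
  exact h ⟨ha, hb⟩

noncomputable def C (i : Fin n) (y : Fin n → F) (hy : y i ≠ 0) : Matrix.GeneralLinearGroup (Fin n) F :=
  Matrix.GeneralLinearGroup.mkOfDetNeZero ((1 : Matrix (Fin n) (Fin n) F).updateCol i y) (by
    rw [← cramer_apply, cramer_one]; exact hy)

theorem C_mulVec (i : Fin n) (y : Fin n → F) (hy : y i ≠ 0) :
    (C i y hy : Matrix (Fin n) (Fin n) F) *ᵥ Pi.single i 1 = y := by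
  change (1 : Matrix (Fin n) (Fin n) F).updateCol i y *ᵥ Pi.single i 1 = y
  rw [mulVec_single_one]
  funext a
  simp [Matrix.col, Matrix.updateCol_apply]

theorem C_mem [Finite F] (k : ℕ) (i : Fin n) (hi : k ≤ (i : ℕ)) (y : Fin n → F) (hy : y i ≠ 0) :
    C i y hy ∈ Cfsg.stabilizing (Cfsg.glToMat (Fin n) F) (Wk F n k) := by
  rw [mem_stab_iff]
  intro a b ha hb
  change (1 : Matrix (Fin n) (Fin n) F).updateCol i y a b = 0
  have hab : a ≠ b := by
    intro h; subst h; omega
  have hbi : b ≠ i := by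
    intro h; subst h; omega
  rw [Matrix.updateCol_apply, if_neg hbi, Matrix.one_apply_ne hab]

theorem result {F : Type*} [Field F] [Finite F] (n k : ℕ) (hk0 : 0 < k) (hkn : k < n) : IsCoatom (Cfsg.stabilizing (Cfsg.glToMat (Fin n) F) {v : Fin n → F | ∀ i : Fin n, k ≤ (i : ℕ) → v i = 0}) := by
  classical
  change IsCoatom (Cfsg.stabilizing (Cfsg.glToMat (Fin n) F) (Wk F n k))
  constructor
  · intro htop
    have hne : (⟨k, hkn⟩ : Fin n) ≠ ⟨0, by omega⟩ := by
      intro h
      rw [Fin.mk.injEq] at h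
      omega
    have h1 : T (⟨k, hkn⟩ : Fin n) ⟨0, by omega⟩ hne (1 : F) ∈
        Cfsg.stabilizing (Cfsg.glToMat (Fin n) F) (Wk F n k) := by
      rw [htop]; trivial
    rw [mem_stab_iff] at h1
    have h2 := h1 ⟨k, hkn⟩ ⟨0, by omega⟩ le_rfl hk0
    change transvection (⟨k, hkn⟩ : Fin n) ⟨0, by omega⟩ (1 : F) ⟨k, hkn⟩ ⟨0, by omega⟩ = 0 at h2
    rw [transvection, Matrix.add_apply, Matrix.one_apply_ne hne, zero_add, Matrix.single_apply_same] at h2
    exact one_ne_zero h2
  · intro H hPH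
    obtain ⟨h, hhH, hhP⟩ := SetLike.exists_of_lt hPH
    have h1 : ¬ ∀ v ∈ Wk F n k, (h : Matrix (Fin n) (Fin n) F) *ᵥ v ∈ Wk F n k :=
      fun hh => hhP (mem_stab_of_maps h _ hh)
    push Not at h1
    obtain ⟨w, hw, hy⟩ := h1
    have hy' : ∃ l : Fin n, k ≤ (l : ℕ) ∧ ((h : Matrix (Fin n) (Fin n) F) *ᵥ w) l ≠ 0 := by
      by_contra hcon
      push Not at hcon
      exact hy hcon
    obtain ⟨l, hl, hyl⟩ := hy'
    -- for each i ≥ k an element of H taking a vector of W to e_i
    have key : ∀ i : Fin n, k ≤ (i : ℕ) → ∃ g ∈ H, (g : Matrix (Fin n) (Fin n) F) *ᵥ w = Pi.single i 1 := by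
      intro i hi
      obtain ⟨p1, hp1, hp1y⟩ : ∃ p1 ∈ H, ((p1 : Matrix (Fin n) (Fin n) F) *ᵥ w) i ≠ 0 := by
        by_cases hyi : ((h : Matrix (Fin n) (Fin n) F) *ᵥ w) i = 0
        · have hil : i ≠ l := by
            intro h'; subst h'; exact hyl hyi
          refine ⟨T i l hil 1 * h, H.mul_mem (hPH.le (T_mem k i l hil 1 (by omega))) hhH, ?_⟩
          rw [Units.val_mul, ← mulVec_mulVec, T_mulVec, Pi.add_apply, hyi, zero_add, Pi.smul_apply,
            Pi.single_eq_same, one_mul, smul_eq_mul, mul_one]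
          exact hyl
        · exact ⟨h, hhH, hyi⟩
      refine ⟨(C i _ hp1y)⁻¹ * p1, H.mul_mem (H.inv_mem (hPH.le (C_mem k i hi _ hp1y))) hp1, ?_⟩
      rw [Units.val_mul, ← mulVec_mulVec]
      have h5 := gl_inv_mulVec (C i _ hp1y) (Pi.single i 1)
      rw [C_mulVec] at h5
      exact h5
    rw [eq_top_iff]
    intro M _
    have hM : ∃ g ∈ H, (g : Matrix (Fin n) (Fin n) F) = (M : Matrix (Fin n) (Fin n) F) := by
      apply diagonal_transvection_induction_of_det_ne_zero
        (fun A => ∃ g ∈ H, (g : Matrix (Fin n) (Fin n) F) = A) (M : Matrix (Fin n) (Fin n) F)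
        (Matrix.GeneralLinearGroup.det_ne_zero M)
      · intro D hD
        refine ⟨Matrix.GeneralLinearGroup.mkOfDetNeZero (diagonal D) hD, hPH.le ?_, rfl⟩
        rw [mem_stab_iff]
        intro a b ha hb
        change diagonal D a b = 0
        apply Matrix.diagonal_apply_ne
        intro h; subst h; omega
      · rintro ⟨i, j, hij, c⟩
        refine ⟨T i j hij c, ?_, rfl⟩
        by_cases hcase : k ≤ (i : ℕ) ∧ (j : ℕ) < k
        · obtain ⟨g, hg, hgw⟩ := key i hcase.1
          have h2 : g⁻¹ * T i j hij c * g ∈ Cfsg.stabilizing (Cfsg.glToMat (Fin n) F) (Wk F n k) := by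
            apply mem_stab_of_maps
            intro v hv
            rw [Units.val_mul, Units.val_mul, ← mulVec_mulVec, ← mulVec_mulVec, T_mulVec, mulVec_add,
              mulVec_smul, gl_inv_mulVec, ← hgw, gl_inv_mulVec]
            intro a ha
            rw [Pi.add_apply, Pi.smul_apply, hv a ha, hw a ha, smul_zero, add_zero]
          have h3 : T i j hij c = g * (g⁻¹ * T i j hij c * g) * g⁻¹ := by group
          rw [h3]
          exact H.mul_mem (H.mul_mem hg (hPH.le h2)) (H.inv_mem hg)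
        · exact hPH.le (T_mem k i j hij c hcase)
      · rintro A B _ _ ⟨a, ha, rfl⟩ ⟨b, hb, rfl⟩
        exact ⟨a * b, H.mul_mem ha hb, rfl⟩
    obtain ⟨g, hg, hgM⟩ := hM
    rw [← Units.ext hgM]
    exact hg

end Cfsg.Agent.S0772
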