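import Cfsg.Statements.S0773
import Cfsg.Agent.Lib.Helper5_GLTv

set_option autoImplicit false

open Cfsg

namespace Cfsg.Agent.S0773

open Matrix Cfsg.Agent.Lib.Helper5_GLPar Cfsg.Agent.Lib.Helper5_GLTv

variable {F : Type*} [Field F]

/-- inverse transpose followed by reversal of the coordinates -/
def psi (n : ℕ) : Matrix.GeneralLinearGroup (Fin n) F →* Matrix.GeneralLinearGroup (Fin n) F where
  toFun g := ⟨((g⁻¹ : Matrix.GeneralLinearGroup (Fin n) F) : Matrix (Fin n) (Fin n) F)ᵀ.submatrix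
      Fin.rev Fin.rev, (g : Matrix (Fin n) (Fin n) F)ᵀ.submatrix Fin.rev Fin.rev, by
      rw [← Matrix.submatrix_mul _ _ _ _ _ Fin.rev_bijective, ← Matrix.transpose_mul, ← Units.val_mul,
        mul_inv_cancel]
      simp [Matrix.submatrix_one _ Fin.rev_injective], by
      rw [← Matrix.submatrix_mul _ _ _ _ _ Fin.rev_bijective, ← Matrix.transpose_mul, ← Units.val_mul,
        inv_mul_cancel]
      simp [Matrix.submatrix_one _ Fin.rev_injective]⟩
  map_one' := by
    apply Units.ext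
    simp [Matrix.submatrix_one _ Fin.rev_injective]
  map_mul' a b := by
    apply Units.ext
    change ((((a * b)⁻¹ : Matrix.GeneralLinearGroup (Fin n) F) :
      Matrix (Fin n) (Fin n) F)ᵀ.submatrix Fin.rev Fin.rev) =
      ((a⁻¹ : Matrix.GeneralLinearGroup (Fin n) F) : Matrix (Fin n) (Fin n) F)ᵀ.submatrix
        Fin.rev Fin.rev *
      ((b⁻¹ : Matrix.GeneralLinearGroup (Fin n) F) : Matrix (Fin n) (Fin n) F)ᵀ.submatrix
        Fin.rev Fin.rev
    rw [← Matrix.submatrix_mul _ _ _ _ _ Fin.rev_bijective, ← Matrix.transpose_mul, ← Units.val_mul,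
      _root_.mul_inv_rev]

theorem psi_val (n : ℕ) (g : Matrix.GeneralLinearGroup (Fin n) F) (i j : Fin n) :
    (psi n g : Matrix (Fin n) (Fin n) F) i j =
      ((g⁻¹ : Matrix.GeneralLinearGroup (Fin n) F) : Matrix (Fin n) (Fin n) F) j.rev i.rev := rfl

theorem psi_psi (n : ℕ) (g : Matrix.GeneralLinearGroup (Fin n) F) : psi n (psi n g) = g := by
  apply Units.ext
  ext i j
  rw [psi_val, ← map_inv, psi_val, inv_inv, Fin.rev_rev, Fin.rev_rev]

def psiEquiv (n : ℕ) : Matrix.GeneralLinearGroup (Fin n) F ≃* Matrix.GeneralLinearGroup (Fin n) F :=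
  { psi n with
    invFun := psi n
    left_inv := psi_psi n
    right_inv := psi_psi n }

theorem psi_mem [Finite F] (n k : ℕ) (hk : k ≤ n) (g : Matrix.GeneralLinearGroup (Fin n) F)
    (hg : g ∈ Cfsg.stabilizing (Cfsg.glToMat (Fin n) F) (Wk F n k)) :
    psi n g ∈ Cfsg.stabilizing (Cfsg.glToMat (Fin n) F) (Wk F n (n - k)) := by
  rw [mem_stab_iff]
  intro i j hi hj
  rw [psi_val]
  have h1 := Subgroup.inv_mem _ hg
  rw [mem_stab_iff] at h1
  apply h1
  · rw [Fin.val_rev]; omega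
  · rw [Fin.val_rev]; omega

theorem map_psi [Finite F] (n k : ℕ) (hk : k ≤ n) :
    (Cfsg.stabilizing (Cfsg.glToMat (Fin n) F) (Wk F n k)).map (psiEquiv n).toMonoidHom =
      Cfsg.stabilizing (Cfsg.glToMat (Fin n) F) (Wk F n (n - k)) := by
  apply le_antisymm
  · rintro _ ⟨g, hg, rfl⟩
    exact psi_mem n k hk g hg
  · intro g hg
    refine ⟨psi n g, ?_, psi_psi n g⟩
    have := psi_mem n (n - k) (Nat.sub_le _ _) g hg
    rwa [Nat.sub_sub_self hk] at this

/-- the coordinate subspace as a submodule -/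
def WkS (F : Type*) [Field F] (n k : ℕ) : Submodule F (Fin n → F) where
  carrier := Wk F n k
  add_mem' := by
    intro a b ha hb i hi
    rw [Pi.add_apply, ha i hi, hb i hi, add_zero]
  zero_mem' := fun _ _ => rfl
  smul_mem' := by
    intro c a ha i hi
    rw [Pi.smul_apply, ha i hi, smul_zero]

theorem le_of_stab_le {ι : Type} [Fintype ι] [DecidableEq ι] [Finite F] (W U : Submodule F (ι → F))
    (hW0 : W ≠ ⊥) (h : Cfsg.Geo.subspaceStabilizer U ≤ Cfsg.Geo.subspaceStabilizer W) : U ≤ W := by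
  intro x hxU
  by_contra hx
  obtain ⟨u, huW, hu0⟩ := Submodule.exists_mem_ne_zero_of_ne_bot hW0
  have hux : u ∉ Submodule.span F {x} := by
    intro h
    obtain ⟨c, rfl⟩ := Submodule.mem_span_singleton.1 h
    have hc : c ≠ 0 := by
      rintro rfl
      exact hu0 (zero_smul _ _)
    exact hx ((W.smul_mem_iff hc).1 huW)
  obtain ⟨ψ, hψ1, hψ2⟩ := exists_dual _ u hux
  have h0 := hψ1 x (Submodule.mem_span_singleton_self x)
  refine tv_not_mem_stab W x ψ h0 hx u huW ?_ (h (tv_mem_stab_of_mem U x ψ h0 hxU))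
  rw [hψ2]; exact one_ne_zero

theorem single_mem (n k : ℕ) (i : Fin n) (hi : (i : ℕ) < k) : (Pi.single i 1 : Fin n → F) ∈ Wk F n k := by
  intro j hj
  rw [Pi.single_apply, if_neg]
  intro h; subst h; omega

theorem single_not_mem (n k : ℕ) (i : Fin n) (hi : k ≤ (i : ℕ)) :
    (Pi.single i 1 : Fin n → F) ∉ Wk F n k := by
  intro h
  have := h i hi
  rw [Pi.single_eq_same] at this
  exact one_ne_zero this

theorem Wk_ssubset (n a b : ℕ) (hab : a < b) (hb : b ≤ n) : Wk F n a ⊂ Wk F n b := by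
  rw [Set.ssubset_iff_subset_ne]
  refine ⟨fun v hv i hi => hv i (by omega), fun h => ?_⟩
  have h1 : (Pi.single ⟨a, by omega⟩ 1 : Fin n → F) ∈ Wk F n b := single_mem n b _ hab
  rw [← h] at h1
  exact single_not_mem n a _ le_rfl h1

theorem result {F : Type*} [Field F] [Finite F] (n k : ℕ) (hk0 : 0 < k) (hkn : k < n) (h2 : 2 * k ≠ n) : Nonempty (↥(Cfsg.stabilizing (Cfsg.glToMat (Fin n) F) {v : Fin n → F | ∀ i : Fin n, k ≤ (i : ℕ) → v i = 0}) ≃* ↥(Cfsg.stabilizing (Cfsg.glToMat (Fin n) F) {v : Fin n → F | ∀ i : Fin n, n - k ≤ (i : ℕ) → v i = 0})) ∧ ∀ g : Matrix.GeneralLinearGroup (Fin n) F, (Cfsg.stabilizing (Cfsg.glToMat (Fin n) F) {v : Fin n → F | ∀ i : Fin n, k ≤ (i : ℕ) → v i = 0}).map (MulAut.conj g).toMonoidHom ≠ Cfsg.stabilizing (Cfsg.glToMat (Fin n) F) {v : Fin n → F | ∀ i : Fin n, n - k ≤ (i : ℕ) → v i = 0} := by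
  classical
  constructor
  · exact ⟨((psiEquiv n).subgroupMap _).trans (MulEquiv.subgroupCongr (map_psi n k hkn.le))⟩
  · intro g hg
    change (Cfsg.Geo.subspaceStabilizer (WkS F n k)).map (MulAut.conj g).toMonoidHom =
      Cfsg.Geo.subspaceStabilizer (WkS F n (n - k)) at hg
    let U : Submodule F (Fin n → F) := (WkS F n k).map (Matrix.mulVecLin (g : Matrix (Fin n) (Fin n) F))
    have hU : Cfsg.Geo.subspaceStabilizer U = Cfsg.Geo.subspaceStabilizer (WkS F n (n - k)) := by
      rw [← hg]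
      apply le_antisymm
      · intro h hh
        refine ⟨g⁻¹ * h * g, ?_, ?_⟩
        · apply mem_stab_of_maps
          intro v hv
          have h3 : (g : Matrix (Fin n) (Fin n) F) *ᵥ v ∈ U := ⟨v, hv, rfl⟩
          have h4 : (h : Matrix (Fin n) (Fin n) F) *ᵥ ((g : Matrix (Fin n) (Fin n) F) *ᵥ v) ∈ U :=
            (hh _).1 h3
          obtain ⟨w, hw, hwv⟩ := h4
          rw [Matrix.mulVecLin_apply] at hwv
          rw [Units.val_mul, Units.val_mul, ← mulVec_mulVec, ← mulVec_mulVec, ← hwv, gl_inv_mulVec]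
          exact hw
        · change g * (g⁻¹ * h * g) * g⁻¹ = h
          group
      · rintro _ ⟨h, hh, rfl⟩
        apply mem_stab_of_maps
        rintro _ ⟨v, hv, rfl⟩
        change ((g * h * g⁻¹ : Matrix.GeneralLinearGroup (Fin n) F) : Matrix (Fin n) (Fin n) F) *ᵥ
          ((g : Matrix (Fin n) (Fin n) F) *ᵥ v) ∈ U
        rw [Units.val_mul, Units.val_mul, ← mulVec_mulVec, ← mulVec_mulVec, gl_inv_mulVec]
        exact ⟨_, (hh v).1 hv, rfl⟩
    have hne1 : WkS F n (n - k) ≠ ⊥ := by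
      intro h
      have h1 : (Pi.single ⟨0, by omega⟩ 1 : Fin n → F) ∈ WkS F n (n - k) :=
        single_mem n (n - k) _ (by simp; omega)
      rw [h, Submodule.mem_bot] at h1
      have := congrFun h1 ⟨0, by omega⟩
      rw [Pi.single_eq_same] at this
      exact one_ne_zero this
    have hne2 : U ≠ ⊥ := by
      intro h
      have h1 : (g : Matrix (Fin n) (Fin n) F) *ᵥ (Pi.single ⟨0, by omega⟩ 1 : Fin n → F) ∈ U :=
        ⟨_, single_mem n k _ hk0, rfl⟩
      rw [h, Submodule.mem_bot] at h1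
      have h3 := gl_inv_mulVec g (Pi.single ⟨0, by omega⟩ 1 : Fin n → F)
      rw [h1, mulVec_zero] at h3
      have := congrFun h3 ⟨0, by omega⟩
      rw [Pi.single_eq_same] at this
      exact zero_ne_one this
    have hUW : U = WkS F n (n - k) :=
      le_antisymm (le_of_stab_le _ _ hne1 hU.le) (le_of_stab_le _ _ hne2 hU.ge)
    have hcard : (Wk F n k).ncard = (Wk F n (n - k)).ncard := by
      have h5 : (Wk F n (n - k)) = (fun v => (g : Matrix (Fin n) (Fin n) F) *ᵥ v) '' (Wk F n k) := by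
        have := congrArg (fun S : Submodule F (Fin n → F) => (S : Set (Fin n → F))) hUW
        exact this.symm
      rw [h5, Set.ncard_image_of_injective]
      intro a b hab
      have hab' : (g : Matrix (Fin n) (Fin n) F) *ᵥ a = (g : Matrix (Fin n) (Fin n) F) *ᵥ b := hab
      rw [← gl_inv_mulVec g a, hab', gl_inv_mulVec]
    rcases lt_or_gt_of_ne (show k ≠ n - k by omega) with h | h
    · exact absurd hcard (ne_of_lt (Set.ncard_lt_ncard (Wk_ssubset n k (n - k) h (by omega))
        (Set.toFinite _)))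
    · exact absurd hcard.symm (ne_of_lt (Set.ncard_lt_ncard (Wk_ssubset n (n - k) k h (by omega))
        (Set.toFinite _)))

end Cfsg.Agent.S0773
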