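import Cfsg.Statements.S0774
import Cfsg.Agent.Lib.Helper5_SympStab
import Cfsg.Agent.Lib.Helper5_TriCount

set_option autoImplicit false

open Cfsg

namespace Cfsg.Agent.S0774

open Module Matrix Cfsg.Agent.Lib.Helper5_Symp Cfsg.Agent.Lib.Helper5_SympCard
  Cfsg.Agent.Lib.Helper5_SympTv Cfsg.Agent.Lib.Helper5_SympGen Cfsg.Agent.Lib.Helper5_SympStab
  Cfsg.Agent.Lib.Helper5_TriCount

variable {F : Type*} [Field F] {m : ℕ}

theorem card_group_iso [Fintype F] (k : ℕ) (hk : k ≤ m) (e0 : Fin k → (Fin m ⊕ Fin m → F))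
    (he0 : IsoP k e0) :
    Nat.card (Matrix.symplecticGroup (Fin m) F) =
      (∏ i ∈ Finset.range k, (Fintype.card F ^ (2 * m - i) - Fintype.card F ^ i)) *
        Nat.card (MulAction.stabilizer (Matrix.symplecticGroup (Fin m) F) e0) := by
  have h1 := card_smul_mem (G := Matrix.symplecticGroup (Fin m) F) e0
    (MulAction.orbit (Matrix.symplecticGroup (Fin m) F) e0) le_rfl
  rw [orbit_iso k e0 he0, ← Nat.card_coe_set_eq] at h1
  have h2 : Nat.card ({e' | IsoP k e'} : Set (Fin k → (Fin m ⊕ Fin m → F))) = _ :=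
    card_iso k hk
  rw [h2] at h1
  rw [← h1]
  apply Nat.card_congr
  refine (Equiv.subtypeUnivEquiv ?_).symm
  intro g
  have : g • e0 ∈ MulAction.orbit (Matrix.symplecticGroup (Fin m) F) e0 := ⟨g, rfl⟩
  rw [orbit_iso k e0 he0] at this
  exact this

/-- the members of the flag -/
def WS (k : Fin m) : Submodule F (Fin m ⊕ Fin m → F) where
  carrier := {v | (∀ i : Fin m, (k : ℕ) < (i : ℕ) → v (Sum.inl i) = 0) ∧ ∀ i : Fin m, v (Sum.inr i) = 0}
  add_mem' := by
    intro a b ha hb
    refine ⟨fun i hi => ?_, fun i => ?_⟩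
    · rw [Pi.add_apply, ha.1 i hi, hb.1 i hi, add_zero]
    · rw [Pi.add_apply, ha.2 i, hb.2 i, add_zero]
  zero_mem' := ⟨fun _ _ => rfl, fun _ => rfl⟩
  smul_mem' := by
    intro c a ha
    refine ⟨fun i hi => ?_, fun i => ?_⟩
    · rw [Pi.smul_apply, ha.1 i hi, smul_zero]
    · rw [Pi.smul_apply, ha.2 i, smul_zero]

theorem WS_mono {k k' : Fin m} (h : k ≤ k') : WS (F := F) k ≤ WS k' := by
  intro v hv
  exact ⟨fun i hi => hv.1 i (lt_of_le_of_lt h hi), hv.2⟩

def e0 : Fin m → (Fin m ⊕ Fin m → F) := fun i => Pi.single (Sum.inl i) 1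

theorem e0_mem (k : Fin m) : e0 (F := F) k ∈ WS (F := F) k := by
  refine ⟨fun i hi => ?_, fun i => ?_⟩
  · unfold e0
    rw [Pi.single_apply, if_neg]
    intro h
    rw [Sum.inl.injEq] at h
    subst h
    exact lt_irrefl _ hi
  · unfold e0
    rw [Pi.single_apply, if_neg (by simp)]

/-- embedding of the first half -/
def iota : (Fin m → F) →ₗ[F] (Fin m ⊕ Fin m → F) where
  toFun c := Sum.elim c 0
  map_add' a b := by
    funext x
    rcases x with i | i <;> simp
  map_smul' a b := by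
    funext x
    rcases x with i | i <;> simp

theorem iota_ker : LinearMap.ker (iota (F := F) (m := m)) = ⊥ := by
  rw [LinearMap.ker_eq_bot']
  intro c hc
  funext i
  exact congrFun hc (Sum.inl i)

theorem iso_of_inr (u v : Fin m ⊕ Fin m → F) (hu : ∀ i, u (Sum.inr i) = 0)
    (hv : ∀ i, v (Sum.inr i) = 0) : sB m F u v = 0 := by
  rw [sB_eq]
  apply Finset.sum_eq_zero
  intro i _
  rw [hu, hv]; ring

def Y : Set (Fin m → (Fin m ⊕ Fin m → F)) := {e | LinearIndependent F e ∧ ∀ k, e k ∈ WS (F := F) k}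

theorem iota_row (e : Fin m → (Fin m ⊕ Fin m → F)) (he : ∀ k, e k ∈ WS (F := F) k) :
    iota ∘ (Matrix.of fun k i => e k (Sum.inl i) : Matrix (Fin m) (Fin m) F).row = e := by
  funext k x
  rcases x with i | i
  · rfl
  · exact ((he k).2 i).symm

theorem card_Y [Fintype F] : (Y (F := F) (m := m)).ncard =
    Fintype.card F ^ (m * (m - 1) / 2) * (Fintype.card F - 1) ^ m := by
  rw [← card_tri, ← Nat.card_coe_set_eq]
  apply Nat.card_congr
  exact
    { toFun := fun e => ⟨Matrix.of fun k i => e.1 k (Sum.inl i), fun k i hki => (e.2.2 k).1 i hki, by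
        refine (isUnit_iff_of_lower (Matrix.of fun k i => e.1 k (Sum.inl i))
          (fun k i hki => (e.2.2 k).1 i hki)).1 ?_
        rw [← Matrix.linearIndependent_rows_iff_isUnit]
        apply LinearIndependent.of_comp iota
        rw [iota_row e.1 e.2.2]
        exact e.2.1⟩
      invFun := fun M => ⟨fun k => iota (M.1 k), by
        have h1 : LinearIndependent F M.1.row := by
          rw [Matrix.linearIndependent_rows_iff_isUnit, isUnit_iff_of_lower _ M.2.1]
          exact M.2.2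
        exact h1.map' iota iota_ker, fun k => ⟨fun i hi => M.2.1 k i hi, fun i => rfl⟩⟩
      left_inv := fun e => Subtype.ext (iota_row e.1 e.2.2)
      right_inv := fun M => rfl }

theorem e0_iso : IsoP m (e0 (F := F) (m := m)) := by
  constructor
  · have h1 := (Pi.basisFun F (Fin m ⊕ Fin m)).linearIndependent.comp Sum.inl Sum.inl_injective
    convert h1 using 1
    funext i
    simp [e0]
  · intro i j
    exact iso_of_inr _ _ (e0_mem i).2 (e0_mem j).2

theorem decomp (v : Fin m ⊕ Fin m → F) (hv : ∀ i, v (Sum.inr i) = 0) :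
    v = ∑ i, v (Sum.inl i) • e0 (F := F) i := by
  funext x
  rw [Finset.sum_apply]
  rcases x with j | j
  · rw [Finset.sum_eq_single j]
    · simp [e0]
    · intro b _ hb
      simp [e0, Pi.single_apply, hb.symm]
    · intro h; exact absurd (Finset.mem_univ _) h
  · rw [hv]
    symm
    apply Finset.sum_eq_zero
    intro i _
    simp [e0]

theorem mem_iff [Finite F] (g : Matrix.symplecticGroup (Fin m) F) :
    g ∈ (⨅ k : Fin m, Cfsg.stabilizing (Cfsg.spToMat m F) {v : Fin m ⊕ Fin m → F |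
      (∀ i : Fin m, (k : ℕ) < (i : ℕ) → v (Sum.inl i) = 0) ∧ ∀ i : Fin m, v (Sum.inr i) = 0}) ↔
      g • e0 (F := F) (m := m) ∈ Y := by
  rw [Subgroup.mem_iInf]
  constructor
  · intro hg
    exact ⟨indep_smul m g e0 e0_iso.1, fun k => (hg k (e0 k)).1 (e0_mem k)⟩
  · rintro ⟨-, hg⟩ k
    have hfw : ∀ v ∈ WS (F := F) k,
        (g : Matrix (Fin m ⊕ Fin m) (Fin m ⊕ Fin m) F) *ᵥ v ∈ WS (F := F) k := by
      intro v hv
      rw [decomp v hv.2, Matrix.mulVec_sum]
      apply Submodule.sum_mem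
      intro i _
      rw [Matrix.mulVec_smul]
      by_cases hik : i ≤ k
      · exact Submodule.smul_mem _ _ (WS_mono hik (hg i))
      · rw [hv.1 i (not_le.1 hik), zero_smul]
        exact Submodule.zero_mem _
    let φ : WS (F := F) k → WS (F := F) k := fun v => ⟨_, hfw v.1 v.2⟩
    have hinj : Function.Injective φ := by
      intro a b hab
      have h1 : (g : Matrix (Fin m ⊕ Fin m) (Fin m ⊕ Fin m) F) *ᵥ a.1 =
          (g : Matrix (Fin m ⊕ Fin m) (Fin m ⊕ Fin m) F) *ᵥ b.1 := congrArg Subtype.val hab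
      apply Subtype.ext
      rw [← inv_mulVec g a.1, h1, inv_mulVec]
    have hsurj := Finite.injective_iff_surjective.1 hinj
    intro v
    constructor
    · exact hfw v
    · intro hv
      obtain ⟨w, hw⟩ := hsurj ⟨_, hv⟩
      have h1 : (g : Matrix (Fin m ⊕ Fin m) (Fin m ⊕ Fin m) F) *ᵥ w.1 =
          (g : Matrix (Fin m ⊕ Fin m) (Fin m ⊕ Fin m) F) *ᵥ v := congrArg Subtype.val hw
      have h2 : w.1 = v := by rw [← inv_mulVec g w.1, h1, inv_mulVec]
      rw [← h2]
      exact w.2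

theorem result {F : Type*} [Field F] [Fintype F] {q : ℕ} (hF : Fintype.card F = q) (m : ℕ) : Nat.card ↥(⨅ k : Fin m, Cfsg.stabilizing (Cfsg.spToMat m F) {v : Fin m ⊕ Fin m → F | (∀ i : Fin m, (k : ℕ) < (i : ℕ) → v (Sum.inl i) = 0) ∧ ∀ i : Fin m, v (Sum.inr i) = 0}) = q ^ (m ^ 2) * (q - 1) ^ m := by
  classical
  have hq : 2 ≤ q := by
    rw [← hF]; exact Fintype.one_lt_card
  have hYorb : Y ⊆ MulAction.orbit (Matrix.symplecticGroup (Fin m) F) (e0 (F := F) (m := m)) := by
    rw [orbit_iso m e0 e0_iso]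
    intro e he
    exact ⟨he.1, fun i j => iso_of_inr _ _ (he.2 i).2 (he.2 j).2⟩
  have h1 := card_smul_mem (e0 (F := F) (m := m)) Y hYorb
  rw [card_Y, hF] at h1
  have h2 := card_group_iso m le_rfl (e0 (F := F) (m := m)) e0_iso
  rw [card_sp', hF] at h2
  have hApos : 0 < ∏ i ∈ Finset.range m, (q ^ (2 * m - i) - q ^ i) := by
    apply Finset.prod_pos
    intro i hi
    rw [Finset.mem_range] at hi
    apply Nat.sub_pos_of_lt
    apply Nat.pow_lt_pow_right (by omega)
    omega
  have h3 := Nat.eq_of_mul_eq_mul_left hApos h2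
  rw [Nat.card_congr (Equiv.subtypeEquivRight mem_iff), h1, ← h3, ← Finset.sum_range_id,
    ← Finset.prod_pow_eq_pow_sum, mul_right_comm, ← Finset.prod_mul_distrib]
  congr 1
  have h4 : ∀ i ∈ Finset.range m, q ^ i * q ^ (m - i) = q ^ m := by
    intro i hi
    rw [Finset.mem_range] at hi
    rw [← pow_add]
    congr 1
    omega
  rw [Finset.prod_congr rfl h4, Finset.prod_const, Finset.card_range, ← pow_mul, sq]

end Cfsg.Agent.S0774
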