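import Cfsg.Statements.S0775
import Cfsg.Agent.Lib.Helper5_SympStab

set_option autoImplicit false

open Cfsg

namespace Cfsg.Agent.S0775

open Module Matrix Cfsg.Agent.Lib.Helper5_Symp Cfsg.Agent.Lib.Helper5_SympCard
  Cfsg.Agent.Lib.Helper5_SympTv Cfsg.Agent.Lib.Helper5_SympGen Cfsg.Agent.Lib.Helper5_SympStab

theorem half_sum (k : ℕ) : k * (k + 1) / 2 + k * (k - 1) / 2 = k ^ 2 := by
  obtain ⟨a, ha⟩ := (Nat.even_mul_succ_self k).two_dvd
  obtain ⟨b, hb⟩ := (Nat.even_mul_pred_self k).two_dvd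
  rw [ha, hb, Nat.mul_div_cancel_left _ (by norm_num), Nat.mul_div_cancel_left _ (by norm_num)]
  cases k with
  | zero => simp at ha hb; omega
  | succ k =>
    simp only [Nat.add_sub_cancel] at hb
    nlinarith

theorem arith (q k r : ℕ) (hq : 2 ≤ q) :
    (q ^ (k * (k + 1) / 2 + 2 * k * r) * (q ^ (r ^ 2) * ∏ i ∈ Finset.range r, (q ^ (2 * (i + 1)) - 1))) *
      ∏ i ∈ Finset.range k, (q ^ (2 * (k + r) - i) - q ^ i) =
    q ^ ((k + r) ^ 2) * ∏ i ∈ Finset.range (k + r), (q ^ (2 * (i + 1)) - 1) := by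
  have h1 : ∀ i ∈ Finset.range k, q ^ (2 * (k + r) - i) - q ^ i =
      q ^ i * (q ^ (2 * (r + (k - 1 - i) + 1)) - 1) := by
    intro i hi
    rw [Finset.mem_range] at hi
    have e1 : 2 * (k + r) - i = i + 2 * (r + (k - 1 - i) + 1) := by omega
    rw [e1, pow_add, ← Nat.mul_sub_one]
  rw [Finset.prod_congr rfl h1, Finset.prod_mul_distrib, Finset.prod_pow_eq_pow_sum,
    Finset.sum_range_id, Finset.prod_range_reflect (fun i => q ^ (2 * (r + i + 1)) - 1) k,
    add_comm k r, Finset.prod_range_add]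
  have e2 : (r + k) ^ 2 = k * (k + 1) / 2 + 2 * k * r + r ^ 2 + k * (k - 1) / 2 := by
    have := half_sum k
    nlinarith
  rw [e2, pow_add, pow_add]
  ring

theorem result {F : Type*} [Field F] [Fintype F] {q : ℕ} (hF : Fintype.card F = q) (m k : ℕ) (hk : k ≤ m) (W : Submodule F (Fin m ⊕ Fin m → F)) (hWk : Module.finrank F W = k) (hW : ∀ u ∈ W, ∀ v ∈ W, Cfsg.sympForm m F u v = 0) : Nat.card ↥(Cfsg.stabilizing (Cfsg.spToMat m F) (W : Set (Fin m ⊕ Fin m → F))) = q ^ (k * (k + 1) / 2 + 2 * k * (m - k)) * (q ^ ((m - k) ^ 2) * ∏ i ∈ Finset.range (m - k), (q ^ (2 * (i + 1)) - 1)) * ∏ i : Fin k, (q ^ k - q ^ (i : ℕ)) := by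
  classical
  obtain ⟨r, rfl⟩ := Nat.exists_eq_add_of_le hk
  rw [Nat.add_sub_cancel_left]
  have hq : 2 ≤ q := by
    rw [← hF]; exact Fintype.one_lt_card
  -- a basis of W
  let b := Module.finBasisOfFinrankEq F W hWk
  let e0 : Fin k → (Fin (k + r) ⊕ Fin (k + r) → F) := fun i => (b i : Fin (k + r) ⊕ Fin (k + r) → F)
  have he0li : LinearIndependent F e0 := b.linearIndependent.map' W.subtype (Submodule.ker_subtype W)
  have he0W : ∀ i, e0 i ∈ W := fun i => (b i).2
  have he0 : IsoP k e0 := ⟨he0li, fun i j => by rw [sB_apply]; exact hW _ (he0W i) _ (he0W j)⟩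
  have hspan : Submodule.span F (Set.range e0) = W := by
    apply Submodule.eq_of_le_of_finrank_eq
    · rw [Submodule.span_le]
      rintro _ ⟨i, rfl⟩
      exact he0W i
    · rw [finrank_span_eq_card he0li, Fintype.card_fin, hWk]
  let Y : Set (Fin k → (Fin (k + r) ⊕ Fin (k + r) → F)) :=
    {e | LinearIndependent F e ∧ Submodule.span F (Set.range e) = W}
  have hYiso : Y ⊆ {e | IsoP k e} := by
    intro e he
    refine ⟨he.1, fun i j => ?_⟩
    rw [sB_apply]
    exact hW _ ((le_of_eq he.2) (Submodule.subset_span ⟨i, rfl⟩)) _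
      ((le_of_eq he.2) (Submodule.subset_span ⟨j, rfl⟩))
  have hYorb : Y ⊆ MulAction.orbit (Matrix.symplecticGroup (Fin (k + r)) F) e0 := by
    rw [orbit_iso k e0 he0]; exact hYiso
  have hYcard : Y.ncard = ∏ i : Fin k, (q ^ k - q ^ (i : ℕ)) := by
    rw [← Nat.card_coe_set_eq, ← hF]
    exact card_bases k W hWk
  have hspan_smul : ∀ g : Matrix.symplecticGroup (Fin (k + r)) F,
      Submodule.span F (Set.range (g • e0)) =
        W.map (Matrix.mulVecLin (g : Matrix (Fin (k + r) ⊕ Fin (k + r)) (Fin (k + r) ⊕ Fin (k + r)) F)) := by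
    intro g
    rw [← hspan, Submodule.map_span, ← Set.range_comp]
    rfl
  have hmem : ∀ g : Matrix.symplecticGroup (Fin (k + r)) F,
      g ∈ Cfsg.stabilizing (Cfsg.spToMat (k + r) F) (W : Set (Fin (k + r) ⊕ Fin (k + r) → F)) ↔
        g • e0 ∈ Y := by
    intro g
    constructor
    · intro hg
      refine ⟨indep_smul k g e0 he0li, ?_⟩
      apply Submodule.eq_of_le_of_finrank_eq
      · rw [Submodule.span_le]
        rintro _ ⟨i, rfl⟩
        exact (hg (e0 i)).1 (he0W i)
      · rw [finrank_span_eq_card (indep_smul k g e0 he0li), Fintype.card_fin, hWk]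
    · rintro ⟨-, hg⟩ v
      rw [hspan_smul] at hg
      constructor
      · intro hv
        have : (g : Matrix (Fin (k + r) ⊕ Fin (k + r)) (Fin (k + r) ⊕ Fin (k + r)) F) *ᵥ v ∈
            W.map (Matrix.mulVecLin (g : Matrix (Fin (k + r) ⊕ Fin (k + r)) (Fin (k + r) ⊕ Fin (k + r)) F)) :=
          ⟨v, hv, rfl⟩
        rw [hg] at this
        exact this
      · intro hv
        have hv' : (g : Matrix (Fin (k + r) ⊕ Fin (k + r)) (Fin (k + r) ⊕ Fin (k + r)) F) *ᵥ v ∈ W := hv
        rw [← hg] at hv'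
        obtain ⟨w, hw, hwv⟩ := hv'
        rw [Matrix.mulVecLin_apply] at hwv
        have h1 := inv_mulVec g v
        rw [← hwv, inv_mulVec] at h1
        rw [← h1]; exact hw
  have hSt : Nat.card ↥(Cfsg.stabilizing (Cfsg.spToMat (k + r) F)
      (W : Set (Fin (k + r) ⊕ Fin (k + r) → F))) =
      Y.ncard * Nat.card (MulAction.stabilizer (Matrix.symplecticGroup (Fin (k + r)) F) e0) := by
    rw [← card_smul_mem e0 Y hYorb]
    exact Nat.card_congr (Equiv.subtypeEquivRight hmem)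
  have hG : Nat.card (Matrix.symplecticGroup (Fin (k + r)) F) =
      (∏ i ∈ Finset.range k, (q ^ (2 * (k + r) - i) - q ^ i)) *
        Nat.card (MulAction.stabilizer (Matrix.symplecticGroup (Fin (k + r)) F) e0) := by
    have h1 := card_smul_mem (G := Matrix.symplecticGroup (Fin (k + r)) F) e0
      (MulAction.orbit (Matrix.symplecticGroup (Fin (k + r)) F) e0) le_rfl
    rw [orbit_iso k e0 he0, ← Nat.card_coe_set_eq] at h1
    have h2 : Nat.card ({e' | IsoP k e'} : Set (Fin k → (Fin (k + r) ⊕ Fin (k + r) → F))) = _ :=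
      card_iso k hk
    rw [h2, hF] at h1
    rw [← h1]
    apply Nat.card_congr
    refine (Equiv.subtypeUnivEquiv ?_).symm
    intro g
    have : g • e0 ∈ MulAction.orbit (Matrix.symplecticGroup (Fin (k + r)) F) e0 := ⟨g, rfl⟩
    rw [orbit_iso k e0 he0] at this
    exact this
  have hApos : 0 < ∏ i ∈ Finset.range k, (q ^ (2 * (k + r) - i) - q ^ i) := by
    apply Finset.prod_pos
    intro i hi
    rw [Finset.mem_range] at hi
    apply Nat.sub_pos_of_lt
    apply Nat.pow_lt_pow_right (by omega)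
    omega
  apply Nat.eq_of_mul_eq_mul_right hApos
  have h3 := arith q k r hq
  have h4 : Nat.card (Matrix.symplecticGroup (Fin (k + r)) F) = _ := card_sp
  rw [hF] at h4
  rw [hSt, hYcard]
  calc _ = (∏ i : Fin k, (q ^ k - q ^ (i : ℕ))) * Nat.card (Matrix.symplecticGroup (Fin (k + r)) F) := by
        rw [hG]; ring
    _ = _ := by
        rw [h4, ← h3]; ring

end Cfsg.Agent.S0775
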