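import Cfsg.Statements.S0778

set_option autoImplicit false

open Cfsg

namespace Cfsg.Agent.S0778

open Matrix

variable {F : Type*} [Field F] {m : ℕ}

theorem mem_psi (A : Matrix.GeneralLinearGroup (Fin m) F) :
    fromBlocks (A : Matrix (Fin m) (Fin m) F) 0 0 ((A⁻¹ : Matrix.GeneralLinearGroup (Fin m) F) :
      Matrix (Fin m) (Fin m) F)ᵀ ∈ Matrix.symplecticGroup (Fin m) F := by
  rw [SymplecticGroup.fromBlocks_mem_iff]
  refine ⟨by simp, by simp, ?_⟩
  rw [← Matrix.transpose_mul, ← Units.val_mul, inv_mul_cancel]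
  simp

def psi : Matrix.GeneralLinearGroup (Fin m) F →* Matrix.symplecticGroup (Fin m) F where
  toFun A := ⟨_, mem_psi A⟩
  map_one' := by
    apply Subtype.ext
    simp
  map_mul' A B := by
    apply Subtype.ext
    change fromBlocks _ _ _ _ = fromBlocks _ _ _ _ * fromBlocks _ _ _ _
    rw [fromBlocks_multiply]
    simp [_root_.mul_inv_rev, Matrix.transpose_mul]

theorem psi_inj : Function.Injective (psi (F := F) (m := m)) := by
  intro A B h
  have h1 := congrArg (fun g : Matrix.symplecticGroup (Fin m) F =>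
    (g : Matrix (Fin m ⊕ Fin m) (Fin m ⊕ Fin m) F).toBlocks₁₁) h
  apply Units.ext
  simpa [psi] using h1

theorem range_psi : (psi (F := F) (m := m)).range =
    Cfsg.stabilizing (Cfsg.spToMat m F) {v : Fin m ⊕ Fin m → F | ∀ i : Fin m, v (Sum.inr i) = 0} ⊓
      Cfsg.stabilizing (Cfsg.spToMat m F) {v : Fin m ⊕ Fin m → F | ∀ i : Fin m, v (Sum.inl i) = 0} := by
  ext g
  constructor
  · rintro ⟨A, rfl⟩
    have hA1 : (A : Matrix (Fin m) (Fin m) F)ᵀ * ((A⁻¹ : Matrix.GeneralLinearGroup (Fin m) F) :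
        Matrix (Fin m) (Fin m) F)ᵀ = 1 := by
      rw [← Matrix.transpose_mul, ← Units.val_mul, inv_mul_cancel]; simp
    have hA2 : ((A⁻¹ : Matrix.GeneralLinearGroup (Fin m) F) : Matrix (Fin m) (Fin m) F) *
        (A : Matrix (Fin m) (Fin m) F) = 1 := by
      rw [← Units.val_mul, inv_mul_cancel]; simp
    constructor
    · intro v
      change (∀ i, v (Sum.inr i) = 0) ↔ ∀ i, ((fromBlocks (A : Matrix (Fin m) (Fin m) F) 0 0
        ((A⁻¹ : Matrix.GeneralLinearGroup (Fin m) F) : Matrix (Fin m) (Fin m) F)ᵀ) *ᵥ v) (Sum.inr i) = 0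
      rw [fromBlocks_mulVec]
      simp only [Sum.elim_inr, zero_mulVec, zero_add]
      constructor
      · intro h i
        have : v ∘ Sum.inr = 0 := funext h
        rw [this, mulVec_zero]; rfl
      · intro h i
        have h1 : ((A⁻¹ : Matrix.GeneralLinearGroup (Fin m) F) : Matrix (Fin m) (Fin m) F)ᵀ *ᵥ
          (v ∘ Sum.inr) = 0 := funext h
        have h2 := congrArg (fun w => (A : Matrix (Fin m) (Fin m) F)ᵀ *ᵥ w) h1
        simp only [mulVec_mulVec, hA1, one_mulVec, mulVec_zero] at h2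
        exact congrFun h2 i
    · intro v
      change (∀ i, v (Sum.inl i) = 0) ↔ ∀ i, ((fromBlocks (A : Matrix (Fin m) (Fin m) F) 0 0
        ((A⁻¹ : Matrix.GeneralLinearGroup (Fin m) F) : Matrix (Fin m) (Fin m) F)ᵀ) *ᵥ v) (Sum.inl i) = 0
      rw [fromBlocks_mulVec]
      simp only [Sum.elim_inl, zero_mulVec, add_zero]
      constructor
      · intro h i
        have : v ∘ Sum.inl = 0 := funext h
        rw [this, mulVec_zero]; rfl
      · intro h i
        have h1 : (A : Matrix (Fin m) (Fin m) F) *ᵥ (v ∘ Sum.inl) = 0 := funext h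
        have h2 := congrArg (fun w => ((A⁻¹ : Matrix.GeneralLinearGroup (Fin m) F) :
          Matrix (Fin m) (Fin m) F) *ᵥ w) h1
        simp only [mulVec_mulVec, hA2, one_mulVec, mulVec_zero] at h2
        exact congrFun h2 i
  · rintro ⟨h1, h2⟩
    obtain ⟨g, hg⟩ := g
    have hC : g.toBlocks₂₁ = 0 := by
      ext i j
      have h3 := (h1 (Pi.single (Sum.inl j) 1)).1 (by intro i; simp) i
      change (g *ᵥ Pi.single (Sum.inl j) 1) (Sum.inr i) = 0 at h3
      rw [mulVec_single_one] at h3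
      exact h3
    have hB : g.toBlocks₁₂ = 0 := by
      ext i j
      have h3 := (h2 (Pi.single (Sum.inr j) 1)).1 (by intro i; simp) i
      change (g *ᵥ Pi.single (Sum.inr j) 1) (Sum.inl i) = 0 at h3
      rw [mulVec_single_one] at h3
      exact h3
    have hgb : g = fromBlocks g.toBlocks₁₁ 0 0 g.toBlocks₂₂ := by
      conv_lhs => rw [← fromBlocks_toBlocks g, hC, hB]
    have hg' := hg
    rw [hgb, SymplecticGroup.fromBlocks_mem_iff] at hg'
    have h4 : g.toBlocks₁₁ᵀ * g.toBlocks₂₂ = 1 := by simpa using hg'.2.2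
    have h5 : g.toBlocks₂₂ᵀ * g.toBlocks₁₁ = 1 := by
      have := congrArg Matrix.transpose h4
      rwa [Matrix.transpose_mul, Matrix.transpose_transpose, Matrix.transpose_one] at this
    refine ⟨⟨g.toBlocks₁₁, g.toBlocks₂₂ᵀ, _root_.mul_eq_one_comm.1 h5, h5⟩, ?_⟩
    apply Subtype.ext
    change fromBlocks g.toBlocks₁₁ 0 0 (g.toBlocks₂₂ᵀ)ᵀ = g
    rw [Matrix.transpose_transpose, ← hgb]

theorem result {F : Type*} [Field F] (m : ℕ) : Nonempty (↥(Cfsg.stabilizing (Cfsg.spToMat m F) {v : Fin m ⊕ Fin m → F | ∀ i : Fin m, v (Sum.inr i) = 0} ⊓ Cfsg.stabilizing (Cfsg.spToMat m F) {v : Fin m ⊕ Fin m → F | ∀ i : Fin m, v (Sum.inl i) = 0}) ≃* Matrix.GeneralLinearGroup (Fin m) F) :=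
  ⟨((MonoidHom.ofInjective psi_inj).trans (MulEquiv.subgroupCongr range_psi)).symm⟩

end Cfsg.Agent.S0778
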