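import Cfsg.Statements.S0779
import Cfsg.Agent.Lib.Helper5_UGroup

set_option autoImplicit false

open Cfsg

namespace Cfsg.Agent.S0779

open Matrix Cfsg.Agent.Lib.Helper5_UField Cfsg.Agent.Lib.Helper5_UForm Cfsg.Agent.Lib.Helper5_UCount
  Cfsg.Agent.Lib.Helper5_UGroup

variable {F : Type*} [Field F] [Fintype F] {q n : ℕ}

theorem ut_form (hF : Fintype.card F = q ^ 2) (d : Fin n → F) (c : F) (x y : Fin n → F) :
    hermForm n F q (unitaryTransvection n q d c *ᵥ x) (unitaryTransvection n q d c *ᵥ y) =
      hermForm n F q x y + hermForm n F q x d * hermForm n F q d y *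
        (c + c ^ q + c ^ (q + 1) * hermForm n F q d d) := by
  rw [ut_mulVec, ut_mulVec, add_left, add_right hF, add_right hF, smul_left, smul_left, smul_right,
    smul_right, mul_pow, conj hF y d]
  ring

theorem result {F : Type*} [Field F] [Fintype F] {q : ℕ} (hF : Fintype.card F = q ^ 2) (n : ℕ) (v : Fin n → F) (hv : v ≠ 0) (hv0 : Cfsg.hermForm n F q v v = 0) (c : F) : (∀ x y : Fin n → F, Cfsg.hermForm n F q ((Cfsg.unitaryTransvection n q v c).mulVec x) ((Cfsg.unitaryTransvection n q v c).mulVec y) = Cfsg.hermForm n F q x y) ↔ (c = 0 ∨ c ^ (q - 1) = -1) := by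
  have h2 := two_le hF
  have hq : c ^ q = c ^ (q - 1) * c := by
    rw [← pow_succ]
    congr 1
    omega
  constructor
  · intro h
    obtain ⟨x, hx⟩ : ∃ x, hermForm n F q x v ≠ 0 := by
      by_contra hcon
      push Not at hcon
      exact hv (nondeg_right hF v hcon)
    have h1 := h x x
    rw [ut_form hF, hv0, mul_zero, add_zero] at h1
    have h3 : hermForm n F q x v * hermForm n F q v x * (c + c ^ q) = 0 := by
      have := h1
      rwa [add_eq_left] at this
    have hx' : hermForm n F q v x ≠ 0 := by
      rw [← conj hF]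
      exact pow_ne_zero _ hx
    have h4 : c + c ^ q = 0 := by
      rcases mul_eq_zero.1 h3 with h5 | h5
      · exact absurd h5 (mul_ne_zero hx hx')
      · exact h5
    by_cases hc : c = 0
    · exact Or.inl hc
    · right
      rw [hq] at h4
      have h5 : (c ^ (q - 1) + 1) * c = 0 := by
        rw [add_mul, one_mul, add_comm]; exact h4
      rcases mul_eq_zero.1 h5 with h6 | h6
      · exact eq_neg_of_add_eq_zero_left h6
      · exact absurd h6 hc
  · intro h x y
    rw [ut_form hF, hv0, mul_zero, add_zero]
    have h4 : c + c ^ q = 0 := by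
      rcases h with h | h
      · rw [h, zero_pow (by omega), add_zero]
      · rw [hq, h]; ring
    rw [h4, mul_zero, add_zero]

end Cfsg.Agent.S0779
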