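import Cfsg.Statements.S0781
import Cfsg.Agent.Lib.Helper5_UPair

set_option autoImplicit false

open Cfsg

namespace Cfsg.Agent.S0781

open Module Matrix Cfsg.Agent.Lib.Helper5_UField Cfsg.Agent.Lib.Helper5_UForm
  Cfsg.Agent.Lib.Helper5_UGroup Cfsg.Agent.Lib.Helper5_ULin Cfsg.Agent.Lib.Helper5_UTrace
  Cfsg.Agent.Lib.Helper5_GLPar Cfsg.Agent.Lib.Helper5_UGen Cfsg.Agent.Lib.Helper5_USub
  Cfsg.Agent.Lib.Helper5_USieg Cfsg.Agent.Lib.Helper5_UPair

variable {F : Type*} [Field F] [Fintype F] {q n : ℕ}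

/-- an element of `SU` from an element of `GL` -/
theorem toSU (g : Matrix.GeneralLinearGroup (Fin n) F) (hG : g ∈ GU n F q)
    (hS : g ∈ Cfsg.Geo.specialLinear (Fin n) F) :
    ∃ a : ↥(Cfsg.SU n F q), ((a : Matrix.SpecialLinearGroup (Fin n) F) :
      Matrix (Fin n) (Fin n) F) = (g : Matrix (Fin n) (Fin n) F) :=
  ⟨⟨⟨g.1, (Cfsg.Agent.Lib.Helper5_GLTv.mem_SL_iff g).1 hS⟩, hG⟩, rfl⟩

theorem result {F : Type*} [Field F] [Fintype F] {q : ℕ} (hF : Fintype.card F = q ^ 2) (n : ℕ) (hn : 4 ≤ n ∨ (n = 3 ∧ 3 ≤ q)) (A : ↥(Cfsg.SU n F q)) (v : Fin n → F) (c : F) (hv0 : Cfsg.hermForm n F q v v = 0) (hA : ((A : Matrix.SpecialLinearGroup (Fin n) F) : Matrix (Fin n) (Fin n) F) = Cfsg.unitaryTransvection n q v c) : A ∈ commutatorSet ↥(Cfsg.SU n F q) := by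
  have hn3 : 3 ≤ n := by omega
  by_cases hv : v = 0
  · refine ⟨1, 1, ?_⟩
    rw [commutatorElement_self]
    apply Subtype.ext
    apply Subtype.ext
    rw [hA, hv]
    simp [unitaryTransvection]
  have hc : c + c ^ q = 0 := by
    obtain ⟨u, hu⟩ : ∃ u, hermForm n F q u v ≠ 0 := by
      by_contra hcon
      push Not at hcon
      exact hv (nondeg_right hF v hcon)
    have h1 : hermForm n F q
        (((A : Matrix.SpecialLinearGroup (Fin n) F) : Matrix (Fin n) (Fin n) F) *ᵥ u)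
        (((A : Matrix.SpecialLinearGroup (Fin n) F) : Matrix (Fin n) (Fin n) F) *ᵥ u) =
        hermForm n F q u u := A.2 u u
    rw [hA, ut_mulVec, add_left, add_right hF, add_right hF, smul_left, smul_right, smul_right,
      smul_left, hv0, mul_pow, conj hF u v] at h1
    have h2 : (c + c ^ q) * (hermForm n F q u v * hermForm n F q v u) = 0 := by
      linear_combination h1
    exact (mul_eq_zero.1 h2).resolve_right (mul_ne_zero hu (ne_swap hF hu))
  have hcq : c ^ q = -c := by linear_combination hc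
  obtain ⟨l, hl⟩ := exists_l hF
  have hd : l - l ^ q ≠ 0 := sub_ne_zero.2 (Ne.symm hl)
  obtain ⟨d0, hd0, hd00⟩ := exNU hF ![v] (by omega) 1 (one_pow _)
  have hd0v : hermForm n F q d0 v = 0 := hd0 0
  obtain ⟨θ, hθ⟩ : ∃ θ, θ = c * l / (l - l ^ q) := ⟨_, rfl⟩
  have hθq : θ - θ ^ q = c := by
    have hdq : (l - l ^ q) ^ q = -(l - l ^ q) := by
      rw [sub_pow hF, pow_pow hF]; ring
    rw [hθ, div_pow, mul_pow, hcq, hdq]
    field_simp
  have hdv : hermForm n F q (θ • d0) v = 0 := by rw [smul_left, hd0v, mul_zero]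
  obtain ⟨γ, hγ⟩ := exists_tr hF (-hermForm n F q (θ • d0) (θ • d0)) (by
    rw [neg_pow hF, self_fixed hF])
  obtain ⟨γ', hγ'⟩ := exists_tr hF (-hermForm n F q d0 d0) (by rw [neg_pow hF, self_fixed hF])
  obtain ⟨g1, hg1G, hg1S, hg1⟩ := exists_sg hF v (θ • d0) γ hv0 hdv (by rw [hγ]; ring)
  obtain ⟨g2, hg2G, hg2S, hg2⟩ := exists_sg hF v d0 γ' hv0 hd0v (by rw [hγ']; ring)
  obtain ⟨t, ht⟩ := Cfsg.Agent.Lib.Helper5_UGen.exists_tv hF v c hv0 hc
  have hcomm := sg_comm hF hv0 hdv hd0v hg1 hg2 (t := t) (by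
    intro z
    rw [smul_left, smul_right, hd00, mul_one, mul_one, hθq]
    exact ht.2.2 z)
  obtain ⟨a, ha⟩ := toSU g1 hg1G hg1S
  obtain ⟨b, hb⟩ := toSU g2 hg2G hg2S
  have htA : (t : Matrix (Fin n) (Fin n) F) =
      ((A : Matrix.SpecialLinearGroup (Fin n) F) : Matrix (Fin n) (Fin n) F) := by
    apply Matrix.toLin'.injective
    apply LinearMap.ext
    intro z
    rw [Matrix.toLin'_apply, Matrix.toLin'_apply, hA, ut_mulVec, ht.2.2]
  have key : a * b = A * b * a := by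
    apply Subtype.ext
    apply Subtype.ext
    have := congrArg Units.val hcomm
    rw [Units.val_mul, Units.val_mul, Units.val_mul, htA, ← ha, ← hb] at this
    exact this
  refine ⟨a, b, ?_⟩
  rw [commutatorElement_def, key]
  group

end Cfsg.Agent.S0781
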