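import Cfsg.Statements.S0783
import Cfsg.Agent.Lib.Helper5_UCenter

set_option autoImplicit false

open Cfsg

namespace Cfsg.Agent.S0783

open Matrix Cfsg.Agent.Lib.Helper5_UField Cfsg.Agent.Lib.Helper5_UForm
  Cfsg.Agent.Lib.Helper5_UCount Cfsg.Agent.Lib.Helper5_UGroup Cfsg.Agent.Lib.Helper5_UDet
  Cfsg.Agent.Lib.Helper5_UCenter

variable {F : Type*} [Field F] [Fintype F] {q n : ℕ}

/-- norm one elements -/
abbrev mu (F : Type*) [Field F] (q : ℕ) : Subgroup Fˣ := (powMonoidHom (q + 1) : Fˣ →* Fˣ).ker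

theorem mu_val (a : ↥(mu F q)) : ((a : Fˣ) : F) ^ (q + 1) = 1 := by
  have := congrArg Units.val (MonoidHom.mem_ker.1 a.2)
  rwa [powMonoidHom_apply, Units.val_pow_eq_pow_val, Units.val_one] at this

def det' (hF : Fintype.card F = q ^ 2) (n : ℕ) : ↥(GU n F q) →* ↥(mu F q) :=
  (detGU F q n).codRestrict (mu F q) (fun g => by
    rw [MonoidHom.mem_ker, powMonoidHom_apply]
    apply Units.ext
    rw [Units.val_pow_eq_pow_val, detGU_val, Units.val_one]
    exact det_norm hF _ g.2)

theorem det'_surj (hF : Fintype.card F = q ^ 2) (hn : 1 ≤ n) : Function.Surjective (det' hF n) := by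
  intro a
  have h1 : (a : Fˣ) ∈ (detGU F q n).range := by
    rw [range_detGU hF hn]; exact a.2
  obtain ⟨g, hg⟩ := h1
  exact ⟨g, Subtype.ext hg⟩

/-- scalar elements of `GU` -/
noncomputable def scalGU (hF : Fintype.card F = q ^ 2) (n : ℕ) (a : ↥(mu F q)) : ↥(GU n F q) :=
  mkGU hF (((a : Fˣ) : F) • (1 : Matrix (Fin n) (Fin n) F)) (smul_pres _ (mu_val a))

theorem scalGU_mem (hF : Fintype.card F = q ^ 2) (n : ℕ) (a : ↥(mu F q)) :
    scalGU hF n a ∈ Subgroup.center ↥(GU n F q) := by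
  rw [Subgroup.mem_center_iff]
  intro g
  apply Subtype.ext
  apply Units.ext
  change g.1.1 * (((a : Fˣ) : F) • (1 : Matrix (Fin n) (Fin n) F)) =
    (((a : Fˣ) : F) • (1 : Matrix (Fin n) (Fin n) F)) * g.1.1
  rw [Matrix.mul_smul, Matrix.smul_mul, mul_one, one_mul]

theorem det'_scalGU (hF : Fintype.card F = q ^ 2) (n : ℕ) (a : ↥(mu F q)) :
    det' hF n (scalGU hF n a) = a ^ n := by
  apply Subtype.ext
  apply Units.ext
  change (((a : Fˣ) : F) • (1 : Matrix (Fin n) (Fin n) F)).det = _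
  rw [det_smul, det_one, mul_one, Fintype.card_fin]
  simp

theorem center_scalar (hF : Fintype.card F = q ^ 2) (hn : 2 ≤ n) (z : ↥(GU n F q))
    (hz : z ∈ Subgroup.center ↥(GU n F q)) : ∃ a : ↥(mu F q), z = scalGU hF n a := by
  obtain ⟨a, ha⟩ := scalar_of_commute hF hn z.1.1 (by
    intro M hdet hM
    have h2 := (Subgroup.mem_center_iff.1 hz) (mkGU hF M hM)
    have h3 := congrArg (fun s : ↥(GU n F q) => s.1.1) h2
    exact h3.symm)
  have hnorm : a ^ (q + 1) = 1 := by
    have h4 : Pres F q n z.1.1 := z.2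
    have := h4 (Pi.single ⟨0, by omega⟩ 1) (Pi.single ⟨0, by omega⟩ 1)
    rw [ha, smul_mulVec, one_mulVec, self_smul, single_right hF, Pi.single_eq_same, mul_one] at this
    exact this
  have ha0 : a ≠ 0 := by
    rintro rfl
    rw [zero_pow (Nat.succ_ne_zero q)] at hnorm
    exact zero_ne_one hnorm
  refine ⟨⟨Units.mk0 a ha0, ?_⟩, ?_⟩
  · rw [MonoidHom.mem_ker, powMonoidHom_apply]
    apply Units.ext
    rw [Units.val_pow_eq_pow_val, Units.val_mk0, hnorm, Units.val_one]
  · apply Subtype.ext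
    apply Units.ext
    exact ha

theorem result {F : Type*} [Field F] [Fintype F] {q : ℕ} (hF : Fintype.card F = q ^ 2) (n : ℕ) (hn : 2 ≤ n) : ∃ φ : ↥(Cfsg.GU n F q) →* Multiplicative (ZMod (Nat.gcd n (q + 1))), Function.Surjective φ ∧ φ.ker = (Matrix.GeneralLinearGroup.det : Matrix.GeneralLinearGroup (Fin n) F →* Fˣ).ker.subgroupOf (Cfsg.GU n F q) ⊔ Subgroup.center ↥(Cfsg.GU n F q) := by
  classical
  let R : Subgroup ↥(mu F q) := (powMonoidHom n : ↥(mu F q) →* ↥(mu F q)).range
  have hgpos : 0 < Nat.gcd n (q + 1) := Nat.gcd_pos_of_pos_right _ (Nat.succ_pos q)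
  have : NeZero (Nat.gcd n (q + 1)) := ⟨hgpos.ne'⟩
  have hcard : Nat.card (↥(mu F q) ⧸ R) = Nat.card (Multiplicative (ZMod (Nat.gcd n (q + 1)))) := by
    have h1 : R.index = Nat.gcd n (q + 1) := by
      rw [IsCyclic.index_powMonoidHom_range, card_norm_one_units hF, Nat.gcd_comm]
    rw [← Subgroup.index_eq_card, h1, Nat.card_eq_fintype_card, Fintype.card_multiplicative, ZMod.card]
  let e : (↥(mu F q) ⧸ R) ≃* Multiplicative (ZMod (Nat.gcd n (q + 1))) := mulEquivOfCyclicCardEq hcard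
  refine ⟨e.toMonoidHom.comp ((QuotientGroup.mk' R).comp (det' hF n)), ?_, ?_⟩
  · exact e.surjective.comp ((QuotientGroup.mk'_surjective R).comp (det'_surj hF (by omega)))
  · ext x
    rw [MonoidHom.mem_ker]
    have h1 : (e.toMonoidHom.comp ((QuotientGroup.mk' R).comp (det' hF n))) x = 1 ↔ det' hF n x ∈ R := by
      change e (QuotientGroup.mk' R (det' hF n x)) = 1 ↔ _
      rw [EmbeddingLike.map_eq_one_iff, QuotientGroup.mk'_apply, QuotientGroup.eq_one_iff]
    rw [h1]
    constructor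
    · rintro ⟨b, hb⟩
      rw [powMonoidHom_apply] at hb
      have h2 : x = (x * (scalGU hF n b)⁻¹) * scalGU hF n b := by group
      rw [h2]
      apply Subgroup.mul_mem_sup _ (scalGU_mem hF n b)
      rw [Subgroup.mem_subgroupOf, MonoidHom.mem_ker]
      have h3 : det' hF n (x * (scalGU hF n b)⁻¹) = 1 := by
        rw [map_mul, map_inv, det'_scalGU, hb, mul_inv_cancel]
      exact congrArg Subtype.val h3
    · intro hx
      have hle : (Matrix.GeneralLinearGroup.det : Matrix.GeneralLinearGroup (Fin n) F →* Fˣ).ker.subgroupOf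
          (Cfsg.GU n F q) ⊔ Subgroup.center ↥(Cfsg.GU n F q) ≤ R.comap (det' hF n) := by
        rw [sup_le_iff]
        constructor
        · intro y hy
          rw [Subgroup.mem_subgroupOf, MonoidHom.mem_ker] at hy
          rw [Subgroup.mem_comap]
          have : det' hF n y = 1 := Subtype.ext hy
          rw [this]
          exact R.one_mem
        · intro y hy
          obtain ⟨a, rfl⟩ := center_scalar hF hn y hy
          rw [Subgroup.mem_comap, det'_scalGU]
          exact ⟨a, rfl⟩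
      exact hle hx

end Cfsg.Agent.S0783
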