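import Cfsg.Statements.S0785
import Cfsg.Agent.Lib.Helper5_GLTv

set_option autoImplicit false

open Cfsg

namespace Cfsg.Agent.S0785

open Matrix Cfsg.Agent.Lib.Helper5_GLTv

variable {F : Type*} [Field F] {n : ℕ}

theorem det_sq (Q : QuadraticForm F (Fin n → F)) (hQ : (QuadraticMap.polarBilin Q).Nondegenerate)
    (A : Matrix (Fin n) (Fin n) F) (hA : ∀ u, Q (A *ᵥ u) = Q u) : A.det = 1 ∨ A.det = -1 := by
  have hdet : (LinearMap.BilinForm.toMatrix' (QuadraticMap.polarBilin Q)).det ≠ 0 := by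
    rw [← Matrix.nondegenerate_iff_det_ne_zero]
    exact LinearMap.BilinForm.Nondegenerate.toMatrix' hQ
  have hcomp : LinearMap.BilinForm.comp (QuadraticMap.polarBilin Q) (Matrix.toLin' A)
      (Matrix.toLin' A) = QuadraticMap.polarBilin Q := by
    refine LinearMap.ext₂ (fun u v => ?_)
    rw [LinearMap.BilinForm.comp_apply, QuadraticMap.polarBilin_apply_apply,
      QuadraticMap.polarBilin_apply_apply, QuadraticMap.polar, QuadraticMap.polar, toLin'_apply,
      toLin'_apply, ← mulVec_add, hA, hA, hA]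
  have h1 : Aᵀ * LinearMap.BilinForm.toMatrix' (QuadraticMap.polarBilin Q) * A
      = LinearMap.BilinForm.toMatrix' (QuadraticMap.polarBilin Q) := by
    have := LinearMap.BilinForm.toMatrix'_comp (QuadraticMap.polarBilin Q) (Matrix.toLin' A)
      (Matrix.toLin' A)
    rw [hcomp, LinearMap.toMatrix'_toLin'] at this
    exact this.symm
  have h2 := congrArg Matrix.det h1
  rw [det_mul, det_mul, det_transpose] at h2
  have h3 : A.det * A.det = 1 := by
    have : (A.det * A.det - 1) *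
        (LinearMap.BilinForm.toMatrix' (QuadraticMap.polarBilin Q)).det = 0 := by
      linear_combination h2
    rcases mul_eq_zero.1 this with h | h
    · linear_combination h
    · exact absurd h hdet
  exact mul_self_eq_one_iff.1 h3

theorem exists_refl (Q : QuadraticForm F (Fin n → F)) (v : Fin n → F) (hv : Q v ≠ 0) :
    ∃ R : Matrix (Fin n) (Fin n) F, R.det = -1 ∧ ∀ u, Q (R *ᵥ u) = Q u := by
  obtain ⟨φ, hφ⟩ : ∃ φ : Fin n → F, ∀ x, φ ⬝ᵥ x = -(Q v)⁻¹ * QuadraticMap.polar Q x v := by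
    refine ⟨(-(Q v)⁻¹) • (LinearMap.BilinForm.toMatrix' (QuadraticMap.polarBilin Q) *ᵥ v),
      fun x => ?_⟩
    rw [smul_dotProduct, smul_eq_mul, dotProduct_comm, ← Matrix.toBilin'_apply',
      Matrix.toBilin'_toMatrix', QuadraticMap.polarBilin_apply_apply]
  refine ⟨tvM v φ, ?_, fun u => ?_⟩
  · rw [tvM, vecMulVec_eq Unit, det_one_add_replicateCol_mul_replicateRow, hφ,
      QuadraticMap.polar_self]
    field_simp
    ring
  · rw [tvM_mulVec, hφ, QuadraticMap.map_add Q, QuadraticMap.map_smul, QuadraticMap.polar_smul_right,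
      smul_eq_mul, smul_eq_mul]
    field_simp
    ring

theorem result {F : Type*} [Field F] {n : ℕ} (Q : QuadraticForm F (Fin n → F)) (hQ : (QuadraticMap.polarBilin Q).Nondegenerate) : (∀ g : ↥(Cfsg.isometryGroup F ⇑Q), ((g : Matrix.GeneralLinearGroup (Fin n) F) : Matrix (Fin n) (Fin n) F).det = 1 ∨ ((g : Matrix.GeneralLinearGroup (Fin n) F) : Matrix (Fin n) (Fin n) F).det = -1) ∧ ((∃ v, Q v ≠ 0) → ∃ g : ↥(Cfsg.isometryGroup F ⇑Q), ((g : Matrix.GeneralLinearGroup (Fin n) F) : Matrix (Fin n) (Fin n) F).det = -1) := by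
  refine ⟨fun g => det_sq Q hQ _ (fun u => g.2 u u), ?_⟩
  rintro ⟨v, hv⟩
  obtain ⟨R, hdet, hR⟩ := exists_refl Q v hv
  exact ⟨⟨Matrix.GeneralLinearGroup.mkOfDetNeZero R
    (by rw [hdet]; exact neg_ne_zero.2 one_ne_zero), fun u _ => hR u⟩, hdet⟩

end Cfsg.Agent.S0785
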