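import Cfsg.Statements.S0793
import Mathlib
import Cfsg.Agent.Lib.Helper2_Quad


set_option autoImplicit false
open Cfsg

namespace Cfsg.Agent.S0793

/-- Root elements: if Q(u) = Q(v) = 0 and f(u, v) = 0 (f the polar form), then for every c the Siegel matrix T_(u,v)(c) preserves Q, fixes u and v, and T(c) T(d) = T(c + d). -/
theorem result {F : Type*} [Field F] {n : ℕ} (Q : QuadraticForm F (Fin n → F)) (u v : Fin n → F) (hu : Q u = 0) (hv : Q v = 0) (huv : QuadraticMap.polar ⇑Q u v = 0) : (∀ c x, Q ((Cfsg.siegelMatrix ⇑Q u v c).mulVec x) = Q x) ∧ (∀ c, (Cfsg.siegelMatrix ⇑Q u v c).mulVec u = u ∧ (Cfsg.siegelMatrix ⇑Q u v c).mulVec v = v) ∧ ∀ c d, Cfsg.siegelMatrix ⇑Q u v c * Cfsg.siegelMatrix ⇑Q u v d = Cfsg.siegelMatrix ⇑Q u v (c + d) := by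
  have huu : QuadraticMap.polar ⇑Q u u = 0 := by
    rw [QuadraticMap.polar_self, hu]; simp
  have hvv : QuadraticMap.polar ⇑Q v v = 0 := by
    rw [QuadraticMap.polar_self, hv]; simp
  have hvu : QuadraticMap.polar ⇑Q v u = 0 := by
    rw [QuadraticMap.polar_comm]; exact huv
  refine ⟨?_, ?_, ?_⟩
  · intro c x
    rw [Cfsg.Agent.Lib.Helper2_Quad.siegel_mulVec, Cfsg.Agent.Lib.Helper2_Quad.map_sub_smul,
      QuadraticMap.map_add (⇑Q), QuadraticMap.map_smul, QuadraticMap.polar_add_left,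
      QuadraticMap.polar_smul_left, QuadraticMap.polar_smul_right, hu, hv, hvu,
      QuadraticMap.polar_comm ⇑Q x v, QuadraticMap.polar_comm ⇑Q x u]
    simp only [smul_eq_mul]
    ring
  · intro c
    constructor
    · rw [Cfsg.Agent.Lib.Helper2_Quad.siegel_mulVec, huu, hvu]; simp
    · rw [Cfsg.Agent.Lib.Helper2_Quad.siegel_mulVec, huv, hvv]; simp
  · intro c d
    unfold Cfsg.siegelMatrix
    set N := Matrix.vecMulVec v (Cfsg.polarVec ⇑Q u) - Matrix.vecMulVec u (Cfsg.polarVec ⇑Q v) with hN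
    have hNN : N * N = 0 := by
      rw [hN, sub_mul, mul_sub, mul_sub]
      simp only [Matrix.vecMulVec_mul_vecMulVec, Cfsg.Agent.Lib.Helper2_Quad.polarVec_dot, huu, hvv,
        huv, hvu, zero_smul, Matrix.vecMulVec_zero, sub_zero]
    rw [add_mul, mul_add, mul_add, one_mul, mul_one, one_mul, smul_mul_smul_comm, hNN, smul_zero,
      add_zero, add_smul, add_assoc, add_comm (d • _)]

end Cfsg.Agent.S0793
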