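import Cfsg.Statements.S0794
import Cfsg.Agent.S0793
import Cfsg.Agent.S0785
import Cfsg.Agent.Lib.Helper2_Quad
import Cfsg.Agent.Lib.Helper5_GLTv

set_option autoImplicit false

open Cfsg

namespace Cfsg.Agent.S0794

open Matrix Cfsg.Agent.Lib.Helper2_Quad

variable {F : Type*} [Field F] {n : ℕ}

theorem mat_ext (A B : Matrix (Fin n) (Fin n) F) (h : ∀ x, A *ᵥ x = B *ᵥ x) : A = B := by
  apply Matrix.toLin'.injective
  apply LinearMap.ext
  intro x
  rw [Matrix.toLin'_apply, Matrix.toLin'_apply, h]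

/-- every functional is represented by the polar form -/
theorem exists_rep (Q : QuadraticForm F (Fin n → F))
    (hQ : (QuadraticMap.polarBilin Q).Nondegenerate) (ψ : Fin n → F) :
    ∃ w, ∀ x, QuadraticMap.polar ⇑Q x w = ψ ⬝ᵥ x := by
  have hdet : (LinearMap.BilinForm.toMatrix' (QuadraticMap.polarBilin Q)).det ≠ 0 := by
    rw [← Matrix.nondegenerate_iff_det_ne_zero]
    exact LinearMap.BilinForm.Nondegenerate.toMatrix' hQ
  refine ⟨(LinearMap.BilinForm.toMatrix' (QuadraticMap.polarBilin Q))⁻¹ *ᵥ ψ, fun x => ?_⟩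
  have e : ∀ y, QuadraticMap.polar ⇑Q x y
      = x ⬝ᵥ LinearMap.BilinForm.toMatrix' (QuadraticMap.polarBilin Q) *ᵥ y := by
    intro y
    rw [← Matrix.toBilin'_apply', Matrix.toBilin'_toMatrix', QuadraticMap.polarBilin_apply_apply]
  rw [e, mulVec_mulVec, Matrix.mul_nonsing_inv _ (isUnit_iff_ne_zero.2 hdet), one_mulVec,
    dotProduct_comm]

theorem exists_partner (Q : QuadraticForm F (Fin n → F))
    (hQ : (QuadraticMap.polarBilin Q).Nondegenerate) (u v : Fin n → F) (hu : Q u = 0)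
    (huv : QuadraticMap.polar ⇑Q u v = 0) (hnot : u ∉ Submodule.span F {v}) :
    ∃ u', Q u' = 0 ∧ QuadraticMap.polar ⇑Q u u' = 1 ∧ QuadraticMap.polar ⇑Q v u' = 0 := by
  obtain ⟨ψ, h1, h2⟩ := Cfsg.Agent.Lib.Helper5_GLTv.exists_dual (Submodule.span F {v}) u hnot
  obtain ⟨w, hw⟩ := exists_rep Q hQ ψ
  have huw : QuadraticMap.polar ⇑Q u w = 1 := by rw [hw, h2]
  have hvw : QuadraticMap.polar ⇑Q v w = 0 := by
    rw [hw, h1 v (Submodule.mem_span_singleton_self v)]
  refine ⟨w - Q w • u, ?_, ?_, ?_⟩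
  · rw [map_sub_smul, hu, QuadraticMap.polar_comm ⇑Q w u, huw]; ring
  · rw [QuadraticMap.polar_sub_right, QuadraticMap.polar_smul_right, QuadraticMap.polar_self, hu,
      huw]
    simp
  · rw [QuadraticMap.polar_sub_right, QuadraticMap.polar_smul_right,
      QuadraticMap.polar_comm ⇑Q v u, huv, hvw]
    simp

/-- minus one on the hyperbolic plane of `u, u'` -/
def hM (Q : QuadraticForm F (Fin n → F)) (u u' : Fin n → F) : Matrix (Fin n) (Fin n) F :=
  1 - (2 : F) • (vecMulVec u (Cfsg.polarVec ⇑Q u') + vecMulVec u' (Cfsg.polarVec ⇑Q u))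

theorem hM_mulVec (Q : QuadraticForm F (Fin n → F)) (u u' x : Fin n → F) :
    hM Q u u' *ᵥ x = x - (2 * QuadraticMap.polar ⇑Q u' x) • u
      - (2 * QuadraticMap.polar ⇑Q u x) • u' := by
  unfold hM
  rw [sub_mulVec, one_mulVec, smul_mulVec, add_mulVec, vecMulVec_mulVec, vecMulVec_mulVec,
    polarVec_dot, polarVec_dot, smul_add, mul_smul, mul_smul, sub_sub]
  simp

theorem hM_isom (Q : QuadraticForm F (Fin n → F)) (u u' : Fin n → F) (hu : Q u = 0)
    (hu' : Q u' = 0) (huu' : QuadraticMap.polar ⇑Q u u' = 1) (x : Fin n → F) :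
    Q (hM Q u u' *ᵥ x) = Q x := by
  rw [hM_mulVec, map_sub_smul, map_sub_smul, hu, hu', QuadraticMap.polar_sub_left,
    QuadraticMap.polar_smul_left, huu', QuadraticMap.polar_comm ⇑Q x u,
    QuadraticMap.polar_comm ⇑Q x u', smul_eq_mul]
  ring

theorem key (Q : QuadraticForm F (Fin n → F)) (u v u' : Fin n → F) (hu : Q u = 0)
    (huv : QuadraticMap.polar ⇑Q u v = 0)
    (huu' : QuadraticMap.polar ⇑Q u u' = 1) (hvu' : QuadraticMap.polar ⇑Q v u' = 0) (d : F)
    (x : Fin n → F) :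
    hM Q u u' *ᵥ (Cfsg.siegelMatrix ⇑Q u v d *ᵥ x)
      = Cfsg.siegelMatrix ⇑Q u v (-d) *ᵥ (hM Q u u' *ᵥ x) := by
  have huu : QuadraticMap.polar ⇑Q u u = 0 := by
    rw [QuadraticMap.polar_self, hu]; simp
  have hvu : QuadraticMap.polar ⇑Q v u = 0 := by
    rw [QuadraticMap.polar_comm]; exact huv
  have hu'u : QuadraticMap.polar ⇑Q u' u = 1 := by
    rw [QuadraticMap.polar_comm]; exact huu'
  have hu'v : QuadraticMap.polar ⇑Q u' v = 0 := by
    rw [QuadraticMap.polar_comm]; exact hvu'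
  rw [siegel_mulVec, hM_mulVec, hM_mulVec, siegel_mulVec]
  simp only [QuadraticMap.polar_add_right, QuadraticMap.polar_sub_right,
    QuadraticMap.polar_smul_right, smul_eq_mul, huu, hvu, hu'u, hu'v, huv, huu', hvu']
  module

theorem result {F : Type*} [Field F] [Fintype F] (h2 : (2 : F) ≠ 0) {n : ℕ} (hn : 5 ≤ n) (Q : QuadraticForm F (Fin n → F)) (hQ : (QuadraticMap.polarBilin Q).Nondegenerate) (u v : Fin n → F) (hu : Q u = 0) (hv : Q v = 0) (huv : QuadraticMap.polar ⇑Q u v = 0) (c : F) (g : ↥(Cfsg.isometryGroup F ⇑Q)) (hg : ((g : Matrix.GeneralLinearGroup (Fin n) F) : Matrix (Fin n) (Fin n) F) = Cfsg.siegelMatrix ⇑Q u v c) : g ∈ commutatorSet ↥(Cfsg.isometryGroup F ⇑Q) ∧ g ∈ Cfsg.Omega F ⇑Q := by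
  suffices hs : g ∈ commutatorSet ↥(Cfsg.isometryGroup F ⇑Q) by
    refine ⟨hs, ?_⟩
    unfold Cfsg.Omega
    rw [commutator_eq_closure]
    exact Subgroup.subset_closure hs
  by_cases hdep : u ∈ Submodule.span F {v}
  · obtain ⟨a, rfl⟩ := Submodule.mem_span_singleton.1 hdep
    have hg1 : g = 1 := by
      apply Subtype.ext
      apply Units.ext
      rw [hg]
      apply mat_ext
      intro x
      rw [siegel_mulVec, QuadraticMap.polar_smul_left, smul_eq_mul]
      simp only [Subgroup.coe_one, Units.val_one, one_mulVec]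
      module
    rw [hg1]
    exact ⟨1, 1, by simp⟩
  · obtain ⟨u', hu', huu', hvu'⟩ := exists_partner Q hQ u v hu huv hdep
    obtain ⟨d, hd⟩ : ∃ d : F, d = -(c / 2) := ⟨_, rfl⟩
    have hcd : c + d = -d := by
      rw [hd]; field_simp; ring
    have hS := Cfsg.Agent.S0793.result Q u v hu hv huv
    have hdetH : (hM Q u u').det ≠ 0 := by
      rcases Cfsg.Agent.S0785.det_sq Q hQ _ (hM_isom Q u u' hu hu' huu') with h | h
      · rw [h]; exact one_ne_zero
      · rw [h]; exact neg_ne_zero.2 one_ne_zero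
    have hdetS : (Cfsg.siegelMatrix ⇑Q u v d).det ≠ 0 := by
      rcases Cfsg.Agent.S0785.det_sq Q hQ _ (hS.1 d) with h | h
      · rw [h]; exact one_ne_zero
      · rw [h]; exact neg_ne_zero.2 one_ne_zero
    let a : ↥(Cfsg.isometryGroup F ⇑Q) :=
      ⟨Matrix.GeneralLinearGroup.mkOfDetNeZero (hM Q u u') hdetH,
        fun x _ => hM_isom Q u u' hu hu' huu' x⟩
    let b : ↥(Cfsg.isometryGroup F ⇑Q) :=
      ⟨Matrix.GeneralLinearGroup.mkOfDetNeZero (Cfsg.siegelMatrix ⇑Q u v d) hdetS,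
        fun x _ => hS.1 d x⟩
    have hab : a * b = g * b * a := by
      apply Subtype.ext
      apply Units.ext
      have e1 : (((a * b : ↥(Cfsg.isometryGroup F ⇑Q)) : Matrix.GeneralLinearGroup (Fin n) F) :
          Matrix (Fin n) (Fin n) F) = hM Q u u' * Cfsg.siegelMatrix ⇑Q u v d := rfl
      have e2 : (((g * b * a : ↥(Cfsg.isometryGroup F ⇑Q)) : Matrix.GeneralLinearGroup (Fin n) F) :
          Matrix (Fin n) (Fin n) F) = ((g : Matrix.GeneralLinearGroup (Fin n) F) :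
          Matrix (Fin n) (Fin n) F) * Cfsg.siegelMatrix ⇑Q u v d * hM Q u u' := rfl
      rw [e1, e2, hg, hS.2.2 c d, hcd]
      apply mat_ext
      intro x
      rw [← mulVec_mulVec, ← mulVec_mulVec]
      exact key Q u v u' hu huv huu' hvu' d x
    refine ⟨a, b, ?_⟩
    rw [commutatorElement_def, hab]
    group

end Cfsg.Agent.S0794
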