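import Cfsg.Statements.S0800
import Cfsg.Agent.Lib.Helper5_SL2Cent

set_option autoImplicit false

open Cfsg

namespace Cfsg.Agent.S0800

open Cfsg.Agent.Lib.Helper5_PSLSpec Cfsg.Agent.Lib.Helper5_PSL2Prod Cfsg.Agent.Lib.Helper5_SL2Cent
  Cfsg.Agent.Lib.Helper5_Card

variable {F : Type*} [Field F]

theorem norm_surj [Fintype F] (τ : F) (han : ∀ z : F × F, nf τ z = 0 → z = 0) (lam : F) :
    ∃ z : F × F, nf τ z = lam := by
  rcases Nat.even_or_odd (Fintype.card F) with he | ho
  · have h2 : ringChar F = 2 := (FiniteField.even_card_iff_char_two).2 (Nat.even_iff.1 he)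
    obtain ⟨μ, hμ⟩ := FiniteField.isSquare_of_char_two h2 lam
    exact ⟨(μ, 0), by simp [nf, hμ, pow_two]⟩
  · have h2 := two_ne ho
    have hτ : τ ^ 2 ≠ 4 := by
      intro h
      have h1 := han (τ, -2) (by unfold nf; simp only; linear_combination (-1 : F) * h)
      have h3 : (-2 : F) = 0 := congrArg Prod.snd h1
      apply h2
      linear_combination -h3
    obtain ⟨a, b, hab⟩ := exists_norm ho τ lam hτ
    exact ⟨(a, b), hab⟩

theorem card_sq_dvd [Fintype F] : Nat.card {s : F // s ^ 2 = 1} ∣ Fintype.card F - 1 := by
  classical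
  -- the subgroup of units of exponent two
  let φ : Fˣ →* Fˣ := powMonoidHom 2
  have h1 : Nat.card φ.ker ∣ Nat.card Fˣ := Subgroup.card_subgroup_dvd_card _
  rw [Nat.card_eq_fintype_card (α := Fˣ), Fintype.card_units] at h1
  have h2 : Nat.card {s : F // s ^ 2 = 1} = Nat.card φ.ker := by
    apply Nat.card_congr
    refine ⟨fun s => ⟨Units.mk0 s.1 (by
        intro h0
        have := s.2
        rw [h0] at this
        simp at this), by
        rw [MonoidHom.mem_ker]
        apply Units.ext
        simpa [φ] using s.2⟩,
      fun u => ⟨(u.1 : F), by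
        have := u.2
        rw [MonoidHom.mem_ker] at this
        have h3 := congrArg Units.val this
        simpa [φ] using h3⟩, ?_, ?_⟩
    · intro s; rfl
    · intro u; apply Subtype.ext; apply Units.ext; rfl
  rw [h2]; exact h1

theorem result {F : Type*} [Field F] [Fintype F] {q : ℕ} (hF : Fintype.card F = q) (p : ℕ) [Fact p.Prime] [CharP F p] (g : Matrix.SpecialLinearGroup (Fin 2) F) (hg : Nat.Coprime (orderOf g) p) : orderOf g ∣ q - 1 ∨ orderOf g ∣ q + 1 := by
  subst hF
  have hmem : g ∈ Subgroup.centralizer ({g} : Set (Matrix.SpecialLinearGroup (Fin 2) F)) := by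
    rw [Subgroup.mem_centralizer_singleton_iff]
  have hord : orderOf g ∣ Nat.card (Subgroup.centralizer ({g} : Set (Matrix.SpecialLinearGroup (Fin 2) F))) := by
    have := orderOf_dvd_natCard (⟨g, hmem⟩ : Subgroup.centralizer ({g} : Set (Matrix.SpecialLinearGroup (Fin 2) F)))
    rwa [Subgroup.orderOf_mk] at this
  by_cases hns : NS (g : Matrix (Fin 2) (Fin 2) F)
  · rw [card_centralizer g hns] at hord
    rcases aniso_or_root (g : Matrix (Fin 2) (Fin 2) F).trace with han | ⟨a, ha0, ha⟩
    · right
      rwa [card_nf_aniso _ han (fun lam _ => norm_surj _ han lam)] at hord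
    · left
      by_cases haa : a = a⁻¹
      · have ha2 : a ^ 2 = 1 := by
          field_simp at haa
          linear_combination haa
        have h2a : (g : Matrix (Fin 2) (Fin 2) F).trace = 2 * a := by
          rw [ha, ← haa]; ring
        rw [h2a, card_nf_double a ha2] at hord
        obtain ⟨n, hn⟩ := FiniteField.card F p
        have hcop : Nat.Coprime (orderOf g) (Fintype.card F) := by
          rw [hn.2]
          exact Nat.Coprime.pow_right _ hg
        exact (hcop.dvd_of_dvd_mul_right hord).trans card_sq_dvd
      · rwa [ha, card_nf_split a ha0 haa] at hord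
  · left
    unfold NS at hns
    push Not at hns
    obtain ⟨c, hc⟩ := hns
    have hdet := g.2
    rw [hc] at hdet
    have hc2 : c ^ 2 = 1 := by
      simpa [Matrix.det_smul] using hdet
    have hg2 : g ^ 2 = 1 := by
      apply Subtype.ext
      rw [Matrix.SpecialLinearGroup.coe_pow, hc, smul_pow, hc2]
      simp
    have h1 : orderOf g ∣ 2 := orderOf_dvd_of_pow_eq_one hg2
    rcases Nat.even_or_odd (Fintype.card F) with he | ho
    · -- characteristic two: c = 1
      have h2 : ringChar F = 2 := (FiniteField.even_card_iff_char_two).2 (Nat.even_iff.1 he)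
      haveI : CharP F 2 := ringChar.eq_iff.1 h2
      have hc1 : c = 1 := by
        have : (c - 1) ^ 2 = 0 := by
          have h22 : (2 : F) = 0 := CharTwo.two_eq_zero
          linear_combination hc2 - c * h22 + h22
        have := pow_eq_zero_iff (two_ne_zero) |>.1 this
        linear_combination this
      have : g = 1 := by
        apply Subtype.ext
        rw [hc, hc1]; simp
      rw [this]; simp
    · exact h1.trans (by
        obtain ⟨k, hk⟩ := ho
        exact ⟨k, by omega⟩)

end Cfsg.Agent.S0800
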