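import Cfsg.Statements.S0820
import Cfsg.Agent.Lib.Helper5_PSLSpec
import Cfsg.Agent.Lib.Helper5_SqZero

set_option autoImplicit false

open Cfsg

namespace Cfsg.Agent.S0820

open Cfsg.Agent.Lib.Helper5_PSLSpec Cfsg.Agent.Lib.Helper5_SqZero

theorem two_eq_zero {F : Type*} [Field F] [Fintype F] (hF : Fintype.card F = 4) : (2 : F) = 0 := by
  have h : ringChar F = 2 := FiniteField.even_card_iff_char_two.2 (by rw [hF])
  haveI : CharP F 2 := by rw [← h]; exact ringChar.charP F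
  exact CharTwo.two_eq_zero

theorem scalar_lift {F : Type*} [Field F] {n : ℕ} (g : Matrix.SpecialLinearGroup (Fin n) F) (c : F)
    (hc : c ^ n = 1) :
    ∃ a : Matrix.SpecialLinearGroup (Fin n) F, (a : Matrix (Fin n) (Fin n) F) = c • (g : Matrix (Fin n) (Fin n) F) ∧
      mkP F n a = mkP F n g := by
  obtain ⟨z, hz⟩ : ∃ z : Matrix.SpecialLinearGroup (Fin n) F,
      (z : Matrix (Fin n) (Fin n) F) = c • (1 : Matrix (Fin n) (Fin n) F) :=
    ⟨⟨_, by rw [Matrix.det_smul, Matrix.det_one, mul_one, Fintype.card_fin, hc]⟩, rfl⟩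
  refine ⟨z * g, ?_, ?_⟩
  · rw [Matrix.SpecialLinearGroup.coe_mul, hz, smul_mul_assoc, one_mul]
  · have h1 : mkP F n z = 1 := by
      have := (mkP_pow_eq_one_iff z 1).2 ⟨c, by rw [pow_one, hz]⟩
      rwa [pow_one] at this
    rw [map_mul, h1, one_mul]

theorem lift {F : Type*} [Field F] [Fintype F] (hF : Fintype.card F = 4)
    (x : Matrix.ProjectiveSpecialLinearGroup (Fin 3) F) (hx : orderOf x = 2) :
    ∃ a : Matrix.SpecialLinearGroup (Fin 3) F, mkP F 3 a = x ∧
      ((a : Matrix (Fin 3) (Fin 3) F) - 1) * ((a : Matrix (Fin 3) (Fin 3) F) - 1) = 0 ∧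
      ((a : Matrix (Fin 3) (Fin 3) F) - 1).rank = 1 := by
  obtain ⟨g, rfl⟩ := QuotientGroup.mk'_surjective _ x
  have h2 := two_eq_zero hF
  have hx2 : (mkP F 3 g) ^ 2 = 1 := by
    have := pow_orderOf_eq_one (mkP F 3 g)
    rwa [show orderOf (mkP F 3 g) = 2 from hx] at this
  obtain ⟨c, hc⟩ := (mkP_pow_eq_one_iff g 2).1 hx2
  have hc3 : c ^ 3 = 1 := by
    have := congrArg Matrix.det hc
    rw [Matrix.det_pow, g.2, one_pow, Matrix.det_smul, Matrix.det_one, mul_one, Fintype.card_fin] at this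
    exact this.symm
  obtain ⟨a, ha, hag⟩ := scalar_lift g c hc3
  have haa : (a : Matrix (Fin 3) (Fin 3) F) * (a : Matrix (Fin 3) (Fin 3) F) = 1 := by
    rw [ha, smul_mul_smul_comm, ← pow_two c, ← pow_two (g : Matrix (Fin 3) (Fin 3) F), hc, smul_smul, ← pow_succ c 2, hc3,
      one_smul]
  have hsq : ((a : Matrix (Fin 3) (Fin 3) F) - 1) * ((a : Matrix (Fin 3) (Fin 3) F) - 1) = 0 := by
    have : ((a : Matrix (Fin 3) (Fin 3) F) - 1) * ((a : Matrix (Fin 3) (Fin 3) F) - 1)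
        = (a : Matrix (Fin 3) (Fin 3) F) * (a : Matrix (Fin 3) (Fin 3) F) + 1 - (2 : F) • (a : Matrix (Fin 3) (Fin 3) F) := by
      rw [two_smul]; noncomm_ring
    rw [this, haa, h2, zero_smul, sub_zero, ← two_smul F (1 : Matrix (Fin 3) (Fin 3) F), h2, zero_smul]
  refine ⟨a, hag, hsq, ?_⟩
  have h3 := two_mul_rank_le ((a : Matrix (Fin 3) (Fin 3) F) - 1).mulVecLin (sqzero_apply _ hsq)
  have h4 : Module.finrank F (Fin 3 → F) = 3 := by simp
  have h5 : ((a : Matrix (Fin 3) (Fin 3) F) - 1).rank ≠ 0 := by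
    intro h0
    have h00 : ((a : Matrix (Fin 3) (Fin 3) F) - 1).mulVecLin = 0 := by
      rw [← LinearMap.range_eq_bot]
      exact Submodule.finrank_eq_zero.1 h0
    have h01 : (a : Matrix (Fin 3) (Fin 3) F) - 1 = 0 := by
      have := congrArg LinearMap.toMatrix' h00
      rwa [← Matrix.toLin'_apply', LinearMap.toMatrix'_toLin', map_zero] at this
    rw [sub_eq_zero] at h01
    have ha1 : a = 1 := Subtype.ext h01
    have : orderOf (mkP F 3 g) = 1 := by rw [← hag, ha1, map_one, orderOf_one]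
    rw [show orderOf (mkP F 3 g) = 2 from hx] at this
    omega
  have h6 : ((a : Matrix (Fin 3) (Fin 3) F) - 1).rank
      = Module.finrank F (LinearMap.range ((a : Matrix (Fin 3) (Fin 3) F) - 1).mulVecLin) := rfl
  omega

theorem result {F : Type*} [Field F] [Fintype F] (hF : Fintype.card F = 4) (x y : Matrix.ProjectiveSpecialLinearGroup (Fin 3) F) (hx : orderOf x = 2) (hy : orderOf y = 2) : IsConj x y := by
  obtain ⟨a, rfl, ha1, ha2⟩ := lift hF x hx
  obtain ⟨b, rfl, hb1, hb2⟩ := lift hF y hy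
  exact (mkP F 3).map_isConj (sl_conj a b ha1 hb1 (by rw [ha2, hb2]) (Or.inl (by rw [ha2]; norm_num)))

end Cfsg.Agent.S0820
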