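import Cfsg.Statements.S0819
import Cfsg.Agent.Lib.Helper5_PSLSpec
import Cfsg.Agent.Lib.Helper5_SSCount
import Cfsg.Agent.S0820

set_option autoImplicit false

open Cfsg

namespace Cfsg.Agent.S0819

open Cfsg.Agent.Lib.Helper5_PSLSpec Cfsg.Agent.Lib.Helper5_SSCount Polynomial

theorem kill {F : Type*} [Field F] {n : ℕ} (h : Matrix (Fin n) (Fin n) F) (p q : F[X]) (k : ℕ)
    (hp : aeval h p = 0) (hpq : p * q = X ^ k - 1) : h ^ k = 1 := by
  have := congrArg (aeval h) hpq
  rw [map_mul, hp, zero_mul, map_sub, map_pow, aeval_X, map_one] at this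
  exact (sub_eq_zero.1 this.symm)

/-- a determinant-one matrix with eigenvalue one -/
theorem eig_one {F : Type*} [Field F] [Fintype F] (hF : Fintype.card F = 4) (h : Matrix (Fin 3) (Fin 3) F)
    (hdet : h.det = 1) (h1 : h.charpoly.eval 1 = 0) : h ^ 3 = 1 ∨ h ^ 4 = 1 ∨ h ^ 5 = 1 := by
  have h2 := S0820.two_eq_zero hF
  have h2' : (2 : F[X]) = 0 := by
    have := congrArg (C : F → F[X]) h2
    rwa [map_ofNat, map_zero] at this
  have hχ := eq_PP h.charpoly h.charpoly_monic (n := 3) (by simp)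
  have hc0 : h.charpoly.coeff 0 = -1 := by
    have := h.det_eq_sign_charpoly_coeff
    rw [hdet, Fintype.card_fin] at this
    linear_combination this
  set s := h.charpoly.coeff 2 with hs
  set t := h.charpoly.coeff 1 with ht
  have hχ' : h.charpoly = X ^ 3 + C s * X ^ 2 + C t * X - 1 := by
    rw [hχ, PP, Fin.sum_univ_three]
    simp only [Fin.val_zero, Fin.val_one, Fin.val_two, ← hs, ← ht, hc0]
    simp only [map_neg, map_one]
    ring
  have hts : t = - s := by
    rw [hχ'] at h1
    simp only [eval_add, eval_sub, eval_mul, eval_pow, eval_X, eval_C, eval_one] at h1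
    linear_combination h1
  rw [hts] at hχ'
  have hp : aeval h (X ^ 3 + C s * X ^ 2 + C (-s) * X - 1 : F[X]) = 0 := by
    rw [← hχ']; exact h.aeval_self_charpoly
  have hs4 : s * ((s - 1) * (s ^ 2 + s + 1)) = 0 := by
    have := FiniteField.pow_card s
    rw [hF] at this
    linear_combination this
  rcases mul_eq_zero.1 hs4 with h0 | h0
  · left
    refine kill h _ 1 3 hp ?_
    rw [h0]; simp
  rcases mul_eq_zero.1 h0 with h0 | h0
  · right; left
    refine kill h _ (X - 1) 4 hp ?_
    rw [sub_eq_zero.1 h0]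
    simp only [map_neg, map_one]
    linear_combination (1 - X ^ 2) * h2'
  · right; right
    refine kill h _ (X ^ 2 + C s * X + 1) 5 hp ?_
    have hS : (C s : F[X]) ^ 2 + C s + 1 = 0 := by
      have := congrArg (C : F → F[X]) h0
      simpa using this
    simp only [map_neg]
    linear_combination (X ^ 3 - X ^ 2) * hS + (C s * X ^ 4 - C s * X ^ 3 + C s * X ^ 2 - C s * X) * h2'

theorem result {F : Type*} [Field F] [Fintype F] (hF : Fintype.card F = 4) (g : Matrix.ProjectiveSpecialLinearGroup (Fin 3) F) : orderOf g ≠ 15 := by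
  intro ho
  obtain ⟨g, rfl⟩ := QuotientGroup.mk'_surjective _ g
  have key : ∀ k : ℕ, ¬ 15 ∣ k → (mkP F 3 g) ^ k ≠ 1 := by
    intro k hk h
    apply hk
    have := orderOf_dvd_of_pow_eq_one h
    rwa [show orderOf (mkP F 3 g) = 15 from ho] at this
  by_cases hroot : ∀ x, ¬ IsRoot (g : Matrix (Fin 3) (Fin 3) F).charpoly x
  · have hirr : Irreducible (g : Matrix (Fin 3) (Fin 3) F).charpoly :=
      irreducible_of_degree_le_three_of_not_isRoot (by simp) hroot
    obtain ⟨c, hc⟩ := pow_gs_eq_one (g : Matrix (Fin 3) (Fin 3) F) g.2 _ hirr (Matrix.aeval_self_charpoly _)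
    rw [hF, show sm 4 3 = 7 by decide] at hc
    exact key 7 (by norm_num) ((mkP_pow_eq_one_iff g 7).2 ⟨c, hc⟩)
  · push Not at hroot
    obtain ⟨a, ha⟩ := hroot
    have ha' : (g : Matrix (Fin 3) (Fin 3) F).charpoly.eval a = 0 := ha
    have ha0 : a ≠ 0 := by
      rintro rfl
      rw [← coeff_zero_eq_eval_zero] at ha'
      have := (g : Matrix (Fin 3) (Fin 3) F).det_eq_sign_charpoly_coeff
      rw [g.2, ha', mul_zero] at this
      exact one_ne_zero this
    have ha3 : a ^ 3 = 1 := by
      have := FiniteField.pow_card_sub_one_eq_one a ha0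
      rwa [hF] at this
    obtain ⟨h, hh, hhg⟩ := S0820.scalar_lift g a⁻¹ (by rw [inv_pow, ha3, inv_one])
    have h1 : (h : Matrix (Fin 3) (Fin 3) F).charpoly.eval 1 = 0 := by
      rw [Matrix.eval_charpoly] at ha' ⊢
      have : (Matrix.scalar (Fin 3) (1 : F) - (h : Matrix (Fin 3) (Fin 3) F))
          = a⁻¹ • (Matrix.scalar (Fin 3) a - (g : Matrix (Fin 3) (Fin 3) F)) := by
        rw [hh, smul_sub, Matrix.scalar_apply, Matrix.scalar_apply, ← Matrix.smul_one_eq_diagonal,
          ← Matrix.smul_one_eq_diagonal, smul_smul, inv_mul_cancel₀ ha0]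
      rw [this, Matrix.det_smul, ha', mul_zero]
    rcases eig_one hF _ h.2 h1 with h3 | h3 | h3
    · exact key 3 (by norm_num) (by rw [← hhg]; exact (mkP_pow_eq_one_iff h 3).2 ⟨1, by rw [h3, one_smul]⟩)
    · exact key 4 (by norm_num) (by rw [← hhg]; exact (mkP_pow_eq_one_iff h 4).2 ⟨1, by rw [h3, one_smul]⟩)
    · exact key 5 (by norm_num) (by rw [← hhg]; exact (mkP_pow_eq_one_iff h 5).2 ⟨1, by rw [h3, one_smul]⟩)

end Cfsg.Agent.S0819
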