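import Cfsg.Statements.S0828
import Cfsg.Agent.Lib.Helper5_SympStab

set_option autoImplicit false

open Cfsg

namespace Cfsg.Agent.S0828

open Module Matrix Cfsg.Agent.Lib.Helper5_Symp Cfsg.Agent.Lib.Helper5_SympCard
  Cfsg.Agent.Lib.Helper5_SympStab Cfsg.Agent.Lib.Helper5_FormCount

theorem card_of_fibers {A B : Type*} [Finite A] [Finite B] (f : A → B) (c : ℕ)
    (h : ∀ b, Nat.card {a // f a = b} = c) : Nat.card A = Nat.card B * c := by
  classical
  have : Fintype B := Fintype.ofFinite B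
  rw [← Nat.card_congr (Equiv.sigmaFiberEquiv f), Nat.card_sigma, Finset.sum_congr rfl (fun b _ => h b),
    Finset.sum_const, Finset.card_univ, Nat.card_eq_fintype_card, smul_eq_mul]

variable {F : Type*} [Field F] {m : ℕ}

theorem iso_span (S : Set (Fin m ⊕ Fin m → F)) (h : ∀ a ∈ S, ∀ b ∈ S, sB m F a b = 0) :
    ∀ u ∈ Submodule.span F S, ∀ w ∈ Submodule.span F S, sB m F u w = 0 := by
  intro u hu w hw
  have h1 : ∀ a ∈ S, Submodule.span F S ≤ LinearMap.ker (sB m F a) :=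
    fun a ha => Submodule.span_le.2 (fun b hb => h a ha b hb)
  have h2 : Submodule.span F S ≤ LinearMap.ker (LinearMap.flip (sB m F) w) :=
    Submodule.span_le.2 (fun a ha => by
      change LinearMap.flip (sB m F) w a = 0
      rw [LinearMap.flip_apply]
      exact h1 a ha hw)
  have := h2 hu
  rw [LinearMap.mem_ker, LinearMap.flip_apply] at this
  exact this

instance finSub [Finite F] : Finite (Submodule F (Fin m ⊕ Fin m → F)) :=
  Finite.of_injective (fun W => (W : Set (Fin m ⊕ Fin m → F))) SetLike.coe_injective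

theorem part1 [Fintype F] {q : ℕ} (hF : Fintype.card F = q) :
    Nat.card {W : Submodule F (Fin 2 ⊕ Fin 2 → F) // Module.finrank F W = 2 ∧
      ∀ u ∈ W, ∀ v ∈ W, Cfsg.sympForm 2 F u v = 0} = (q + 1) * (q ^ 2 + 1) := by
  classical
  have hq : 2 ≤ q := by
    rw [← hF]; exact Fintype.one_lt_card
  let f : {e : Fin 2 → (Fin 2 ⊕ Fin 2 → F) // IsoP 2 e} →
      {W : Submodule F (Fin 2 ⊕ Fin 2 → F) // Module.finrank F W = 2 ∧
        ∀ u ∈ W, ∀ v ∈ W, Cfsg.sympForm 2 F u v = 0} :=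
    fun e => ⟨Submodule.span F (Set.range e.1), by
      rw [finrank_span_eq_card e.2.1, Fintype.card_fin], by
      intro u hu v hv
      rw [← sB_apply]
      refine iso_span _ ?_ u hu v hv
      rintro _ ⟨i, rfl⟩ _ ⟨j, rfl⟩
      exact e.2.2 i j⟩
  have h1 := card_of_fibers f (∏ i : Fin 2, (Fintype.card F ^ 2 - Fintype.card F ^ (i : ℕ))) (by
    intro W
    rw [← card_bases 2 W.1 W.2.1]
    apply Nat.card_congr
    exact
      { toFun := fun a => ⟨a.1.1, a.1.2.1, congrArg Subtype.val a.2⟩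
        invFun := fun e => ⟨⟨e.1, e.2.1, fun i j => by
          rw [sB_apply]
          exact W.2.2 _ ((le_of_eq e.2.2) (Submodule.subset_span ⟨i, rfl⟩)) _
            ((le_of_eq e.2.2) (Submodule.subset_span ⟨j, rfl⟩))⟩, Subtype.ext e.2.2⟩
        left_inv := fun a => rfl
        right_inv := fun e => rfl })
  rw [card_iso 2 le_rfl, hF, Fin.prod_univ_two, Finset.prod_range_succ, Finset.prod_range_one] at h1
  obtain ⟨t, rfl⟩ := Nat.exists_eq_add_of_le hq
  have a1 : (2 + t) ^ (2 * 2 - 0) - (2 + t) ^ 0 = ((2 + t) ^ 2 + 1) * (t ^ 2 + 4 * t + 3) := by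
    apply Nat.sub_eq_of_eq_add; ring
  have a2 : (2 + t) ^ (2 * 2 - 1) - (2 + t) ^ 1 = ((2 + t) + 1) * (t ^ 2 + 3 * t + 2) := by
    apply Nat.sub_eq_of_eq_add; ring
  have a3 : (2 + t) ^ 2 - (2 + t) ^ ((0 : Fin 2) : ℕ) = t ^ 2 + 4 * t + 3 := by
    apply Nat.sub_eq_of_eq_add; simp; ring
  have a4 : (2 + t) ^ 2 - (2 + t) ^ ((1 : Fin 2) : ℕ) = t ^ 2 + 3 * t + 2 := by
    apply Nat.sub_eq_of_eq_add; simp; ring
  rw [a1, a2, a3, a4] at h1
  have hpos : 0 < (t ^ 2 + 4 * t + 3) * (t ^ 2 + 3 * t + 2) := by positivity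
  apply Nat.eq_of_mul_eq_mul_right hpos
  rw [← h1]; ring

theorem part2 [Fintype F] {q : ℕ} (hF : Fintype.card F = q) (v : Fin 2 ⊕ Fin 2 → F) (hv : v ≠ 0) :
    Nat.card {W : Submodule F (Fin 2 ⊕ Fin 2 → F) // Module.finrank F W = 2 ∧ v ∈ W ∧
      ∀ u ∈ W, ∀ w ∈ W, Cfsg.sympForm 2 F u w = 0} = q + 1 := by
  classical
  have hq : 2 ≤ q := by
    rw [← hF]; exact Fintype.one_lt_card
  have hli : ∀ y, y ∉ Submodule.span F {v} → LinearIndependent F ![v, y] := by
    intro y hy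
    rw [LinearIndependent.pair_iff' hv]
    intro a ha
    exact hy (Submodule.mem_span_singleton.2 ⟨a, ha⟩)
  have hrange : ∀ y, Set.range ![v, y] = {v, y} := by
    intro y
    simp [Matrix.range_cons, Set.pair_comm]
  let f : {y : Fin 2 ⊕ Fin 2 → F // sB 2 F v y = 0 ∧ y ∉ Submodule.span F {v}} →
      {W : Submodule F (Fin 2 ⊕ Fin 2 → F) // Module.finrank F W = 2 ∧ v ∈ W ∧
        ∀ u ∈ W, ∀ w ∈ W, Cfsg.sympForm 2 F u w = 0} :=
    fun y => ⟨Submodule.span F {v, y.1}, by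
      rw [← hrange, finrank_span_eq_card (hli y.1 y.2.2), Fintype.card_fin],
      Submodule.subset_span (by simp), by
      intro u hu w hw
      rw [← sB_apply]
      refine iso_span _ ?_ u hu w hw
      have h0 := y.2.1
      have h1 : sB 2 F y.1 v = 0 := by rw [sB_swap, h0, neg_zero]
      rintro a (rfl | rfl) b (rfl | rfl)
      · exact sB_self _ _ _
      · exact h0
      · exact h1
      · exact sB_self _ _ _⟩
  have hspanv : Nat.card (Submodule.span F {v}) = q := by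
    rw [Module.natCard_eq_pow_finrank (K := F), finrank_span_singleton hv, pow_one,
      Nat.card_eq_fintype_card, hF]
  have h1 := card_of_fibers f (q ^ 2 - q) (by
    intro W
    have hsub : ((Submodule.span F {v} : Submodule F (Fin 2 ⊕ Fin 2 → F)) :
        Set (Fin 2 ⊕ Fin 2 → F)) ⊆ (W.1 : Set (Fin 2 ⊕ Fin 2 → F)) := by
      intro y hy
      exact (Submodule.span_singleton_le_iff_mem v W.1).2 W.2.2.1 hy
    have h2 : Nat.card W.1 = q ^ 2 := by
      rw [Module.natCard_eq_pow_finrank (K := F), W.2.1, Nat.card_eq_fintype_card, hF]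
    have h3 : ((W.1 : Set (Fin 2 ⊕ Fin 2 → F)) \
        ((Submodule.span F {v} : Submodule F (Fin 2 ⊕ Fin 2 → F)) :
          Set (Fin 2 ⊕ Fin 2 → F))).ncard = q ^ 2 - q := by
      rw [Set.ncard_diff hsub (Set.toFinite _), ← Nat.card_coe_set_eq, ← Nat.card_coe_set_eq]
      congr 1
    rw [← h3, ← Nat.card_coe_set_eq]
    apply Nat.card_congr
    exact
      { toFun := fun a => ⟨a.1.1, by
          have h4 : Submodule.span F {v, a.1.1} = W.1 := congrArg Subtype.val a.2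
          exact ⟨(le_of_eq h4) (Submodule.subset_span (by simp)), a.1.2.2⟩⟩
        invFun := fun y => ⟨⟨y.1, by
            rw [sB_apply]; exact W.2.2.2 _ W.2.2.1 _ y.2.1, y.2.2⟩, by
          apply Subtype.ext
          change Submodule.span F {v, y.1} = W.1
          apply Submodule.eq_of_le_of_finrank_eq
          · rw [Submodule.span_le]
            rintro _ (rfl | rfl)
            · exact W.2.2.1
            · exact y.2.1
          · rw [← hrange, finrank_span_eq_card (hli y.1 y.2.2), Fintype.card_fin, W.2.1]⟩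
        left_inv := fun a => rfl
        right_inv := fun y => rfl })
  have h5 : Nat.card {y : Fin 2 ⊕ Fin 2 → F // sB 2 F v y = 0 ∧ y ∉ Submodule.span F {v}} =
      q ^ 3 - q := by
    have hsub : ((Submodule.span F {v} : Submodule F (Fin 2 ⊕ Fin 2 → F)) :
        Set (Fin 2 ⊕ Fin 2 → F)) ⊆ {y | sB 2 F v y = 0} := by
      intro y hy
      obtain ⟨a, rfl⟩ := Submodule.mem_span_singleton.1 hy
      change sB 2 F v (a • v) = 0
      rw [map_smul, sB_self, smul_zero]
    have h6 : Nat.card {y : Fin 2 ⊕ Fin 2 → F // sB 2 F v y = 0 ∧ y ∉ Submodule.span F {v}} =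
        ({y | sB 2 F v y = 0} \
          ((Submodule.span F {v} : Submodule F (Fin 2 ⊕ Fin 2 → F)) :
            Set (Fin 2 ⊕ Fin 2 → F))).ncard := by
      rw [← Nat.card_coe_set_eq]
      rfl
    rw [h6, Set.ncard_diff hsub (Set.toFinite _), ← Nat.card_coe_set_eq, ← Nat.card_coe_set_eq]
    congr 1
    have h7 := card_solutions (sB 2 F) hb (fun _ : Fin 1 => v)
      (LinearIndependent.of_subsingleton 0 hv) (fun _ => 0)
    rw [finrank_V, Fintype.card_fin, hF] at h7
    rw [← h7]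
    apply Nat.card_congr
    exact Equiv.subtypeEquivRight (fun y => ⟨fun h _ => h, fun h => h 0⟩)
  rw [h5] at h1
  obtain ⟨t, rfl⟩ := Nat.exists_eq_add_of_le hq
  have a2 : (2 + t) ^ 3 - (2 + t) = ((2 + t) + 1) * (t ^ 2 + 3 * t + 2) := by
    apply Nat.sub_eq_of_eq_add; ring
  have a4 : (2 + t) ^ 2 - (2 + t) = t ^ 2 + 3 * t + 2 := by
    apply Nat.sub_eq_of_eq_add; ring
  rw [a2, a4] at h1
  have hpos : 0 < (t ^ 2 + 3 * t + 2) := by positivity
  apply Nat.eq_of_mul_eq_mul_right hpos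
  rw [← h1]

theorem result {F : Type*} [Field F] [Fintype F] {q : ℕ} (hF : Fintype.card F = q) : Nat.card {W : Submodule F (Fin 2 ⊕ Fin 2 → F) // Module.finrank F W = 2 ∧ ∀ u ∈ W, ∀ v ∈ W, Cfsg.sympForm 2 F u v = 0} = (q + 1) * (q ^ 2 + 1) ∧ ∀ v : Fin 2 ⊕ Fin 2 → F, v ≠ 0 → Nat.card {W : Submodule F (Fin 2 ⊕ Fin 2 → F) // Module.finrank F W = 2 ∧ v ∈ W ∧ ∀ u ∈ W, ∀ w ∈ W, Cfsg.sympForm 2 F u w = 0} = q + 1 :=
  ⟨part1 hF, fun v hv => part2 hF v hv⟩

end Cfsg.Agent.S0828
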