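import Cfsg.Statements.S0829
import Cfsg.Agent.S0285
import Cfsg.Agent.Lib.Helper5_UTiSub

set_option autoImplicit false

open Cfsg

namespace Cfsg.Agent.S0829

open Cfsg.Agent.Lib.Helper5_UField Cfsg.Agent.Lib.Helper5_UForm
  Cfsg.Agent.Lib.Helper5_UCount Cfsg.Agent.Lib.Helper5_UIsoFam Cfsg.Agent.Lib.Helper5_UTiSub

theorem result {F : Type*} [Field F] [Fintype F] {q : ℕ} (hF : Fintype.card F = q ^ 2) : Nat.card {W : Submodule F (Fin 4 → F) // Module.finrank F W = 2 ∧ ∀ u ∈ W, ∀ v ∈ W, Cfsg.hermForm 4 F q u v = 0} = (q + 1) * (q ^ 3 + 1) := by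
  have h2 := two_le hF
  have hα : A F q 4 0 = (q ^ 4 - 1) * (q ^ 3 + 1) + 1 := by
    have := Cfsg.Agent.S0285.result hF 4
    rw [if_pos (by decide)] at this
    exact this
  have h14 : 1 ≤ q ^ 4 := Nat.one_le_pow _ _ (by omega)
  have h12 : 1 ≤ q ^ 2 := Nat.one_le_pow _ _ (by omega)
  have h24 : q ^ 2 ≤ q ^ 4 := Nat.pow_le_pow_right (by omega) (by norm_num)
  have hN0 : Nv F q 4 0 = (q ^ 4 - 1) * (q ^ 3 + 1) + 1 := by
    unfold Nv
    rw [Finset.range_zero, Finset.sum_empty, mul_zero, Nat.sub_zero,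
      Nat.mul_div_cancel_left _ (by omega), hα]
  have hN1 : Nv F q 4 1 = (q + 1) * (q ^ 4 - q ^ 2) + q ^ 2 := by
    unfold Nv
    rw [Finset.sum_range_one, hα]
    apply Nat.div_eq_of_eq_mul_right (by omega)
    apply Nat.sub_eq_of_eq_add
    apply Nat.cast_injective (R := ℤ)
    push_cast [Nat.cast_sub h14, Nat.cast_sub h12, Nat.cast_sub h24]
    ring
  have h1 := card_ti (n := 4) hF 2
  rw [card_isoU hF, Finset.prod_range_succ, Finset.prod_range_one, hN0, hN1, Fin.prod_univ_two] at h1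
  simp only [pow_zero, pow_one, Nat.add_sub_cancel, Fin.val_zero, Fin.val_one] at h1
  have e1 : (q ^ 2) ^ 2 = q ^ 4 := by ring
  rw [e1] at h1
  have hpos : 0 < (q ^ 4 - 1) * (q ^ 4 - q ^ 2) := by
    apply Nat.mul_pos
    · have : 2 ^ 4 ≤ q ^ 4 := Nat.pow_le_pow_left h2 4
      omega
    · exact Nat.sub_pos_of_lt (Nat.pow_lt_pow_right (by omega) (by norm_num))
  apply Nat.eq_of_mul_eq_mul_right hpos
  rw [← h1]
  ring

end Cfsg.Agent.S0829
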