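import Cfsg.Statements.S0836
import Mathlib


set_option autoImplicit false
open Cfsg

namespace Cfsg.Agent.S0836

open Matrix Matrix.SpecialLinearGroup
open scoped commutatorElement MatrixGroups

theorem comm3 {F : Type*} [Field F] {ι : Type*} [Fintype ι] [DecidableEq ι] {i j k : ι}
    (hij : i ≠ j) (hik : i ≠ k) (hkj : k ≠ j) (c : F) :
    ⁅SpecialLinearGroup.transvection hik c, SpecialLinearGroup.transvection hkj (1 : F)⁆ =
      SpecialLinearGroup.transvection hij c := by
  rw [commutatorElement_def, SpecialLinearGroup.transvection_inv, SpecialLinearGroup.transvection_inv]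
  apply Subtype.ext
  change ((1 : Matrix ι ι F) + single i k c) * (1 + single k j 1) * (1 + single i k (-c)) *
    (1 + single k j (-1)) = 1 + single i j c
  simp only [mul_add, add_mul, mul_one, one_mul, Matrix.single_mul_single_same,
    Matrix.single_mul_single_of_ne _ _ _ _ hij.symm, Matrix.single_mul_single_of_ne _ _ _ _ hik.symm,
    Matrix.single_mul_single_of_ne _ _ _ _ hkj.symm, add_zero, zero_add, zero_mul, mul_zero]
  have e1 : single i k (-c) = - single i k c := (Matrix.single_neg i k c).symm
  have e2 : single k j (-1 : F) = - single k j (1 : F) := (Matrix.single_neg k j (1:F)).symm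
  have e3 : single i j (c * -1) = - single i j c := by rw [mul_neg, mul_one]; exact (Matrix.single_neg i j c).symm
  have e4 : single i j (-c * -1) = single i j c := by simp
  rw [e1, e2, e3, e4]
  abel

theorem comm2' {F : Type*} [Field F] (a : F) (ha : a ≠ 0) (b c' : F) (hc : c' = b * (a ^ 2 - 1)) :
      ⁅diag2 a⁻¹ (inv_ne_zero ha), SpecialLinearGroup.transvection one_ne_zero b⁆ =
      (SpecialLinearGroup.transvection one_ne_zero c' : SL(2, F)) := by
    rw [commutatorElement_def, diag2_inv a⁻¹ (inv_ne_zero ha),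
      SpecialLinearGroup.transvection_inv one_ne_zero b]
    refine Subtype.ext <| Matrix.ext fun i j ↦ ?_
    fin_cases i <;> fin_cases j <;>
    simp [hc, SpecialLinearGroup.transvection_coe, diag2_coe, inv_inv, mul_add, add_mul,
      mul_inv_cancel₀ ha, inv_mul_cancel₀ ha, mul_comm a b, mul_assoc b a a, ← pow_two,
      mul_sub_one, ← sub_eq_add_neg]

/-- For i ≠ j and any scalar c, the elementary transvection 1 + c E_ij is a commutator ⁅g, h⁆ of two elements of SL_n(F) provided n ≥ 3, or n = 2 and F contains x ≠ 0 with x² ≠ 1. -/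
theorem result {F : Type*} [Field F] (n : ℕ) (hn : 3 ≤ n ∨ (n = 2 ∧ ∃ x : F, x ≠ 0 ∧ x ^ 2 ≠ 1)) (i j : Fin n) (hij : i ≠ j) (c : F) (t : Matrix.SpecialLinearGroup (Fin n) F) (ht : (t : Matrix (Fin n) (Fin n) F) = Matrix.transvection i j c) : t ∈ commutatorSet (Matrix.SpecialLinearGroup (Fin n) F) := by
  have ht' : t = SpecialLinearGroup.transvection hij c := Subtype.ext ht
  rw [ht']
  rcases hn with hn | ⟨rfl, x, hx0, hx1⟩
  · have hex : ∃ k : Fin n, k ≠ i ∧ k ≠ j := by
      by_contra hcon
      push Not at hcon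
      have hsub : (Finset.univ : Finset (Fin n)) ⊆ {i, j} := by
        intro k _
        by_cases hk : k = i
        · simp [hk]
        · simp [hcon k hk]
      have := Finset.card_le_card hsub
      have h2 : ({i, j} : Finset (Fin n)).card ≤ 2 := Finset.card_le_two
      simp at this
      omega
    obtain ⟨k, hki, hkj⟩ := hex
    exact ⟨_, _, comm3 hij hki.symm hkj c⟩
  · fin_cases i
    · obtain rfl : j = 1 := by fin_cases j <;> tauto
      exact ⟨_, _, commutator_diag2_transvection x hx0 (c / (x ^ 2 - 1)) c
        (div_mul_cancel₀ c (sub_ne_zero_of_ne hx1)).symm⟩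
    · obtain rfl : j = 0 := by fin_cases j <;> tauto
      exact ⟨_, _, comm2' x hx0 (c / (x ^ 2 - 1)) c
        (div_mul_cancel₀ c (sub_ne_zero_of_ne hx1)).symm⟩

end Cfsg.Agent.S0836
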