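import Cfsg.Statements.S0838
import Cfsg.Agent.Lib.Helper5_QFDiag

set_option autoImplicit false

open Cfsg

namespace Cfsg.Agent.S0838

open Cfsg.Agent.Lib.Helper5_QFDiag

theorem gram_ne {F : Type*} [Field F] {n : ℕ} (Q : QuadraticForm F (Fin n → F))
    (hQ : (QuadraticMap.polarBilin Q).Nondegenerate) :
    (Matrix.of fun i j => Q.polarBilin (Pi.basisFun F (Fin n) i) (Pi.basisFun F (Fin n) j)).det ≠ 0 := by
  have := (LinearMap.BilinForm.nondegenerate_iff_det_ne_zero (Pi.basisFun F (Fin n))).1 hQ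
  convert this using 2
  ext i j
  simp [LinearMap.BilinForm.toMatrix_apply]

theorem result {F : Type*} [Field F] [Fintype F] (h2 : (2 : F) ≠ 0) {n : ℕ} (hn : Odd n) (Q₁ Q₂ : QuadraticForm F (Fin n → F)) (h₁ : (QuadraticMap.polarBilin Q₁).Nondegenerate) (h₂ : (QuadraticMap.polarBilin Q₂).Nondegenerate) : ∃ (g : (Fin n → F) ≃ₗ[F] (Fin n → F)) (c : F), c ≠ 0 ∧ ∀ v, Q₂ (g v) = c * Q₁ v := by
  classical
  set d₁ := (Matrix.of fun i j => Q₁.polarBilin (Pi.basisFun F (Fin n) i) (Pi.basisFun F (Fin n) j)).det with hd₁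
  set d₂ := (Matrix.of fun i j => Q₂.polarBilin (Pi.basisFun F (Fin n) i) (Pi.basisFun F (Fin n) j)).det with hd₂
  have hd1 : d₁ ≠ 0 := gram_ne Q₁ h₁
  have hd2 : d₂ ≠ 0 := gram_ne Q₂ h₂
  set c := d₁ * d₂ with hc
  have hc0 : c ≠ 0 := mul_ne_zero hd1 hd2
  have hpol : ∀ u v, (c • Q₁).polarBilin u v = c * Q₁.polarBilin u v := by
    intro u v
    simp only [QuadraticMap.polarBilin_apply_apply, QuadraticMap.polar, smul_apply, smul_eq_mul]
    ring
  have hnd : (c • Q₁).polarBilin.Nondegenerate := by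
    constructor
    · intro x hx
      apply h₁.1 x
      intro y
      have := hx y
      rw [hpol] at this
      exact (mul_eq_zero.1 this).resolve_left hc0
    · intro y hy
      apply h₁.2 y
      intro x
      have := hy x
      rw [hpol] at this
      exact (mul_eq_zero.1 this).resolve_left hc0
  have hgram : (Matrix.of fun i j => (c • Q₁).polarBilin (Pi.basisFun F (Fin n) i) (Pi.basisFun F (Fin n) j)).det
      = c ^ n * d₁ := by
    have : (Matrix.of fun i j => (c • Q₁).polarBilin (Pi.basisFun F (Fin n) i) (Pi.basisFun F (Fin n) j))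
        = c • (Matrix.of fun i j => Q₁.polarBilin (Pi.basisFun F (Fin n) i) (Pi.basisFun F (Fin n) j)) := by
      ext i j
      simp only [Matrix.of_apply, Matrix.smul_apply, smul_eq_mul]
      exact hpol _ _
    rw [this, Matrix.det_smul, Fintype.card_fin]
  obtain ⟨k, hk⟩ := hn
  obtain ⟨g, hg⟩ := exists_isometry h2 (c • Q₁) Q₂ hnd h₂ (Pi.basisFun F (Fin n)) (by
    rw [hgram]
    refine ⟨c ^ (k + 1), ?_⟩
    have hpow : c ^ n = c ^ (2 * k + 1) := by rw [hk]
    rw [hpow, mul_assoc, ← hd₂, ← hc]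
    ring)
  exact ⟨g, c, hc0, fun v => by rw [hg]; rfl⟩

end Cfsg.Agent.S0838
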