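import Cfsg.Statements.S0839
import Cfsg.Agent.Lib.Helper5_SqZero
import Cfsg.Agent.Lib.Helper5_GLTv

set_option autoImplicit false

open Cfsg

namespace Cfsg.Agent.S0839

open Module Matrix Cfsg.Agent.Lib.Helper5_GLTv Cfsg.Agent.Lib.Helper5_SqZero

variable {F : Type*} [Field F] {n : ℕ}

theorem mat_ext {k : ℕ} (A B : Matrix (Fin k) (Fin k) F) (h : ∀ x, A *ᵥ x = B *ᵥ x) : A = B := by
  apply Matrix.toLin'.injective
  apply LinearMap.ext
  intro x
  rw [Matrix.toLin'_apply, Matrix.toLin'_apply, h]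

theorem det_tv {k : ℕ} (x φ : Fin k → F) : (tvM x φ).det = 1 + φ ⬝ᵥ x := by
  rw [tvM, vecMulVec_eq Unit, det_one_add_replicateCol_mul_replicateRow]

theorem d0 (x : Fin (n + 2) → F) : (Pi.single 0 1 : Fin (n + 2) → F) ⬝ᵥ x = x 0 := by
  rw [single_dotProduct, one_mul]

theorem d1 (x : Fin (n + 2) → F) : (Pi.single 1 1 : Fin (n + 2) → F) ⬝ᵥ x = x 1 := by
  rw [single_dotProduct, one_mul]

theorem e10 : (Pi.single 1 1 : Fin (n + 2) → F) 0 = 0 :=
  Pi.single_eq_of_ne (Fin.zero_ne_one) _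

theorem e11 : (Pi.single 1 1 : Fin (n + 2) → F) 1 = 1 := Pi.single_eq_same _ _

theorem sub_one_mulVec (x : Fin (n + 2) → F) :
    (tvM (Pi.single 1 1 : Fin (n + 2) → F) (Pi.single 0 1) - 1) *ᵥ x
      = x 0 • (Pi.single 1 1 : Fin (n + 2) → F) := by
  rw [sub_mulVec, tvM_mulVec, one_mulVec, add_sub_cancel_left, d0]

theorem sq_zero : (tvM (Pi.single 1 1 : Fin (n + 2) → F) (Pi.single 0 1) - 1) *
    (tvM (Pi.single 1 1 : Fin (n + 2) → F) (Pi.single 0 1) - 1) = 0 := by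
  apply mat_ext
  intro x
  rw [← mulVec_mulVec, sub_one_mulVec, sub_one_mulVec, Pi.smul_apply, e10, smul_zero, zero_smul,
    zero_mulVec]

theorem rank_one : (tvM (Pi.single 1 1 : Fin (n + 2) → F) (Pi.single 0 1) - 1).rank = 1 := by
  have hr : LinearMap.range
      (tvM (Pi.single 1 1 : Fin (n + 2) → F) (Pi.single 0 1) - 1).mulVecLin
      = Submodule.span F {(Pi.single 1 1 : Fin (n + 2) → F)} := by
    ext y
    rw [Submodule.mem_span_singleton]
    constructor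
    · rintro ⟨x, rfl⟩
      exact ⟨x 0, by rw [mulVecLin_apply, sub_one_mulVec]⟩
    · rintro ⟨a, rfl⟩
      refine ⟨a • (Pi.single 0 1 : Fin (n + 2) → F), ?_⟩
      rw [mulVecLin_apply, sub_one_mulVec, Pi.smul_apply, Pi.single_eq_same, smul_eq_mul, mul_one]
  unfold Matrix.rank
  rw [hr]
  apply finrank_span_singleton
  intro h
  have := congrFun h 1
  rw [e11] at this
  exact one_ne_zero this

theorem comm_rel (δ : F) (hδ : δ ≠ 0) :
    tvM (Pi.single 1 1 : Fin (n + 2) → F) (Pi.single 0 1) *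
      tvM ((δ⁻¹ - 1) • (Pi.single 1 1 : Fin (n + 2) → F)) (Pi.single 1 1)
    = tvM ((δ⁻¹ - 1) • (Pi.single 1 1 : Fin (n + 2) → F)) (Pi.single 1 1) *
      tvM (δ • (Pi.single 1 1 : Fin (n + 2) → F)) (Pi.single 0 1) := by
  apply mat_ext
  intro x
  have hδμ : δ * δ⁻¹ = 1 := mul_inv_cancel₀ hδ
  rw [← mulVec_mulVec, ← mulVec_mulVec, tvM_mulVec, tvM_mulVec, tvM_mulVec, tvM_mulVec, d0, d1, d0,
    d1]
  simp only [Pi.add_apply, Pi.smul_apply, e10, e11, smul_eq_mul, mul_zero, add_zero, mul_one]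
  rw [smul_smul, smul_smul, smul_smul, add_assoc, add_assoc, ← add_smul, ← add_smul]
  congr 2
  linear_combination (-x 0) * hδμ

theorem result {F : Type*} [Field F] (n : ℕ) (t : Matrix.SpecialLinearGroup (Fin (n + 2)) F) (ht : Cfsg.IsTransvection (t : Matrix (Fin (n + 2)) (Fin (n + 2)) F)) : ∃ (g : Matrix.SpecialLinearGroup (Fin (n + 2)) F) (v : Fin (n + 2) → F), v 0 = 0 ∧ ((g⁻¹ * t * g : Matrix.SpecialLinearGroup (Fin (n + 2)) F) : Matrix (Fin (n + 2)) (Fin (n + 2)) F) = 1 + Matrix.vecMulVec v (Pi.single 0 1) := by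
  have hdb : (tvM (Pi.single 1 1 : Fin (n + 2) → F) (Pi.single 0 1)).det = 1 := by
    rw [det_tv, d0, e10, add_zero]
  let a : GL (Fin (n + 2)) F := Matrix.GeneralLinearGroup.mkOfDetNeZero
    (t : Matrix (Fin (n + 2)) (Fin (n + 2)) F) (by rw [t.2]; exact one_ne_zero)
  let b : GL (Fin (n + 2)) F := Matrix.GeneralLinearGroup.mkOfDetNeZero
    (tvM (Pi.single 1 1 : Fin (n + 2) → F) (Pi.single 0 1)) (by rw [hdb]; exact one_ne_zero)
  have hconj : IsConj a b := gl_conj a b ht.2 sq_zero (by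
    have e1 : ((a : Matrix (Fin (n + 2)) (Fin (n + 2)) F) - 1).rank = 1 := ht.1
    have e2 : ((b : Matrix (Fin (n + 2)) (Fin (n + 2)) F) - 1).rank = 1 := rank_one
    rw [e1, e2])
  rw [isConj_iff] at hconj
  obtain ⟨c, hc⟩ := hconj
  have h1 : a * c⁻¹ = c⁻¹ * b := by rw [← hc]; group
  have h2 : (t : Matrix (Fin (n + 2)) (Fin (n + 2)) F) *
      ((c⁻¹ : GL (Fin (n + 2)) F) : Matrix (Fin (n + 2)) (Fin (n + 2)) F)
      = ((c⁻¹ : GL (Fin (n + 2)) F) : Matrix (Fin (n + 2)) (Fin (n + 2)) F) *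
        tvM (Pi.single 1 1 : Fin (n + 2) → F) (Pi.single 0 1) :=
    congrArg Units.val h1
  obtain ⟨C, hC⟩ : ∃ C : Matrix (Fin (n + 2)) (Fin (n + 2)) F,
      C = ((c⁻¹ : GL (Fin (n + 2)) F) : Matrix (Fin (n + 2)) (Fin (n + 2)) F) := ⟨_, rfl⟩
  rw [← hC] at h2
  have hδ : C.det ≠ 0 := by
    rw [hC]
    exact (Matrix.isUnits_det_units (c⁻¹)).ne_zero
  have hdg : (C * tvM ((C.det⁻¹ - 1) • (Pi.single 1 1 : Fin (n + 2) → F)) (Pi.single 1 1)).det
      = 1 := by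
    rw [det_mul, det_tv, d1, Pi.smul_apply, e11, smul_eq_mul, mul_one, add_sub_cancel,
      mul_inv_cancel₀ hδ]
  have hdr : (tvM (C.det • (Pi.single 1 1 : Fin (n + 2) → F)) (Pi.single 0 1)).det = 1 := by
    rw [det_tv, d0, Pi.smul_apply, e10, smul_zero, add_zero]
  let g : Matrix.SpecialLinearGroup (Fin (n + 2)) F := ⟨_, hdg⟩
  let r : Matrix.SpecialLinearGroup (Fin (n + 2)) F := ⟨_, hdr⟩
  have hrel : t * g = g * r := by
    apply Subtype.ext
    show (t : Matrix (Fin (n + 2)) (Fin (n + 2)) F) *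
      (C * tvM ((C.det⁻¹ - 1) • (Pi.single 1 1 : Fin (n + 2) → F)) (Pi.single 1 1))
      = (C * tvM ((C.det⁻¹ - 1) • (Pi.single 1 1 : Fin (n + 2) → F)) (Pi.single 1 1)) *
        tvM (C.det • (Pi.single 1 1 : Fin (n + 2) → F)) (Pi.single 0 1)
    rw [← Matrix.mul_assoc, h2, Matrix.mul_assoc, comm_rel _ hδ, Matrix.mul_assoc]
  refine ⟨g, C.det • (Pi.single 1 1 : Fin (n + 2) → F), ?_, ?_⟩
  · rw [Pi.smul_apply, e10, smul_zero]
  · have : g⁻¹ * t * g = r := by rw [mul_assoc, hrel]; group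
    rw [this]
    rfl

end Cfsg.Agent.S0839
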