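import Mathlib
import Cfsg.Agent.Lib.helper6_QuatSyl
import Cfsg.Statements.S0843

set_option autoImplicit false
open Cfsg

namespace Cfsg.Agent.S0843

open Cfsg.Agent.Lib.helper6_QuatSyl

/-- Suppose a Sylow 2-subgroup S of the finite group G is generalized quaternion of order at least 16; let D be the commutator subgroup of S and X the set of elements of the centralizer of D whose order is divisible by the order of D. Then D is contained in the cyclic subgroup generated by any element of X; an element of G conjugating some element of X into the centralizer of D normalizes D; and the normalizer of D maps X to itself under conjugation. -/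
theorem result {G : Type*} [Group G] [Finite G] (S : Sylow 2 G) (n : ℕ) (e : (S : Subgroup G) ≃* QuaternionGroup (2 ^ (n + 2))) (D : Subgroup G) (hD : D = ⁅(S : Subgroup G), (S : Subgroup G)⁆) : (∀ y : G, y ∈ Subgroup.centralizer (D : Set G) → Nat.card D ∣ orderOf y → D ≤ Subgroup.zpowers y) ∧ (∀ g y : G, y ∈ Subgroup.centralizer (D : Set G) → Nat.card D ∣ orderOf y → g * y * g⁻¹ ∈ Subgroup.centralizer (D : Set G) → g ∈ Subgroup.normalizer (D : Set G)) ∧ (∀ g y : G, g ∈ Subgroup.normalizer (D : Set G) → y ∈ Subgroup.centralizer (D : Set G) → Nat.card D ∣ orderOf y → g * y * g⁻¹ ∈ Subgroup.centralizer (D : Set G) ∧ Nat.card D ∣ orderOf (g * y * g⁻¹)) := by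
  haveI : NeZero (2 ^ (n + 2)) := ⟨by positivity⟩
  obtain ⟨x, y, h⟩ := exists_qdata (S : Subgroup G) (2 ^ (n + 2)) e
  have hm : 3 ≤ 2 ^ (n + 2) := by
    have : 2 ^ 2 ≤ 2 ^ (n + 2) := Nat.pow_le_pow_right (by norm_num) (by omega)
    omega
  have hm2 : ∃ k, 2 ^ (n + 2) = 2 ^ k := ⟨_, rfl⟩
  have hDx : D = Subgroup.zpowers (x ^ 2) := by rw [hD, h.commutator_eq]
  subst hDx
  rw [h.card_D]
  refine ⟨?_, ?_, ?_⟩
  · intro c hc hdiv
    rw [Subgroup.zpowers_le]
    exact sq_mem_zpowers h hm hm2 hc hdiv
  · intro g c hc hdiv hg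
    exact mem_normalizer_of_conj h hm hm2 hc hdiv hg
  · intro g c hg hc hdiv
    refine ⟨conj_mem_centralizer hg hc, ?_⟩
    have ho : orderOf (g * c * g⁻¹) = orderOf c :=
      orderOf_injective (MulAut.conj g).toMonoidHom (MulAut.conj g).injective c
    rw [ho]; exact hdiv

end Cfsg.Agent.S0843
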