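import Mathlib
import Cfsg.Agent.Lib.helper6_QuatChar
import Cfsg.Statements.S0845

set_option autoImplicit false
open Cfsg

namespace Cfsg.Agent.S0845

open Cfsg.Agent.Lib.helper6_QuatSyl Cfsg.Agent.Lib.helper6_QuatChar

/-- Suppose a Sylow 2-subgroup S of the finite group G is generalized quaternion of order at least 16. Then G has a normal subgroup M of even order such that G / M is non-abelian, that is, M does not contain the commutator subgroup of G. -/
theorem result {G : Type*} [Group G] [Finite G] (S : Sylow 2 G) (n : ℕ) (e : (S : Subgroup G) ≃* QuaternionGroup (2 ^ (n + 2))) : ∃ M : Subgroup G, M.Normal ∧ Even (Nat.card M) ∧ ¬ commutator G ≤ M := by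
  haveI : NeZero (2 ^ (n + 2)) := ⟨by positivity⟩
  haveI := Fintype.ofFinite G
  obtain ⟨x, y, h⟩ := exists_qdata (S : Subgroup G) (2 ^ (n + 2)) e
  obtain ⟨M, hM, ht, hc⟩ := exists_normal_even h
  refine ⟨M, hM, ?_, hc⟩
  rw [even_iff_two_dvd]
  have h1 : orderOf (⟨_, ht⟩ : M) = 2 := by
    rw [← Subgroup.orderOf_coe]
    exact h.orderOf_xm
  rw [← h1]
  exact orderOf_dvd_natCard _

end Cfsg.Agent.S0845
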