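import Cfsg.Statements.S0849
import Cfsg.Agent.Lib.CharInd

set_option autoImplicit false
open Cfsg

namespace Cfsg.Agent.S0849

open Cfsg.Agent.Lib.CharInd

/-- Let H be a subgroup of a finite group G and S a subset of H that is mapped to itself under conjugation by H, is disjoint from its conjugate by any element outside H, and is closed under inverses. Let φ be a class function of H vanishing on H away from S, and let u, v be involutions of G. Then the sum of the induced function of φ over all products a * b with a conjugate to u and b conjugate to v equals the index of H times the sum of φ (a * b) over such pairs with a and b in H. -/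
theorem result {G : Type*} [Group G] [Fintype G] (H : Subgroup G) (S : Set G) (hSH : S ⊆ H) (hHS : ∀ h ∈ H, ∀ s ∈ S, h * s * h⁻¹ ∈ S) (hTI : ∀ g : G, g ∉ H → ∀ s ∈ S, g * s * g⁻¹ ∉ S) (hinv : ∀ s ∈ S, s⁻¹ ∈ S) (φ : H → ℂ) (hφ : Cfsg.IsClassFunction H φ) (hφS : ∀ x : H, (x : G) ∉ S → φ x = 0) (u v : G) (hu : orderOf u = 2) (hv : orderOf v = 2) : ∑ᶠ p ∈ {p : G × G | IsConj u p.1 ∧ IsConj v p.2}, Cfsg.indFun H φ (p.1 * p.2) = (H.index : ℂ) * ∑ᶠ p ∈ {p : H × H | IsConj u (p.1 : G) ∧ IsConj v (p.2 : G)}, φ (p.1 * p.2) := by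
  classical
  haveI : Fintype H := Fintype.ofFinite H
  have hinvol : ∀ w a : G, orderOf w = 2 → IsConj w a → a * a = 1 := by
    intro w a hw ha
    obtain ⟨c, rfl⟩ := isConj_iff.mp ha
    have h2 : w * w = 1 := by rw [← pow_two, ← hw, pow_orderOf_eq_one]
    calc c * w * c⁻¹ * (c * w * c⁻¹) = c * (w * w) * c⁻¹ := by group
      _ = 1 := by rw [h2]; group
  rw [finsum_mem_eq_toFinset_sum, finsum_mem_eq_toFinset_sum]
  set T : Finset (G × G) := {p : G × G | IsConj u p.1 ∧ IsConj v p.2}.toFinset with hT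
  set TH : Finset (H × H) := {p : H × H | IsConj u (p.1 : G) ∧ IsConj v (p.2 : G)}.toFinset with hTH
  have hmemT : ∀ p : G × G, p ∈ T ↔ IsConj u p.1 ∧ IsConj v p.2 := by intro p; simp [hT]
  have hmemTH : ∀ p : H × H, p ∈ TH ↔ IsConj u (p.1 : G) ∧ IsConj v (p.2 : G) := by
    intro p; simp [hTH]
  have hstep : ∀ x : G, ∑ p ∈ T, Cfsg.extendByZero H φ (x⁻¹ * (p.1 * p.2) * x) =
      ∑ p ∈ T, Cfsg.extendByZero H φ (p.1 * p.2) := by
    intro x
    refine Finset.sum_bij' (fun p _ => (x⁻¹ * p.1 * x, x⁻¹ * p.2 * x))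
      (fun p _ => (x * p.1 * x⁻¹, x * p.2 * x⁻¹)) ?_ ?_ ?_ ?_ ?_
    · intro p hp
      rw [hmemT] at hp ⊢
      refine ⟨hp.1.trans (isConj_iff.mpr ⟨x⁻¹, by simp⟩), hp.2.trans (isConj_iff.mpr ⟨x⁻¹, by simp⟩)⟩
    · intro p hp
      rw [hmemT] at hp ⊢
      exact ⟨hp.1.trans (isConj_iff.mpr ⟨x, rfl⟩), hp.2.trans (isConj_iff.mpr ⟨x, rfl⟩)⟩
    · intro p _
      ext <;> simp [mul_assoc]
    · intro p _
      ext <;> simp [mul_assoc]
    · intro p _
      congr 1
      group
  have hmain : ∑ p ∈ T, Cfsg.extendByZero H φ (p.1 * p.2) = ∑ q ∈ TH, φ (q.1 * q.2) := by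
    have hinj : Set.InjOn (fun q : H × H => ((q.1 : G), (q.2 : G))) TH := by
      intro a _ b _ hab
      simp only [Prod.mk.injEq] at hab
      exact Prod.ext (Subtype.ext hab.1) (Subtype.ext hab.2)
    have h1 : ∑ q ∈ TH, φ (q.1 * q.2) =
        ∑ p ∈ TH.image (fun q : H × H => ((q.1 : G), (q.2 : G))),
          Cfsg.extendByZero H φ (p.1 * p.2) := by
      rw [Finset.sum_image hinj]
      refine Finset.sum_congr rfl fun q _ => ?_
      exact (extendByZero_coe H φ (q.1 * q.2)).symm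
    rw [h1]
    symm
    apply Finset.sum_subset
    · intro p hp
      obtain ⟨q, hq, rfl⟩ := Finset.mem_image.mp hp
      rw [hmemT]
      exact (hmemTH q).mp hq
    · intro p hp hnot
      by_contra h0
      apply hnot
      rw [hmemT] at hp
      have hH : p.1 * p.2 ∈ H := by
        by_contra hh
        exact h0 (extendByZero_not_mem H φ hh)
      rw [extendByZero_mem H φ hH] at h0
      have hS : p.1 * p.2 ∈ S := by
        by_contra hh
        exact h0 (hφS ⟨_, hH⟩ hh)
      have e1 := hinvol u p.1 hu hp.1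
      have e2 := hinvol v p.2 hv hp.2
      have hp1inv : p.1⁻¹ = p.1 := inv_eq_of_mul_eq_one_left e1
      have hp2inv : p.2⁻¹ = p.2 := inv_eq_of_mul_eq_one_left e2
      have h1H : p.1 ∈ H := by
        by_contra hh
        apply hTI p.1 hh _ hS
        have : p.1 * (p.1 * p.2) * p.1⁻¹ = (p.1 * p.2)⁻¹ := by
          rw [mul_inv_rev, hp1inv, hp2inv, ← mul_assoc, e1, one_mul]
        rw [this]
        exact hinv _ hS
      have h2H : p.2 ∈ H := by
        have := H.mul_mem (H.inv_mem h1H) hH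
        simpa using this
      exact Finset.mem_image.mpr ⟨(⟨p.1, h1H⟩, ⟨p.2, h2H⟩), (hmemTH _).mpr hp, rfl⟩
  unfold Cfsg.indFun
  rw [← Finset.mul_sum, Finset.sum_comm, Finset.sum_congr rfl (fun x _ => hstep x),
    Finset.sum_const, hmain, Finset.card_univ, nsmul_eq_mul, ← mul_assoc]
  congr 1
  have hHc : (Nat.card H : ℂ) ≠ 0 := by exact_mod_cast Nat.card_pos.ne'
  rw [← Nat.card_eq_fintype_card, ← Subgroup.card_mul_index H]
  push_cast
  field_simp

end Cfsg.Agent.S0849
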