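import Cfsg.Statements.S0850
import Mathlib
import Cfsg.Agent.Lib.GlaubP
import Cfsg.Agent.Lib.CharInd


set_option autoImplicit false
open Cfsg

namespace Cfsg.Agent.S0850

open Cfsg.Agent.Lib.CharInd Cfsg.Agent.Lib.GlaubP

theorem part1 {G : Type*} [Group G] [Finite G] (K : Subgroup G)
    (hTI : ∀ g : G, g ∉ Subgroup.normalizer (K : Set G) → ∀ k ∈ K, g * k * g⁻¹ ∈ K → k = 1)
    (hC : ∀ k ∈ K, k ≠ 1 → Subgroup.centralizer ({k} : Set G) ≤ K) :
    ∀ x ∈ Subgroup.normalizer (K : Set G), x ∉ K → ∀ g : G, g * x * g⁻¹ ∉ K := by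
  intro x hxN hxK g hk
  have hx1 : x ≠ 1 := fun h => hxK (h ▸ K.one_mem)
  have ho : orderOf x ≠ 1 := fun h => hx1 (orderOf_eq_one_iff.mp h)
  obtain ⟨r, hr, hrd⟩ := Nat.exists_prime_and_dvd ho
  haveI : Fact r.Prime := ⟨hr⟩
  have hgN : g ∉ Subgroup.normalizer (K : Set G) := by
    intro hg
    apply hxK
    have h1 := (Subgroup.mem_normalizer_iff.mp (Subgroup.inv_mem _ hg) (g * x * g⁻¹)).mp hk
    have h2 : g⁻¹ * (g * x * g⁻¹) * g⁻¹⁻¹ = x := by group
    rwa [h2] at h1
  set y := x ^ (orderOf x / r) with hy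
  have hyo : orderOf y = r := orderOf_pow_orderOf_div (orderOf_pos x).ne' hrd
  have hyN : y ∈ Subgroup.normalizer (K : Set G) := Subgroup.pow_mem _ hxN _
  have hyk : g * y * g⁻¹ ∈ K := by
    rw [hy, ← conj_pow]; exact K.pow_mem hk _
  have hy1 : y ≠ 1 := by
    intro h; rw [h, orderOf_one] at hyo; exact hr.one_lt.ne hyo
  have hyK : y ∉ K := fun h => hy1 (hTI g hgN y h hyk)
  have hfree : ∀ u ∈ K, y * u * y⁻¹ = u → u = 1 := by
    intro u hu hyu
    by_contra hu1
    apply hyK
    apply hC u hu hu1
    rw [Subgroup.mem_centralizer_singleton_iff]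
    calc y * u = y * u * y⁻¹ * y := by group
      _ = u * y := by rw [hyu]
  have hnorm : ∀ s ∈ Subgroup.zpowers y, ∀ k ∈ K, s * k * s⁻¹ ∈ K := by
    intro s hs k hk
    have hsN : s ∈ Subgroup.normalizer (K : Set G) :=
      (Subgroup.zpowers_le.mpr hyN) hs
    exact (Subgroup.mem_normalizer_iff.mp hsN k).mp hk
  letI : MulAction (Subgroup.zpowers y) K :=
    MulAction.compHom K (conjHom K (Subgroup.zpowers y) hnorm)
  have hpg : IsPGroup r (Subgroup.zpowers y) :=
    IsPGroup.of_card (n := 1) (by rw [Nat.card_zpowers, hyo, pow_one])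
  have h1 := hpg.card_modEq_card_fixedPoints K
  have h2 : MulAction.fixedPoints (Subgroup.zpowers y) K = {1} := by
    ext u
    rw [MulAction.mem_fixedPoints, Set.mem_singleton_iff]
    constructor
    · intro h
      have h3 := h ⟨y, Subgroup.mem_zpowers y⟩
      have h4 : y * (u : G) * y⁻¹ = u := congrArg Subtype.val h3
      exact Subtype.ext (hfree u u.2 h4)
    · rintro rfl s
      apply Subtype.ext
      show (s : G) * ((1 : K) : G) * (s : G)⁻¹ = ((1 : K) : G)
      simp
  rw [h2] at h1
  have h3 : Nat.card ({1} : Set K) = 1 := by simp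
  rw [h3] at h1
  have h4 : r ∣ Nat.card K := by
    have h5 : orderOf (⟨g * y * g⁻¹, hyk⟩ : K) = r := by
      rw [← Subgroup.orderOf_coe]
      show orderOf (g * y * g⁻¹) = r
      rw [← hyo]
      exact (MulAut.conj g).orderOf_eq y
    rw [← h5]
    exact orderOf_dvd_natCard _
  have h5 : Nat.card K ≡ 0 [MOD r] := (Nat.modEq_zero_iff_dvd).mpr h4
  have h6 : r ∣ 1 := (Nat.modEq_zero_iff_dvd).mp (h1.symm.trans h5)
  exact hr.one_lt.ne' (Nat.dvd_one.mp h6)

/-- Let K be a subgroup of the finite group G that meets each conjugate by an element outside its normalizer N trivially, is properly contained in N, and contains the centralizer of each of its non-identity elements (a T.I. subgroup with Frobenius normalizer). Then no element of N outside K is conjugate in G to an element of K, and for every class function ϑ of N that vanishes on N away from K and at the identity, the function induced from ϑ to G agrees with ϑ on all of N. -/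
theorem result {G : Type*} [Group G] [Fintype G] (K : Subgroup G) (hTI : ∀ g : G, g ∉ Subgroup.normalizer (K : Set G) → ∀ k ∈ K, g * k * g⁻¹ ∈ K → k = 1) (hlt : K < Subgroup.normalizer (K : Set G)) (hC : ∀ k ∈ K, k ≠ 1 → Subgroup.centralizer ({k} : Set G) ≤ K) : (∀ x ∈ Subgroup.normalizer (K : Set G), x ∉ K → ∀ g : G, g * x * g⁻¹ ∉ K) ∧ ∀ (ϑ : Subgroup.normalizer (K : Set G) → ℂ), Cfsg.IsClassFunction (Subgroup.normalizer (K : Set G)) ϑ → (∀ x : Subgroup.normalizer (K : Set G), (x : G) ∉ K → ϑ x = 0) → ϑ 1 = 0 → ∀ x : Subgroup.normalizer (K : Set G), Cfsg.indFun (Subgroup.normalizer (K : Set G)) ϑ x = ϑ x := by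
  classical
  have hp1 := part1 K hTI hC
  refine ⟨hp1, ?_⟩
  intro ϑ hcf hvan h1 x
  have hzero : ∀ z : G, z ∉ K → extendByZero (Subgroup.normalizer (K : Set G)) ϑ z = 0 := by
    intro z hz
    by_cases hzN : z ∈ Subgroup.normalizer (K : Set G)
    · rw [extendByZero_mem _ _ hzN]
      exact hvan ⟨z, hzN⟩ hz
    · exact extendByZero_not_mem _ _ hzN
  have hNc : (Nat.card (Subgroup.normalizer (K : Set G)) : ℂ) ≠ 0 := by
    exact_mod_cast Nat.card_pos.ne'
  unfold indFun
  by_cases hxK : (x : G) ∈ K
  · by_cases hx1 : x = 1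
    · subst hx1
      rw [h1]
      have : ∀ t : G, extendByZero (Subgroup.normalizer (K : Set G)) ϑ
          (t⁻¹ * ((1 : Subgroup.normalizer (K : Set G)) : G) * t) = 0 := by
        intro t
        have e : t⁻¹ * ((1 : Subgroup.normalizer (K : Set G)) : G) * t =
            ((1 : Subgroup.normalizer (K : Set G)) : G) := by simp
        rw [e, extendByZero_coe, h1]
      simp only [this, Finset.sum_const_zero, mul_zero]
    · have hterm : ∀ t : G, extendByZero (Subgroup.normalizer (K : Set G)) ϑ (t⁻¹ * (x : G) * t) =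
          if t ∈ Subgroup.normalizer (K : Set G) then ϑ x else 0 := by
        intro t
        by_cases ht : t ∈ Subgroup.normalizer (K : Set G)
        · rw [if_pos ht]
          have e : t⁻¹ * (x : G) * t =
              (((⟨t, ht⟩ : Subgroup.normalizer (K : Set G))⁻¹ * x *
                (⟨t, ht⟩ : Subgroup.normalizer (K : Set G))⁻¹⁻¹ :
                  Subgroup.normalizer (K : Set G)) : G) := by
            simp
          rw [e, extendByZero_coe, hcf]
        · rw [if_neg ht]
          apply hzero
          intro hmem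
          apply hx1
          have ht' : t⁻¹ ∉ Subgroup.normalizer (K : Set G) := by
            intro h
            exact ht (by simpa using Subgroup.inv_mem _ h)
          have := hTI t⁻¹ ht' x hxK (by simpa using hmem)
          exact Subtype.ext this
      simp only [hterm]
      rw [Finset.sum_ite, Finset.sum_const_zero, add_zero, Finset.sum_const, nsmul_eq_mul]
      have hcard : (Finset.univ.filter (fun t : G => t ∈ Subgroup.normalizer (K : Set G))).card =
          Nat.card (Subgroup.normalizer (K : Set G)) := by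
        rw [Nat.card_eq_fintype_card, Fintype.card_subtype]
      rw [hcard, ← mul_assoc, inv_mul_cancel₀ hNc, one_mul]
  · rw [hvan x hxK]
    have : ∀ t : G, extendByZero (Subgroup.normalizer (K : Set G)) ϑ (t⁻¹ * (x : G) * t) = 0 := by
      intro t
      apply hzero
      have := hp1 x x.2 hxK t⁻¹
      simpa using this
    simp only [this, Finset.sum_const_zero, mul_zero]

end Cfsg.Agent.S0850
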