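import Cfsg.Statements.S0861
import Cfsg.Agent.Lib.helper8_ModP
import Cfsg.Agent.Lib.helper8_ItoMichler
import Cfsg.Agent.Lib.CharDegrees
import Cfsg.Agent.Lib.CharGalois

set_option autoImplicit false
open Cfsg

namespace Cfsg.Agent.S0861

open Cfsg.Agent.Lib.helper8_ModP Cfsg.Agent.Lib.helper8_ItoMichler Cfsg.Agent.Lib.CharDegrees Cfsg.Agent.Lib.CharGalois Cfsg.Agent.Lib.helper8_DefectZero Cfsg.Agent.Lib.Helper2_BlockLocal Cfsg.Agent.Lib.CharBasic Cfsg.Agent.Lib.CharThompson Cfsg.Agent.Lib.CharComplete Cfsg.Agent.Lib.CharQuot Cfsg.Agent.Lib.CharMore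

/-- Let P be a normal abelian Sylow p-subgroup of the finite group G and suppose some element g of P has centralizer exactly P. Then the number of irreducible characters of G is at most the order of P, and if equality holds then G / P is abelian (the commutator subgroup lies in P). -/
theorem result {G : Type*} [Group G] [Finite G] (p : ℕ) [Fact p.Prime] (P : Sylow p G) [(P : Subgroup G).Normal] (hab : ∀ a ∈ P, ∀ b ∈ P, a * b = b * a) (g : G) (hg : g ∈ P) (hC : Subgroup.centralizer ({g} : Set G) = P) : Nat.card (Cfsg.IrrCharacter G) ≤ Nat.card P ∧ (Nat.card (Cfsg.IrrCharacter G) = Nat.card P → commutator G ≤ P) := by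
  classical
  haveI := Fintype.ofFinite G
  have hp : p.Prime := Fact.out
  obtain ⟨M, hM⟩ := exists_modular hp
  have hnz : ∀ χ : Cfsg.IrrCharacter G, (χ : G → ℂ) g ≠ 0 := by
    intro χ h0
    have h1 := degrees_of_normal_abelian (p := p) (P : Subgroup G) inferInstance hab
      P.not_dvd_index χ
    obtain ⟨j, hj⟩ := P.2 ⟨g, hg⟩
    have hj' : g ^ p ^ j = 1 := by
      have := congrArg Subtype.val hj
      simpa using this
    have h2 := char_congr_one hM (isCharacter_of_isIrr χ.2) g hj'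
    rw [h0, sub_zero, charDegree_spec χ.2] at h2
    exact h1 ((ideal_natCast_iff hM _).mp h2)
  have hcent : ∀ k : ℕ, k.Coprime (Nat.card G) →
      Subgroup.centralizer ({g ^ k} : Set G) = Subgroup.centralizer ({g} : Set G) := by
    intro k hk
    have hc : k.Coprime (orderOf g) := Nat.Coprime.coprime_dvd_right (orderOf_dvd_natCard g) hk
    obtain ⟨m, hm⟩ := exists_pow_eq_self_of_coprime hc
    ext x
    rw [Subgroup.mem_centralizer_singleton_iff, Subgroup.mem_centralizer_singleton_iff]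
    constructor
    · intro h
      have h1 : Commute x (g ^ k) := h
      have h2 := h1.pow_right m
      rw [hm] at h2
      exact h2
    · intro h
      have h1 : Commute x g := h
      exact h1.pow_right k
  have hcol : ∀ h : G, ∑ χ : Cfsg.IrrCharacter G, ‖(χ : G → ℂ) h‖ ^ 2 =
      (Nat.card (Subgroup.centralizer ({h} : Set G)) : ℝ) := by
    intro h
    have h1 := second_orthogonality_conj h h (IsConj.refl h)
    have h2 : ((∑ χ : Cfsg.IrrCharacter G, ‖(χ : G → ℂ) h‖ ^ 2 : ℝ) : ℂ) =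
        ((Nat.card (Subgroup.centralizer ({h} : Set G)) : ℝ) : ℂ) := by
      rw [← Complex.ofReal_natCast] at h1
      rw [← h1]
      push_cast
      refine Finset.sum_congr rfl fun χ _ => ?_
      rw [Complex.mul_conj, Complex.normSq_eq_norm_sq]
      push_cast
      rfl
    exact_mod_cast h2
  set Γ := K (Nat.card G) ≃ₐ[ℚ] K (Nat.card G) with hΓ
  have hΓpos : (0 : ℝ) < (Fintype.card Γ : ℝ) := by
    exact_mod_cast Fintype.card_pos_iff.mpr ⟨AlgEquiv.refl⟩
  have hrow : ∀ χ : Cfsg.IrrCharacter G, (Fintype.card Γ : ℝ) ≤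
      ∑ τ : Γ, ‖(χ : G → ℂ) (g ^ expo (Nat.card G) τ)‖ ^ 2 := fun χ =>
    card_le_sum_normSq (isCharacter_of_isIrr χ.2) g (hnz χ)
  have htot : ∑ χ : Cfsg.IrrCharacter G, ∑ τ : Γ, ‖(χ : G → ℂ) (g ^ expo (Nat.card G) τ)‖ ^ 2 =
      (Fintype.card Γ : ℝ) * (Nat.card P : ℝ) := by
    rw [Finset.sum_comm]
    rw [Finset.sum_congr rfl (fun τ _ => by
      rw [hcol, hcent _ (expo_coprime _ τ), hC] : ∀ τ ∈ (Finset.univ : Finset Γ),
        ∑ χ : Cfsg.IrrCharacter G, ‖(χ : G → ℂ) (g ^ expo (Nat.card G) τ)‖ ^ 2 =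
          (Nat.card (P : Subgroup G) : ℝ))]
    rw [Finset.sum_const, Finset.card_univ, nsmul_eq_mul]
  have hle : (Nat.card (Cfsg.IrrCharacter G) : ℝ) * (Fintype.card Γ : ℝ) ≤
      (Fintype.card Γ : ℝ) * (Nat.card P : ℝ) := by
    rw [← htot, Nat.card_eq_fintype_card]
    calc (Fintype.card (Cfsg.IrrCharacter G) : ℝ) * (Fintype.card Γ : ℝ)
        = ∑ _χ : Cfsg.IrrCharacter G, (Fintype.card Γ : ℝ) := by
          rw [Finset.sum_const, Finset.card_univ, nsmul_eq_mul]
      _ ≤ _ := Finset.sum_le_sum fun χ _ => hrow χ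
  constructor
  · have h1 : (Nat.card (Cfsg.IrrCharacter G) : ℝ) ≤ (Nat.card P : ℝ) := by
      rw [mul_comm] at hle
      exact le_of_mul_le_mul_left hle hΓpos
    exact_mod_cast h1
  · intro heq
    have hsum0 : ∑ χ : Cfsg.IrrCharacter G,
        (∑ τ : Γ, ‖(χ : G → ℂ) (g ^ expo (Nat.card G) τ)‖ ^ 2 - (Fintype.card Γ : ℝ)) = 0 := by
      rw [Finset.sum_sub_distrib, htot, Finset.sum_const, Finset.card_univ, nsmul_eq_mul,
        ← Nat.card_eq_fintype_card (α := Cfsg.IrrCharacter G), heq]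
      ring
    have heach := (Finset.sum_eq_zero_iff_of_nonneg
      (fun χ _ => sub_nonneg.mpr (hrow χ))).mp hsum0
    have hlin : ∀ ψ : Cfsg.IrrCharacter (G ⧸ (P : Subgroup G)),
        (ψ : G ⧸ (P : Subgroup G) → ℂ) 1 = 1 := by
      intro ψ
      have hχ := isIrr_inflate (P : Subgroup G) ψ.2
      have h1 := heach ⟨_, hχ⟩ (Finset.mem_univ _)
      have h2 : ∀ τ : Γ, ‖(ψ : G ⧸ (P : Subgroup G) → ℂ)
          (QuotientGroup.mk (g ^ expo (Nat.card G) τ))‖ ^ 2 =
          ‖(ψ : G ⧸ (P : Subgroup G) → ℂ) 1‖ ^ 2 := by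
        intro τ
        rw [(QuotientGroup.eq_one_iff _).mpr ((P : Subgroup G).pow_mem hg _)]
      simp only [h2, Finset.sum_const, Finset.card_univ, nsmul_eq_mul] at h1
      obtain ⟨d, hd0, hd, -⟩ := irr_degree ψ.2
      rw [hd, Complex.norm_natCast] at h1
      have h3 : (d : ℝ) ^ 2 = 1 := by
        have : (Fintype.card Γ : ℝ) * ((d : ℝ) ^ 2 - 1) = 0 := by linarith
        rcases mul_eq_zero.mp this with h | h
        · exact absurd h hΓpos.ne'
        · linarith
      have h4 : d ^ 2 = 1 := by exact_mod_cast h3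
      have h5 : d = 1 := by nlinarith
      rw [hd, h5, Nat.cast_one]
    have hcomm := comm_of_all_linear hlin
    rw [commutator_def, Subgroup.commutator_le]
    intro x _ y _
    rw [← QuotientGroup.eq_one_iff, commutatorElement_def]
    simp only [QuotientGroup.mk_mul, QuotientGroup.mk_inv]
    rw [hcomm (x : G ⧸ (P : Subgroup G)) y]
    group

end Cfsg.Agent.S0861
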