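import Cfsg.Statements.S0865
import Cfsg.Agent.Lib.CharLinExt

set_option autoImplicit false
open Cfsg

namespace Cfsg.Agent.S0865

open Cfsg.Agent.Lib.CharLinExt Cfsg.Agent.Lib.CharLinear

/-- Let N be a normal subgroup of the finite group G and λ a character of N of degree 1, invariant under conjugation by G, whose order (under pointwise multiplication) is coprime to the index of N. Then there is a character μ of G of degree 1 restricting to λ with the same order as λ, and μ is the only degree-1 character of G restricting to λ whose order is coprime to the index of N. -/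
theorem result {G : Type*} [Group G] [Finite G] (N : Subgroup G) [hN : N.Normal] (lam : N → ℂ) (hlam : Cfsg.IsCharacter N lam ∧ lam 1 = 1) (hinv : ∀ (g : G) (n : N), lam ⟨g * n * g⁻¹, hN.conj_mem (n : G) n.2 g⟩ = lam n) (hcop : Nat.Coprime N.index (orderOf lam)) : ∃ μ : G → ℂ, (Cfsg.IsCharacter G μ ∧ μ 1 = 1 ∧ (∀ n : N, μ n = lam n) ∧ orderOf μ = orderOf lam) ∧ ∀ μ' : G → ℂ, Cfsg.IsCharacter G μ' ∧ μ' 1 = 1 → (∀ n : N, μ' n = lam n) → Nat.Coprime N.index (orderOf μ') → μ' = μ := by
  have hfun : (fun g => ((homOfLinear hlam.1 hlam.2 g : ℂˣ) : ℂ)) = lam :=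
    funext fun g => homOfLinear_apply hlam.1 hlam.2 g
  have hord : orderOf (homOfLinear hlam.1 hlam.2) = orderOf lam := by
    rw [← orderOf_toFun', hfun]
  obtain ⟨μ, hμ, hμo, huniq⟩ := extend_linear_coprime N hN (homOfLinear hlam.1 hlam.2)
    (fun g n => Units.ext (by rw [homOfLinear_apply, homOfLinear_apply]; exact hinv g n))
    (by rw [hord]; exact hcop)
  refine ⟨fun g => ((μ g : ℂˣ) : ℂ), ⟨isCharacter_hom μ, by simp, fun n => ?_, ?_⟩, ?_⟩
  · show ((μ n : ℂˣ) : ℂ) = lam n
    rw [hμ n, homOfLinear_apply]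
  · rw [orderOf_toFun', hμo, hord]
  · intro μ' hμ' hres hcop'
    have hfun' : (fun g => ((homOfLinear hμ'.1 hμ'.2 g : ℂˣ) : ℂ)) = μ' :=
      funext fun g => homOfLinear_apply hμ'.1 hμ'.2 g
    have h1 := huniq (homOfLinear hμ'.1 hμ'.2)
      (fun n => Units.ext (by rw [homOfLinear_apply, homOfLinear_apply]; exact hres n))
      (by rw [← orderOf_toFun', hfun']; exact hcop')
    rw [← hfun', h1]

end Cfsg.Agent.S0865
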