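import Cfsg.Statements.S0868
import Cfsg.Agent.Lib.CharCoset

set_option autoImplicit false
open scoped ComplexConjugate
open Cfsg

namespace Cfsg.Agent.S0868

open Cfsg.Agent.Lib.CharCoset Cfsg.Agent.Lib.CharGallagher Cfsg.Agent.Lib.CharOrtho Cfsg.Agent.Lib.CharMore

/-- Let N be a normal subgroup of the finite group G, χ an irreducible character of G whose restriction ϑ to N is irreducible, and ψ an irreducible character of G. Define η on G by η g = (1 / order of N) * Σ over n in N of ψ (n * g) * conj (χ (n * g)). Then: if the restriction of ψ to N has nonzero inner product with ϑ, η is an irreducible character of G; if that inner product is zero, η vanishes identically; and if ψ = χ then η is identically 1. -/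
theorem result {G : Type*} [Group G] [Fintype G] (N : Subgroup G) [N.Normal] [Fintype N] (χ : G → ℂ) (hχ : Cfsg.IsIrrCharacter G χ) (hχN : Cfsg.IsIrrCharacter N (fun n : N => χ n)) (ψ : G → ℂ) (hψ : Cfsg.IsIrrCharacter G ψ) (η : G → ℂ) (hη : η = fun g => (Nat.card N : ℂ)⁻¹ * ∑ n : N, ψ ((n : G) * g) * conj (χ ((n : G) * g))) : (Cfsg.classInner (fun n : N => ψ n) (fun n : N => χ n) ≠ 0 → Cfsg.IsIrrCharacter G η) ∧ (Cfsg.classInner (fun n : N => ψ n) (fun n : N => χ n) = 0 → η = 0) ∧ (ψ = χ → η = fun _ => 1) := by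
  have hN : N.Normal := inferInstance
  have hη' : η = avg N ψ χ := hη
  obtain ⟨h1, h2⟩ := avg_eq N hN hχ hχN hψ
  refine ⟨?_, ?_, ?_⟩
  · intro hc
    obtain ⟨β, hβ, hβN, hβχ⟩ := gallagher_exists N hN hχ hχN hψ hc
    rw [hη', h1 β hβ hβN hβχ]
    exact hβ
  · intro hc
    rw [hη']
    apply h2
    intro β hβ hβN hβχ
    have h3 : (fun n : N => ψ n) = (β 1) • (fun n : N => χ n) := by
      ext n
      rw [← hβχ]
      simp [hβN n n.2]
    rw [h3, classInner_smul_left, classInner_irr_self hχN, mul_one] at hc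
    exact irr_degree_ne_zero hβ hc
  · intro hψχ
    rw [hη', h1 1 isIrr_one (fun _ _ => rfl) (by rw [one_mul, hψχ])]
    rfl

end Cfsg.Agent.S0868
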