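import Cfsg.Statements.S0869
import Mathlib


set_option autoImplicit false
open Cfsg

namespace Cfsg.Agent.S0869

/-- Let S be a nonempty finite type and R an additive subgroup of the integer-valued functions on S that is closed under pointwise multiplication. If the constant function 1 is not in R, then there exist a point x of S and a prime p such that p divides f x for every f in R. -/
theorem result {S : Type*} [Finite S] [Nonempty S] (R : AddSubgroup (S → ℤ)) (hmul : ∀ f ∈ R, ∀ g ∈ R, f * g ∈ R) (h1 : (1 : S → ℤ) ∉ R) : ∃ (x : S) (p : ℕ), p.Prime ∧ ∀ f ∈ R, (p : ℤ) ∣ f x := by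
  classical
  haveI : Fintype S := Fintype.ofFinite S
  by_contra hcon
  push Not at hcon
  have hex : ∀ x : S, ∃ f ∈ R, f x = 1 := by
    intro x
    set H := R.map (Pi.evalAddMonoidHom (fun _ : S => ℤ) x) with hH
    obtain ⟨a, ha⟩ := Int.subgroup_cyclic H
    have hmem : ∀ f ∈ R, f x ∈ H := fun f hf => ⟨f, hf, rfl⟩
    by_cases h : a.natAbs = 1
    · have haH : a ∈ H := by rw [ha]; exact AddSubgroup.subset_closure rfl
      have h1H : (1 : ℤ) ∈ H := by
        rcases Int.natAbs_eq a with h' | h'
        · rw [h] at h'; rw [h'] at haH; simpa using haH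
        · rw [h] at h'; rw [h'] at haH
          have := H.neg_mem haH
          simpa using this
      obtain ⟨f, hf, hfx⟩ := h1H
      exact ⟨f, hf, hfx⟩
    · exfalso
      obtain ⟨p, hp, hpa⟩ := Nat.exists_prime_and_dvd h
      obtain ⟨f, hf, hnd⟩ := hcon x p hp
      apply hnd
      have := hmem f hf
      rw [ha, AddSubgroup.mem_closure_singleton] at this
      obtain ⟨n, hn⟩ := this
      rw [← hn, smul_eq_mul]
      apply Dvd.dvd.mul_left
      exact Int.natCast_dvd.mpr hpa
  choose f hfR hf1 using hex
  have key : ∀ T : Finset S, 1 - ∏ x ∈ T, (1 - f x) ∈ R := by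
    intro T
    induction T using Finset.induction_on with
    | empty => simp [R.zero_mem]
    | insert a T ha ih =>
      rw [Finset.prod_insert ha]
      have e : 1 - (1 - f a) * ∏ x ∈ T, (1 - f x) =
          (1 - ∏ x ∈ T, (1 - f x)) + f a - f a * (1 - ∏ x ∈ T, (1 - f x)) := by ring
      rw [e]
      exact R.sub_mem (R.add_mem ih (hfR a)) (hmul _ (hfR a) _ ih)
  apply h1
  have h0 : ∏ x : S, (1 - f x) = 0 := by
    ext y
    rw [Finset.prod_apply]
    apply Finset.prod_eq_zero (Finset.mem_univ y)
    simp [hf1]
  have := key Finset.univ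
  rwa [h0, sub_zero] at this

end Cfsg.Agent.S0869
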