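import Cfsg.Statements.S0871
import Cfsg.Agent.Lib.helper8_Brauer2

set_option autoImplicit false
open Cfsg

namespace Cfsg.Agent.S0871

open Cfsg.Agent.Lib.helper8_Brauer2

theorem QE_unfold {G : Type*} [Group G] {p : ℕ} {H : Subgroup G} (h : QE p H) :
    ∃ C : Subgroup G, C ≤ H ∧ H ≤ Subgroup.normalizer (C : Set G) ∧ IsCyclic C ∧
      Nat.Coprime (Nat.card C) p ∧ ∃ k : ℕ, C.relIndex H = p ^ k := by
  obtain ⟨C, hCn, hCc, hCp, k, hk⟩ := h
  have hle : C.map H.subtype ≤ H := Subgroup.map_subtype_le C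
  have e : C ≃* C.map H.subtype := C.equivMapOfInjective H.subtype H.subtype_injective
  refine ⟨C.map H.subtype, hle, ?_, ?_, ?_, k, ?_⟩
  · intro h hh
    rw [Subgroup.mem_normalizer_iff]
    intro x
    constructor
    · rintro ⟨c, hc, rfl⟩
      exact ⟨⟨h, hh⟩ * c * ⟨h, hh⟩⁻¹, hCn.conj_mem c hc _, rfl⟩
    · rintro ⟨c, hc, hcx⟩
      refine ⟨⟨h, hh⟩⁻¹ * c * ⟨h, hh⟩, ?_, ?_⟩
      · have := hCn.conj_mem c hc (⟨h, hh⟩⁻¹)
        simpa using this
      · simp only [Subgroup.subtype_apply] at hcx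
        simp [hcx, mul_assoc]
  · exact isCyclic_of_surjective e.toMonoidHom e.surjective
  · rw [← Nat.card_congr e.toEquiv]; exact hCp
  · rw [Subgroup.relIndex, ← hk]
    congr 1
    ext x
    simp [Subgroup.mem_subgroupOf]

theorem nat_of_int {G : Type*} [Group G] [Fintype G] (H : Subgroup G) (x : G) {n : ℤ}
    (h : Cfsg.indFun H (1 : H → ℂ) x = n) : 0 ≤ n := by
  classical
  rw [indFun_one_eq] at h
  have h1 : (0 : ℝ) ≤ (Nat.card H : ℝ)⁻¹ *
      ((Finset.univ.filter fun g : G => g⁻¹ * x * g ∈ H).card : ℝ) := by positivity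
  have h2 : ((n : ℝ) : ℂ) = (((Nat.card H : ℝ)⁻¹ *
      ((Finset.univ.filter fun g : G => g⁻¹ * x * g ∈ H).card : ℝ) : ℝ) : ℂ) := by
    push_cast
    rw [← h]
  have h3 : (n : ℝ) = _ := Complex.ofReal_injective h2
  rw [← h3] at h1
  exact_mod_cast h1

/-- Let x be an element of the finite group G and p a prime. Then there is a subgroup H having a cyclic normal subgroup C of order prime to p and p-power index in H, such that the value at x of the function induced from the constant function 1 on H is a natural number not divisible by p. -/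
theorem result {G : Type*} [Group G] [Fintype G] (x : G) (p : ℕ) (hp : p.Prime) : ∃ H : Subgroup G, (∃ C : Subgroup G, C ≤ H ∧ H ≤ Subgroup.normalizer (C : Set G) ∧ IsCyclic C ∧ Nat.Coprime (Nat.card C) p ∧ ∃ k : ℕ, C.relIndex H = p ^ k) ∧ ∃ n : ℕ, Cfsg.indFun H (fun _ => 1) x = (n : ℂ) ∧ ¬ p ∣ n := by
  obtain ⟨H, hH, n, hn, hpn⟩ := exists_QE hp x
  refine ⟨H, QE_unfold hH, n.toNat, ?_, ?_⟩
  · have h0 := nat_of_int H x hn
    have : ((n.toNat : ℤ) : ℂ) = (n : ℂ) := by rw [Int.toNat_of_nonneg h0]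
    rw [← Int.cast_natCast, this, ← hn]
    rfl
  · intro hd
    apply hpn
    have h0 := nat_of_int H x hn
    rw [← Int.toNat_of_nonneg h0]
    exact_mod_cast hd

end Cfsg.Agent.S0871
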