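import Cfsg.Statements.S0872
import Cfsg.Agent.Lib.helper8_PermRing
import Cfsg.Agent.Lib.helper8_Brauer3
import Cfsg.Agent.S0871

set_option autoImplicit false
open Cfsg

namespace Cfsg.Agent.S0872

open Cfsg.Agent.Lib.helper8_PermRing Cfsg.Agent.Lib.helper8_Brauer2 Cfsg.Agent.Lib.helper8_Brauer3

/-- For a finite group G and a prime p there are an integer m not divisible by p and a ℤ-linear combination of functions induced from the constant function 1 on subgroups H, each having a cyclic normal subgroup of order prime to p and p-power index in H, that equals the constant function m. -/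
theorem result {G : Type*} [Group G] [Fintype G] (p : ℕ) (hp : p.Prime) : ∃ (m : ℤ) (a : Subgroup G → ℤ), ¬ (p : ℤ) ∣ m ∧ (∀ H, a H ≠ 0 → (∃ C : Subgroup G, C ≤ H ∧ H ≤ Subgroup.normalizer (C : Set G) ∧ IsCyclic C ∧ Nat.Coprime (Nat.card C) p ∧ ∃ k : ℕ, C.relIndex H = p ^ k)) ∧ (fun _ : G => (m : ℂ)) = ∑ H : Subgroup G, (a H : ℂ) • Cfsg.indFun H (fun _ => 1) := by
  classical
  have hF : ∀ H U : Subgroup G, QE p H → U ≤ H → QE p U := by
    intro H U hH hU
    have h1 := QE_subgroup hp hH (U.subgroupOf H)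
    obtain ⟨C, hCn, hCc, hCp, k, hk⟩ := h1
    let e : U.subgroupOf H ≃* U := Subgroup.subgroupOfEquivOfLe hU
    have e' : C ≃* C.map e.toMonoidHom := C.equivMapOfInjective e.toMonoidHom e.injective
    refine ⟨C.map e.toMonoidHom, ?_, ?_, ?_, k, ?_⟩
    · exact hCn.map e.toMonoidHom e.surjective
    · exact isCyclic_of_surjective e'.toMonoidHom e'.surjective
    · rw [← Nat.card_congr e'.toEquiv]; exact hCp
    · rw [← hk]; exact Subgroup.index_map_equiv C e
  obtain ⟨m, hm, h⟩ := const_mem_of_mul_closed (P (fun H : Subgroup G => QE p H))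
    (fun f hf g hg => mul_mem_P hF hf hg) hp (fun x => by
      obtain ⟨H, hH, n, hn, hpn⟩ := exists_QE hp x
      exact ⟨_, mem_P hH, n, hn, hpn⟩)
  obtain ⟨a, ha, hs⟩ := exists_coeff_of_mem_P h
  refine ⟨m, a, hm, fun H hH => Cfsg.Agent.S0871.QE_unfold (ha H hH), ?_⟩
  rw [hs]

end Cfsg.Agent.S0872
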