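import Cfsg.Statements.S0873
import Mathlib
import Cfsg.Agent.Lib.CharLinear


set_option autoImplicit false
open Cfsg

namespace Cfsg.Agent.S0873

/-- Let C be a normal subgroup of the finite group G of order prime to p and P a p-subgroup with C ⊔ P = G. Let λ be a character of C of degree 1 invariant under conjugation by G and equal to 1 at every element of C centralized by P. Then λ is identically 1. -/
theorem result {G : Type*} [Group G] [Finite G] (p : ℕ) [Fact p.Prime] (C P : Subgroup G) [hC : C.Normal] (hP : IsPGroup p P) (hcop : Nat.Coprime (Nat.card C) p) (hCP : C ⊔ P = ⊤) (lam : C → ℂ) (hlam : Cfsg.IsCharacter C lam ∧ lam 1 = 1) (hinv : ∀ (g : G) (c : C), lam ⟨g * c * g⁻¹, hC.conj_mem (c : G) c.2 g⟩ = lam c) (hker : ∀ c : C, (c : G) ∈ Subgroup.centralizer (P : Set G) → lam c = 1) : lam = fun _ => 1 := by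
  classical
  obtain ⟨hchar, h1⟩ := hlam
  let L : C →* ℂˣ := Cfsg.Agent.Lib.CharLinear.homOfLinear hchar h1
  have hL : ∀ c : C, ((L c : ℂˣ) : ℂ) = lam c := fun c => rfl
  have hLeq : ∀ a b : C, lam a = lam b ↔ L a = L b := by
    intro a b
    rw [← hL, ← hL]
    exact Units.val_inj
  funext c₀
  let X := {x : C // lam x = lam c₀}
  letI act : MulAction P X :=
    { smul := fun u x => ⟨⟨(u : G) * x.1 * (u : G)⁻¹, hC.conj_mem _ x.1.2 u⟩, by
        rw [hinv]; exact x.2⟩
      one_smul := by
        intro x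
        apply Subtype.ext
        apply Subtype.ext
        change ((1 : P) : G) * x.1 * ((1 : P) : G)⁻¹ = x.1
        simp
      mul_smul := by
        intro u v x
        apply Subtype.ext
        apply Subtype.ext
        change ((u * v : P) : G) * x.1 * ((u * v : P) : G)⁻¹ = (u : G) * ((v : G) * x.1 * (v : G)⁻¹) * (u : G)⁻¹
        simp [mul_assoc] }
  have hsm : ∀ (u : P) (x : X), (((u • x : X) : C) : G) = (u : G) * x.1 * (u : G)⁻¹ := fun _ _ => rfl
  have hcard : Nat.card X = Nat.card L.ker := by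
    refine Nat.card_congr
      { toFun := fun x => ⟨c₀⁻¹ * x.1, ?_⟩
        invFun := fun k => ⟨c₀ * k.1, ?_⟩
        left_inv := fun x => by apply Subtype.ext; simp
        right_inv := fun k => by apply Subtype.ext; simp }
    · rw [MonoidHom.mem_ker, map_mul, map_inv, (hLeq _ _).mp x.2, inv_mul_cancel]
    · rw [hLeq, map_mul, MonoidHom.mem_ker.mp k.2, mul_one]
  have hnd : ¬ p ∣ Nat.card X := by
    intro hdvd
    rw [hcard] at hdvd
    have h2 : p ∣ Nat.card C := hdvd.trans (Subgroup.card_subgroup_dvd_card _)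
    have h3 : p ∣ Nat.gcd (Nat.card C) p := Nat.dvd_gcd h2 dvd_rfl
    rw [hcop] at h3
    exact (Fact.out : p.Prime).one_lt.ne' (Nat.dvd_one.mp h3)
  obtain ⟨x, hx⟩ := hP.nonempty_fixed_point_of_prime_not_dvd_card X hnd
  rw [← x.2]
  apply hker
  rw [Subgroup.mem_centralizer_iff]
  intro u hu
  have := congrArg (fun w : X => ((w : C) : G)) (hx ⟨u, hu⟩)
  simp only [hsm] at this
  exact mul_inv_eq_iff_eq_mul.mp this

end Cfsg.Agent.S0873
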