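import Cfsg.Statements.S0875
import Cfsg.Agent.Lib.helper8_Section

set_option autoImplicit false
open Cfsg

namespace Cfsg.Agent.S0875

open Cfsg.Agent.Lib.helper8_Section

/-- Let G be a finite group of order m * n with m and n coprime, and g an element whose order is coprime to m. Every x in G factors uniquely as x = u * v with u, v commuting, the order of u coprime to n and the order of v coprime to m; let ϑ be the function on G equal to n at those x whose factor v is conjugate to g and equal to 0 elsewhere. Then ϑ is a linear combination of the irreducible characters of G with algebraic-integer coefficients. -/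
theorem result {G : Type*} [Group G] [Fintype G] (m n : ℕ) (hmn : Nat.card G = m * n) (hcop : Nat.Coprime m n) (g : G) (hg : Nat.Coprime (orderOf g) m) (ϑ : G → ℂ) (hϑ1 : ∀ x : G, (∃ v : G, IsConj v g ∧ (∃ u : G, x = u * v ∧ Commute u v ∧ Nat.Coprime (orderOf u) n ∧ Nat.Coprime (orderOf v) m)) → ϑ x = n) (hϑ0 : ∀ x : G, (¬ ∃ v : G, IsConj v g ∧ (∃ u : G, x = u * v ∧ Commute u v ∧ Nat.Coprime (orderOf u) n ∧ Nat.Coprime (orderOf v) m)) → ϑ x = 0) : ∃ c : Cfsg.IrrCharacter G → ℂ, (∀ χ, c χ ∈ Cfsg.AlgInt) ∧ ϑ = ∑ᶠ χ : Cfsg.IrrCharacter G, c χ • (χ : G → ℂ) := by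
  classical
  obtain ⟨a, ha0, ha1⟩ := exists_crt hcop
  have hϑ : ϑ = fun x : G => if IsConj (x ^ a) g then (n : ℂ) else 0 := by
    ext x
    by_cases h : IsConj (x ^ a) g
    · rw [if_pos h]
      exact hϑ1 x ((section_iff hcop hmn ha0 ha1 x g).mpr h)
    · rw [if_neg h]
      exact hϑ0 x (fun h' => h ((section_iff hcop hmn ha0 ha1 x g).mp h'))
  have hcf : IsClassFunction G ϑ := by
    rw [hϑ]
    intro x y
    have h1 : (y * x * y⁻¹) ^ a = y * x ^ a * y⁻¹ := conj_pow
    have h2 : IsConj (y * x ^ a * y⁻¹) g ↔ IsConj (x ^ a) g := by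
      have h3 : IsConj (x ^ a) (y * x ^ a * y⁻¹) := isConj_iff.mpr ⟨y, rfl⟩
      exact ⟨fun h => h3.trans h, fun h => h3.symm.trans h⟩
    simp only [h1, h2]
  refine ⟨fun χ => classInner ϑ (χ : G → ℂ), fun χ => ?_, ?_⟩
  · rw [hϑ]
    have := section_integral hcop hmn ha0 ha1 g (Cfsg.Agent.Lib.CharBasic.isCharacter_of_isIrr χ.2)
    change IsIntegral ℤ _
    convert this using 3
  · rw [finsum_eq_sum_of_fintype]
    exact Cfsg.Agent.Lib.CharComplete.classFunction_expansion ϑ hcf

end Cfsg.Agent.S0875
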