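import Cfsg.Statements.S0876
import Cfsg.Agent.Lib.helper8_Section
import Cfsg.Agent.Lib.helper8_ModP
import Cfsg.Agent.Lib.Helper2_BlockOm

set_option autoImplicit false
open Cfsg

namespace Cfsg.Agent.S0876

open Cfsg.Agent.Lib.helper8_Section Cfsg.Agent.Lib.helper8_ModP Cfsg.Agent.Lib.Helper2_BlockLocal
  Cfsg.Agent.Lib.Helper2_BlockOm Cfsg.Agent.Lib.CharBasic Cfsg.Agent.Lib.CharComplete Cfsg.Agent.Lib.Helper2_BlockOsima Cfsg.Agent.Lib.Helper2_BlockBasic

/-- Let G be a finite group, p a prime and M a maximal ideal of the ring of algebraic integers containing p. Let x, y be elements with p-parts a and b (so a⁻¹ * x and b⁻¹ * y are their p-regular parts). Then a⁻¹ * x and b⁻¹ * y are conjugate in G if and only if, for every irreducible character χ, the difference χ x - χ y lies in the local ideal at M. -/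
theorem result {G : Type*} [Group G] [Finite G] (p : ℕ) (M : Ideal Cfsg.AlgInt) (hM : Cfsg.IsPModular p M) (x y a b : G) (ha : Cfsg.IsPPart p x a) (hb : Cfsg.IsPPart p y b) : IsConj (a⁻¹ * x) (b⁻¹ * y) ↔ ∀ χ : Cfsg.IrrCharacter G, Cfsg.MemLocalIdeal M ((χ : G → ℂ) x - (χ : G → ℂ) y) := by
  classical
  have := Fintype.ofFinite G
  have hp := hM.1
  have hP := isPrime_of_modular hM
  have hG0 : Nat.card G ≠ 0 := Nat.card_pos.ne'
  set e := (Nat.card G).factorization p with he
  set m := p ^ e with hm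
  set n := Nat.card G / p ^ e with hn
  have hmn : Nat.card G = m * n := (Nat.ordProj_mul_ordCompl_eq_self (Nat.card G) p).symm
  have hpn : ¬ p ∣ n := Nat.not_dvd_ordCompl hp hG0
  have hcop : m.Coprime n := Nat.Coprime.pow_left e ((Nat.Prime.coprime_iff_not_dvd hp).mpr hpn)
  obtain ⟨c, hc0, hc1⟩ := exists_crt hcop
  have part : ∀ x a : G, IsPPart p x a → a⁻¹ * x = x ^ c := by
    rintro x a ⟨y, hxy, hcomm, ⟨k, hk⟩, hy⟩
    rw [pow_eq_of_decomp hmn hc0 hc1 hxy.symm hcomm
      (by rw [hk]; exact Nat.Coprime.pow_left k ((Nat.Prime.coprime_iff_not_dvd hp).mpr hpn))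
      (Nat.Coprime.symm (Nat.Coprime.pow_left e ((Nat.Prime.coprime_iff_not_dvd hp).mpr hy)))]
    rw [← hxy, inv_mul_cancel_left]
  rw [part x a ha, part y b hb]
  have hcong : ∀ (χ : IrrCharacter G) (z : G), MemLocalIdeal M ((χ : G → ℂ) (z ^ c) - (χ : G → ℂ) z) := by
    intro χ z
    apply char_pow_congr hM (isCharacter_of_isIrr χ.2) z c e
    rw [pow_eq_pow_iff_modEq]
    have h1 : c * p ^ e ≡ p ^ e [MOD m * n] := by
      rw [← Nat.modEq_and_modEq_iff_modEq_mul hcop]
      constructor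
      · have h2 : c * p ^ e ≡ 0 [MOD m] := (Nat.modEq_zero_iff_dvd).mpr (Dvd.intro_left c rfl)
        have h3 : p ^ e ≡ 0 [MOD m] := (Nat.modEq_zero_iff_dvd).mpr dvd_rfl
        exact h2.trans h3.symm
      · simpa using hc1.mul_right (p ^ e)
    exact h1.of_dvd (hmn ▸ orderOf_dvd_natCard z)
  constructor
  · intro hconj χ
    have h1 : (χ : G → ℂ) (x ^ c) = (χ : G → ℂ) (y ^ c) := by
      obtain ⟨t, ht⟩ := isConj_iff.mp hconj
      rw [← ht]
      exact (isClassFunction_of_isCharacter (isCharacter_of_isIrr χ.2) _ t).symm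
    have h2 := ideal_sub_comm (hcong χ x)
    have h3 := hcong χ y
    rw [← h1] at h3
    exact ideal_sub_trans hP h2 h3
  · intro h
    by_contra hcon
    set ϑ : G → ℂ := fun z : G => if IsConj (z ^ c) (x ^ c) then (n : ℂ) else 0 with hϑ
    have hcf : IsClassFunction G ϑ := by
      intro z t
      have h1 : (t * z * t⁻¹) ^ c = t * z ^ c * t⁻¹ := conj_pow
      have h2 : IsConj (t * z ^ c * t⁻¹) (x ^ c) ↔ IsConj (z ^ c) (x ^ c) := by
        have h3 : IsConj (z ^ c) (t * z ^ c * t⁻¹) := isConj_iff.mpr ⟨t, rfl⟩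
        exact ⟨fun h => h3.trans h, fun h => h3.symm.trans h⟩
      simp only [hϑ, h1, h2]
    have hexp := classFunction_expansion ϑ hcf
    have h1 : MemLocalIdeal M (ϑ x - ϑ y) := by
      rw [hexp, Finset.sum_apply, Finset.sum_apply, ← Finset.sum_sub_distrib]
      refine ideal_sum hP _ _ fun χ _ => ?_
      rw [Pi.smul_apply, Pi.smul_apply, smul_eq_mul, smul_eq_mul, ← mul_sub]
      refine ideal_mul_left hP (ring_of_isIntegral hP ?_) (h χ)
      have := section_integral hcop hmn hc0 hc1 (x ^ c) (isCharacter_of_isIrr χ.2)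
      convert this using 3
    have h2 : ϑ x = n := by simp only [hϑ]; rw [if_pos (IsConj.refl _)]
    have h3 : ϑ y = 0 := by
      simp only [hϑ]; rw [if_neg (fun h => hcon h.symm)]
    rw [h2, h3, sub_zero] at h1
    exact hpn ((ideal_natCast_iff hM n).mp h1)

end Cfsg.Agent.S0876
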