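import Cfsg.Statements.S0878
import Mathlib

set_option autoImplicit false
open Cfsg

namespace Cfsg.Agent.S0878

/-- Let G be a Zassenhaus group on the finite set Ω, a a point, and let H be the subgroup of the stabilizer of a consisting of the identity and the elements fixing no point other than a (given here as a subgroup of the stabilizer of order one less than the number of points whose non-identity elements fix only a; it is the Frobenius kernel of the stabilizer). Then an element outside the stabilizer of a conjugates no non-identity element of H into H, and the normalizer of H is exactly the stabilizer of a. -/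
theorem result {G Ω : Type*} [Group G] [Finite G] [MulAction G Ω] [Fintype Ω] (hZ : Cfsg.IsZassenhausGroup G Ω) (a : Ω) (H : Subgroup G) (hHa : H ≤ MulAction.stabilizer G a) (hHcard : Nat.card H + 1 = Fintype.card Ω) (hHfix : ∀ u ∈ H, u ≠ 1 → ∀ c : Ω, u • c = c → c = a) : (∀ g : G, g ∉ MulAction.stabilizer G a → ∀ u ∈ H, g * u * g⁻¹ ∈ H → u = 1) ∧ Subgroup.normalizer (H : Set G) = MulAction.stabilizer G a := by
  classical
  obtain ⟨hF, h2t, h3, ⟨g0, hg0, a0, b0, hab0, hga0, hgb0⟩, -⟩ := hZ
  have part1 : ∀ g : G, g ∉ MulAction.stabilizer G a → ∀ u ∈ H, g * u * g⁻¹ ∈ H → u = 1 := by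
    intro g hg u hu hgu
    by_contra hu1
    have hne : g * u * g⁻¹ ≠ 1 := by
      intro h; apply hu1
      have : u = g⁻¹ * (g * u * g⁻¹) * g := by group
      rw [this, h]; group
    have hfix : (g * u * g⁻¹) • (g • a) = g • a := by
      rw [mul_smul, mul_smul, inv_smul_smul, MulAction.mem_stabilizer_iff.mp (hHa hu)]
    exact hg (MulAction.mem_stabilizer_iff.mpr (hHfix _ hgu hne _ hfix))
  obtain ⟨b, hba⟩ : ∃ b : Ω, b ≠ a := by
    by_cases h : a0 = a
    · exact ⟨b0, fun h' => hab0 (h.trans h'.symm)⟩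
    · exact ⟨a0, h⟩
  haveI : Fintype H := Fintype.ofFinite H
  have hinj : Function.Injective (fun h : H => h.1 • b) := by
    intro h h' hh
    have hh' : (h'.1⁻¹ * h.1) • b = b := by
      rw [mul_smul, inv_smul_eq_iff]; exact hh
    by_contra hne
    have h1 : h'.1⁻¹ * h.1 ≠ 1 := by
      intro h2
      apply hne
      apply Subtype.ext
      exact (inv_mul_eq_one.mp h2).symm
    exact hba (hHfix _ (H.mul_mem (H.inv_mem h'.2) h.2) h1 b hh')
  have hHb : ∀ h : H, h.1 • b ≠ a := by
    intro h hh
    have := MulAction.mem_stabilizer_iff.mp (hHa h.2)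
    exact hba (MulAction.injective h.1 (hh.trans this.symm))
  have himg : (Finset.univ.image (fun h : H => h.1 • b)) = Finset.univ.erase a := by
    apply Finset.eq_of_subset_of_card_le
    · intro c hc
      obtain ⟨h, -, rfl⟩ := Finset.mem_image.mp hc
      rw [Finset.mem_erase]
      exact ⟨hHb h, Finset.mem_univ _⟩
    · rw [Finset.card_image_of_injective _ hinj, Finset.card_erase_of_mem (Finset.mem_univ a),
        Finset.card_univ, Finset.card_univ, ← Nat.card_eq_fintype_card (α := H)]
      omega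
  have htrans : ∀ c : Ω, c ≠ a → ∃ h : H, h.1 • b = c := by
    intro c hc
    have : c ∈ Finset.univ.image (fun h : H => h.1 • b) := by
      rw [himg, Finset.mem_erase]; exact ⟨hc, Finset.mem_univ _⟩
    obtain ⟨h, -, hh⟩ := Finset.mem_image.mp this
    exact ⟨h, hh⟩
  set E : Subgroup G := MulAction.stabilizer G a ⊓ MulAction.stabilizer G b with hE
  have memE : ∀ x : G, x ∈ E ↔ x • a = a ∧ x • b = b := by
    intro x; simp [hE, Subgroup.mem_inf, MulAction.mem_stabilizer_iff]
  -- facts on conjugates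
  have cne : ∀ (h : H) (x : E), x.1 ≠ 1 → h.1 * x.1 * h.1⁻¹ ≠ 1 := by
    intro h x hx hh
    apply hx
    have : x.1 = h.1⁻¹ * (h.1 * x.1 * h.1⁻¹) * h.1 := by group
    rw [this, hh]; group
  have cfa : ∀ (h : H) (x : E), (h.1 * x.1 * h.1⁻¹) • a = a := by
    intro h x
    have h1 := MulAction.mem_stabilizer_iff.mp (hHa h.2)
    have h2 : h.1⁻¹ • a = a := by rw [inv_smul_eq_iff, h1]
    rw [mul_smul, mul_smul, h2, ((memE x.1).mp x.2).1, h1]
  have cfb : ∀ (h : H) (x : E), (h.1 * x.1 * h.1⁻¹) • (h.1 • b) = h.1 • b := by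
    intro h x
    rw [mul_smul, mul_smul, inv_smul_smul, ((memE x.1).mp x.2).2]
  have cnH : ∀ (h : H) (x : E), x.1 ≠ 1 → h.1 * x.1 * h.1⁻¹ ∉ H := by
    intro h x hx hmem
    exact hHb h (hHfix _ hmem (cne h x hx) _ (cfb h x))
  let fval : H × E → G := fun q => if q.2.1 = 1 then q.1.1 else q.1.1 * q.2.1 * q.1.1⁻¹
  have hf1 : ∀ (h : H) (x : E), x.1 = 1 → fval (h, x) = h.1 := fun h x hx => if_pos hx
  have hf2 : ∀ (h : H) (x : E), x.1 ≠ 1 → fval (h, x) = h.1 * x.1 * h.1⁻¹ :=
    fun h x hx => if_neg hx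
  have hfmem : ∀ q, fval q ∈ MulAction.stabilizer G a := by
    rintro ⟨h, x⟩
    by_cases hx : x.1 = 1
    · rw [hf1 h x hx]; exact hHa h.2
    · rw [hf2 h x hx]; exact MulAction.mem_stabilizer_iff.mpr (cfa h x)
  have hfinj : Function.Injective
      (fun q => (⟨fval q, hfmem q⟩ : MulAction.stabilizer G a)) := by
    rintro ⟨h, x⟩ ⟨h', x'⟩ heq
    have heq' : fval (h, x) = fval (h', x') := congrArg Subtype.val heq
    by_cases hx : x.1 = 1 <;> by_cases hx' : x'.1 = 1
    · rw [hf1 h x hx, hf1 h' x' hx'] at heq'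
      rw [Subtype.ext heq', Subtype.ext (hx.trans hx'.symm)]
    · rw [hf1 h x hx, hf2 h' x' hx'] at heq'
      exact absurd (heq' ▸ h.2) (cnH h' x' hx')
    · rw [hf2 h x hx, hf1 h' x' hx'] at heq'
      exact absurd (heq'.symm ▸ h'.2) (cnH h x hx)
    · rw [hf2 h x hx, hf2 h' x' hx'] at heq'
      have hb2 : (h.1 * x.1 * h.1⁻¹) • (h'.1 • b) = h'.1 • b := by
        rw [heq']; exact cfb h' x'
      have hhh : h = h' := by
        by_contra hne
        have hne' : h.1 • b ≠ h'.1 • b := fun hh => hne (hinj hh)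
        exact cne h x hx (h3 _ a (h.1 • b) (h'.1 • b) (hHb h).symm hne' (hHb h').symm
          (cfa h x) (cfb h x) hb2)
      subst hhh
      have hxx : x.1 = x'.1 := by
        have h4 := mul_right_cancel heq'
        exact mul_left_cancel h4
      rw [Subtype.ext hxx]
  have hsurj : Function.Surjective
      (fun q : H × E => (⟨q.1.1 * q.2.1, (MulAction.stabilizer G a).mul_mem (hHa q.1.2)
        (MulAction.mem_stabilizer_iff.mpr ((memE q.2.1).mp q.2.2).1)⟩ :
        MulAction.stabilizer G a)) := by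
    intro g
    have hga := MulAction.mem_stabilizer_iff.mp g.2
    have hgb : g.1 • b ≠ a := by
      intro hh
      exact hba (MulAction.injective g.1 (hh.trans hga.symm))
    obtain ⟨h, hh⟩ := htrans _ hgb
    have hha := MulAction.mem_stabilizer_iff.mp (hHa h.2)
    refine ⟨(h, ⟨h.1⁻¹ * g.1, ?_⟩), ?_⟩
    · rw [memE]
      constructor
      · rw [mul_smul, hga, inv_smul_eq_iff, hha]
      · rw [mul_smul, inv_smul_eq_iff, hh]
    · apply Subtype.ext
      show h.1 * (h.1⁻¹ * g.1) = g.1
      group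
  have hbij := hfinj.bijective_of_nat_card_le (Nat.card_le_card_of_surjective _ hsurj)
  have conj_mem : ∀ g ∈ MulAction.stabilizer G a, ∀ u ∈ H, g * u * g⁻¹ ∈ H := by
    intro g hg u hu
    by_cases hu1 : u = 1
    · rw [hu1]; simp
    have hga := MulAction.mem_stabilizer_iff.mp hg
    have hvm : g * u * g⁻¹ ∈ MulAction.stabilizer G a :=
      (MulAction.stabilizer G a).mul_mem ((MulAction.stabilizer G a).mul_mem hg (hHa hu))
        ((MulAction.stabilizer G a).inv_mem hg)
    obtain ⟨⟨h, x⟩, hq⟩ := hbij.2 ⟨g * u * g⁻¹, hvm⟩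
    have hq' : fval (h, x) = g * u * g⁻¹ := congrArg Subtype.val hq
    by_cases hx : x.1 = 1
    · rw [hf1 h x hx] at hq'
      rw [← hq']; exact h.2
    · exfalso
      rw [hf2 h x hx] at hq'
      have h5 := cfb h x
      rw [hq', mul_smul, mul_smul, smul_eq_iff_eq_inv_smul g] at h5
      have h6 := hHfix u hu hu1 _ h5
      rw [inv_smul_eq_iff, hga] at h6
      exact hHb h h6
  obtain ⟨u0, hu0, hu01⟩ : ∃ u ∈ H, u ≠ 1 := by
    by_contra hcon
    push Not at hcon
    have hall : ∀ c : Ω, c = a ∨ c = b := by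
      intro c
      by_cases hc : c = a
      · exact Or.inl hc
      · obtain ⟨h, hh⟩ := htrans c hc
        right
        rw [← hh, hcon h.1 h.2, one_smul]
    apply hg0
    apply hF.eq_of_smul_eq_smul
    intro c
    rw [one_smul]
    rcases hall c with h | h <;> rcases hall a0 with h' | h' <;> rcases hall b0 with h'' | h''
    · exact absurd (h'.trans h''.symm) hab0
    · rw [h, ← h']; exact hga0
    · rw [h, ← h'']; exact hgb0
    · exact absurd (h'.trans h''.symm) hab0
    · exact absurd (h'.trans h''.symm) hab0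
    · rw [h, ← h'']; exact hgb0
    · rw [h, ← h']; exact hga0
    · exact absurd (h'.trans h''.symm) hab0
  refine ⟨part1, le_antisymm ?_ ?_⟩
  · intro n hn
    by_contra hna
    exact hu01 (part1 n hna u0 hu0 ((Subgroup.mem_normalizer_iff.mp hn u0).mp hu0))
  · intro g hg
    rw [Subgroup.mem_normalizer_iff]
    intro y
    constructor
    · intro hy; exact conj_mem g hg y hy
    · intro hy
      have h7 := conj_mem g⁻¹ ((MulAction.stabilizer G a).inv_mem hg) _ hy
      have h8 : g⁻¹ * (g * y * g⁻¹) * g⁻¹⁻¹ = y := by group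
      rwa [h8] at h7

end Cfsg.Agent.S0878
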