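import Cfsg.Statements.S0879
import Mathlib

set_option autoImplicit false
open Cfsg

namespace Cfsg.Agent.S0879

/-- Let G be a Zassenhaus group on the finite set Ω and E the stabilizer of two distinct points a, b. Then an element outside the normalizer of E conjugates no non-identity element of E into E, and E has index 2 in its normalizer. -/
theorem result {G Ω : Type*} [Group G] [Finite G] [MulAction G Ω] [Fintype Ω] (hZ : Cfsg.IsZassenhausGroup G Ω) {a b : Ω} (hab : a ≠ b) : (∀ g : G, g ∉ Subgroup.normalizer ((MulAction.stabilizer G a ⊓ MulAction.stabilizer G b : Subgroup G) : Set G) → ∀ x ∈ (MulAction.stabilizer G a ⊓ MulAction.stabilizer G b : Subgroup G), g * x * g⁻¹ ∈ (MulAction.stabilizer G a ⊓ MulAction.stabilizer G b : Subgroup G) → x = 1) ∧ ((MulAction.stabilizer G a ⊓ MulAction.stabilizer G b : Subgroup G).subgroupOf (Subgroup.normalizer ((MulAction.stabilizer G a ⊓ MulAction.stabilizer G b : Subgroup G) : Set G))).index = 2 := by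
  obtain ⟨hF, h2t, h3, ⟨g0, hg0, a0, b0, hab0, hga0, hgb0⟩, -⟩ := hZ
  rw [MulAction.is_two_pretransitive_iff] at h2t
  set E : Subgroup G := MulAction.stabilizer G a ⊓ MulAction.stabilizer G b with hE
  have memE : ∀ x : G, x ∈ E ↔ x • a = a ∧ x • b = b := by
    intro x; simp [hE, Subgroup.mem_inf, MulAction.mem_stabilizer_iff]
  have key : ∀ x ∈ E, x ≠ 1 → ∀ c, x • c = c → c = a ∨ c = b := by
    intro x hx hx1 c hc
    by_contra hcon
    push Not at hcon
    exact hx1 (h3 x a b c hab (Ne.symm hcon.2) (Ne.symm hcon.1) ((memE x).mp hx).1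
      ((memE x).mp hx).2 hc)
  have norm_of : ∀ g : G, (g • a = a ∧ g • b = b) ∨ (g • a = b ∧ g • b = a) →
      g ∈ Subgroup.normalizer (E : Set G) := by
    intro g hg
    rw [Subgroup.mem_normalizer_iff]
    intro y
    rw [memE, memE]
    rcases hg with ⟨h1, h2⟩ | ⟨h1, h2⟩
    · have h1' : g⁻¹ • a = a := by rw [inv_smul_eq_iff, h1]
      have h2' : g⁻¹ • b = b := by rw [inv_smul_eq_iff, h2]
      rw [mul_smul, mul_smul, mul_smul, mul_smul, h1', h2', smul_eq_iff_eq_inv_smul g (x := y • a),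
        smul_eq_iff_eq_inv_smul g (x := y • b), h1', h2']
    · have h1' : g⁻¹ • a = b := by rw [inv_smul_eq_iff, h2]
      have h2' : g⁻¹ • b = a := by rw [inv_smul_eq_iff, h1]
      rw [mul_smul, mul_smul, mul_smul, mul_smul, h1', h2', smul_eq_iff_eq_inv_smul g (x := y • b),
        smul_eq_iff_eq_inv_smul g (x := y • a), h1', h2']
      exact and_comm
  have perm_of : ∀ g x : G, x ∈ E → x ≠ 1 → g * x * g⁻¹ ∈ E →
      (g • a = a ∧ g • b = b) ∨ (g • a = b ∧ g • b = a) := by
    intro g x hx hx1 hgx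
    have hne : g * x * g⁻¹ ≠ 1 := by
      intro h
      apply hx1
      have : x = g⁻¹ * (g * x * g⁻¹) * g := by group
      rw [this, h]; group
    have ha : (g * x * g⁻¹) • (g • a) = g • a := by
      rw [mul_smul, mul_smul, inv_smul_smul, ((memE x).mp hx).1]
    have hb : (g * x * g⁻¹) • (g • b) = g • b := by
      rw [mul_smul, mul_smul, inv_smul_smul, ((memE x).mp hx).2]
    have hgab : g • a ≠ g • b := fun h => hab (MulAction.injective g h)
    rcases key _ hgx hne _ ha with h1 | h1 <;> rcases key _ hgx hne _ hb with h2 | h2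
    · exact absurd (h1.trans h2.symm) hgab
    · left; exact ⟨h1, h2⟩
    · right; exact ⟨h1, h2⟩
    · exact absurd (h1.trans h2.symm) hgab
  obtain ⟨x0, hx0E, hx01⟩ : ∃ x ∈ E, x ≠ 1 := by
    obtain ⟨k, hka, hkb⟩ := h2t hab0 hab
    refine ⟨k * g0 * k⁻¹, ?_, ?_⟩
    · rw [memE]
      constructor
      · rw [mul_smul, mul_smul, ← hka, inv_smul_smul, hga0]
      · rw [mul_smul, mul_smul, ← hkb, inv_smul_smul, hgb0]
    · intro h
      apply hg0
      have : g0 = k⁻¹ * (k * g0 * k⁻¹) * k := by group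
      rw [this, h]; group
  constructor
  · intro g hg x hx hgx
    by_contra hx1
    exact hg (norm_of g (perm_of g x hx hx1 hgx))
  · obtain ⟨t, hta, htb⟩ := h2t hab hab.symm
    have htN := norm_of t (Or.inr ⟨hta, htb⟩)
    rw [Subgroup.index_eq_two_iff]
    refine ⟨⟨t, htN⟩, ?_⟩
    intro n
    have hn : (n.1 • a = a ∧ n.1 • b = b) ∨ (n.1 • a = b ∧ n.1 • b = a) := by
      apply perm_of n.1 x0 hx0E hx01
      exact (Subgroup.mem_normalizer_iff.mp n.2 x0).mp hx0E
    rw [Subgroup.mem_subgroupOf, Subgroup.mem_subgroupOf, memE, memE]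
    simp only [Subgroup.coe_mul, mul_smul, hta, htb]
    rcases hn with ⟨h1, h2⟩ | ⟨h1, h2⟩
    · right
      refine ⟨⟨h1, h2⟩, ?_⟩
      rintro ⟨h3', -⟩
      exact hab (h3'.symm.trans h2)
    · left
      refine ⟨⟨h2, h1⟩, ?_⟩
      rintro ⟨h3', -⟩
      exact hab (h3'.symm.trans h1)

end Cfsg.Agent.S0879
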