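import Cfsg.Statements.S0893
import Cfsg.Agent.Lib.CharExtra

set_option autoImplicit false
open Cfsg

namespace Cfsg.Agent.S0893

open Cfsg.Agent.Lib.CharExtra Cfsg.Agent.Lib.CharMore Cfsg.Agent.Lib.CharComplete Cfsg.Agent.Lib.CharLinear Cfsg.Agent.Lib.CharInd Cfsg.Agent.Lib.CharBasic Cfsg.Agent.Lib.CharOrtho Cfsg.Agent.Lib.CharThompson

/-- Let P be an extraspecial p-group of order p ^ (2 * n + 1), A an abelian subgroup of order p ^ (n + 1), and λ a character of A of degree 1 that is not identically 1 on the elements of A lying in the centre of P. Then the function induced from λ to P is an irreducible character of P and vanishes at every element outside the centre. -/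
theorem result {P : Type*} [Group P] [Fintype P] (p n : ℕ) [Fact p.Prime] (hP : Cfsg.IsExtraspecial p P) (hcard : Nat.card P = p ^ (2 * n + 1)) (A : Subgroup P) (hab : ∀ a ∈ A, ∀ b ∈ A, a * b = b * a) (hA : Nat.card A = p ^ (n + 1)) (lam : A → ℂ) (hlam : Cfsg.IsCharacter A lam ∧ lam 1 = 1) (hZ : ∃ a : A, (a : P) ∈ Subgroup.center P ∧ lam a ≠ 1) : Cfsg.IsIrrCharacter P (Cfsg.indFun A lam) ∧ ∀ x : P, x ∉ Subgroup.center P → Cfsg.indFun A lam x = 0 := by
  classical
  obtain ⟨⟨hPp, hfr, hcomm⟩, hZc⟩ := hP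
  have hp : p.Prime := Fact.out
  haveI : Fintype A := Fintype.ofFinite A
  have hidx : (Subgroup.center P).index = p ^ (2 * n) := by
    have := Subgroup.card_mul_index (Subgroup.center P)
    rw [hZc, hcard, pow_succ, mul_comm] at this
    exact Nat.eq_of_mul_eq_mul_right hp.pos this
  have hdeg : ∀ χ : Cfsg.IrrCharacter P, (χ : P → ℂ) 1 ≠ 1 → (χ : P → ℂ) 1 = (p : ℂ) ^ n := by
    intro χ h1
    have h2 := degree_sq_of_vanish χ.2 (vanish_off_center p hp hcomm hZc χ.2 h1)
    obtain ⟨d, -, hd, -⟩ := irr_degree χ.2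
    rw [hd, hidx] at h2
    have h3 : d ^ 2 = (p ^ n) ^ 2 := by
      have : ((d ^ 2 : ℕ) : ℂ) = (((p ^ n) ^ 2 : ℕ) : ℂ) := by
        push_cast
        rw [h2]
        push_cast
        ring
      exact_mod_cast this
    have h4 : d = p ^ n := Nat.pow_left_injective (by norm_num : 2 ≠ 0) h3
    rw [hd, h4]
    push_cast
    rfl
  have hAidx : A.index = p ^ n := by
    have := Subgroup.card_mul_index A
    rw [hA, hcard] at this
    have h2 : p ^ (n + 1) * A.index = p ^ (n + 1) * p ^ n := by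
      rw [this, ← pow_add]; congr 1; ring
    exact Nat.eq_of_mul_eq_mul_left (pow_pos hp.pos _) h2
  have hΦ : Cfsg.IsCharacter P (Cfsg.indFun A lam) := isCharacter_indFun A lam hlam.1
  have hΦ1 : Cfsg.indFun A lam 1 = (p : ℂ) ^ n := by
    rw [indFun_one, hlam.2, mul_one, hAidx]; push_cast; rfl
  have hΦ0 : Cfsg.indFun A lam ≠ 0 := by
    intro h
    have := congrFun h 1
    rw [hΦ1] at this
    exact pow_ne_zero n (by exact_mod_cast hp.ne_zero) this
  obtain ⟨χ, hχ⟩ := exists_constituent hΦ hΦ0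
  have hχc := isCharacter_of_isIrr χ.2
  have hnl : (χ : P → ℂ) 1 ≠ 1 := by
    intro h1
    rw [frobenius_reciprocity A _ _ (isClassFunction_of_isCharacter hχc)] at hχ
    have hl1 : Cfsg.IsIrrCharacter A lam := isIrr_hom (homOfLinear hlam.1 hlam.2)
    have hres : Cfsg.IsCharacter A (fun a : A => (χ : P → ℂ) a) := isCharacter_restrict A hχc
    have hl2 : Cfsg.IsIrrCharacter A (fun a : A => (χ : P → ℂ) a) :=
      isIrr_hom (homOfLinear hres h1)
    have heq : lam = fun a : A => (χ : P → ℂ) a := by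
      by_contra hne
      exact hχ (classInner_irr_ne hl1 hl2 hne)
    obtain ⟨a, haZ, ha1⟩ := hZ
    apply ha1
    rw [heq]
    have hker : (a : P) ∈ (homOfLinear hχc h1).ker :=
      Abelianization.commutator_subset_ker _ (hcomm ▸ haZ)
    have := congrArg (fun u : ℂˣ => (u : ℂ)) (MonoidHom.mem_ker.mp hker)
    simpa [homOfLinear_apply] using this
  have heq := eq_of_constituent_of_degree_eq hΦ χ.2 hχ (by rw [hΦ1, hdeg χ hnl])
  rw [heq]
  exact ⟨χ.2, vanish_off_center p hp hcomm hZc χ.2 hnl⟩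

end Cfsg.Agent.S0893
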