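import Cfsg.Statements.S0894
import Cfsg.Agent.Lib.CharExtra

set_option autoImplicit false
open Cfsg

namespace Cfsg.Agent.S0894

open Cfsg.Agent.Lib.CharExtra Cfsg.Agent.Lib.CharMore Cfsg.Agent.Lib.CharComplete Cfsg.Agent.Lib.CharLinear

/-- Let P be an extraspecial p-group of order p ^ (2 * n + 1). Then every irreducible character of P has degree 1 or p ^ n, and exactly p - 1 of them have degree p ^ n. -/
theorem result {P : Type*} [Group P] [Finite P] (p n : ℕ) [Fact p.Prime] (hP : Cfsg.IsExtraspecial p P) (hcard : Nat.card P = p ^ (2 * n + 1)) : (∀ χ : Cfsg.IrrCharacter P, (χ : P → ℂ) 1 = 1 ∨ (χ : P → ℂ) 1 = (p : ℂ) ^ n) ∧ Nat.card {χ : Cfsg.IrrCharacter P // (χ : P → ℂ) 1 = (p : ℂ) ^ n} = p - 1 := by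
  classical
  haveI := Fintype.ofFinite P
  obtain ⟨⟨hPp, hfr, hcomm⟩, hZ⟩ := hP
  have hp : p.Prime := Fact.out
  have hidx : (Subgroup.center P).index = p ^ (2 * n) := by
    have := Subgroup.card_mul_index (Subgroup.center P)
    rw [hZ, hcard, pow_succ, mul_comm] at this
    exact Nat.eq_of_mul_eq_mul_right hp.pos this
  have hdeg : ∀ χ : Cfsg.IrrCharacter P, (χ : P → ℂ) 1 ≠ 1 → (χ : P → ℂ) 1 = (p : ℂ) ^ n := by
    intro χ h1
    have h2 := degree_sq_of_vanish χ.2 (vanish_off_center p hp hcomm hZ χ.2 h1)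
    obtain ⟨d, -, hd, -⟩ := irr_degree χ.2
    rw [hd, hidx] at h2
    have h3 : d ^ 2 = (p ^ n) ^ 2 := by
      have : ((d ^ 2 : ℕ) : ℂ) = (((p ^ n) ^ 2 : ℕ) : ℂ) := by
        push_cast
        rw [h2]
        push_cast
        ring
      exact_mod_cast this
    have h4 : d = p ^ n := Nat.pow_left_injective (by norm_num : 2 ≠ 0) h3
    rw [hd, h4]
    push_cast
    rfl
  have hn : n ≠ 0 := by
    intro h0
    subst h0
    have h1 : Subgroup.center P = ⊤ := by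
      rw [← Subgroup.index_eq_one, hidx]; simp
    have h2 : commutator P = ⊥ := by
      rw [commutator_def, Subgroup.commutator_eq_bot_iff_le_centralizer, Subgroup.coe_top,
        Subgroup.centralizer_univ, h1]
    rw [← hcomm, h2] at hZ
    rw [Subgroup.card_bot] at hZ
    exact hp.one_lt.ne hZ
  have hpn1 : (p : ℂ) ^ n ≠ 1 := by
    exact_mod_cast (Nat.one_lt_pow hn hp.one_lt).ne'
  refine ⟨fun χ => ?_, ?_⟩
  · by_cases h : (χ : P → ℂ) 1 = 1
    · exact Or.inl h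
    · exact Or.inr (hdeg χ h)
  have hsum := sum_sq_degree (G := P)
  rw [← Finset.sum_filter_add_sum_filter_not Finset.univ
    (fun ψ : Cfsg.IrrCharacter P => (ψ : P → ℂ) 1 = 1)] at hsum
  have h1 : ∑ ψ ∈ Finset.univ.filter (fun ψ : Cfsg.IrrCharacter P => (ψ : P → ℂ) 1 = 1),
      (ψ : P → ℂ) 1 ^ 2 = ((p ^ (2 * n) : ℕ) : ℂ) := by
    rw [Finset.sum_congr rfl (fun ψ hψ => by
      rw [(Finset.mem_filter.mp hψ).2, one_pow] : ∀ ψ ∈ Finset.univ.filter
        (fun ψ : Cfsg.IrrCharacter P => (ψ : P → ℂ) 1 = 1), (ψ : P → ℂ) 1 ^ 2 = (1 : ℂ))]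
    rw [Finset.sum_const, nsmul_eq_mul, mul_one, ← hidx, ← hcomm, ← card_linear,
      Nat.card_eq_fintype_card, Fintype.card_subtype]
  have h2 : ∑ ψ ∈ Finset.univ.filter (fun ψ : Cfsg.IrrCharacter P => ¬ (ψ : P → ℂ) 1 = 1),
      (ψ : P → ℂ) 1 ^ 2 = ((Finset.univ.filter
        (fun ψ : Cfsg.IrrCharacter P => ¬ (ψ : P → ℂ) 1 = 1)).card : ℂ) * ((p ^ (2 * n) : ℕ) : ℂ) := by
    rw [Finset.sum_congr rfl (fun ψ hψ => by
      rw [hdeg ψ (Finset.mem_filter.mp hψ).2]; push_cast; ring : ∀ ψ ∈ Finset.univ.filter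
        (fun ψ : Cfsg.IrrCharacter P => ¬ (ψ : P → ℂ) 1 = 1),
          (ψ : P → ℂ) 1 ^ 2 = ((p ^ (2 * n) : ℕ) : ℂ))]
    rw [Finset.sum_const, nsmul_eq_mul]
  rw [h1, h2, hcard] at hsum
  set k := (Finset.univ.filter (fun ψ : Cfsg.IrrCharacter P => ¬ (ψ : P → ℂ) 1 = 1)).card with hk
  have h3 : p ^ (2 * n) + k * p ^ (2 * n) = p ^ (2 * n + 1) := by exact_mod_cast hsum
  have h4 : (1 + k) * p ^ (2 * n) = p * p ^ (2 * n) := by
    rw [← pow_succ', ← h3]; ring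
  have h5 : 1 + k = p := Nat.eq_of_mul_eq_mul_right (pow_pos hp.pos _) h4
  rw [Nat.card_eq_fintype_card, Fintype.card_subtype]
  have h6 : Finset.univ.filter (fun ψ : Cfsg.IrrCharacter P => (ψ : P → ℂ) 1 = (p : ℂ) ^ n) =
      Finset.univ.filter (fun ψ : Cfsg.IrrCharacter P => ¬ (ψ : P → ℂ) 1 = 1) := by
    apply Finset.filter_congr
    intro ψ _
    constructor
    · intro h; rw [h]; exact hpn1
    · exact hdeg ψ
  rw [h6, ← hk]
  omega

end Cfsg.Agent.S0894
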