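import Cfsg.Statements.S0903
import Mathlib


set_option autoImplicit false
open Cfsg

namespace Cfsg.Agent.S0903

/-- Let P be a p-subgroup of the finite group G, let c centralize P and let g, h ∈ G. The number of pairs (x, y) with x conjugate to g, y conjugate to h and x * y = c is congruent modulo p to the number of such pairs in which x and y both centralize P. (This is why the Brauer map on class sums is multiplicative.) -/
theorem result {G : Type*} [Group G] [Finite G] (p : ℕ) [Fact p.Prime] (P : Subgroup G) (hP : IsPGroup p P) (c : G) (hc : c ∈ Subgroup.centralizer (P : Set G)) (g h : G) : Nat.card {xy : G × G // IsConj g xy.1 ∧ IsConj h xy.2 ∧ xy.1 * xy.2 = c} ≡ Nat.card {xy : G × G // IsConj g xy.1 ∧ IsConj h xy.2 ∧ xy.1 * xy.2 = c ∧ xy.1 ∈ Subgroup.centralizer (P : Set G) ∧ xy.2 ∈ Subgroup.centralizer (P : Set G)} [MOD p] := by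
  classical
  let X := {xy : G × G // IsConj g xy.1 ∧ IsConj h xy.2 ∧ xy.1 * xy.2 = c}
  have hcc : ∀ u ∈ P, u * c * u⁻¹ = c := by
    intro u hu
    have := Subgroup.mem_centralizer_iff.mp hc u hu
    rw [this]; group
  letI act : MulAction P X :=
    { smul := fun u xy => ⟨((u : G) * xy.1.1 * (u : G)⁻¹, (u : G) * xy.1.2 * (u : G)⁻¹),
        xy.2.1.trans (isConj_iff.mpr ⟨u, rfl⟩), xy.2.2.1.trans (isConj_iff.mpr ⟨u, rfl⟩), by
          have := xy.2.2.2
          calc (u : G) * xy.1.1 * (u : G)⁻¹ * ((u : G) * xy.1.2 * (u : G)⁻¹)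
              = (u : G) * (xy.1.1 * xy.1.2) * (u : G)⁻¹ := by group
            _ = c := by rw [this]; exact hcc u u.2⟩
      one_smul := by
        intro xy
        apply Subtype.ext
        apply Prod.ext
        · change ((1 : P) : G) * xy.1.1 * ((1 : P) : G)⁻¹ = xy.1.1
          simp
        · change ((1 : P) : G) * xy.1.2 * ((1 : P) : G)⁻¹ = xy.1.2
          simp
      mul_smul := by
        intro u v xy
        apply Subtype.ext
        apply Prod.ext
        · change ((u * v : P) : G) * xy.1.1 * ((u * v : P) : G)⁻¹ = (u : G) * ((v : G) * xy.1.1 * (v : G)⁻¹) * (u : G)⁻¹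
          simp [mul_assoc]
        · change ((u * v : P) : G) * xy.1.2 * ((u * v : P) : G)⁻¹ = (u : G) * ((v : G) * xy.1.2 * (v : G)⁻¹) * (u : G)⁻¹
          simp [mul_assoc] }
  have hsm : ∀ (u : P) (xy : X), ((u • xy : X) : G × G) =
      ((u : G) * xy.1.1 * (u : G)⁻¹, (u : G) * xy.1.2 * (u : G)⁻¹) := fun _ _ => rfl
  have h1 := hP.card_modEq_card_fixedPoints X
  have h2 : Nat.card (MulAction.fixedPoints P X) = Nat.card {xy : G × G // IsConj g xy.1 ∧ IsConj h xy.2 ∧ xy.1 * xy.2 = c ∧ xy.1 ∈ Subgroup.centralizer (P : Set G) ∧ xy.2 ∈ Subgroup.centralizer (P : Set G)} := by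
    refine Nat.card_congr
      { toFun := fun z => ⟨z.1.1, z.1.2.1, z.1.2.2.1, z.1.2.2.2, ?_, ?_⟩
        invFun := fun z => ⟨⟨z.1, z.2.1, z.2.2.1, z.2.2.2.1⟩, ?_⟩
        left_inv := fun _ => rfl
        right_inv := fun _ => rfl }
    · rw [Subgroup.mem_centralizer_iff]
      intro u hu
      have := congrArg (fun w : X => w.1.1) (z.2 ⟨u, hu⟩)
      simp only [hsm] at this
      exact mul_inv_eq_iff_eq_mul.mp this
    · rw [Subgroup.mem_centralizer_iff]
      intro u hu
      have := congrArg (fun w : X => w.1.2) (z.2 ⟨u, hu⟩)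
      simp only [hsm] at this
      exact mul_inv_eq_iff_eq_mul.mp this
    · intro u
      apply Subtype.ext
      rw [hsm]
      apply Prod.ext
      · have := Subgroup.mem_centralizer_iff.mp z.2.2.2.2.1 u u.2
        exact mul_inv_eq_iff_eq_mul.mpr this
      · have := Subgroup.mem_centralizer_iff.mp z.2.2.2.2.2 u u.2
        exact mul_inv_eq_iff_eq_mul.mpr this
  rw [← h2]
  exact h1

end Cfsg.Agent.S0903
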