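import Cfsg.Statements.S0907
import Mathlib
import Cfsg.Agent.Lib.Helper2_BlockOrtho
import Cfsg.Agent.Lib.helper8_Defect


set_option autoImplicit false
open scoped ComplexConjugate
open Cfsg

namespace Cfsg.Agent.S0907

open Cfsg Cfsg.Agent.Lib.Helper2_BlockLocal Cfsg.Agent.Lib.Helper2_BlockOm
  Cfsg.Agent.Lib.Helper2_BlockOsima Cfsg.Agent.Lib.Helper2_BlockBasic Cfsg.Agent.Lib.Helper2_BlockOrtho
  Cfsg.Agent.Lib.CharBasic Cfsg.Agent.Lib.CharOrtho
  Cfsg.Agent.Lib.CharComplete Cfsg.Agent.Lib.CharIntegral Cfsg.Agent.Lib.CharMore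
  Cfsg.Agent.Lib.CharPerm
open scoped ComplexConjugate

/-- Weak block orthogonality. Let B be a block of the finite group G relative to a maximal ideal M of the algebraic integers containing the prime p. If the order of x is prime to p and the order of y is divisible by p, then the sum over χ ∈ B of χ x * conj (χ y) is zero. -/
theorem result {G : Type*} [Group G] [Finite G] (p : ℕ) [Fact p.Prime] (M : Ideal Cfsg.AlgInt) (hM : Cfsg.IsPModular p M) (B : Set (Cfsg.IrrCharacter G)) (hB : Cfsg.IsPBlock M B) (x y : G) (hx : ¬ p ∣ orderOf x) (hy : p ∣ orderOf y) : ∑ᶠ χ ∈ B, (χ : G → ℂ) x * conj ((χ : G → ℂ) y) = 0 := by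
  classical
  cases nonempty_fintype G
  rw [finsum_mem_eq_finite_toFinset_sum _ (Set.toFinite B)]
  have : (Set.toFinite B).toFinset = Finset.univ.filter fun ψ => ψ ∈ B := by
    ext ψ; simp
  rw [this]
  have h1 := weak_block_orthogonality hM hB hx (y := y⁻¹) (by rwa [orderOf_inv])
  rw [← h1]
  refine Finset.sum_congr rfl fun χ _ => ?_
  rw [isCharacter_inv (isCharacter_of_isIrr χ.2)]

end Cfsg.Agent.S0907
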