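import Cfsg.Statements.S0954
import Mathlib
import Cfsg.Agent.Lib.Helper2_BlockCover3
import Cfsg.Agent.Lib.Helper4_Core


set_option autoImplicit false
open Cfsg

namespace Cfsg.Agent.S0954

open Cfsg Cfsg.Agent.Lib.Helper2_BlockLocal Cfsg.Agent.Lib.Helper2_BlockOm
  Cfsg.Agent.Lib.Helper2_BlockOsima Cfsg.Agent.Lib.Helper2_BlockBasic Cfsg.Agent.Lib.Helper2_BlockOrtho
  Cfsg.Agent.Lib.Helper2_BlockNormal Cfsg.Agent.Lib.Helper2_BlockCover Cfsg.Agent.Lib.Helper2_BlockInd
  Cfsg.Agent.Lib.Helper2_BlockCover2 Cfsg.Agent.Lib.Helper2_BlockCover3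
  Cfsg.Agent.Lib.CharBasic Cfsg.Agent.Lib.CharOrtho
  Cfsg.Agent.Lib.CharComplete Cfsg.Agent.Lib.CharIntegral Cfsg.Agent.Lib.CharMore
  Cfsg.Agent.Lib.CharPerm Cfsg.Agent.Lib.CharInd
open scoped ComplexConjugate

/-- Let N be a normal subgroup of the finite group G of order prime to p and of p-power index (a normal p-complement), and fix a maximal ideal M of the algebraic integers containing p. Then two irreducible characters χ, ψ of G lie in the same block if and only if some irreducible character of N has nonzero inner product with both the restriction of χ and the restriction of ψ. -/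
theorem result {G : Type*} [Group G] [Fintype G] (p : ℕ) [Fact p.Prime] (M : Ideal Cfsg.AlgInt) (hM : Cfsg.IsPModular p M) (N : Subgroup G) [N.Normal] [Fintype N] (hN : ¬ p ∣ Nat.card N) (hidx : ∃ k : ℕ, N.index = p ^ k) (χ ψ : Cfsg.IrrCharacter G) : Cfsg.SameBlock M (χ : G → ℂ) (ψ : G → ℂ) ↔ ∃ θ : Cfsg.IrrCharacter N, Cfsg.classInner (fun n : N => (χ : G → ℂ) n) (θ : N → ℂ) ≠ 0 ∧ Cfsg.classInner (fun n : N => (ψ : G → ℂ) n) (θ : N → ℂ) ≠ 0 := by
  have hNn : N.Normal := inferInstance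
  obtain ⟨k, hk⟩ := hidx
  have hreg : ∀ g : G, ¬ p ∣ orderOf g → g ∈ N := fun g hg => regular_mem_of_index hM.1 N hk hg
  have hP := isPrime_of_modular hM
  constructor
  · intro h
    obtain ⟨θ, hθ⟩ := exists_under N χ
    exact ⟨θ, hθ, over_of_sameBlock_pprime N hNn hM hN h θ hθ⟩
  · rintro ⟨θ, h1, h2⟩
    exact sameBlock_of_over hM N hNn hreg χ ψ θ θ h1 h2 (sameBlock_refl hP _)

end Cfsg.Agent.S0954
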