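import Cfsg.Statements.S0910
import Mathlib
import Cfsg.Agent.Lib.Helper2_BlockCover3
import Cfsg.Agent.Lib.Helper4_Core
import Cfsg.Agent.Lib.CharBurnside
import Cfsg.Agent.S0954


set_option autoImplicit false
open Cfsg

namespace Cfsg.Agent.S0910

open Cfsg Cfsg.Agent.Lib.Helper2_BlockLocal Cfsg.Agent.Lib.Helper2_BlockOm
  Cfsg.Agent.Lib.Helper2_BlockOsima Cfsg.Agent.Lib.Helper2_BlockBasic Cfsg.Agent.Lib.Helper2_BlockOrtho
  Cfsg.Agent.Lib.Helper2_BlockNormal Cfsg.Agent.Lib.Helper2_BlockCover Cfsg.Agent.Lib.Helper2_BlockInd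
  Cfsg.Agent.Lib.Helper2_BlockCover2 Cfsg.Agent.Lib.Helper2_BlockCover3
  Cfsg.Agent.Lib.CharBasic Cfsg.Agent.Lib.CharOrtho
  Cfsg.Agent.Lib.CharComplete Cfsg.Agent.Lib.CharIntegral Cfsg.Agent.Lib.CharMore
  Cfsg.Agent.Lib.CharPerm Cfsg.Agent.Lib.CharInd Cfsg.Agent.Lib.CharBurnside
open scoped ComplexConjugate

/-- Let G be a non-abelian finite simple group and p a prime. If an irreducible character χ lies in the principal block (relative to a maximal ideal of the algebraic integers containing p) and χ 1 is a power of p, then χ is the principal character. -/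
theorem result {G : Type*} [Group G] [Finite G] (p : ℕ) [Fact p.Prime] (M : Ideal Cfsg.AlgInt) (hM : Cfsg.IsPModular p M) [IsSimpleGroup G] (hna : ∃ a b : G, a * b ≠ b * a) (χ : Cfsg.IrrCharacter G) (hχ : χ ∈ Cfsg.principalBlock M G) (k : ℕ) (hdeg : (χ : G → ℂ) 1 = (p : ℂ) ^ k) : (χ : G → ℂ) = fun _ => 1 := by
  classical
  cases nonempty_fintype G
  have hp := hM.1
  by_contra hne
  obtain ⟨a, b, hab⟩ := hna
  have hnc : ¬ ∀ a b : G, a * b = b * a := fun h => hab (h a b)
  -- an element with class size prime to p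
  have hex : ∃ g : G, g ≠ 1 ∧ ¬ p ∣ (Subgroup.centralizer ({g} : Set G)).index := by
    obtain ⟨P⟩ : Nonempty (Sylow p G) := inferInstance
    by_cases hPb : (P : Subgroup G) = ⊥
    · have ha1 : a ≠ 1 := by rintro rfl; simp at hab
      refine ⟨a, ha1, fun hd => ?_⟩
      have h1 : p ∣ Nat.card G := hd.trans (Subgroup.index_dvd_card _)
      have h2 := P.not_dvd_index
      rw [hPb, Subgroup.index_bot] at h2
      exact h2 h1
    · haveI : Nontrivial (P : Subgroup G) := (Subgroup.nontrivial_iff_ne_bot _).mpr hPb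
      haveI := P.2.center_nontrivial
      obtain ⟨z, hz⟩ := exists_ne (1 : Subgroup.center (P : Subgroup G))
      refine ⟨((z : (P : Subgroup G)) : G), ?_, fun hd => ?_⟩
      · intro h
        apply hz
        apply Subtype.ext
        apply Subtype.ext
        exact h
      · have hle : (P : Subgroup G) ≤ Subgroup.centralizer ({((z : (P : Subgroup G)) : G)} : Set G) := by
          intro x hx
          rw [Subgroup.mem_centralizer_singleton_iff]
          have := Subgroup.mem_center_iff.mp z.2 ⟨x, hx⟩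
          exact congrArg Subtype.val this
        exact P.not_dvd_index (hd.trans (Subgroup.index_dvd_of_le hle))
  obtain ⟨g, hg1, hgp⟩ := hex
  obtain ⟨χf, n, ρ, hρ, rfl⟩ := χ
  haveI := hρ
  simp only at hdeg hne hχ
  have hfin : (Module.finrank ℂ (Fin n → ℂ) : ℂ) = (p : ℂ) ^ k := by
    rw [← hdeg, Representation.char_one]
  have hfin' : Module.finrank ℂ (Fin n → ℂ) = p ^ k := by exact_mod_cast hfin
  have hcop : Nat.Coprime (Module.finrank ℂ (Fin n → ℂ))
      (Subgroup.centralizer ({g} : Set G)).index := by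
    rw [hfin']
    exact Nat.Coprime.pow_left k ((Nat.Prime.coprime_iff_not_dvd hp).mpr hgp)
  rcases vanish_or_scalar ρ g hcop with h0 | h0
  · have h1 := hχ g
    unfold centralChar at h1
    simp only [h0, mul_zero, zero_div, sub_zero, mul_one, div_one] at h1
    exact hgp ((ideal_natCast_iff hM _).mp h1)
  · obtain ⟨ω, hω⟩ := (char_norm_eq_iff ρ g).mp h0
    exact not_scalar_of_simple hnc ρ hρ hne g hg1 ω hω

end Cfsg.Agent.S0910
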