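import Cfsg.Statements.S0914
import Mathlib
import Cfsg.Agent.Lib.Helper2_BlockOrtho
import Cfsg.Agent.Lib.helper8_Defect


set_option autoImplicit false
open Cfsg

namespace Cfsg.Agent.S0914

open Cfsg Cfsg.Agent.Lib.Helper2_BlockLocal Cfsg.Agent.Lib.Helper2_BlockOm
  Cfsg.Agent.Lib.Helper2_BlockOsima Cfsg.Agent.Lib.Helper2_BlockBasic Cfsg.Agent.Lib.Helper2_BlockOrtho
  Cfsg.Agent.Lib.CharBasic Cfsg.Agent.Lib.CharOrtho
  Cfsg.Agent.Lib.CharComplete Cfsg.Agent.Lib.CharIntegral Cfsg.Agent.Lib.CharMore
  Cfsg.Agent.Lib.CharPerm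
open scoped ComplexConjugate

/-- Let χ be an irreducible character of the finite group G, p a prime and M a maximal ideal of the algebraic integers containing p. Then p does not divide the integer (Nat.card G) / χ(1) if and only if the block of χ relative to M consists of χ alone. -/
theorem result {G : Type*} [Group G] [Finite G] (p : ℕ) [Fact p.Prime] (M : Ideal Cfsg.AlgInt) (hM : Cfsg.IsPModular p M) (χ : Cfsg.IrrCharacter G) : ¬ p ∣ Nat.card G / Cfsg.charDegree (χ : G → ℂ) ↔ Cfsg.blockOf M (χ : G → ℂ) = {χ} := by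
  classical
  cases nonempty_fintype G
  have hP := isPrime_of_modular hM
  obtain ⟨hpos, h1, hdvd⟩ := Cfsg.Agent.Lib.helper8_Defect.irr_charDegree χ.2
  set d := Cfsg.charDegree (χ : G → ℂ) with hd
  obtain ⟨k, hk⟩ := hdvd
  have hkdiv : Nat.card G / d = k := by rw [hk, Nat.mul_div_cancel_left _ hpos]
  rw [hkdiv]
  have hdC : (d : ℂ) ≠ 0 := by exact_mod_cast hpos.ne'
  have hk0 : k ≠ 0 := by
    rintro rfl
    rw [mul_zero] at hk
    exact Nat.card_pos.ne' hk
  have hkC : (k : ℂ) ≠ 0 := by exact_mod_cast hk0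
  constructor
  · intro hpk
    apply Set.Subset.antisymm
    · apply union_of_blocks hP {χ} _ χ rfl
      intro g
      have : blockCoeff {χ} g = (k : ℂ)⁻¹ * conj ((χ : G → ℂ) g) := by
        unfold blockCoeff
        rw [finsum_mem_singleton, h1, hk]
        push_cast
        field_simp
      rw [this]
      refine ring_mul hP (ring_inv_natCast hM hpk) (ring_of_isIntegral hP ?_)
      rw [← isCharacter_inv (isCharacter_of_isIrr χ.2)]
      exact Cfsg.Agent.Lib.helper8_Defect.isIntegral_of_isCharacter (isCharacter_of_isIrr χ.2) _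
    · intro ψ hψ
      rw [Set.mem_singleton_iff.mp hψ]
      exact self_mem_blockOf hP χ
  · intro hB hpk
    have hvan : ∀ y : G, p ∣ orderOf y → (χ : G → ℂ) y = 0 := by
      intro y hy
      have h2 := weak_block_orthogonality hM (B := blockOf M (χ : G → ℂ)) ⟨χ, rfl⟩ (x := 1) (y := y)
        (by rw [orderOf_one]; exact hM.1.one_lt.ne' ∘ Nat.dvd_one.mp) hy
      rw [hB] at h2
      rw [Finset.sum_eq_single_of_mem χ (by simp)
        (by intro b hb hne; exact absurd (by simpa using hb) hne)] at h2
      exact (mul_eq_zero.mp h2).resolve_left (irr_degree_ne_zero χ.2)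
    obtain ⟨P⟩ : Nonempty (Sylow p G) := inferInstance
    obtain ⟨m, hm⟩ := Cfsg.Agent.Lib.helper8_Defect.sum_subgroup_nat
      (isCharacter_of_isIrr χ.2) (P : Subgroup G)
    have h4 : ∑ y : (P : Subgroup G), (χ : G → ℂ) y = (d : ℂ) := by
      rw [Finset.sum_eq_single (1 : (P : Subgroup G))]
      · rw [OneMemClass.coe_one, h1]
      · intro y _ hy
        apply hvan
        obtain ⟨j, hj⟩ := (IsPGroup.iff_orderOf.mp P.2) y
        rw [Subgroup.orderOf_coe, hj]
        have hj0 : j ≠ 0 := by
          rintro rfl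
          rw [pow_zero, orderOf_eq_one_iff] at hj
          exact hy hj
        exact dvd_pow_self p hj0
      · intro h; exact absurd (Finset.mem_univ _) h
    rw [h4] at hm
    have h5 : d = Nat.card (P : Subgroup G) * m := by exact_mod_cast hm
    have h6 : Nat.card (P : Subgroup G) * (P : Subgroup G).index = Nat.card G :=
      (P : Subgroup G).card_mul_index
    rw [hk, h5, mul_assoc] at h6
    have h7 : (P : Subgroup G).index = m * k := Nat.eq_of_mul_eq_mul_left Nat.card_pos h6
    exact P.not_dvd_index (h7 ▸ Dvd.dvd.mul_left hpk m)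

end Cfsg.Agent.S0914
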