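import Cfsg.Statements.S4487
import Cfsg.Agent.Lib.helper8_BlockNormalP
import Cfsg.Agent.Lib.Helper4_Core
import Cfsg.Agent.Lib.Helper9_Alperin

set_option autoImplicit false
open Cfsg Cfsg.Agent.Lib.CharBasic Cfsg.Agent.Lib.CharOrtho Cfsg.Agent.Lib.CharComplete
  Cfsg.Agent.Lib.CharMore Cfsg.Agent.Lib.helper8_Defect Cfsg.Agent.Lib.Helper2_BlockOrtho
  Cfsg.Agent.Lib.Helper2_BlockLocal Cfsg.Agent.Lib.Helper2_BlockOm Cfsg.Agent.Lib.Helper2_BlockOsima
  Cfsg.Agent.Lib.Helper2_BlockBasic Cfsg.Agent.Lib.helper8_BlockSum Cfsg.Agent.Lib.helper8_BlockNormalP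

namespace Cfsg.Agent.S4487

/-- Let G be a finite group and p a prime such that G has no non-trivial normal subgroup of order prime to p and C_G(O_p(G)) ≤ O_p(G). Then G has a single p-block: any two irreducible characters lie in the same block relative to every maximal ideal M of the algebraic integers containing p. -/
theorem result {G : Type*} [Group G] [Finite G] (p : ℕ) [Fact p.Prime] (M : Ideal Cfsg.AlgInt) (hM : Cfsg.IsPModular p M) (hcore : Cfsg.pPrimeCore p G = ⊥) (hconstr : Subgroup.centralizer ((Cfsg.pCore p G) : Set G) ≤ Cfsg.pCore p G) (χ ψ : Cfsg.IrrCharacter G) : Cfsg.SameBlock M (χ : G → ℂ) (ψ : G → ℂ) := by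
  classical
  have := Fintype.ofFinite G
  have hp : p.Prime := Fact.out
  have hPr := isPrime_of_modular hM
  have hn : (pCore p G).Normal := Cfsg.Agent.Lib.Helper9_Alperin.pCore_normal p G
  have hP : IsPGroup p (pCore p G) := Cfsg.Agent.Lib.Helper4_Core.pCore_isPGroup p G
  set B := blockOf M (χ : G → ℂ) with hBdef
  have hB : IsPBlock M B := ⟨χ, rfl⟩
  have hsupp : ∀ g : G, g ≠ 1 → blockCoeff B g = 0 := by
    intro g hg
    by_cases h1 : g ∈ Subgroup.centralizer ((pCore p G) : Set G)
    · apply blockCoeff_singular hM hB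
      obtain ⟨k, hk⟩ := hP ⟨g, hconstr h1⟩
      have hk' : g ^ p ^ k = 1 := by
        have := congrArg Subtype.val hk
        simpa using this
      obtain ⟨j, -, hj⟩ := (Nat.dvd_prime_pow hp).mp (orderOf_dvd_of_pow_eq_one hk')
      rw [hj]
      apply dvd_pow_self
      rintro rfl
      rw [pow_zero, orderOf_eq_one_iff] at hj
      exact hg hj
    · exact blockCoeff_eq_zero hM (pCore p G) hP hB h1
  have hOm : ∀ φ : IrrCharacter G, Om (blockCoeff B) (φ : G → ℂ) = blockCoeff B 1 := by
    intro φ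
    unfold Om
    rw [Finset.sum_eq_single (1 : G)]
    · have := irr_degree_ne_zero φ.2
      field_simp
    · intro g _ hg
      rw [hsupp g hg, zero_mul]
    · intro h; exact absurd (Finset.mem_univ _) h
  have h1 := hOm χ
  rw [Om_blockCoeff, if_pos (self_mem_blockOf hPr χ)] at h1
  have h2 := hOm ψ
  rw [Om_blockCoeff, ← h1] at h2
  by_contra hcon
  have hcon' : ψ ∉ B := hcon
  rw [if_neg hcon'] at h2
  exact zero_ne_one h2

end Cfsg.Agent.S4487
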