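import Cfsg.Statements.S0915
import Cfsg.Agent.S4487
import Cfsg.Agent.Lib.Helper4_PSol

set_option autoImplicit false

open Cfsg

namespace Cfsg.Agent.S0915

theorem result {G : Type*} [Group G] [Finite G] (p : ℕ) [Fact p.Prime] (M : Ideal Cfsg.AlgInt) (hM : Cfsg.IsPModular p M) (hsolv : Cfsg.IsPSolvable p G) (hcore : Cfsg.pPrimeCore p G = ⊥) (χ ψ : Cfsg.IrrCharacter G) : Cfsg.SameBlock M (χ : G → ℂ) (ψ : G → ℂ) :=
  Cfsg.Agent.S4487.result p M hM hcore (Cfsg.Agent.Lib.Helper4_PSol.hall_higman hsolv hcore) χ ψ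

end Cfsg.Agent.S0915
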