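import Cfsg.Statements.S0916
import Cfsg.Agent.Lib.Helper2_BlockFMT

set_option autoImplicit false
open Cfsg

namespace Cfsg.Agent.S0916

/-- Let P be a p-subgroup of the finite group G, C its centralizer and N its normalizer. Say that a conjugacy class (of G, or of N) has defect group P when P is a Sylow p-subgroup of the centralizer (in G, respectively in N) of some element of the class. Then: (i) if the class of g in G has defect group P, the elements of that class lying in C form a single N-class, again with defect group P; (ii) every N-class with defect group P arises this way from exactly one G-class with defect group P. -/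
theorem result {G : Type*} [Group G] [Finite G] (p : ℕ) [Fact p.Prime] (P : Subgroup G) (hP : IsPGroup p P) : (∀ g : G, (∃ S : Sylow p (Subgroup.centralizer ({g} : Set G)), (S : Subgroup (Subgroup.centralizer ({g} : Set G))).map (Subgroup.centralizer ({g} : Set G)).subtype = P) → (∃ c : G, IsConj g c ∧ c ∈ Subgroup.centralizer (P : Set G)) ∧ (∀ c₁ c₂ : G, IsConj g c₁ → IsConj g c₂ → c₁ ∈ Subgroup.centralizer (P : Set G) → c₂ ∈ Subgroup.centralizer (P : Set G) → ∃ n ∈ Subgroup.normalizer (P : Set G), n * c₁ * n⁻¹ = c₂)) ∧ (∀ c : G, c ∈ Subgroup.centralizer (P : Set G) → (∃ S : Sylow p (Subgroup.centralizer ({c} : Set G) ⊓ Subgroup.normalizer (P : Set G) : Subgroup G), (S : Subgroup ↥(Subgroup.centralizer ({c} : Set G) ⊓ Subgroup.normalizer (P : Set G))).map (Subgroup.centralizer ({c} : Set G) ⊓ Subgroup.normalizer (P : Set G)).subtype = P) → ∃ S : Sylow p (Subgroup.centralizer ({c} : Set G)), (S : Subgroup (Subgroup.centralizer ({c} : Set G))).map (Subgroup.centralizer ({c} : Set G)).subtype = P) := by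
  have key : ∀ (C : Subgroup G), (∃ S : Sylow p C, (S : Subgroup C).map C.subtype = P) ↔
      P ≤ C ∧ Nat.card P = p ^ (Nat.card C).factorization p := by
    intro C
    rw [← Cfsg.Agent.Lib.Helper2_BlockFMT.exists_sylow_map_iff C P]
    constructor
    · rintro ⟨S, hS⟩; exact ⟨S, hS.symm⟩
    · rintro ⟨S, hS⟩; exact ⟨S, hS.symm⟩
  refine ⟨?_, ?_⟩
  · intro g hg
    obtain ⟨hle, hcard⟩ := (key _).mp hg
    have hgC : g ∈ Subgroup.centralizer (P : Set G) := by
      rw [Subgroup.mem_centralizer_iff]
      intro x hx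
      have := hle hx
      rw [Subgroup.mem_centralizer_singleton_iff] at this
      exact this
    refine ⟨⟨g, IsConj.refl g, hgC⟩, ?_⟩
    intro c₁ c₂ h1 h2 hc1 hc2
    obtain ⟨n1, hn1, e1⟩ := Cfsg.Agent.Lib.Helper2_BlockFMT.conj_in_normalizer hP hc1 hle hcard h1
    obtain ⟨n2, hn2, e2⟩ := Cfsg.Agent.Lib.Helper2_BlockFMT.conj_in_normalizer hP hc2 hle hcard h2
    refine ⟨n2 * n1⁻¹, Subgroup.mul_mem _ hn2 (Subgroup.inv_mem _ hn1), ?_⟩
    rw [← e1, ← e2]
    group
  · intro c hc hS
    obtain ⟨hle, hcard⟩ := (key _).mp hS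
    refine (key _).mpr ⟨le_trans hle inf_le_left, ?_⟩
    exact Cfsg.Agent.Lib.Helper2_BlockFMT.sylow_of_sylow_normalizer hP (le_trans hle inf_le_left) hcard

end Cfsg.Agent.S0916
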