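import Cfsg.Statements.S0922
import Mathlib
import Cfsg.Agent.Lib.Helper2_SecondMain
import Cfsg.Agent.Lib.Helper2_PPart


set_option autoImplicit false
open Cfsg

namespace Cfsg.Agent.S0922

/-- Let H be a subgroup of the finite group G and let the block b of H induce the block B of G (relative to a maximal ideal M of the algebraic integers containing the prime p). Let h ∈ H be such that the centralizer in G of the p-part of h lies in H, and let χ be an irreducible character of G not in B. Then the sum over k ∈ H of (the idempotent coefficient of b at k) times χ (k * h) vanishes; that is, χ annihilates f_b h where f_b is the sum of the central idempotents of the members of b. -/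
theorem result {G : Type*} [Group G] [Finite G] (p : ℕ) [Fact p.Prime] (M : Ideal Cfsg.AlgInt) (hM : Cfsg.IsPModular p M) (H : Subgroup G) (b : Set (Cfsg.IrrCharacter H)) (B : Set (Cfsg.IrrCharacter G)) (hind : Cfsg.IsInducedBlock M H b B) (h : H) (hC : ∀ z : G, Cfsg.IsPPart p (h : G) z → Subgroup.centralizer ({z} : Set G) ≤ H) (χ : Cfsg.IrrCharacter G) (hχ : χ ∉ B) : ∑ᶠ k : H, Cfsg.blockCoeff b k * (χ : G → ℂ) ((k : G) * (h : G)) = 0 := by
  classical
  haveI : Fintype G := Fintype.ofFinite G
  haveI : Fintype H := Fintype.ofFinite H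
  have hp : p.Prime := Fact.out
  obtain ⟨a, b', s, h1, h2, h3⟩ := Cfsg.Agent.Lib.Helper2_PPart.exists_parts hp h
  have hpp : Cfsg.IsPPart p (h : G) ((h ^ a : H) : G) := by
    refine ⟨((h ^ b' : H) : G), ?_, ?_, ?_, ?_⟩
    · rw [← Subgroup.coe_mul, h1]
    · push_cast
      exact (Commute.refl (h : G)).pow_pow a b'
    · apply Cfsg.Agent.Lib.Helper2_PPart.orderOf_eq_pow_of_pow_eq_one hp (s := s)
      rw [← Subgroup.coe_pow, h2]; rfl
    · rw [Subgroup.orderOf_coe]; exact h3
  have hCC := hC _ hpp
  rw [finsum_eq_sum_of_fintype]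
  have := Cfsg.Agent.Lib.Helper2_SecondMain.second_main_idem hM hind (h ^ a) (h ^ b')
    ((Commute.refl h).pow_pow a b') h2 h3 (fun g hg => hCC (by
      rw [Subgroup.mem_centralizer_singleton_iff]
      have : ((h ^ a : H) : G) * g = g * ((h ^ a : H) : G) := by
        calc ((h ^ a : H) : G) * g = ((h ^ a : H) : G) * g * ((h ^ a : H) : G)⁻¹ * ((h ^ a : H) : G) := by group
          _ = g * ((h ^ a : H) : G) := by rw [hg]
      exact this.symm)) χ hχ
  rw [← this]
  apply Finset.sum_congr rfl
  intro k _
  have e : ((h ^ a : H) : G) * ((h ^ b' : H) : G) = (h : G) := by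
    rw [← Subgroup.coe_mul, h1]
  rw [e]

end Cfsg.Agent.S0922
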