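import Cfsg.Statements.S0927
import Mathlib
import Cfsg.Agent.Lib.Helper2_BlockSection


set_option autoImplicit false
open Cfsg

namespace Cfsg.Agent.S0927

/-- Let B be a block of the finite group G relative to a maximal ideal M of the algebraic integers containing p, let y represent a defect class of B and let P be a Sylow p-subgroup of the centralizer of y. (a) If x ∈ P and χ ∈ B has height zero, then χ (x * y) is not in the local ideal at M. (b) If x lies in the centre of P, then for every χ ∈ B the central character of χ at x * y is not in the local ideal at M. -/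
theorem result {G : Type*} [Group G] [Finite G] (p : ℕ) [Fact p.Prime] (M : Ideal Cfsg.AlgInt) (hM : Cfsg.IsPModular p M) (B : Set (Cfsg.IrrCharacter G)) (hB : Cfsg.IsPBlock M B) (y : G) (hy : Cfsg.IsDefectClass M B y) (P : Sylow p (Subgroup.centralizer ({y} : Set G))) (x : Subgroup.centralizer ({y} : Set G)) (hx : x ∈ (P : Subgroup (Subgroup.centralizer ({y} : Set G)))) : (∀ χ ∈ B, Cfsg.blockHeight p B (χ : G → ℂ) = 0 → ¬ Cfsg.MemLocalIdeal M ((χ : G → ℂ) ((x : G) * y))) ∧ ((∀ w ∈ (P : Subgroup (Subgroup.centralizer ({y} : Set G))), x * w = w * x) → ∀ χ ∈ B, ¬ Cfsg.MemLocalIdeal M (Cfsg.centralChar (χ : G → ℂ) ((x : G) * y))) := by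
  classical
  have hc : Commute (x : G) y := Subgroup.mem_centralizer_singleton_iff.mp x.2
  have hxo : ∃ k : ℕ, orderOf (x : G) = p ^ k := by
    obtain ⟨k, hk⟩ := (IsPGroup.iff_orderOf.mp P.2) ⟨x, hx⟩
    refine ⟨k, ?_⟩
    rw [Subgroup.orderOf_coe, ← hk]
    exact Subgroup.orderOf_coe (⟨x, hx⟩ : (P : Subgroup (Subgroup.centralizer ({y} : Set G))))
  refine ⟨?_, ?_⟩
  · intro χ hχ h0
    exact Cfsg.Agent.Lib.Helper2_BlockSection.value_mul_not_ideal hM hB hy hχ
      (Cfsg.Agent.Lib.Helper2_BlockSection.height_zero_val hM hB hy h0) hc hxo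
  · intro hz χ hχ
    exact Cfsg.Agent.Lib.Helper2_BlockSection.centralChar_mul_not_ideal hM hB hy P x hx hz hχ

end Cfsg.Agent.S0927
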