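import Cfsg.Statements.S0935
import Mathlib
import Cfsg.Agent.Lib.Helper2_HtRes


set_option autoImplicit false
open Cfsg

namespace Cfsg.Agent.S0935

open Cfsg.Agent.Lib.Helper2_BlockLocal Cfsg.Agent.Lib.Helper2_BlockOm

/-- Let H be a subgroup of the finite group G and χ an irreducible character of G whose restriction to H is irreducible; fix a maximal ideal M of the algebraic integers containing the prime p and suppose χ and its restriction have height zero in their blocks B and b. If e is a block of H whose induced block is defined, then e induces B if and only if e = b. -/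
theorem result {G : Type*} [Group G] [Finite G] (p : ℕ) [Fact p.Prime] (M : Ideal Cfsg.AlgInt) (hM : Cfsg.IsPModular p M) (H : Subgroup G) (χ : Cfsg.IrrCharacter G) (hres : Cfsg.IsIrrCharacter H (fun h : H => (χ : G → ℂ) h)) (hχ0 : Cfsg.blockHeight p (Cfsg.blockOf M (χ : G → ℂ)) (χ : G → ℂ) = 0) (hψ0 : Cfsg.blockHeight p (Cfsg.blockOf M (fun h : H => (χ : G → ℂ) h)) (fun h : H => (χ : G → ℂ) h) = 0) (e : Set (Cfsg.IrrCharacter H)) (he : Cfsg.InducedBlockDefined M H e) : Cfsg.IsInducedBlock M H e (Cfsg.blockOf M (χ : G → ℂ)) ↔ e = Cfsg.blockOf M (fun h : H => (χ : G → ℂ) h) := by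
  classical
  haveI : Fintype G := Fintype.ofFinite G
  haveI : Fintype H := Fintype.ofFinite H
  have hP := isPrime_of_modular hM
  set ψ : IrrCharacter H := ⟨fun h : H => (χ : G → ℂ) h, hres⟩ with hψdef
  constructor
  · intro hind
    obtain ⟨ξ, hξ, -, n, hn, hpn⟩ := Cfsg.Agent.Lib.Helper2_HtRes.exists_height_zero_under hM hind
      (self_mem_blockOf hP χ) hχ0
    have hξψ : ξ = ψ := by
      by_contra hne
      have h1 : classInner (ψ : H → ℂ) (ξ : H → ℂ) = 0 :=
        Cfsg.Agent.Lib.CharOrtho.classInner_irr_ne ψ.2 ξ.2 (fun h => hne (Subtype.ext h).symm)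
      have h2 : (n : ℂ) = 0 := by rw [← hn]; exact h1
      have h3 : n = 0 := by exact_mod_cast h2
      exact hpn (h3 ▸ dvd_zero p)
    rw [hξψ] at hξ
    exact block_eq_blockOf hP hind.1 hξ
  · intro hee
    obtain ⟨B', hB'⟩ := he
    have hψe : ψ ∈ e := by
      rw [hee]
      exact self_mem_blockOf hP ψ
    have h0 : blockHeight p e (ψ : H → ℂ) = 0 := by
      rw [hee]; exact hψ0
    have hχB' := Cfsg.Agent.Lib.Helper2_HtRes.mem_of_irr_restrict hM hB' (χ := χ) hψe
      (fun h => rfl) h0
    rw [← block_eq_blockOf hP hB'.2.1 hχB']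
    exact hB'

end Cfsg.Agent.S0935
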