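import Cfsg.Statements.S0938
import Mathlib
import Cfsg.Agent.Lib.Helper2_BlockQuot


set_option autoImplicit false
open Cfsg

namespace Cfsg.Agent.S0938

open Cfsg Cfsg.Agent.Lib.Helper2_BlockLocal Cfsg.Agent.Lib.Helper2_BlockOm
  Cfsg.Agent.Lib.Helper2_BlockOsima Cfsg.Agent.Lib.Helper2_BlockBasic Cfsg.Agent.Lib.Helper2_BlockOrtho
  Cfsg.Agent.Lib.Helper2_BlockNormal Cfsg.Agent.Lib.Helper2_BlockCover Cfsg.Agent.Lib.Helper2_BlockInd
  Cfsg.Agent.Lib.Helper2_BlockCover2 Cfsg.Agent.Lib.Helper2_BlockCover3 Cfsg.Agent.Lib.Helper2_BlockQuot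
  Cfsg.Agent.Lib.CharBasic Cfsg.Agent.Lib.CharOrtho
  Cfsg.Agent.Lib.CharComplete Cfsg.Agent.Lib.CharIntegral Cfsg.Agent.Lib.CharMore
  Cfsg.Agent.Lib.CharPerm Cfsg.Agent.Lib.CharInd Cfsg.Agent.Lib.CharQuot
open scoped ComplexConjugate

/-- Let B be a block of the finite group G relative to a maximal ideal M of the algebraic integers containing the prime p, and let χ ∈ B. Then the kernel of B (the set of g with ψ g = ψ 1 for all ψ ∈ B) is a normal subgroup of order prime to p contained in the kernel of χ, and it contains every normal subgroup of order prime to p on which χ takes the value χ(1); that is, it is O_p' of the kernel of χ. -/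
theorem result {G : Type*} [Group G] [Finite G] (p : ℕ) [Fact p.Prime] (M : Ideal Cfsg.AlgInt) (hM : Cfsg.IsPModular p M) (B : Set (Cfsg.IrrCharacter G)) (hB : Cfsg.IsPBlock M B) (χ : Cfsg.IrrCharacter G) (hχ : χ ∈ B) : ∃ K : Subgroup G, K.Normal ∧ (K : Set G) = Cfsg.blockKer B ∧ ¬ p ∣ Nat.card K ∧ (∀ g ∈ K, (χ : G → ℂ) g = (χ : G → ℂ) 1) ∧ ∀ N : Subgroup G, N.Normal → ¬ p ∣ Nat.card N → (∀ g ∈ N, (χ : G → ℂ) g = (χ : G → ℂ) 1) → N ≤ K := by
  classical
  cases nonempty_fintype G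
  have hP := isPrime_of_modular hM
  let K : Subgroup G := ⨅ ψ : B, charKer ((ψ : IrrCharacter G) : G → ℂ) (isCharacter_of_isIrr ψ.1.2)
  have hmem : ∀ g : G, g ∈ K ↔ ∀ ψ ∈ B, (ψ : G → ℂ) g = (ψ : G → ℂ) 1 := by
    intro g
    simp only [K, Subgroup.mem_iInf, mem_charKer]
    exact ⟨fun h ψ hψ => h ⟨ψ, hψ⟩, fun h ψ => h ψ.1 ψ.2⟩
  refine ⟨K, Subgroup.normal_iInf_normal fun ψ => inferInstance, ?_, ?_, ?_, ?_⟩
  · ext g
    exact hmem g
  · intro hpK
    obtain ⟨k, hk⟩ := exists_prime_orderOf_dvd_card' (G := K) p hpK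
    have hk' : orderOf (k : G) = p := by rw [Subgroup.orderOf_coe, hk]
    have h0 := blockCoeff_singular hM hB (y := (k : G)) (by rw [hk'])
    rw [blockCoeff_eq] at h0
    have hG : (Nat.card G : ℂ) ≠ 0 := by exact_mod_cast Nat.card_pos.ne'
    have h1 := (mul_eq_zero.mp h0).resolve_left (inv_ne_zero hG)
    choose d hd using fun ψ : IrrCharacter G => irr_degree ψ.2
    have h2 : ∀ ψ : IrrCharacter G, (ψ : G → ℂ) 1 * conj ((ψ : G → ℂ) (k : G)) *
        ind (Finset.univ.filter fun ψ => ψ ∈ B) ψ = ((if ψ ∈ B then d ψ * d ψ else 0 : ℕ) : ℂ) := by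
      intro ψ
      unfold ind
      simp only [Finset.mem_filter, Finset.mem_univ, true_and]
      by_cases hψ : ψ ∈ B
      · rw [if_pos hψ, if_pos hψ, (hmem k).mp k.2 ψ hψ, (hd ψ).2.1]
        simp
      · rw [if_neg hψ, if_neg hψ]; simp
    simp only [h2] at h1
    rw [← Nat.cast_sum] at h1
    have h3 : ∑ ψ : IrrCharacter G, (if ψ ∈ B then d ψ * d ψ else 0) = 0 := by exact_mod_cast h1
    have h4 := (Finset.sum_eq_zero_iff.mp h3) χ (Finset.mem_univ _)
    rw [if_pos hχ] at h4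
    have := (hd χ).1
    rcases Nat.mul_eq_zero.mp h4 with h | h <;> omega
  · intro g hg
    exact (hmem g).mp hg χ hχ
  · intro N hN hNp hker n hn
    rw [hmem]
    intro ψ hψ
    exact ker_of_sameBlock_pprime hM N hN hNp (sameBlock_of_mem hP hB hχ hψ) hker n hn

end Cfsg.Agent.S0938
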