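import Cfsg.Statements.S0939
import Mathlib
import Cfsg.Agent.Lib.Helper2_BlockCover3
import Cfsg.Agent.Lib.Helper4_Core
import Cfsg.Agent.Lib.CharBurnside
import Cfsg.Agent.S0954


set_option autoImplicit false
open Cfsg

namespace Cfsg.Agent.S0939

open Cfsg Cfsg.Agent.Lib.Helper2_BlockLocal Cfsg.Agent.Lib.Helper2_BlockOm
  Cfsg.Agent.Lib.Helper2_BlockOsima Cfsg.Agent.Lib.Helper2_BlockBasic Cfsg.Agent.Lib.Helper2_BlockOrtho
  Cfsg.Agent.Lib.Helper2_BlockNormal Cfsg.Agent.Lib.Helper2_BlockCover Cfsg.Agent.Lib.Helper2_BlockInd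
  Cfsg.Agent.Lib.Helper2_BlockCover2 Cfsg.Agent.Lib.Helper2_BlockCover3
  Cfsg.Agent.Lib.CharBasic Cfsg.Agent.Lib.CharOrtho
  Cfsg.Agent.Lib.CharComplete Cfsg.Agent.Lib.CharIntegral Cfsg.Agent.Lib.CharMore
  Cfsg.Agent.Lib.CharPerm Cfsg.Agent.Lib.CharInd Cfsg.Agent.Lib.CharBurnside
open scoped ComplexConjugate

/-- Let G be a finite group with a normal p-complement (the largest normal subgroup O_p'(G) of order prime to p has p-power index). Then, relative to any maximal ideal M of the algebraic integers containing p, the principal block of G is the set of irreducible characters χ with χ n = χ 1 for every n ∈ O_p'(G). -/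
theorem result {G : Type*} [Group G] [Finite G] (p : ℕ) [Fact p.Prime] (M : Ideal Cfsg.AlgInt) (hM : Cfsg.IsPModular p M) (hnc : ∃ k : ℕ, (Cfsg.pPrimeCore p G).index = p ^ k) : Cfsg.principalBlock M G = {χ : Cfsg.IrrCharacter G | ∀ n ∈ Cfsg.pPrimeCore p G, (χ : G → ℂ) n = (χ : G → ℂ) 1} := by
  classical
  cases nonempty_fintype G
  have hP := isPrime_of_modular hM
  set N := Cfsg.pPrimeCore p G with hNdef
  have hN : N.Normal := inferInstance
  have hNp : ¬ p ∣ Nat.card N := by
    have := Cfsg.Agent.Lib.Helper4_Core.pPrimeCore_coprime (G := G) p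
    exact fun hd => (Nat.Prime.coprime_iff_not_dvd hM.1).mp this.symm hd
  let one : IrrCharacter G := ⟨1, isIrr_one⟩
  let oneN : IrrCharacter N := ⟨1, isIrr_one⟩
  have hNC : (Nat.card N : ℂ) ≠ 0 := by exact_mod_cast Nat.card_pos.ne'
  have hone : classInner (fun n : N => (one : G → ℂ) n) (oneN : N → ℂ) ≠ 0 := by
    have : (fun n : N => (one : G → ℂ) n) = (oneN : N → ℂ) := rfl
    rw [this, classInner_irr_self oneN.2]
    exact one_ne_zero
  ext χ
  have key := Cfsg.Agent.S0954.result p M hM N hNp hnc one χ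
  change SameBlock M (fun _ => (1 : ℂ)) (χ : G → ℂ) ↔ _
  have e1 : (fun _ : G => (1 : ℂ)) = (one : G → ℂ) := rfl
  rw [e1, key]
  constructor
  · rintro ⟨θ, h1, h2⟩ n hn
    have h3 := centralChar_eq_induced_of_over N hN one.2 θ.2 h1 ⟨n, hn⟩
    have h4 := centralChar_eq_induced_of_over N hN χ.2 θ.2 h2 ⟨n, hn⟩
    rw [← h3] at h4
    unfold centralChar at h4
    have h5 := index_centralizer_ne_zero n
    have h6 := irr_degree_ne_zero χ.2
    have h7 : (one : G → ℂ) n = 1 := rfl
    have h8 : (one : G → ℂ) 1 = 1 := rfl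
    simp only [h7, h8] at h4
    field_simp at h4
    exact h4
  · intro h
    refine ⟨oneN, hone, ?_⟩
    unfold classInner
    have h2 : ∀ n : N, (χ : G → ℂ) n * conj ((oneN : N → ℂ) n) = (χ : G → ℂ) 1 := by
      intro n
      have : (oneN : N → ℂ) n = 1 := rfl
      rw [this, map_one, mul_one, h n n.2]
    simp only [h2, Finset.sum_const, Finset.card_univ, nsmul_eq_mul, ← Nat.card_eq_fintype_card]
    rw [← mul_assoc, inv_mul_cancel₀ hNC, one_mul]
    exact irr_degree_ne_zero χ.2

end Cfsg.Agent.S0939
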