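import Cfsg.Statements.S0941
import Cfsg.Agent.Lib.BlockPC

set_option autoImplicit false
open Cfsg

namespace Cfsg.Agent.S0941

/-- Let P be a normal p-subgroup of the finite group G such that the index of C_G(P) is a power of p, and fix a maximal ideal M of the algebraic integers containing p. Then (i) two irreducible characters of G ⧸ P lie in the same block if and only if their inflations to G do, and (ii) every block of G contains the inflation of some irreducible character of G ⧸ P; so inflation induces a bijection between the blocks of G ⧸ P and the blocks of G. -/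
theorem result {G : Type*} [Group G] [Finite G] (p : ℕ) [Fact p.Prime] (M : Ideal Cfsg.AlgInt) (hM : Cfsg.IsPModular p M) (P : Subgroup G) [P.Normal] (hP : IsPGroup p P) (hC : ∃ k : ℕ, (Subgroup.centralizer (P : Set G)).index = p ^ k) : (∀ χ ψ : Cfsg.IrrCharacter (G ⧸ P), Cfsg.SameBlock M (χ : G ⧸ P → ℂ) (ψ : G ⧸ P → ℂ) ↔ Cfsg.SameBlock M ((χ : G ⧸ P → ℂ) ∘ QuotientGroup.mk) ((ψ : G ⧸ P → ℂ) ∘ QuotientGroup.mk)) ∧ ∀ B : Set (Cfsg.IrrCharacter G), Cfsg.IsPBlock M B → ∃ χ : Cfsg.IrrCharacter (G ⧸ P), ∃ θ ∈ B, (θ : G → ℂ) = (χ : G ⧸ P → ℂ) ∘ QuotientGroup.mk := by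
  haveI : Fintype G := Fintype.ofFinite G
  obtain ⟨k, hk⟩ := hC
  have hreg : ∀ x : G, ¬ p ∣ orderOf x → x ∈ Subgroup.centralizer (P : Set G) := fun x hx =>
    Cfsg.Agent.Lib.Helper2_BlockCover.regular_mem_of_index hM.1 _ hk hx
  refine ⟨fun χ ψ => ⟨fun h => ?_, fun h => ?_⟩, fun B hB => ?_⟩
  · exact Cfsg.Agent.Lib.BlockPC.sameBlock_inflate P hM
      (Cfsg.Agent.Lib.Helper2_BlockOm.irr_classFunction χ)
      (Cfsg.Agent.Lib.Helper2_BlockOm.irr_classFunction ψ) h
  · exact Cfsg.Agent.Lib.BlockPC.sameBlock_deflate_pGroup P hM hP hreg χ ψ h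
  · obtain ⟨θ, hθ, hker⟩ := Cfsg.Agent.Lib.Helper2_BlockPCore.exists_ker_of_normal_pGroup hM hB P
      inferInstance hP
    obtain ⟨χ', h1, h2⟩ := Cfsg.Agent.Lib.CharQuot.exists_deflate_irr P θ.2 hker
    exact ⟨⟨χ', h1⟩, θ, hθ, h2⟩

end Cfsg.Agent.S0941
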