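import Cfsg.Statements.S0952
import Mathlib
import Cfsg.Agent.Lib.Helper2_BlockOrtho


set_option autoImplicit false
open scoped ComplexConjugate
open Cfsg

namespace Cfsg.Agent.S0952

open Cfsg Cfsg.Agent.Lib.Helper2_BlockLocal Cfsg.Agent.Lib.Helper2_BlockOm
  Cfsg.Agent.Lib.Helper2_BlockOsima Cfsg.Agent.Lib.Helper2_BlockBasic Cfsg.Agent.Lib.Helper2_BlockOrtho
  Cfsg.Agent.Lib.CharBasic Cfsg.Agent.Lib.CharOrtho
  Cfsg.Agent.Lib.CharComplete Cfsg.Agent.Lib.CharIntegral Cfsg.Agent.Lib.CharMore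
  Cfsg.Agent.Lib.CharPerm
open scoped ComplexConjugate

/-- Let χ and ψ be irreducible characters of the finite group G lying in different blocks relative to a maximal ideal M of the algebraic integers containing the prime p. Then the sum of χ x * conj (ψ x) over the elements x of order prime to p is zero. -/
theorem result {G : Type*} [Group G] [Finite G] (p : ℕ) [Fact p.Prime] (M : Ideal Cfsg.AlgInt) (hM : Cfsg.IsPModular p M) (χ ψ : Cfsg.IrrCharacter G) (h : ¬ Cfsg.SameBlock M (χ : G → ℂ) (ψ : G → ℂ)) : ∑ᶠ x ∈ {x : G | ¬ p ∣ orderOf x}, (χ : G → ℂ) x * conj ((ψ : G → ℂ) x) = 0 := by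
  classical
  cases nonempty_fintype G
  have hP := isPrime_of_modular hM
  have hG : (Nat.card G : ℂ) ≠ 0 := by exact_mod_cast Nat.card_pos.ne'
  set B := blockOf M (χ : G → ℂ) with hB
  have hBb : IsPBlock M B := ⟨χ, rfl⟩
  set S := Finset.univ.filter (fun χ' : IrrCharacter G => χ' ∈ B) with hS
  set θ : G → ℂ := fun g => if p ∣ orderOf g then 0 else (ψ : G → ℂ) g with hθ
  set c : IrrCharacter G → ℂ := fun χ' => classInner θ (χ' : G → ℂ) with hc
  set T : G → ℂ := ∑ χ' ∈ S, c χ' • (χ' : G → ℂ) with hT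
  have hTapp : ∀ g, T g = ∑ χ' ∈ S, c χ' * (χ' : G → ℂ) g := by
    intro g; simp [hT, Finset.sum_apply]
  have claim1 : ∀ y, p ∣ orderOf y → T y = 0 := by
    intro y hy
    rw [hTapp]
    simp only [hc, classInner, Finset.mul_sum, Finset.sum_mul]
    rw [Finset.sum_comm]
    refine Finset.sum_eq_zero fun x _ => ?_
    by_cases hx : p ∣ orderOf x
    · refine Finset.sum_eq_zero fun χ' _ => ?_
      simp [hθ, hx]
    · have h1 := weak_block_orthogonality hM hBb (x := x⁻¹) (y := y) (by rwa [orderOf_inv]) hy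
      have h2 : ∀ χ' ∈ S, (Nat.card G : ℂ)⁻¹ * (θ x * conj ((χ' : G → ℂ) x)) * (χ' : G → ℂ) y =
          (Nat.card G : ℂ)⁻¹ * θ x * ((χ' : G → ℂ) x⁻¹ * (χ' : G → ℂ) y) := by
        intro χ' _
        rw [isCharacter_inv (isCharacter_of_isIrr χ'.2)]
        ring
      rw [Finset.sum_congr rfl h2, ← Finset.mul_sum, h1, mul_zero]
  have claim2 : classInner T (ψ : G → ℂ) = 0 := by
    rw [hT, classInner_sum_left]
    refine Finset.sum_eq_zero fun χ' hχ' => ?_
    rw [classInner_smul_left, classInner_irr χ'.2 ψ.2, if_neg, mul_zero]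
    intro he
    have : χ' = ψ := Subtype.ext he
    rw [this] at hχ'
    exact h (Finset.mem_filter.mp hχ').2
  have claim3 : classInner T (ψ : G → ℂ) = classInner T θ := by
    unfold classInner
    congr 1
    refine Finset.sum_congr rfl fun g _ => ?_
    by_cases hg : p ∣ orderOf g
    · rw [claim1 g hg, zero_mul, zero_mul]
    · simp [hθ, hg]
  have claim4 : classInner T θ = ∑ χ' ∈ S, ((Complex.normSq (c χ') : ℝ) : ℂ) := by
    rw [hT, classInner_sum_left]
    refine Finset.sum_congr rfl fun χ' _ => ?_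
    rw [classInner_smul_left, ← classInner_conj_symm, Complex.mul_conj]
  rw [← claim3, claim2, ← Complex.ofReal_sum] at claim4
  have h5 : ∑ χ' ∈ S, Complex.normSq (c χ') = 0 := by exact_mod_cast claim4.symm
  have h6 := (Finset.sum_eq_zero_iff_of_nonneg (fun χ' _ => Complex.normSq_nonneg (c χ'))).mp h5 χ
    (Finset.mem_filter.mpr ⟨Finset.mem_univ _, self_mem_blockOf hP χ⟩)
  have h7 : c χ = 0 := Complex.normSq_eq_zero.mp h6
  simp only [hc, classInner] at h7
  have h8 := (mul_eq_zero.mp h7).resolve_left (inv_ne_zero hG)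
  rw [finsum_mem_eq_finite_toFinset_sum _ (Set.toFinite _)]
  have h9 : (Set.toFinite {x : G | ¬ p ∣ orderOf x}).toFinset =
      Finset.univ.filter fun x : G => ¬ p ∣ orderOf x := by
    ext x; simp
  rw [h9, Finset.sum_filter]
  have h10 := congrArg conj h8
  rw [map_zero, map_sum] at h10
  refine Eq.trans ?_ h10
  refine Finset.sum_congr rfl fun x _ => ?_
  by_cases hx : p ∣ orderOf x
  · simp [hθ, hx]
  · simp [hθ, hx, mul_comm]

end Cfsg.Agent.S0952
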