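import Cfsg.Statements.S0955
import Mathlib
import Cfsg.Agent.Lib.Helper2_BlockFMT
import Cfsg.Agent.Lib.Helper4_Core
import Cfsg.Prelude.Def_CaseTheorems


set_option autoImplicit false
open Cfsg

namespace Cfsg.Agent.S0955

/-- Let D be a defect group of a block of the finite group G relative to a maximal ideal M of the algebraic integers containing the prime p. Then D is the largest normal p-subgroup of its own normalizer: O_p(N_G(D)) = D. -/
theorem result {G : Type*} [Group G] [Finite G] (p : ℕ) [Fact p.Prime] (M : Ideal Cfsg.AlgInt) (hM : Cfsg.IsPModular p M) (B : Set (Cfsg.IrrCharacter G)) (hB : Cfsg.IsPBlock M B) (D : Subgroup G) (hD : Cfsg.IsDefectGroup p M B D) : (Cfsg.pCore p (Subgroup.normalizer (D : Set G))).map (Subgroup.normalizer (D : Set G)).subtype = D := by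
  obtain ⟨b, hb, hbD, hind⟩ := Cfsg.Agent.Lib.Helper2_BlockFMT.fmt_exists hM hB hD
  have hDp := Cfsg.Agent.Lib.Helper2_BlockFMT.isPGroup_of_defect hD
  have hDN : D ≤ Subgroup.normalizer (D : Set G) := Subgroup.le_normalizer
  have h1 : Cfsg.pCore p (Subgroup.normalizer (D : Set G)) ≤
      D.subgroupOf (Subgroup.normalizer (D : Set G)) :=
    Cfsg.Agent.Lib.Helper2_BlockPCore.normal_pGroup_le_defect hM hb hbD _
      (Cfsg.pCore_normal p _) (Cfsg.Agent.Lib.Helper4_Core.pCore_isPGroup p _)
  have h2 : D.subgroupOf (Subgroup.normalizer (D : Set G)) ≤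
      Cfsg.pCore p (Subgroup.normalizer (D : Set G)) :=
    Cfsg.Agent.Lib.Helper4_Core.le_pCore
      ((Subgroup.normal_subgroupOf_iff_le_normalizer hDN).mpr le_rfl) hDp.comap_subtype
  rw [le_antisymm h1 h2, Subgroup.map_subgroupOf_eq_of_le hDN]

end Cfsg.Agent.S0955
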