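import Cfsg.Statements.S0957
import Mathlib
import Cfsg.Agent.Lib.helper6_Derange
import Cfsg.Agent.Lib.CharPerm


set_option autoImplicit false
open Cfsg

namespace Cfsg.Agent.S0957

/-- Let P be a Sylow p-subgroup of the finite group G, let g, h ∈ G and let p ^ d be the order of a Sylow p-subgroup of the centralizer of g. Then the number of pairs (y, z) with y conjugate to g, z conjugate to h and z * y⁻¹ ∈ P is divisible by the order of P divided by p ^ d. -/
theorem result {G : Type*} [Group G] [Finite G] (p : ℕ) [Fact p.Prime] (P : Sylow p G) (g h : G) (S : Sylow p (Subgroup.centralizer ({g} : Set G))) : Nat.card P / Nat.card S ∣ Nat.card {yz : G × G // IsConj g yz.1 ∧ IsConj h yz.2 ∧ yz.2 * yz.1⁻¹ ∈ (P : Subgroup G)} := by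
  classical
  haveI : Fintype G := Fintype.ofFinite G
  have hp := (Fact.out : p.Prime)
  let X := {yz : G × G // IsConj g yz.1 ∧ IsConj h yz.2 ∧ yz.2 * yz.1⁻¹ ∈ (P : Subgroup G)}
  letI act : MulAction (P : Subgroup G) X :=
    { smul := fun u xy => ⟨((u : G) * xy.1.1 * (u : G)⁻¹, (u : G) * xy.1.2 * (u : G)⁻¹),
        xy.2.1.trans (isConj_iff.mpr ⟨u, rfl⟩), xy.2.2.1.trans (isConj_iff.mpr ⟨u, rfl⟩), by
          have := xy.2.2.2
          have e : (u : G) * xy.1.2 * (u : G)⁻¹ * ((u : G) * xy.1.1 * (u : G)⁻¹)⁻¹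
              = (u : G) * (xy.1.2 * xy.1.1⁻¹) * (u : G)⁻¹ := by group
          rw [e]
          exact (P : Subgroup G).mul_mem ((P : Subgroup G).mul_mem u.2 this) ((P : Subgroup G).inv_mem u.2)⟩
      one_smul := by
        intro xy
        apply Subtype.ext
        apply Prod.ext
        · change ((1 : (P : Subgroup G)) : G) * xy.1.1 * ((1 : (P : Subgroup G)) : G)⁻¹ = xy.1.1
          simp
        · change ((1 : (P : Subgroup G)) : G) * xy.1.2 * ((1 : (P : Subgroup G)) : G)⁻¹ = xy.1.2
          simp
      mul_smul := by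
        intro u v xy
        apply Subtype.ext
        apply Prod.ext
        · change ((u * v : (P : Subgroup G)) : G) * xy.1.1 * ((u * v : (P : Subgroup G)) : G)⁻¹ = (u : G) * ((v : G) * xy.1.1 * (v : G)⁻¹) * (u : G)⁻¹
          simp [mul_assoc]
        · change ((u * v : (P : Subgroup G)) : G) * xy.1.2 * ((u * v : (P : Subgroup G)) : G)⁻¹ = (u : G) * ((v : G) * xy.1.2 * (v : G)⁻¹) * (u : G)⁻¹
          simp [mul_assoc] }
  have hsm : ∀ (u : (P : Subgroup G)) (xy : X), ((u • xy : X) : G × G) =
      ((u : G) * xy.1.1 * (u : G)⁻¹, (u : G) * xy.1.2 * (u : G)⁻¹) := fun _ _ => rfl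
  have hSP : Nat.card S ∣ Nat.card P := by
    rw [Sylow.card_eq_multiplicity, Sylow.card_eq_multiplicity]
    apply pow_dvd_pow
    have hdvd : Nat.card (Subgroup.centralizer ({g} : Set G)) ∣ Nat.card G := Subgroup.card_subgroup_dvd_card _
    exact (Nat.factorization_le_iff_dvd Nat.card_pos.ne' Nat.card_pos.ne').mpr hdvd p
  have key : Nat.card P / Nat.card S ∣ (Set.univ : Set X).ncard := by
    apply Cfsg.Agent.Lib.helper6_Derange.dvd_ncard_of_orbits (K := (P : Subgroup G)) _ _ _
      (Set.toFinite _) rfl (fun _ _ _ => Set.mem_univ _)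
    intro xy _
    rw [← MulAction.index_stabilizer]
    set St := MulAction.stabilizer (P : Subgroup G) xy with hSt
    have hcs : Nat.card St ∣ Nat.card S := by
      have hpg : IsPGroup p St := P.2.to_subgroup St
      obtain ⟨s, hs⟩ := IsPGroup.iff_card.mp hpg
      have hle : St.map (P : Subgroup G).subtype ≤ Subgroup.centralizer ({xy.1.1} : Set G) := by
        rintro _ ⟨u, hu, rfl⟩
        rw [Subgroup.mem_centralizer_singleton_iff]
        have := congrArg (fun w : X => w.1.1) (MulAction.mem_stabilizer_iff.mp hu)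
        simp only [hsm] at this
        exact (mul_inv_eq_iff_eq_mul.mp this)
      have h1 : Nat.card St ∣ Nat.card (Subgroup.centralizer ({g} : Set G)) := by
        rw [Cfsg.Agent.Lib.CharPerm.card_centralizer_conj g xy.1.1 xy.2.1,
          ← Subgroup.card_map_of_injective (P : Subgroup G).subtype_injective]
        exact Subgroup.card_dvd_of_le hle
      rw [Sylow.card_eq_multiplicity, hs]
      rw [hs] at h1
      apply pow_dvd_pow
      exact (hp.pow_dvd_iff_le_factorization Nat.card_pos.ne').mp h1
    obtain ⟨e, he⟩ := hcs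
    have hidx := St.card_mul_index
    have hpos : 0 < Nat.card St := Nat.card_pos
    have h2 : e ∣ St.index := by
      rw [he, ← hidx] at hSP
      exact Nat.dvd_of_mul_dvd_mul_left hpos hSP
    have h3 : Nat.card P / Nat.card S = St.index / e := by
      have : Nat.card P = Nat.card St * St.index := hidx.symm
      rw [this, he]
      exact Nat.mul_div_mul_left _ _ hpos
    rw [h3]
    exact Nat.div_dvd_of_dvd h2
  rw [Set.ncard_univ] at key
  exact key

end Cfsg.Agent.S0957
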