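import Cfsg.Statements.S0958
import Mathlib
import Cfsg.Agent.Lib.Helper2_BlockFMT


set_option autoImplicit false
open Cfsg

namespace Cfsg.Agent.S0958

/-- Let P be a p-subgroup of the finite group G and H a subgroup with P ⊔ C_G(P) ≤ H ≤ N_G(P); fix a maximal ideal M of the algebraic integers containing p. Then a block B of G is induced by some block of H if and only if some conjugate of P is contained in a defect group of B. -/
theorem result {G : Type*} [Group G] [Finite G] (p : ℕ) [Fact p.Prime] (M : Ideal Cfsg.AlgInt) (hM : Cfsg.IsPModular p M) (P H : Subgroup G) (hP : IsPGroup p P) (hPH : P ⊔ Subgroup.centralizer (P : Set G) ≤ H) (hHN : H ≤ Subgroup.normalizer (P : Set G)) (B : Set (Cfsg.IrrCharacter G)) (hB : Cfsg.IsPBlock M B) : (∃ b : Set (Cfsg.IrrCharacter H), Cfsg.IsInducedBlock M H b B) ↔ ∃ D : Subgroup G, Cfsg.IsDefectGroup p M B D ∧ ∃ x : G, P.map (MulAut.conj x).toMonoidHom ≤ D := by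
  classical
  haveI : Fintype G := Fintype.ofFinite G
  have hPr := Cfsg.Agent.Lib.Helper2_BlockLocal.isPrime_of_modular hM
  have hPH' : P ≤ H := le_sup_left.trans hPH
  have hCH : Subgroup.centralizer (P : Set G) ≤ H := le_sup_right.trans hPH
  constructor
  · rintro ⟨b, hind⟩
    obtain ⟨Δ, hΔ⟩ := Cfsg.Agent.Lib.Helper2_BlockFMT.exists_defectGroup (p := p) hPr hind.1
    have h1 : P.subgroupOf H ≤ Δ :=
      Cfsg.Agent.Lib.Helper2_BlockPCore.normal_pGroup_le_defect hM hind.1 hΔ _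
        ((Subgroup.normal_subgroupOf_iff_le_normalizer hPH').mpr hHN) hP.comap_subtype
    obtain ⟨E, hE, hΔE⟩ := Cfsg.Agent.Lib.Helper2_BlockDefect.defect_le_of_induced hM hind hΔ
    refine ⟨E, hE, 1, ?_⟩
    rw [Cfsg.Agent.Lib.Helper2_Basic.cj_one]
    intro u hu
    exact hΔE ⟨⟨u, hPH' hu⟩, h1 (by rw [Subgroup.mem_subgroupOf]; exact hu), rfl⟩
  · rintro ⟨D, hD, x, hx⟩
    have hD' := Cfsg.Agent.Lib.Helper2_BlockDefect.isDefectGroup_conj hD x⁻¹
    rw [Cfsg.Agent.Lib.Helper2_Basic.cj_le_iff] at hx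
    obtain ⟨g0, hg0, hle, -⟩ := Cfsg.Agent.Lib.Helper2_BlockFMT.isDefectGroup_iff.mp hD'
    have hg0C : g0 ∈ Subgroup.centralizer (P : Set G) := by
      rw [Subgroup.mem_centralizer_iff]
      intro a ha
      exact Subgroup.mem_centralizer_singleton_iff.mp (hle (hx ha))
    exact Cfsg.Agent.Lib.Helper2_BlockFMT.exists_induced_of_coeff hM hP hPH' hCH hHN hB hg0C
      hg0.2.1

end Cfsg.Agent.S0958
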