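import Cfsg.Statements.S0959
import Mathlib
import Cfsg.Agent.Lib.Helper2_BlockMinMax


set_option autoImplicit false
open Cfsg

namespace Cfsg.Agent.S0959

/-- Let B be a block of the finite group G with defect group D (relative to a maximal ideal M of the algebraic integers containing the prime p), and let P be a p-subgroup. Then there is an element g whose idempotent coefficient for B is a local integer outside the local ideal at M and which has a conjugate centralizing P, if and only if some conjugate of P is contained in D. -/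
theorem result {G : Type*} [Group G] [Finite G] (p : ℕ) [Fact p.Prime] (M : Ideal Cfsg.AlgInt) (hM : Cfsg.IsPModular p M) (B : Set (Cfsg.IrrCharacter G)) (hB : Cfsg.IsPBlock M B) (D : Subgroup G) (hD : Cfsg.IsDefectGroup p M B D) (P : Subgroup G) (hP : IsPGroup p P) : (∃ g : G, Cfsg.MemLocalRing M (Cfsg.blockCoeff B g) ∧ ¬ Cfsg.MemLocalIdeal M (Cfsg.blockCoeff B g) ∧ ∃ c : G, IsConj g c ∧ c ∈ Subgroup.centralizer (P : Set G)) ↔ ∃ x : G, P.map (MulAut.conj x).toMonoidHom ≤ D := by
  classical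
  haveI : Fintype G := Fintype.ofFinite G
  obtain ⟨g0, ⟨hg1, hg2, hg3⟩, D0, rfl⟩ := hD
  constructor
  · rintro ⟨g, h1, h2, c, hc, hcP⟩
    have e : Cfsg.blockCoeff B c = Cfsg.blockCoeff B g := by
      obtain ⟨y, hy⟩ := isConj_iff.mp hc
      rw [← hy]
      exact Cfsg.Agent.Lib.Helper2_BlockOsima.blockCoeff_classFunction B g y
    rw [← e] at h2
    obtain ⟨x, hx⟩ := Cfsg.Agent.Lib.Helper2_BlockMinMax.minmax_a hM hB g0 c hg3 h2 D0 P hP
      (by
        intro a ha
        rw [Subgroup.mem_centralizer_singleton_iff]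
        rw [Subgroup.mem_centralizer_iff] at hcP
        exact hcP a ha)
    refine ⟨x⁻¹, ?_⟩
    rw [Cfsg.Agent.Lib.Helper2_Basic.cj_le_iff, inv_inv]
    exact hx
  · rintro ⟨x, hx⟩
    refine ⟨g0, hg1, hg2, x⁻¹ * g0 * x, isConj_iff.mpr ⟨x⁻¹, by simp⟩, ?_⟩
    rw [Subgroup.mem_centralizer_iff]
    intro a ha
    have h1 : x * a * x⁻¹ ∈ Subgroup.centralizer ({g0} : Set G) := by
      obtain ⟨d, -, hd⟩ := hx (Cfsg.Agent.Lib.Helper2_Basic.cj_mem (g := x) ha)
      rw [← hd]; exact d.2
    rw [Subgroup.mem_centralizer_singleton_iff] at h1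
    have h2 : x⁻¹ * ((x * a * x⁻¹) * g0) * x = x⁻¹ * (g0 * (x * a * x⁻¹)) * x := by rw [h1]
    calc a * (x⁻¹ * g0 * x) = x⁻¹ * ((x * a * x⁻¹) * g0) * x := by group
      _ = x⁻¹ * (g0 * (x * a * x⁻¹)) * x := h2
      _ = x⁻¹ * g0 * x * a := by group

end Cfsg.Agent.S0959
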