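import Cfsg.Statements.S0962
import Cfsg.Agent.Lib.BlockCountDef

set_option autoImplicit false
open Cfsg

namespace Cfsg.Agent.S0962

/-- Fix a maximal ideal M of the algebraic integers containing the prime p and a natural number d. The number of blocks of the finite group G of defect at least d is at most the number of conjugacy classes of p-regular elements of G of defect at least d, where the defect of a class is the exponent of p in the order of the centralizer of any of its elements. -/
theorem result {G : Type*} [Group G] [Finite G] (p : ℕ) [Fact p.Prime] (M : Ideal Cfsg.AlgInt) (hM : Cfsg.IsPModular p M) (d : ℕ) : Nat.card {B : Set (Cfsg.IrrCharacter G) // Cfsg.IsPBlock M B ∧ d ≤ Cfsg.blockDefect p B} ≤ Nat.card {C : ConjClasses G // ∃ g : G, ConjClasses.mk g = C ∧ Cfsg.IsPRegular p g ∧ d ≤ (Nat.card (Subgroup.centralizer ({g} : Set G))).factorization p} := by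
  classical
  haveI : Fintype G := Fintype.ofFinite G
  have hPr := Cfsg.Agent.Lib.Helper2_BlockLocal.isPrime_of_modular hM
  apply Cfsg.Agent.Lib.BlockCountDef.card_blocks_le hM
    {B : Set (Cfsg.IrrCharacter G) | Cfsg.IsPBlock M B ∧ d ≤ Cfsg.blockDefect p B}
    (fun B hB => hB.1)
    {C : ConjClasses G | ∃ g : G, ConjClasses.mk g = C ∧ Cfsg.IsPRegular p g ∧
      d ≤ (Nat.card (Subgroup.centralizer ({g} : Set G))).factorization p}
  intro B hB B' hB' χ hχ C hC
  by_cases hr : p ∣ orderOf (Cfsg.Agent.Lib.CharPerm.rep C)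
  · rw [Cfsg.Agent.Lib.Helper2_BlockOrtho.blockCoeff_singular hM hB.1 hr, zero_mul]
    exact Cfsg.Agent.Lib.Helper2_BlockLocal.ideal_zero hPr
  · have hlt : ¬ d ≤ (Nat.card (Subgroup.centralizer
        ({Cfsg.Agent.Lib.CharPerm.rep C} : Set G))).factorization p := by
      intro h
      exact hC ⟨_, Cfsg.Agent.Lib.CharPerm.mk_rep C, hr, h⟩
    apply Cfsg.Agent.Lib.Helper2_BlockLocal.ideal_mul_left hPr
      (Cfsg.Agent.Lib.Helper2_BlockBasic.osima_block hPr hB.1 _)
    by_contra hcon
    have := Cfsg.Agent.Lib.BlockCountDef.defect_le_of_unit hM hB'.1 _ ⟨χ, hχ, hcon⟩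
    have h2 := hB'.2
    omega

end Cfsg.Agent.S0962
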