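import Cfsg.Statements.S0963
import Mathlib
import Cfsg.Agent.Lib.Helper2_BlockNormal


set_option autoImplicit false
open Cfsg

namespace Cfsg.Agent.S0963

open Cfsg Cfsg.Agent.Lib.Helper2_BlockLocal Cfsg.Agent.Lib.Helper2_BlockOm
  Cfsg.Agent.Lib.Helper2_BlockOsima Cfsg.Agent.Lib.Helper2_BlockBasic Cfsg.Agent.Lib.Helper2_BlockInd
  Cfsg.Agent.Lib.Helper2_BlockNormal
  Cfsg.Agent.Lib.CharBasic Cfsg.Agent.Lib.CharOrtho
  Cfsg.Agent.Lib.CharComplete Cfsg.Agent.Lib.CharIntegral Cfsg.Agent.Lib.CharMore
  Cfsg.Agent.Lib.CharPerm Cfsg.Agent.Lib.CharInd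

/-- Let N be a normal subgroup of the finite group G, χ an irreducible character of G and θ an irreducible character of N. Then θ occurs in the restriction of χ to N if and only if, for every n ∈ N, the central character of χ at n (class size in G times χ n over χ 1) equals the sum of θ m / θ 1 over the elements m of N conjugate in G to n. -/
theorem result {G : Type*} [Group G] [Fintype G] (N : Subgroup G) [N.Normal] [Fintype N] (χ : Cfsg.IrrCharacter G) (θ : Cfsg.IrrCharacter N) : Cfsg.classInner (fun n : N => (χ : G → ℂ) n) (θ : N → ℂ) ≠ 0 ↔ ∀ n : N, Cfsg.centralChar (χ : G → ℂ) (n : G) = Cfsg.inducedCentralChar N (θ : N → ℂ) (n : G) := by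
  have hN : N.Normal := inferInstance
  constructor
  · intro h n
    exact centralChar_eq_induced_of_over N hN χ.2 θ.2 h n
  · intro h
    obtain ⟨χ', hχ'⟩ := exists_over N θ
    have h1 : ∀ n : N, (χ : G → ℂ) n = ((χ : G → ℂ) 1 / (χ' : G → ℂ) 1) * (χ' : G → ℂ) n := by
      intro n
      have h2 := h n
      rw [← centralChar_eq_induced_of_over N hN χ'.2 θ.2 hχ' n] at h2
      unfold centralChar at h2
      have h3 : ((Subgroup.centralizer ({(n : G)} : Set G)).index : ℂ) ≠ 0 := by
        have : (Subgroup.centralizer ({(n : G)} : Set G)).index ≠ 0 :=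
          Subgroup.index_ne_zero_of_finite
        exact_mod_cast this
      have h4 := irr_degree_ne_zero χ.2
      have h5 := irr_degree_ne_zero χ'.2
      field_simp at h2 ⊢
      linear_combination h2
    have h6 : (fun n : N => (χ : G → ℂ) n) =
        ((χ : G → ℂ) 1 / (χ' : G → ℂ) 1) • (fun n : N => (χ' : G → ℂ) n) := by
      ext n
      rw [Pi.smul_apply, smul_eq_mul, h1 n]
    rw [h6, classInner_smul_left]
    exact mul_ne_zero (div_ne_zero (irr_degree_ne_zero χ.2) (irr_degree_ne_zero χ'.2)) hχ'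

end Cfsg.Agent.S0963
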