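import Cfsg.Statements.S0965
import Mathlib
import Cfsg.Agent.Lib.Helper2_BlockCover3
import Cfsg.Agent.Lib.Helper4_Core


set_option autoImplicit false
open Cfsg

namespace Cfsg.Agent.S0965

open Cfsg Cfsg.Agent.Lib.Helper2_BlockLocal Cfsg.Agent.Lib.Helper2_BlockOm
  Cfsg.Agent.Lib.Helper2_BlockOsima Cfsg.Agent.Lib.Helper2_BlockBasic Cfsg.Agent.Lib.Helper2_BlockOrtho
  Cfsg.Agent.Lib.Helper2_BlockNormal Cfsg.Agent.Lib.Helper2_BlockCover Cfsg.Agent.Lib.Helper2_BlockInd
  Cfsg.Agent.Lib.Helper2_BlockCover2 Cfsg.Agent.Lib.Helper2_BlockCover3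
  Cfsg.Agent.Lib.CharBasic Cfsg.Agent.Lib.CharOrtho
  Cfsg.Agent.Lib.CharComplete Cfsg.Agent.Lib.CharIntegral Cfsg.Agent.Lib.CharMore
  Cfsg.Agent.Lib.CharPerm Cfsg.Agent.Lib.CharInd
open scoped ComplexConjugate

/-- Let N be a normal subgroup of the finite group G and let B, b be blocks of G and of N relative to a maximal ideal M of the algebraic integers containing the prime p. Then some χ ∈ B has a constituent in b on restriction to N if and only if, for all χ ∈ B, θ ∈ b and n ∈ N, the central character of χ at n is congruent modulo the local ideal at M to the sum of θ m / θ 1 over the elements m ∈ N conjugate in G to n. -/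
theorem result {G : Type*} [Group G] [Fintype G] (p : ℕ) [Fact p.Prime] (M : Ideal Cfsg.AlgInt) (hM : Cfsg.IsPModular p M) (N : Subgroup G) [N.Normal] [Fintype N] (B : Set (Cfsg.IrrCharacter G)) (hB : Cfsg.IsPBlock M B) (b : Set (Cfsg.IrrCharacter N)) (hb : Cfsg.IsPBlock M b) : (∃ χ ∈ B, ∃ θ ∈ b, Cfsg.classInner (fun n : N => (χ : G → ℂ) n) (θ : N → ℂ) ≠ 0) ↔ ∀ χ ∈ B, ∀ θ ∈ b, ∀ n : N, Cfsg.MemLocalIdeal M (Cfsg.centralChar (χ : G → ℂ) (n : G) - Cfsg.inducedCentralChar N (θ : N → ℂ) (n : G)) := by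
  classical
  have hP := isPrime_of_modular hM
  have hN : N.Normal := inferInstance
  constructor
  · rintro ⟨χ₀, hχ₀, θ₀, hθ₀, hov⟩ χ hχ θ hθ n
    have h1 := sameBlock_of_mem hP hB hχ hχ₀ (n : G)
    have h2 := inducedCentralChar_congr hP N (irr_classFunction θ₀) (irr_classFunction θ)
      (sameBlock_of_mem hP hb hθ₀ hθ) (n : G)
    rw [← centralChar_eq_induced_of_over N hN χ₀.2 θ₀.2 hov n] at h2
    exact ideal_sub_trans hP h1 h2
  · intro h
    obtain ⟨χ, hχ⟩ := block_nonempty hP hB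
    obtain ⟨θ, hθ⟩ := block_nonempty hP hb
    obtain ⟨χ₁, hχ₁⟩ := exists_over N θ
    obtain ⟨θ₂, hθ₂⟩ := exists_under N χ
    have hst := conjUnion_stable N hN b
    have hcf := extCoeff_classFunction N hN hst
    have h1 : MemLocalIdeal M (Om (extCoeff N (conjUnion N hN b)) (χ : G → ℂ) -
        Om (extCoeff N (conjUnion N hN b)) (χ₁ : G → ℂ)) := by
      rw [Om_eq_sum_classes hcf (irr_classFunction χ), Om_eq_sum_classes hcf (irr_classFunction χ₁),
        ← Finset.sum_sub_distrib]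
      refine ideal_sum hP _ _ fun C _ => ?_
      rw [← mul_sub]
      by_cases hC : rep C ∈ N
      · refine ideal_mul_left hP ?_ ?_
        · unfold extCoeff
          rw [extendByZero_mem N _ hC]
          exact conjUnion_ring N hN hP hb _
        · have := h χ hχ θ hθ ⟨rep C, hC⟩
          rwa [← centralChar_eq_induced_of_over N hN χ₁.2 θ.2 hχ₁ ⟨rep C, hC⟩] at this
      · unfold extCoeff
        rw [extendByZero_not_mem N _ hC, zero_mul]
        exact ideal_zero hP
    rw [Om_extCoeff N hN hst χ θ₂ hθ₂, Om_extCoeff N hN hst χ₁ θ hχ₁,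
      if_pos (subset_conjUnion N hN b hθ)] at h1
    have h2 : θ₂ ∈ conjUnion N hN b := by
      by_contra hcon
      rw [if_neg hcon, zero_sub] at h1
      have := ideal_neg h1
      rw [neg_neg] at this
      exact not_ideal_one hP this
    obtain ⟨g, θ', hθ', rfl⟩ := h2
    exact ⟨χ, hχ, θ', hθ', over_of_over_conj N hN χ θ' g hθ₂⟩

end Cfsg.Agent.S0965
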