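import Cfsg.Statements.S0966
import Mathlib
import Cfsg.Agent.Lib.Helper2_BlockCover


set_option autoImplicit false
open Cfsg

namespace Cfsg.Agent.S0966

open Cfsg Cfsg.Agent.Lib.Helper2_BlockLocal Cfsg.Agent.Lib.Helper2_BlockOm
  Cfsg.Agent.Lib.Helper2_BlockOsima Cfsg.Agent.Lib.Helper2_BlockBasic Cfsg.Agent.Lib.Helper2_BlockOrtho
  Cfsg.Agent.Lib.Helper2_BlockNormal Cfsg.Agent.Lib.Helper2_BlockCover
  Cfsg.Agent.Lib.CharBasic Cfsg.Agent.Lib.CharOrtho
  Cfsg.Agent.Lib.CharComplete Cfsg.Agent.Lib.CharIntegral Cfsg.Agent.Lib.CharMore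
  Cfsg.Agent.Lib.CharPerm
open scoped ComplexConjugate

/-- Let N be a normal subgroup of p-power index in the finite group G and b a block of N relative to a maximal ideal M of the algebraic integers containing p. Then there is exactly one block B of G containing a character whose restriction to N has a constituent in b. -/
theorem result {G : Type*} [Group G] [Fintype G] (p : ℕ) [Fact p.Prime] (M : Ideal Cfsg.AlgInt) (hM : Cfsg.IsPModular p M) (N : Subgroup G) [N.Normal] [Fintype N] (hidx : ∃ k : ℕ, N.index = p ^ k) (b : Set (Cfsg.IrrCharacter N)) (hb : Cfsg.IsPBlock M b) : ∃! B : Set (Cfsg.IrrCharacter G), Cfsg.IsPBlock M B ∧ ∃ χ ∈ B, ∃ θ ∈ b, Cfsg.classInner (fun n : N => (χ : G → ℂ) n) (θ : N → ℂ) ≠ 0 := by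
  have hP := isPrime_of_modular hM
  have hN : N.Normal := inferInstance
  obtain ⟨k, hk⟩ := hidx
  have hreg : ∀ g : G, ¬ p ∣ orderOf g → g ∈ N := fun g hg => regular_mem_of_index hM.1 N hk hg
  obtain ⟨θ, hθ⟩ := block_nonempty hP hb
  obtain ⟨χ, hχ⟩ := exists_over N θ
  refine ⟨blockOf M (χ : G → ℂ), ⟨⟨χ, rfl⟩, χ, self_mem_blockOf hP χ, θ, hθ, hχ⟩, ?_⟩
  rintro B' ⟨hB', χ', hχ', θ', hθ', hov⟩
  rw [block_eq_blockOf hP hB' hχ']
  exact blockOf_eq_of_sameBlock hP
    (sameBlock_of_over hM N hN hreg χ' χ θ' θ hov hχ (sameBlock_of_mem hP hb hθ' hθ))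

end Cfsg.Agent.S0966
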