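import Cfsg.Statements.S0967
import Mathlib
import Cfsg.Agent.Lib.Helper2_BlockQuot


set_option autoImplicit false
open Cfsg

namespace Cfsg.Agent.S0967

open Cfsg Cfsg.Agent.Lib.Helper2_BlockLocal Cfsg.Agent.Lib.Helper2_BlockOm
  Cfsg.Agent.Lib.Helper2_BlockOsima Cfsg.Agent.Lib.Helper2_BlockBasic Cfsg.Agent.Lib.Helper2_BlockOrtho
  Cfsg.Agent.Lib.Helper2_BlockNormal Cfsg.Agent.Lib.Helper2_BlockCover Cfsg.Agent.Lib.Helper2_BlockInd
  Cfsg.Agent.Lib.Helper2_BlockCover2 Cfsg.Agent.Lib.Helper2_BlockCover3 Cfsg.Agent.Lib.Helper2_BlockQuot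
  Cfsg.Agent.Lib.CharBasic Cfsg.Agent.Lib.CharOrtho
  Cfsg.Agent.Lib.CharComplete Cfsg.Agent.Lib.CharIntegral Cfsg.Agent.Lib.CharMore
  Cfsg.Agent.Lib.CharPerm Cfsg.Agent.Lib.CharInd Cfsg.Agent.Lib.CharQuot
open scoped ComplexConjugate

/-- Let N be a normal subgroup of the finite group G of order prime to p and fix a maximal ideal M of the algebraic integers containing p. If χ is an irreducible character of G ⧸ N and ψ lies in the block of its inflation χ ∘ (quotient map), then ψ is itself inflated from an irreducible character ψ' of G ⧸ N lying in the block of χ. (Over a normal p'-subgroup, blocks of the quotient are whole blocks of G.) -/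
theorem result {G : Type*} [Group G] [Finite G] (p : ℕ) [Fact p.Prime] (M : Ideal Cfsg.AlgInt) (hM : Cfsg.IsPModular p M) (N : Subgroup G) [N.Normal] (hN : ¬ p ∣ Nat.card N) (χ : Cfsg.IrrCharacter (G ⧸ N)) (ψ : Cfsg.IrrCharacter G) (hψ : ψ ∈ Cfsg.blockOf M ((χ : G ⧸ N → ℂ) ∘ QuotientGroup.mk)) : ∃ ψ' : Cfsg.IrrCharacter (G ⧸ N), (ψ : G → ℂ) = (ψ' : G ⧸ N → ℂ) ∘ QuotientGroup.mk ∧ Cfsg.SameBlock M (χ : G ⧸ N → ℂ) (ψ' : G ⧸ N → ℂ) := by
  have hNn : N.Normal := inferInstance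
  let χh : IrrCharacter G := ⟨fun g : G => (χ : G ⧸ N → ℂ) (QuotientGroup.mk g), isIrr_inflate N χ.2⟩
  have hs : SameBlock M (χh : G → ℂ) (ψ : G → ℂ) := hψ
  have hker : ∀ n ∈ N, (χh : G → ℂ) n = (χh : G → ℂ) 1 := by
    intro n hn
    change (χ : G ⧸ N → ℂ) (QuotientGroup.mk n) = (χ : G ⧸ N → ℂ) (QuotientGroup.mk 1)
    rw [(QuotientGroup.eq_one_iff n).mpr hn]
    rfl
  have hker2 := ker_of_sameBlock_pprime hM N hNn hN hs hker
  obtain ⟨ψ', hψ', e⟩ := exists_deflate_irr N ψ.2 hker2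
  refine ⟨⟨ψ', hψ'⟩, e, ?_⟩
  apply sameBlock_deflate hM N hN (irr_classFunction χ)
    (isClassFunction_of_isCharacter (isCharacter_of_isIrr hψ'))
  rw [← e]
  exact hs

end Cfsg.Agent.S0967
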