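import Cfsg.Statements.S0968
import Cfsg.Agent.Lib.BlockPC2

set_option autoImplicit false
open Cfsg

namespace Cfsg.Agent.S0968

/-- Let P be a p-subgroup of the finite group G with P ⊔ C_G(P) = G, and let B be a block with defect group P relative to a maximal ideal M of the algebraic integers containing p. Then there is exactly one θ ∈ B with θ x = θ 1 for all x ∈ P; for this θ the exponent of p in θ(1) equals the exponent of p in the index of P; and the number of members of B equals the number of conjugacy classes of P. -/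
theorem result {G : Type*} [Group G] [Finite G] (p : ℕ) [Fact p.Prime] (M : Ideal Cfsg.AlgInt) (hM : Cfsg.IsPModular p M) (P : Subgroup G) (hP : IsPGroup p P) (hG : P ⊔ Subgroup.centralizer (P : Set G) = ⊤) (B : Set (Cfsg.IrrCharacter G)) (hB : Cfsg.IsPBlock M B) (hD : Cfsg.IsDefectGroup p M B P) : (∃! θ : Cfsg.IrrCharacter G, θ ∈ B ∧ ∀ x ∈ P, (θ : G → ℂ) x = (θ : G → ℂ) 1) ∧ (∀ θ ∈ B, (∀ x ∈ P, (θ : G → ℂ) x = (θ : G → ℂ) 1) → (Cfsg.charDegree (θ : G → ℂ)).factorization p = P.index.factorization p) ∧ Nat.card B = Nat.card (ConjClasses P) := by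
  classical
  haveI : Fintype G := Fintype.ofFinite G
  obtain ⟨θ, h⟩ := Cfsg.Agent.Lib.BlockPC2.exists_ctx hM hP hG hB hD
  haveI := Cfsg.Agent.Lib.BlockPC2.normal_of_sup P hG
  refine ⟨⟨θ, ⟨h.hθ, h.hker⟩, ?_⟩, ?_, ?_⟩
  · rintro θ' ⟨h1, h2⟩
    exact Cfsg.Agent.Lib.BlockPC2.ker_unique P hM hP
      (Cfsg.Agent.Lib.BlockPC2.regular_mem P hM.1 hP hG) hB hD θ θ' h.hθ h1 h.hker h2
  · intro θ' h1 h2
    exact Cfsg.Agent.Lib.BlockPC2.degree_val_of_ker P hM hD θ' h1 h2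
  · obtain ⟨f, f1, f2, f3, -⟩ := Cfsg.Agent.Lib.BlockPC2.main h
    rw [← Cfsg.Agent.Lib.CharComplete.card_irr_eq_card_conjClasses]
    symm
    apply Nat.card_congr
    refine Equiv.ofBijective (fun ζ => (⟨f ζ, f1 ζ⟩ : B)) ⟨?_, ?_⟩
    · intro ζ ζ' e
      exact f2 (congrArg Subtype.val e)
    · rintro ⟨χ, hχ⟩
      obtain ⟨ζ, hζ⟩ := f3 χ hχ
      exact ⟨ζ, Subtype.ext hζ⟩

end Cfsg.Agent.S0968
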