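import Cfsg.Statements.S0985
import Mathlib
import Cfsg.Agent.Lib.helper6_Derange


set_option autoImplicit false
open Cfsg

namespace Cfsg.Agent.S0985

/-- If the number of Sylow p-subgroups of a finite group is not congruent to 1 modulo p^k, then there are two distinct Sylow p-subgroups P and R such that the index of P ∩ R in P is at most p^(k-1). -/
theorem result {G : Type*} [Group G] [Finite G] (p k : ℕ) [Fact p.Prime] (h : ¬ Nat.card (Sylow p G) ≡ 1 [MOD p ^ k]) : ∃ P R : Sylow p G, P ≠ R ∧ ((R : Subgroup G).subgroupOf (P : Subgroup G)).index ≤ p ^ (k - 1) := by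
  classical
  by_contra hcon
  push Not at hcon
  have hk : k ≠ 0 := by
    rintro rfl
    apply h
    rw [pow_zero]
    exact Nat.modEq_one
  obtain ⟨P⟩ : Nonempty (Sylow p G) := inferInstance
  set Y : Set (Sylow p G) := {P}ᶜ with hY
  have hdvd : p ^ k ∣ Y.ncard := by
    apply Cfsg.Agent.Lib.helper6_Derange.dvd_ncard_of_orbits (K := (P : Subgroup G)) (p ^ k) Y.ncard Y
      (Set.toFinite _) rfl
    · intro x R hR hxR
      apply hR
      have hxR' : x • R = P := hxR
      have h2 : x • P = P := by
        change (x : G) • P = P
        rw [Sylow.smul_eq_iff_mem_normalizer]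
        exact Subgroup.le_normalizer x.2
      have h3 : x • R = x • P := hxR'.trans h2.symm
      exact smul_left_cancel x h3
    · intro R hR
      have hRP : P ≠ R := fun e => hR e.symm
      rw [← MulAction.index_stabilizer]
      have hstab : MulAction.stabilizer (P : Subgroup G) R = (R : Subgroup G).subgroupOf (P : Subgroup G) := by
        ext x
        rw [MulAction.mem_stabilizer_iff, Subgroup.mem_subgroupOf]
        change (x : G) • R = R ↔ _
        rw [Sylow.smul_eq_iff_mem_normalizer]
        have := IsPGroup.inf_normalizer_sylow P.2 R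
        constructor
        · intro hx
          have h1 : (x : G) ∈ (P : Subgroup G) ⊓ (R : Subgroup G) := by
            rw [← this]
            exact ⟨x.2, hx⟩
          exact h1.2
        · intro hx
          exact Subgroup.le_normalizer hx
      rw [hstab]
      obtain ⟨j, hj⟩ := IsPGroup.index P.2 ((R : Subgroup G).subgroupOf (P : Subgroup G))
      have hlt := hcon P R hRP
      rw [hj] at hlt ⊢
      have hp := (Fact.out : p.Prime)
      have : k - 1 < j := (Nat.pow_lt_pow_iff_right hp.one_lt).mp hlt
      exact pow_dvd_pow p (by omega)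
  apply h
  have hcard : Nat.card (Sylow p G) = Y.ncard + 1 := by
    have := Set.ncard_add_ncard_compl ({P} : Set (Sylow p G))
    rw [Set.ncard_singleton] at this
    rw [hY]
    omega
  rw [hcard]
  obtain ⟨c, hc⟩ := hdvd
  rw [hc]
  unfold Nat.ModEq
  simp [Nat.add_mod]

end Cfsg.Agent.S0985
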