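import Cfsg.Statements.S0987
import Mathlib

set_option autoImplicit false
open Cfsg

namespace Cfsg.Agent.S0987

theorem sylow_card {G : Type*} [Group G] [Finite G] {s m : ℕ} [hs : Fact s.Prime]
    (h : Nat.card G = s * m) (hm : ¬ s ∣ m) (S : Sylow s G) : Nat.card S = s := by
  obtain ⟨k, hk⟩ := IsPGroup.iff_card.1 S.2
  have e := (S : Subgroup G).card_mul_index
  have hnd := S.not_dvd_index
  rw [hk, h] at e
  rw [hk]
  rcases k with _ | _ | k
  · exfalso
    apply hnd
    exact ⟨m, by simpa using e⟩
  · simp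
  · exfalso
    apply hm
    have h1 : s * (s ^ (k + 1) * (S : Subgroup G).index) = s * m := by rw [← e]; ring
    have h2 := Nat.eq_of_mul_eq_mul_left hs.1.pos h1
    exact ⟨s ^ k * (S : Subgroup G).index, by rw [← h2]; ring⟩

/-- If a finite group has order pqr for primes p < q < r, then its Sylow r-subgroups are normal. -/
theorem result {G : Type*} [Group G] [Finite G] (p q r : ℕ) (hp : p.Prime) (hq : q.Prime) [Fact r.Prime] (hpq : p < q) (hqr : q < r) (hG : Nat.card G = p * q * r) (R : Sylow r G) : (R : Subgroup G).Normal := by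
  haveI : Fact p.Prime := ⟨hp⟩
  have hr : r.Prime := Fact.out
  have hne_pq : ¬ p ∣ q := fun h => by
    have := (Nat.prime_dvd_prime_iff_eq hp hq).1 h; omega
  have hne_pr : ¬ p ∣ r := fun h => by
    have := (Nat.prime_dvd_prime_iff_eq hp hr).1 h; omega
  have hne_rp : ¬ r ∣ p := fun h => by
    have := (Nat.prime_dvd_prime_iff_eq hr hp).1 h; omega
  have hne_rq : ¬ r ∣ q := fun h => by
    have := (Nat.prime_dvd_prime_iff_eq hr hq).1 h; omega
  let P : Sylow p G := default
  have hPc : Nat.card P = p := sylow_card (m := q * r) (by rw [hG]; ring)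
    (fun h => (hp.dvd_mul.1 h).elim hne_pq hne_pr) P
  have hRc : Nat.card R = r := sylow_card (m := p * q) (by rw [hG]; ring)
    (fun h => (hr.dvd_mul.1 h).elim hne_rp hne_rq) R
  have hmin : (Nat.card G).minFac = p := by
    have h1 : (Nat.card G).minFac ≤ p :=
      Nat.minFac_le_of_dvd hp.two_le (by rw [hG]; exact Dvd.intro _ (mul_assoc p q r).symm)
    have hn1 : Nat.card G ≠ 1 := by
      rw [hG]
      have := hp.two_le; have := hq.two_le; have := hr.two_le
      intro h
      have h3 : 2 * 2 * 2 ≤ p * q * r := Nat.mul_le_mul (Nat.mul_le_mul ‹_› ‹_›) ‹_›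
      omega
    have h2 := Nat.minFac_prime hn1
    have h3 : (Nat.card G).minFac ∣ p * q * r := (Nat.minFac_dvd _).trans (dvd_of_eq hG)
    rcases (h2.dvd_mul.1 h3) with h4 | h4
    · rcases (h2.dvd_mul.1 h4) with h5 | h5
      · exact (Nat.prime_dvd_prime_iff_eq h2 hp).1 h5
      · have := (Nat.prime_dvd_prime_iff_eq h2 hq).1 h5
        omega
    · have := (Nat.prime_dvd_prime_iff_eq h2 hr).1 h4
      omega
  have hPcyc : IsCyclic ↥(P : Subgroup G) := isCyclic_of_prime_card hPc
  have hcompl := IsCyclic.isComplement' hmin hPcyc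
  haveI hMn : (MonoidHom.transferSylow P (hPcyc.normalizer_le_centralizer hmin)).ker.Normal :=
    MonoidHom.normal_ker _
  generalize (MonoidHom.transferSylow P (hPcyc.normalizer_le_centralizer hmin)).ker = M
    at hcompl hMn
  have hMc : Nat.card M = r * q := by
    have h1 := hcompl.card_mul
    rw [hPc, hG] at h1
    have h2 : p * Nat.card M = p * (r * q) := by rw [mul_comm p, h1]; ring
    exact Nat.eq_of_mul_eq_mul_left hp.pos h2
  let R₀ : Sylow r ↥M := default
  have hR₀c : Nat.card R₀ = r := sylow_card hMc hne_rq R₀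
  have hidx : (R₀ : Subgroup ↥M).index = q := by
    have h1 := (R₀ : Subgroup ↥M).card_mul_index
    rw [hR₀c, hMc] at h1
    exact Nat.eq_of_mul_eq_mul_left hr.pos h1
  have hn1 : Nat.card (Sylow r ↥M) = 1 := by
    have h1 := R₀.card_dvd_index
    rw [hidx] at h1
    rcases (Nat.dvd_prime hq).1 h1 with h2 | h2
    · exact h2
    · exfalso
      have h3 := card_sylow_modEq_one r ↥M
      rw [h2] at h3
      have h4 : q % r = 1 % r := h3
      rw [Nat.mod_eq_of_lt hqr, Nat.mod_eq_of_lt hr.one_lt] at h4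
      have := hq.two_le
      omega
  haveI : Subsingleton (Sylow r ↥M) := (Nat.card_eq_one_iff_unique.1 hn1).1
  haveI hchar : (R₀ : Subgroup ↥M).Characteristic := Sylow.characteristic_of_subsingleton R₀
  haveI hnorm : ((R₀ : Subgroup ↥M).map M.subtype).Normal :=
    ConjAct.normal_of_characteristic_of_normal
  have hp1 : IsPGroup r ↥((R₀ : Subgroup ↥M).map M.subtype) := R₀.2.map _
  have hle := hp1.le_sylow_of_normal R
  have hc1 : Nat.card ↥((R₀ : Subgroup ↥M).map M.subtype) = r := by
    rw [Subgroup.card_map_of_injective M.subtype_injective]; exact hR₀c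
  have heq : (R₀ : Subgroup ↥M).map M.subtype = (R : Subgroup G) :=
    Subgroup.eq_of_le_of_card_ge hle (by rw [hc1, hRc])
  rw [← heq]
  exact hnorm

end Cfsg.Agent.S0987
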