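import Cfsg.Statements.S0990

set_option autoImplicit false

open Cfsg

namespace Cfsg.Agent.S0990

theorem result {α : Type*} [Fintype α] [DecidableEq α] (hα : 2 ≤ Fintype.card α) (p : ℕ) [Fact p.Prime] (hp : p ≠ 2) (P : Sylow p (Equiv.Perm α)) : (P : Subgroup (Equiv.Perm α)) ≤ alternatingGroup α ∧ 2 * Nat.card ↥(Subgroup.normalizer ((((P : Subgroup (Equiv.Perm α)).subgroupOf (alternatingGroup α) : Subgroup ↥(alternatingGroup α)) : Set ↥(alternatingGroup α)))) = Nat.card ↥(Subgroup.normalizer ((P : Subgroup (Equiv.Perm α)) : Set (Equiv.Perm α))) := by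
  have podd : Odd p := (Fact.out : p.Prime).odd_of_ne_two hp
  have hle : (P : Subgroup (Equiv.Perm α)) ≤ alternatingGroup α := by
    intro g hg
    rw [Equiv.Perm.mem_alternatingGroup]
    obtain ⟨k, hk⟩ := P.isPGroup' ⟨g, hg⟩
    have hgk : g ^ (p ^ k) = 1 := by
      have := congrArg Subtype.val hk
      simpa using this
    have hs : (Equiv.Perm.sign g) ^ (p ^ k) = 1 := by rw [← map_pow, hgk, map_one]
    rcases Int.units_eq_one_or (Equiv.Perm.sign g) with h | h
    · exact h
    · rw [h, Odd.neg_one_pow (Odd.pow podd)] at hs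
      exact absurd hs (by decide)
  refine ⟨hle, ?_⟩
  have hnt : Nontrivial α := Fintype.one_lt_card_iff_nontrivial.1 (by omega)
  have hsup : Subgroup.normalizer ((P : Subgroup (Equiv.Perm α)) : Set (Equiv.Perm α))
      ⊔ alternatingGroup α = ⊤ := Sylow.normalizer_sup_eq_top' P hle
  have hrel : (alternatingGroup α).relIndex
      (Subgroup.normalizer ((P : Subgroup (Equiv.Perm α)) : Set (Equiv.Perm α))) = 2 := by
    rw [← Subgroup.relIndex_sup_right, hsup, Subgroup.relIndex_top_right,
      alternatingGroup.index_eq_two]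
  have h1 : 2 * Nat.card ((alternatingGroup α).subgroupOf
      (Subgroup.normalizer ((P : Subgroup (Equiv.Perm α)) : Set (Equiv.Perm α))))
      = Nat.card (Subgroup.normalizer ((P : Subgroup (Equiv.Perm α)) : Set (Equiv.Perm α))) := by
    rw [← hrel]
    exact ((alternatingGroup α).subgroupOf _).index_mul_card
  have key : ∀ a : alternatingGroup α,
      a ∈ Subgroup.normalizer ((((P : Subgroup (Equiv.Perm α)).subgroupOf (alternatingGroup α) :
        Subgroup ↥(alternatingGroup α)) : Set ↥(alternatingGroup α))) ↔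
      (a : Equiv.Perm α) ∈
        Subgroup.normalizer ((P : Subgroup (Equiv.Perm α)) : Set (Equiv.Perm α)) := by
    intro a
    rw [Subgroup.mem_normalizer_iff, Subgroup.mem_normalizer_iff]
    constructor
    · intro h g
      constructor
      · intro hg
        exact (h ⟨g, hle hg⟩).1 hg
      · intro hg
        have hgA : g ∈ alternatingGroup α := by
          have h2 : (a : Equiv.Perm α) * g * (a : Equiv.Perm α)⁻¹ ∈ alternatingGroup α := hle hg
          have := (alternatingGroup α).mul_mem
            ((alternatingGroup α).mul_mem ((alternatingGroup α).inv_mem a.2) h2) a.2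
          simpa [mul_assoc] using this
        exact (h ⟨g, hgA⟩).2 hg
    · intro h g
      exact h g.1
  rw [← h1]
  congr 1
  apply Nat.card_congr
  exact
    { toFun := fun x => ⟨⟨x.1.1, (key x.1).1 x.2⟩, x.1.2⟩
      invFun := fun y => ⟨⟨y.1.1, y.2⟩, (key ⟨y.1.1, y.2⟩).2 y.1.2⟩
      left_inv := fun _ => rfl
      right_inv := fun _ => rfl }

end Cfsg.Agent.S0990
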