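import Cfsg.Statements.S0991
import Mathlib


set_option autoImplicit false
open Cfsg

namespace Cfsg.Agent.S0991

/-- Embedding Theorem: if a non-abelian finite simple group has a proper subgroup of index n, then it is isomorphic to a subgroup of the alternating group of degree n. -/
theorem result {G : Type*} [Group G] [Finite G] [IsSimpleGroup G] (hG : ¬ IsMulCommutative G) (H : Subgroup G) (hH : H ≠ ⊤) : ∃ f : G →* ↥(alternatingGroup (Fin H.index)), Function.Injective f := by
  classical
  haveI : Fintype (G ⧸ H) := Fintype.ofFinite _
  have e : (G ⧸ H) ≃ Fin H.index := Finite.equivFinOfCardEq rfl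
  let f0 : G →* Equiv.Perm (G ⧸ H) := MulAction.toPermHom G (G ⧸ H)
  have hker : f0.ker = ⊥ := by
    rcases IsSimpleGroup.eq_bot_or_eq_top_of_normal f0.ker inferInstance with h | h
    · exact h
    · exfalso
      apply hH
      rw [eq_top_iff, ← h, ← Subgroup.normalCore_eq_ker]
      exact Subgroup.normalCore_le H
  let f1 : G →* Equiv.Perm (Fin H.index) := (e.permCongrHom.toMonoidHom).comp f0
  have hinj : Function.Injective f1 := by
    have h0 : Function.Injective f0 := (MonoidHom.ker_eq_bot_iff f0).mp hker
    exact e.permCongrHom.injective.comp h0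
  have hsign : ∀ g, f1 g ∈ alternatingGroup (Fin H.index) := by
    let s : G →* ℤˣ := Equiv.Perm.sign.comp f1
    rcases IsSimpleGroup.eq_bot_or_eq_top_of_normal s.ker inferInstance with h | h
    · exfalso
      apply hG
      have hs : Function.Injective s := (MonoidHom.ker_eq_bot_iff s).mp h
      constructor
      constructor
      intro a b
      apply hs
      rw [map_mul, map_mul, mul_comm]
    · intro g
      rw [Equiv.Perm.mem_alternatingGroup]
      have : g ∈ s.ker := by rw [h]; exact Subgroup.mem_top g
      exact this
  refine ⟨f1.codRestrict (alternatingGroup (Fin H.index)) hsign, ?_⟩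
  intro a b hab
  apply hinj
  exact congrArg Subtype.val hab

end Cfsg.Agent.S0991
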