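import Cfsg.Statements.S0992
import Mathlib

set_option autoImplicit false
open Cfsg

namespace Cfsg.Agent.S0992



/-- Let G be a non-abelian finite simple group of even order not divisible by 8, and T a Sylow 2-subgroup. Then T is a Klein four-group and the centralizer of T has index 3 in the normalizer of T. -/
theorem result {G : Type*} [Group G] [Finite G] [IsSimpleGroup G] (hG : ¬ IsMulCommutative G) (h2 : Even (Nat.card G)) (h8 : ¬ 8 ∣ Nat.card G) (T : Sylow 2 G) : IsKleinFour ↥(T : Subgroup G) ∧ (Subgroup.centralizer ((T : Subgroup G) : Set G)).relIndex (Subgroup.normalizer ((T : Subgroup G) : Set G)) = 3 := by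
  haveI : Fact (Nat.Prime 2) := ⟨Nat.prime_two⟩
  have h2d : 2 ∣ Nat.card G := even_iff_two_dvd.1 h2
  have hT2 : 2 ∣ Nat.card ↥(T : Subgroup G) := T.dvd_card_of_dvd_card h2d
  have noCompl : ∀ K : Subgroup G, K.Normal → K.IsComplement' (T : Subgroup G) → False := by
    intro K hK hc
    have hcard := hc.card_mul
    rcases hK.eq_bot_or_eq_top with h | h
    · rw [h, Subgroup.card_bot, one_mul] at hcard
      have hTtop : (T : Subgroup G) = ⊤ := Subgroup.eq_top_of_card_eq _ hcard
      have hGp : IsPGroup 2 G := by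
        have h1 := T.2
        rw [hTtop] at h1
        exact h1.of_equiv Subgroup.topEquiv
      haveI := hGp.center_nontrivial
      rcases (inferInstance : (Subgroup.center G).Normal).eq_bot_or_eq_top with h3 | h3
      · exact (Subgroup.nontrivial_iff_ne_bot _).1 inferInstance h3
      · apply hG
        refine ⟨⟨fun a b => ?_⟩⟩
        have hb : b ∈ Subgroup.center G := by rw [h3]; trivial
        exact Subgroup.mem_center_iff.1 hb a
    · rw [h, Subgroup.card_top] at hcard
      have hpos : 0 < Nat.card G := Nat.card_pos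
      have h1 : Nat.card ↥(T : Subgroup G) = 1 := by
        have h3 : Nat.card G * Nat.card ↥(T : Subgroup G) = Nat.card G * 1 := by rw [hcard, mul_one]
        exact Nat.eq_of_mul_eq_mul_left hpos h3
      rw [h1] at hT2
      omega
  have hncyc : ¬ IsCyclic ↥(T : Subgroup G) := by
    intro hcyc
    have hmin : (Nat.card G).minFac = 2 := (Nat.minFac_eq_two_iff _).2 h2d
    exact noCompl _ (MonoidHom.normal_ker _) (IsCyclic.isComplement' hmin hcyc)
  obtain ⟨k, hk⟩ := IsPGroup.iff_card.1 T.2
  have hT4 : Nat.card ↥(T : Subgroup G) = 4 := by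
    rcases k with _ | _ | _ | k
    · rw [hk] at hT2; norm_num at hT2
    · exfalso
      exact hncyc (isCyclic_of_prime_card (p := 2) (by rw [hk]; norm_num))
    · rw [hk]; norm_num
    · exfalso
      apply h8
      have h1 : 8 ∣ Nat.card ↥(T : Subgroup G) := by
        rw [hk]; exact ⟨2 ^ k, by ring⟩
      exact h1.trans (Subgroup.card_subgroup_dvd_card _)
  have hsq : ∀ t : ↥(T : Subgroup G), t ^ 2 = 1 := by
    intro t
    have h1 : orderOf t ∣ 2 ^ 2 := by
      have := orderOf_dvd_natCard t
      rw [hT4] at this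
      simpa using this
    obtain ⟨j, hj, hoj⟩ := (Nat.dvd_prime_pow Nat.prime_two).1 h1
    have hj2 : j ≠ 2 := by
      rintro rfl
      exact hncyc (isCyclic_of_orderOf_eq_card t (by rw [hoj, hT4]; norm_num))
    have h3 : orderOf t ∣ 2 := by
      rw [hoj]
      interval_cases j
      · norm_num
      · norm_num
      · exact absurd rfl hj2
    exact orderOf_dvd_iff_pow_eq_one.1 h3
  have hKF : IsKleinFour ↥(T : Subgroup G) := by
    refine ⟨hT4, ?_⟩
    have h1 : Monoid.exponent ↥(T : Subgroup G) ∣ 2 := Monoid.exponent_dvd_of_forall_pow_eq_one hsq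
    rcases (Nat.dvd_prime Nat.prime_two).1 h1 with h3 | h3
    · rw [Monoid.exp_eq_one_iff] at h3
      have := Nat.card_eq_one_iff_unique.2 ⟨h3, ⟨1⟩⟩
      omega
    · exact h3
  refine ⟨hKF, ?_⟩
  have hTC : (T : Subgroup G) ≤ Subgroup.centralizer ((T : Subgroup G) : Set G) := by
    intro a ha b hb
    have := (IsKleinFour.isMulCommutative (G := ↥(T : Subgroup G))).is_comm.comm ⟨b, hb⟩ ⟨a, ha⟩
    exact congrArg Subtype.val this
  have key := Subgroup.card_dvd_of_injective _
    (QuotientGroup.kerLift_injective (T : Subgroup G).normalizerMonoidHom)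
  rw [Subgroup.normalizerMonoidHom_ker, ← Subgroup.index, ← Subgroup.relIndex] at key
  have h24 : Nat.card (MulAut ↥(T : Subgroup G)) ∣ 24 := by
    have h1 := Subgroup.card_dvd_of_injective (MulAut.toPerm ↥(T : Subgroup G))
      (fun a b h => MulEquiv.toEquiv_injective h)
    haveI : Fintype ↥(T : Subgroup G) := Fintype.ofFinite _
    classical
    rw [Nat.card_eq_fintype_card (α := Equiv.Perm ↥(T : Subgroup G)), Fintype.card_perm,
      ← Nat.card_eq_fintype_card, hT4] at h1
    exact h1
  have hodd : Nat.Coprime ((Subgroup.centralizer ((T : Subgroup G) : Set G)).relIndex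
      (Subgroup.normalizer ((T : Subgroup G) : Set G))) 8 := by
    have h1 : (Subgroup.centralizer ((T : Subgroup G) : Set G)).relIndex
        (Subgroup.normalizer ((T : Subgroup G) : Set G)) ∣ (T : Subgroup G).index :=
      (Subgroup.relIndex_dvd_of_le_left _ hTC).trans
        (Subgroup.relIndex_dvd_index_of_le Subgroup.le_normalizer)
    have h3 : Nat.Coprime (T : Subgroup G).index 2 :=
      ((Nat.Prime.coprime_iff_not_dvd Nat.prime_two).2 T.not_dvd_index).symm
    exact Nat.Coprime.coprime_dvd_left h1 (by simpa using h3.pow_right 3)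
  have h3 : (Subgroup.centralizer ((T : Subgroup G) : Set G)).relIndex
      (Subgroup.normalizer ((T : Subgroup G) : Set G)) ∣ 3 :=
    hodd.dvd_of_dvd_mul_right (by simpa using key.trans h24 : _ ∣ 3 * 8)
  rcases (Nat.dvd_prime Nat.prime_three).1 h3 with h | h
  · exfalso
    have hNC := Subgroup.relIndex_eq_one.1 h
    exact noCompl _ (MonoidHom.normal_ker _) (MonoidHom.ker_transferSylow_isComplement' T hNC)
  · exact h

end Cfsg.Agent.S0992
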