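import Mathlib
import Cfsg.Agent.Lib.helper6_SelfCent
import Cfsg.Statements.S0995

set_option autoImplicit false
open Cfsg

namespace Cfsg.Agent.S0995

open Cfsg.Agent.Lib.helper6_SelfCent

/-- Let G be a finite perfect group containing an element z of prime order p whose centralizer is the cyclic group it generates. Let t be the number of conjugacy classes of elements of order p. Then t divides p - 1, the number of Sylow p-subgroups has the form 1 + n * p, and |G| * t = (p - 1) * p * (1 + n * p). -/
theorem result {G : Type*} [Group G] [Finite G] (hperf : commutator G = ⊤) (p : ℕ) [Fact p.Prime] (z : G) (hz : orderOf z = p) (hC : Subgroup.centralizer ({z} : Set G) = Subgroup.zpowers z) : ∃ n t : ℕ, t = Nat.card {c : ConjClasses G // ∃ g : G, ConjClasses.mk g = c ∧ orderOf g = p} ∧ t ∣ p - 1 ∧ Nat.card (Sylow p G) = 1 + n * p ∧ Nat.card G * t = (p - 1) * p * (1 + n * p) := by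
  have h : SC p z := ⟨Fact.out, hz, hC⟩
  have hc := h.count
  have hcongr : Nat.card {c : ConjClasses G // ∃ g : G, ConjClasses.mk g = c ∧ orderOf g = p} =
      Nat.card {C : ConjClasses G // ∃ g ∈ C.carrier, orderOf g = p} := by
    apply Nat.card_congr
    apply Equiv.subtypeEquivRight
    intro c
    constructor
    · rintro ⟨g, hg, ho⟩
      exact ⟨g, ConjClasses.mem_carrier_iff_mk_eq.2 hg, ho⟩
    · rintro ⟨g, hg, ho⟩
      exact ⟨g, ConjClasses.mem_carrier_iff_mk_eq.1 hg, ho⟩
  obtain ⟨P, hPx⟩ := h.exists_sylow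
  have hsyl : Nat.card (Sylow p G) = (Subgroup.normalizer (Subgroup.zpowers z : Set G)).index := by
    rw [← hPx]
    exact Sylow.card_eq_index_normalizer P
  have hmod := card_sylow_modEq_one p G
  have hpos : 1 ≤ Nat.card (Sylow p G) := Nat.card_pos
  obtain ⟨n, hn⟩ := (Nat.modEq_iff_dvd' hpos).1 hmod.symm
  have hn' : Nat.card (Sylow p G) = 1 + n * p := by
    rw [mul_comm n p, ← hn]; omega
  refine ⟨n, _, rfl, ?_, hn', ?_⟩
  · rw [hcongr, ← hc]
    exact dvd_mul_right _ _
  · rw [hcongr, ← hn', hsyl, ← hc,
      ← (Subgroup.normalizer (Subgroup.zpowers z : Set G)).card_mul_index]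
    have h1 : Nat.card (Subgroup.zpowers z) * eN z =
        Nat.card (Subgroup.normalizer (Subgroup.zpowers z : Set G)) := by
      rw [eN, ← Subgroup.relIndex_bot_left, ← Subgroup.relIndex_bot_left,
        Subgroup.relIndex_mul_relIndex _ _ _ bot_le Subgroup.le_normalizer]
    rw [← h1, h.card]
    ring
end Cfsg.Agent.S0995
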