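import Cfsg.Statements.S1009
import Mathlib
import Cfsg.Agent.Lib.Helper2_Sylow


set_option autoImplicit false
open Cfsg

namespace Cfsg.Agent.S1009

/-- Brodkey's Theorem: if a finite group has abelian Sylow p-subgroups, then there are two Sylow p-subgroups whose intersection equals the intersection of all Sylow p-subgroups. -/
theorem result {G : Type*} [Group G] [Finite G] (p : ℕ) [Fact p.Prime] (hab : ∀ P : Sylow p G, IsMulCommutative ↥(P : Subgroup G)) : ∃ P Q : Sylow p G, (P : Subgroup G) ⊓ (Q : Subgroup G) = ⨅ R : Sylow p G, (R : Subgroup G) := by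
  classical
  obtain ⟨⟨P, Q⟩, hmin⟩ := Finite.exists_min
    (fun PQ : Sylow p G × Sylow p G => Nat.card ((PQ.1 : Subgroup G) ⊓ (PQ.2 : Subgroup G) : Subgroup G))
  refine ⟨P, Q, le_antisymm ?_ ?_⟩
  · rw [le_iInf_iff]
    intro S
    set D := (P : Subgroup G) ⊓ (Q : Subgroup G) with hD
    set N := Subgroup.normalizer (D : Set G) with hN
    have hPN : (P : Subgroup G) ≤ N := by
      refine le_trans ?_ (Subgroup.centralizer_le_normalizer _)
      apply Cfsg.Agent.Lib.Helper2_Basic.le_centralizer_of_comm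
      intro a ha b hb
      exact isMulCommutative_iff_of_setLike.mp (hab P) a ha b hb.1
    have hQN : (Q : Subgroup G) ≤ N := by
      refine le_trans ?_ (Subgroup.centralizer_le_normalizer _)
      apply Cfsg.Agent.Lib.Helper2_Basic.le_centralizer_of_comm
      intro a ha b hb
      exact isMulCommutative_iff_of_setLike.mp (hab Q) a ha b hb.2
    obtain ⟨h, hhN, hh⟩ := Cfsg.Agent.Lib.Helper2_Sylow.exists_conj_le_sylow_of_le P hPN
      (B := (S : Subgroup G) ⊓ N) inf_le_right (S.2.to_le inf_le_left)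
    have hS' : ((h⁻¹ • S : Sylow p G) : Subgroup G) =
      (S : Subgroup G).map (MulAut.conj h⁻¹).toMonoidHom := rfl
    have hle : ((h⁻¹ • S : Sylow p G) : Subgroup G) ⊓ (Q : Subgroup G) ≤ D := by
      intro x hx
      rw [Subgroup.mem_inf] at hx
      refine Subgroup.mem_inf.mpr ⟨?_, hx.2⟩
      have h1 : h * x * h⁻¹ ∈ (S : Subgroup G) := by
        have := hx.1
        rw [hS', Cfsg.Agent.Lib.Helper2_Basic.mem_cj] at this
        simpa using this
      have h2 : h * x * h⁻¹ ∈ N := N.mul_mem (N.mul_mem hhN (hQN hx.2)) (N.inv_mem hhN)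
      have h3 := hh (Subgroup.mem_inf.mpr ⟨h1, h2⟩)
      rw [Cfsg.Agent.Lib.Helper2_Basic.mem_cj] at h3
      have e : h⁻¹ * (h * x * h⁻¹) * h = x := by group
      rwa [e] at h3
    have hcard := hmin (h⁻¹ • S, Q)
    have heq := Subgroup.eq_of_le_of_card_ge hle hcard
    intro d hd
    have hd' : h⁻¹ * d * h⁻¹⁻¹ ∈ D :=
      (Subgroup.mem_normalizer_iff.mp (N.inv_mem hhN) d).mp hd
    rw [← heq, Subgroup.mem_inf] at hd'
    have := hd'.1
    rw [hS', Cfsg.Agent.Lib.Helper2_Basic.mem_cj] at this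
    have e : h⁻¹⁻¹ * (h⁻¹ * d * h⁻¹⁻¹) * h⁻¹ = d := by group
    rwa [e] at this
  · exact le_inf (iInf_le _ P) (iInf_le _ Q)

end Cfsg.Agent.S1009
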