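import Cfsg.Statements.S1012
import Mathlib

set_option autoImplicit false
open Cfsg

namespace Cfsg.Agent.S1012

/-- A group of order 24 containing no element of order 6 is isomorphic to the symmetric group of degree 4. -/
theorem result {G : Type*} [Group G] [Finite G] (h : Nat.card G = 24) (h6 : ∀ g : G, orderOf g ≠ 6) : Nonempty (G ≃* Equiv.Perm (Fin 4)) := by
  haveI : Fact (Nat.Prime 3) := ⟨Nat.prime_three⟩
  haveI : Fact (Nat.Prime 2) := ⟨Nat.prime_two⟩
  obtain ⟨P⟩ : Nonempty (Sylow 3 G) := inferInstance
  have hcS : ∀ P : Sylow 3 G, Nat.card (P : Subgroup G) = 3 := by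
    intro P
    obtain ⟨k, hk⟩ := P.2.exists_card_eq
    have h1 : 3 ^ k ∣ 24 := by rw [← hk, ← h]; exact Subgroup.card_subgroup_dvd_card _
    have h2 : 3 ∣ Nat.card (P : Subgroup G) := P.dvd_card_of_dvd_card (by rw [h]; norm_num)
    rcases Nat.lt_or_ge k 2 with hk2 | hk2
    · interval_cases k
      · rw [hk] at h2; norm_num at h2
      · simpa using hk
    · exfalso
      have : 3 ^ 2 ∣ 24 := (pow_dvd_pow 3 hk2).trans h1
      norm_num at this
  have hcP := hcS P
  have hiP : (P : Subgroup G).index = 8 := by
    have := Subgroup.card_mul_index (P : Subgroup G)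
    rw [hcP, h] at this
    omega
  -- an element of order 3 in P
  obtain ⟨u, huo⟩ := exists_prime_orderOf_dvd_card' (G := (P : Subgroup G)) 3 (by rw [hcP])
  have huo' : orderOf (u : G) = 3 := by rw [Subgroup.orderOf_coe]; exact huo
  have key : ∀ z : G, orderOf z = 2 → z * (u : G) = (u : G) * z → False := by
    intro z hz hzu
    have hc : Commute z (u : G) := hzu
    have := hc.orderOf_mul_eq_mul_orderOf_of_coprime (by rw [hz, huo']; norm_num)
    rw [hz, huo'] at this
    exact h6 _ this
  have hn : Nat.card (Sylow 3 G) = 1 ∨ Nat.card (Sylow 3 G) = 4 := by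
    have h1 : Nat.card (Sylow 3 G) ∣ 8 := hiP ▸ P.card_dvd_index
    have h2 := card_sylow_modEq_one 3 G
    have h3 : Nat.card (Sylow 3 G) ≤ 8 := Nat.le_of_dvd (by norm_num) h1
    unfold Nat.ModEq at h2
    interval_cases hh : Nat.card (Sylow 3 G) <;> simp_all
  rcases hn with hn | hn
  · exfalso
    haveI : Subsingleton (Sylow 3 G) := (Nat.card_eq_one_iff_unique.mp hn).1
    haveI hPn : (P : Subgroup G).Normal := P.normal_of_subsingleton
    obtain ⟨T⟩ : Nonempty (Sylow 2 G) := inferInstance
    have hcT : 8 ∣ Nat.card (T : Subgroup G) := by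
      have h2 : 2 ^ 3 ∣ Nat.card (T : Subgroup G) :=
        T.pow_dvd_card_of_pow_dvd_card (by rw [h]; norm_num)
      simpa using h2
    haveI : IsCyclic (P : Subgroup G) := isCyclic_of_prime_card hcP
    have hAut : Nat.card (MulAut (P : Subgroup G)) = 2 := by
      rw [IsCyclic.card_mulAut, hcP]; rfl
    let f : (T : Subgroup G) →* MulAut (P : Subgroup G) :=
      (MulAut.conjNormal (H := (P : Subgroup G))).comp (T : Subgroup G).subtype
    have h1 : Nat.card f.ker * f.ker.index = Nat.card (T : Subgroup G) :=
      Subgroup.card_mul_index f.ker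
    have h2 : f.ker.index ∣ 2 := by
      have h0 := Subgroup.card_subgroup_dvd_card f.range
      rw [hAut] at h0
      rw [Subgroup.index_ker]; exact h0
    have h3 : 2 ∣ Nat.card f.ker := by
      have h4 : f.ker.index ≤ 2 := Nat.le_of_dvd (by norm_num) h2
      have h5 : 0 < f.ker.index := Nat.pos_of_dvd_of_pos h2 (by norm_num)
      obtain ⟨c, hc⟩ := hcT
      interval_cases hh : f.ker.index
      · exact ⟨4 * c, by omega⟩
      · exact ⟨2 * c, by omega⟩
    obtain ⟨z, hzo⟩ := exists_prime_orderOf_dvd_card' 2 h3
    have hzo' : orderOf ((z : (T : Subgroup G)) : G) = 2 := by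
      rw [Subgroup.orderOf_coe, Subgroup.orderOf_coe]; exact hzo
    apply key _ hzo'
    have h6' : f z = 1 := z.2
    have h7 := congrArg (fun g => ((g u : (P : Subgroup G)) : G)) h6'
    simp only [f, MonoidHom.comp_apply, MulAut.one_apply] at h7
    have h8 : ((z : (T : Subgroup G)) : G) * (u : G) * ((z : (T : Subgroup G)) : G)⁻¹ = u := h7
    calc ((z : (T : Subgroup G)) : G) * (u : G)
        = (((z : (T : Subgroup G)) : G) * (u : G) * ((z : (T : Subgroup G)) : G)⁻¹) *
          ((z : (T : Subgroup G)) : G) := by group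
      _ = (u : G) * ((z : (T : Subgroup G)) : G) := by rw [h8]
  · classical
    have hN : Nat.card (Subgroup.normalizer ((P : Subgroup G) : Set G)) = 6 := by
      have h1 : Nat.card (Sylow 3 G) = (Subgroup.normalizer ((P : Subgroup G) : Set G)).index :=
        Sylow.card_eq_index_normalizer P
      have h2 := Subgroup.card_mul_index (Subgroup.normalizer ((P : Subgroup G) : Set G))
      rw [← h1, hn, h] at h2
      omega
    let φ := MulAction.toPermHom G (Sylow 3 G)
    have hkN : ∀ S : Sylow 3 G, φ.ker ≤ Subgroup.normalizer ((S : Subgroup G) : Set G) := by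
      intro S c hc
      have := congrArg (fun f => f S) (MonoidHom.mem_ker.mp hc)
      exact Sylow.smul_eq_iff_mem_normalizer.mp this
    have hker : φ.ker = ⊥ := by
      have h2 : Nat.card φ.ker ∣ 6 := by
        have h0 := Subgroup.card_dvd_of_le (hkN P)
        rwa [hN] at h0
      by_cases h3 : 3 ∣ Nat.card φ.ker
      · exfalso
        obtain ⟨y, hy⟩ := exists_prime_orderOf_dvd_card' 3 h3
        have hy' : orderOf (y : G) = 3 := by rw [Subgroup.orderOf_coe]; exact hy
        have hyS : ∀ S : Sylow 3 G, (S : Subgroup G) = Subgroup.zpowers (y : G) := by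
          intro S
          have hp : IsPGroup 3 (Subgroup.zpowers (y : G)) := by
            apply IsPGroup.of_card (n := 1)
            rw [Nat.card_zpowers, hy', pow_one]
          have h4 : Subgroup.zpowers (y : G) ⊓ Subgroup.normalizer ((S : Subgroup G) : Set G) =
              Subgroup.zpowers (y : G) ⊓ S := hp.inf_normalizer_sylow S
          have h5 : (y : G) ∈ Subgroup.zpowers (y : G) ⊓
              Subgroup.normalizer ((S : Subgroup G) : Set G) :=
            ⟨Subgroup.mem_zpowers _, hkN S y.2⟩
          rw [h4] at h5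
          have h6' : Subgroup.zpowers (y : G) ≤ S := by
            rw [Subgroup.zpowers_le]; exact h5.2
          exact (Subgroup.eq_of_le_of_card_ge h6' (by rw [hcS S, Nat.card_zpowers, hy'])).symm
        have : Subsingleton (Sylow 3 G) :=
          ⟨fun a b => Sylow.ext ((hyS a).trans (hyS b).symm)⟩
        have := Nat.card_eq_one_iff_unique.mpr ⟨this, ⟨P⟩⟩
        omega
      · have h4 : Nat.card φ.ker ≤ 6 := Nat.le_of_dvd (by norm_num) h2
        have h5 : Nat.card φ.ker = 1 ∨ Nat.card φ.ker = 2 := by
          interval_cases hh : Nat.card φ.ker <;> simp_all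
        rcases h5 with h5 | h5
        · exact Subgroup.card_eq_one.mp h5
        · exfalso
          obtain ⟨z, hz⟩ := exists_prime_orderOf_dvd_card' (G := φ.ker) 2 (by rw [h5])
          have hz' : orderOf (z : G) = 2 := by rw [Subgroup.orderOf_coe]; exact hz
          apply key _ hz'
          -- u⁻¹ z u ∈ ker, of order 2
          have hmem : (u : G) * (z : G) * (u : G)⁻¹ ∈ φ.ker :=
            Subgroup.Normal.conj_mem inferInstance _ z.2 _
          have hzk : Subgroup.zpowers (z : G) = φ.ker := by
            apply Subgroup.eq_of_le_of_card_ge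
            · rw [Subgroup.zpowers_le]; exact z.2
            · rw [h5, Nat.card_zpowers, hz']
          have hmem2 : (u : G) * (z : G) * (u : G)⁻¹ ∈ Subgroup.zpowers (z : G) :=
            hzk.symm ▸ hmem
          obtain ⟨k, hk⟩ := Subgroup.mem_zpowers_iff.mp hmem2
          have hz2 : (z : G) ^ 2 = 1 := by rw [← hz']; exact pow_orderOf_eq_one _
          have hz1 : (z : G) ≠ 1 := by
            intro h0; rw [h0, orderOf_one] at hz'; omega
          rcases Int.even_or_odd' k with ⟨m, hm | hm⟩
          · exfalso
            rw [hm, zpow_mul, zpow_ofNat, hz2, one_zpow] at hk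
            apply hz1
            have : (u : G) * (z : G) * (u : G)⁻¹ = 1 := hk.symm
            have h9 : (z : G) = (u : G)⁻¹ * ((u : G) * (z : G) * (u : G)⁻¹) * (u : G) := by group
            rw [h9, this]; group
          · rw [hm, zpow_add, zpow_mul, zpow_ofNat, hz2, one_zpow, one_mul, zpow_one] at hk
            calc (z : G) * (u : G) = ((u : G) * (z : G) * (u : G)⁻¹) * (u : G) := by rw [← hk]
              _ = (u : G) * (z : G) := by group
    have hinj : Function.Injective φ := (MonoidHom.ker_eq_bot_iff φ).mp hker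
    let e : Sylow 3 G ≃ Fin 4 := Finite.equivFinOfCardEq hn
    let ψ : G →* Equiv.Perm (Fin 4) := (e.permCongrHom).toMonoidHom.comp φ
    have hψ : Function.Injective ψ := (e.permCongrHom).injective.comp hinj
    have hr : Nat.card ψ.range = 24 := by
      rw [← h]; exact (Nat.card_congr (MonoidHom.ofInjective hψ).toEquiv).symm
    have htop : ψ.range = ⊤ := Subgroup.eq_top_of_card_eq _ (by
      rw [hr, Nat.card_eq_fintype_card, Fintype.card_perm, Fintype.card_fin]; rfl)
    exact ⟨(MonoidHom.ofInjective hψ).trans
      ((MulEquiv.subgroupCongr htop).trans Subgroup.topEquiv)⟩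

end Cfsg.Agent.S1012
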