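import Mathlib
import Cfsg.Agent.Lib.Helper2_EA
import Cfsg.Statements.S1013

set_option autoImplicit false
open Cfsg

namespace Cfsg.Agent.S1013

open Subgroup Cfsg.Agent.Lib

theorem lemT {Γ α : Type*} [Group Γ] [MulAction Γ α] [FaithfulSMul Γ α] [MulAction.IsPretransitive Γ α]
    (hα : (Nat.card α).Prime) (N : Subgroup Γ) [N.Normal] (hN : N ≠ ⊥) : MulAction.IsPretransitive N α := by
  haveI := MulAction.IsPreprimitive.of_prime_card (G := Γ) hα
  apply MulAction.IsQuasiPreprimitive.isPretransitive_of_normal (G := Γ)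
  intro h
  apply hN
  rw [eq_bot_iff]
  intro n hn
  rw [mem_bot]
  apply FaithfulSMul.eq_of_smul_eq_smul (α := α)
  intro a
  rw [one_smul]
  have : a ∈ MulAction.fixedPoints N α := by rw [h]; trivial
  exact this ⟨n, hn⟩

theorem card_dvd {Γ α : Type*} [Group Γ] [MulAction Γ α] [MulAction.IsPretransitive Γ α]
    (hα : (Nat.card α).Prime) : Nat.card α ∣ Nat.card Γ := by
  haveI : Nonempty α := (Nat.card_ne_zero.mp hα.ne_zero).1
  obtain ⟨a⟩ := ‹Nonempty α›
  rw [← MulAction.index_stabilizer_of_transitive Γ a]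
  exact Subgroup.index_dvd_card _

theorem core {Γ α : Type*} [Group Γ] [Finite Γ] [MulAction Γ α] [FaithfulSMul Γ α]
    [MulAction.IsPretransitive Γ α] {p : ℕ} [hp : Fact p.Prime] (hα : Nat.card α = p)
    (hp2 : ¬ p^2 ∣ Nat.card Γ) (P : Sylow p Γ) (hn : 1 < Nat.card (Sylow p Γ))
    (ht : ((P : Subgroup Γ).subgroupOf (normalizer ((P : Subgroup Γ) : Set Γ))).index.Prime) :
    IsSimpleGroup Γ := by
  have hα' : (Nat.card α).Prime := by rw [hα]; exact hp.out
  have hpΓ : p ∣ Nat.card Γ := by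
    have := card_dvd (Γ := Γ) hα'
    rwa [hα] at this
  haveI : Nontrivial Γ := by
    rw [← Finite.one_lt_card_iff_nontrivial]
    exact lt_of_lt_of_le hp.out.one_lt (Nat.le_of_dvd Nat.card_pos hpΓ)
  have hPcard : Nat.card (P : Subgroup Γ) = p := by
    obtain ⟨k, hk⟩ := IsPGroup.iff_card.1 P.isPGroup'
    have h1 : p ∣ Nat.card (P : Subgroup Γ) := P.dvd_card_of_dvd_card hpΓ
    have h2 : Nat.card (P : Subgroup Γ) ∣ Nat.card Γ := card_subgroup_dvd_card _
    rcases k with _ | _ | k
    · rw [hk, pow_zero] at h1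
      exact absurd (Nat.dvd_one.1 h1) hp.out.one_lt.ne'
    · rw [hk]; simp
    · exfalso; apply hp2
      rw [hk] at h2
      exact dvd_trans ⟨p ^ k, by ring⟩ h2
  refine ⟨fun N hNn => ?_⟩
  by_contra hcon
  push Not at hcon
  obtain ⟨hN, hNtop⟩ := hcon
  haveI := hNn
  haveI tN := lemT hα' N hN
  have hpN : p ∣ Nat.card N := by
    have := card_dvd (Γ := N) hα'
    rwa [hα] at this
  have hPN : (P : Subgroup Γ) ≤ N := by
    have h1 := Helper2_EA.card_sup_mul_card_inf (P : Subgroup Γ) N (by rw [normalizer_eq_top]; exact le_top)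
    have h2 : Nat.card ((P : Subgroup Γ) ⊓ N : Subgroup Γ) ∣ p := by
      have h0 : Nat.card ((P : Subgroup Γ) ⊓ N : Subgroup Γ) ∣ Nat.card (P : Subgroup Γ) :=
        card_dvd_of_le inf_le_left
      rwa [hPcard] at h0
    rcases (Nat.dvd_prime hp.out).1 h2 with h3 | h3
    · exfalso; apply hp2
      rw [h3, mul_one, hPcard] at h1
      have h4 : Nat.card ((P : Subgroup Γ) ⊔ N : Subgroup Γ) ∣ Nat.card Γ := card_subgroup_dvd_card _
      rw [h1] at h4
      obtain ⟨c, hc⟩ := hpN
      rw [hc] at h4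
      exact dvd_trans ⟨c, by ring⟩ h4
    · have : (P : Subgroup Γ) ⊓ N = P := eq_of_le_of_card_ge inf_le_left (by rw [h3, hPcard])
      rw [← this]; exact inf_le_right
  have hF : normalizer ((P : Subgroup Γ) : Set Γ) ⊔ N = ⊤ := Sylow.normalizer_sup_eq_top' P hPN
  have hPB : (P : Subgroup Γ) ≤ normalizer ((P : Subgroup Γ) : Set Γ) ⊓ N := le_inf le_normalizer hPN
  have hmul := relIndex_mul_relIndex (P : Subgroup Γ) (normalizer ((P : Subgroup Γ) : Set Γ) ⊓ N)
    (normalizer ((P : Subgroup Γ) : Set Γ)) hPB inf_le_left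
  have ht' : ((P : Subgroup Γ).relIndex (normalizer ((P : Subgroup Γ) : Set Γ))).Prime := ht
  rw [← hmul] at ht'
  rcases (Nat.prime_mul_iff.1 ht') with ⟨-, h1⟩ | ⟨-, h1⟩
  · rw [relIndex_eq_one] at h1
    apply hNtop
    rw [← hF]
    exact (sup_eq_right.2 (h1.trans inf_le_right)).symm
  · rw [relIndex_eq_one] at h1
    have hcomm : ∀ a ∈ (P : Subgroup Γ), ∀ b ∈ (P : Subgroup Γ), a * b = b * a := by
      haveI : IsCyclic (P : Subgroup Γ) := isCyclic_of_prime_card hPcard
      intro a ha b hb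
      have := IsCyclic.commGroup.mul_comm (⟨a, ha⟩ : (P : Subgroup Γ)) ⟨b, hb⟩
      exact congrArg Subtype.val this
    have hP' : normalizer ((P.subtype hPN : Subgroup N) : Set N) ≤ centralizer ((P.subtype hPN : Subgroup N) : Set N) := by
      rw [Sylow.coe_subtype, ← subgroupOf_normalizer_eq hPN]
      intro n hn'
      rw [mem_subgroupOf] at hn'
      have hnP : (n : Γ) ∈ (P : Subgroup Γ) := h1 ⟨hn', n.2⟩
      rw [mem_centralizer_iff]
      intro h hh
      apply Subtype.ext
      exact hcomm _ hh _ hnP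
    have hcompl := MonoidHom.ker_transferSylow_isComplement' (P.subtype hPN) hP'
    have hnd := MonoidHom.not_dvd_card_ker_transferSylow (P.subtype hPN) hP'
    have hK : (MonoidHom.transferSylow (P.subtype hPN) hP').ker = ⊥ := by
      by_contra hK
      haveI := lemT (Γ := N) hα' _ hK
      apply hnd
      have := card_dvd (Γ := (MonoidHom.transferSylow (P.subtype hPN) hP').ker) hα'
      rwa [hα] at this
    rw [hK, isComplement'_bot_left, Sylow.coe_subtype, subgroupOf_eq_top] at hcompl
    have hPeq : (P : Subgroup Γ) = N := le_antisymm hPN hcompl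
    have hPn : (P : Subgroup Γ).Normal := by rw [hPeq]; exact hNn
    have := Sylow.card_eq_index_normalizer P
    have h5 : normalizer ((P : Subgroup Γ) : Set Γ) = ⊤ := normalizer_eq_top _
    have h6 : (normalizer ((P : Subgroup Γ) : Set Γ)).index = 1 := by rw [h5, index_top]
    have h7 : Nat.card (Sylow p Γ) = 1 := this.trans h6
    omega


/-- Let G be a transitive permutation group of prime degree p having more than one Sylow p-subgroup, and suppose a Sylow p-subgroup P has prime index in its normalizer. Then G is simple. -/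
theorem result {α : Type*} [Fintype α] [DecidableEq α] {p : ℕ} [Fact p.Prime] (hα : Fintype.card α = p) (G : Subgroup (Equiv.Perm α)) [MulAction.IsPretransitive ↥G α] (P : Sylow p ↥G) (hn : 1 < Nat.card (Sylow p ↥G)) (ht : (((P : Subgroup ↥G).subgroupOf (Subgroup.normalizer ((P : Subgroup ↥G) : Set ↥G))).index).Prime) : IsSimpleGroup ↥G := by
  have hp := (Fact.out : p.Prime)
  refine core (α := α) (by rw [Nat.card_eq_fintype_card, hα]) ?_ P hn ht
  intro h
  have h1 : Nat.card G ∣ Nat.card (Equiv.Perm α) := card_subgroup_dvd_card G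
  rw [Nat.card_eq_fintype_card (α := Equiv.Perm α), Fintype.card_perm, hα] at h1
  have h2 := h.trans h1
  obtain ⟨m, rfl⟩ : ∃ m, p = m + 1 := ⟨p - 1, by have := hp.pos; omega⟩
  rw [Nat.factorial_succ, pow_two] at h2
  have h3 := Nat.dvd_of_mul_dvd_mul_left (Nat.succ_pos m) h2
  have h4 := (hp.dvd_factorial).1 h3
  omega

end Cfsg.Agent.S1013
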