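import Cfsg.Statements.S1014
import Cfsg.Agent.Lib.Helper1_SylNum

set_option autoImplicit false
open Cfsg

namespace Cfsg.Agent.S1014

/-- No finite simple group has order 1104 = 2^4 * 3 * 23. -/
theorem result {G : Type*} [Group G] [Finite G] [IsSimpleGroup G] : Nat.card G ≠ 1104 := by
  intro h
  classical
  haveI : Fact (Nat.Prime 23) := ⟨by norm_num⟩
  haveI : Fact (Nat.Prime 2) := ⟨Nat.prime_two⟩
  have hsimple : ∀ (H : Subgroup G), H.Normal → H = ⊥ ∨ H = ⊤ := fun H hH => hH.eq_bot_or_eq_top
  obtain ⟨P⟩ : Nonempty (Sylow 23 G) := inferInstance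
  have hcS : ∀ P : Sylow 23 G, Nat.card (P : Subgroup G) = 23 := by
    intro P
    obtain ⟨k, hk⟩ := P.2.exists_card_eq
    have h1 : 23 ^ k ∣ 1104 := by rw [← hk, ← h]; exact Subgroup.card_subgroup_dvd_card _
    have h2 : 23 ∣ Nat.card (P : Subgroup G) := P.dvd_card_of_dvd_card (by rw [h]; norm_num)
    rcases Nat.lt_or_ge k 2 with hk2 | hk2
    · interval_cases k
      · rw [hk] at h2; norm_num at h2
      · simpa using hk
    · exfalso
      have : 23 ^ 2 ∣ 1104 := (pow_dvd_pow 23 hk2).trans h1
      norm_num at this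
  have hcP := hcS P
  have hiP : (P : Subgroup G).index = 48 := by
    have := Subgroup.card_mul_index (P : Subgroup G)
    rw [hcP, h] at this
    omega
  have hn : Nat.card (Sylow 23 G) = 1 ∨ Nat.card (Sylow 23 G) = 24 := by
    have h1 : Nat.card (Sylow 23 G) ∣ 48 := hiP ▸ P.card_dvd_index
    have h2 := card_sylow_modEq_one 23 G
    have h3 : Nat.card (Sylow 23 G) ≤ 48 := Nat.le_of_dvd (by norm_num) h1
    unfold Nat.ModEq at h2
    have h4 : Nat.card (Sylow 23 G) = 1 ∨ Nat.card (Sylow 23 G) = 24 ∨
        Nat.card (Sylow 23 G) = 47 := by omega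
    rcases h4 with h4 | h4 | h4
    · left; exact h4
    · right; exact h4
    · rw [h4] at h1; norm_num at h1
  have hn24 : Nat.card (Sylow 23 G) = 24 := by
    rcases hn with hn | hn
    · exfalso
      haveI : Subsingleton (Sylow 23 G) := (Nat.card_eq_one_iff_unique.mp hn).1
      have hPn : (P : Subgroup G).Normal := P.normal_of_subsingleton
      rcases hsimple _ hPn with hb | ht
      · rw [hb, Subgroup.card_bot] at hcP; omega
      · rw [ht, Subgroup.card_top, h] at hcP; omega
    · exact hn
  set Np := Subgroup.normalizer ((P : Subgroup G) : Set G) with hNp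
  have hN : Nat.card Np = 46 := by
    have h1 : Nat.card (Sylow 23 G) = Np.index := Sylow.card_eq_index_normalizer P
    have h2 := Subgroup.card_mul_index Np
    rw [← h1, hn24, h] at h2
    omega
  have hfaith : ∀ x : G,
      (∀ S : Sylow 23 G, x ∈ Subgroup.normalizer ((S : Subgroup G) : Set G)) → x = 1 := by
    intro x hx
    set C := (MulAction.toPermHom G (Sylow 23 G)).ker with hC
    have hxC : x ∈ C := by
      rw [hC, MonoidHom.mem_ker]; ext1 S
      exact Sylow.smul_eq_iff_mem_normalizer.mpr (hx S)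
    rcases hsimple C inferInstance with hb | ht
    · rw [hb] at hxC; exact Subgroup.mem_bot.mp hxC
    · exfalso
      have h2 : (⊤ : Subgroup G) ≤ Np := by
        intro c _
        have hc : c ∈ C := by rw [ht]; trivial
        rw [hC, MonoidHom.mem_ker] at hc
        exact Sylow.smul_eq_iff_mem_normalizer.mp (congrArg (fun f => f P) hc)
      rw [top_le_iff.mp h2, Subgroup.card_top, h] at hN
      omega
  obtain ⟨t0, ht0⟩ := exists_prime_orderOf_dvd_card' (G := Np) 2 (by rw [hN]; norm_num)
  obtain ⟨t, htdef⟩ : ∃ t : G, t = (t0 : G) := ⟨_, rfl⟩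
  have ht : orderOf t = 2 := by rw [htdef, Subgroup.orderOf_coe]; exact ht0
  have htN : t ∈ Np := htdef ▸ t0.2
  have ht2 : t * t = 1 := by rw [← pow_two, ← ht]; exact pow_orderOf_eq_one t
  have htinv : t⁻¹ = t := inv_eq_of_mul_eq_one_left ht2
  haveI : Fintype (Sylow 23 G) := Fintype.ofFinite _
  set φ : G →* ℤˣ := Equiv.Perm.sign.comp (MulAction.toPermHom G (Sylow 23 G)) with hφ
  have hker : φ.ker = ⊤ := by
    rcases hsimple φ.ker inferInstance with hb | ht'
    · exfalso
      have hidx := Subgroup.index_ker φ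
      rw [hb, Subgroup.index_bot, h] at hidx
      have h1 : Nat.card φ.range ∣ 2 := by
        have h0 : Nat.card ℤˣ = 2 := by rw [Nat.card_eq_fintype_card, Fintype.card_units_int]
        rw [← h0]; exact Subgroup.card_subgroup_dvd_card φ.range
      rw [← hidx] at h1; norm_num at h1
    · exact ht'
  set σ := MulAction.toPermHom G (Sylow 23 G) t with hσ
  have hsign : Equiv.Perm.sign σ = 1 := by
    have : t ∈ φ.ker := by rw [hker]; trivial
    exact this
  have hσ2 : σ ^ 2 = 1 := by rw [hσ, ← map_pow, ← ht, pow_orderOf_eq_one, map_one]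
  have ht1 : t ≠ 1 := by rintro rfl; rw [orderOf_one] at ht; omega
  have hσ1 : σ ≠ 1 := by
    intro h0
    apply ht1
    apply hfaith
    intro S
    have := congrArg (fun f => f S) h0
    exact Sylow.smul_eq_iff_mem_normalizer.mp this
  have hord : orderOf σ = 2 := orderOf_eq_prime hσ2 hσ1
  obtain ⟨k, hk⟩ := Equiv.Perm.cycleType_prime_order (σ := σ) (by rw [hord]; exact Nat.prime_two)
  rw [hord] at hk
  have hs := Equiv.Perm.sign_of_cycleType σ
  have hsum := Equiv.Perm.sum_cycleType σ
  rw [hk] at hs hsum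
  simp only [Multiset.sum_replicate, Multiset.card_replicate, smul_eq_mul] at hs hsum
  rw [hsign] at hs
  have heven : Even ((k + 1) * 2 + (k + 1)) :=
    (neg_one_pow_eq_one_iff_even (by decide)).1 hs.symm
  obtain ⟨m, hm⟩ : 2 ∣ k + 1 := by
    rcases heven with ⟨a, ha⟩
    exact ⟨a - (k + 1), by omega⟩
  have hsupp : σ.support.card = 4 * m := by omega
  have hcardX : Fintype.card (Sylow 23 G) = 24 := by rw [← Nat.card_eq_fintype_card]; exact hn24
  have hle : σ.support.card ≤ 24 := hcardX ▸ Finset.card_le_univ _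
  have hTI : ∀ a : Sylow 23 G, a ≠ P → (P : Subgroup G) ⊓ a = ⊥ := by
    intro a ha
    have h1 : Nat.card ((P : Subgroup G) ⊓ a : Subgroup G) ∣ 23 := by
      have h0 := Subgroup.card_dvd_of_le (inf_le_left : (P : Subgroup G) ⊓ a ≤ P)
      rwa [hcP] at h0
    rcases (Nat.dvd_prime (by norm_num)).1 h1 with h2 | h2
    · exact Subgroup.card_eq_one.mp h2
    · exfalso; apply ha
      have e1 : (P : Subgroup G) ⊓ a = P :=
        Subgroup.eq_of_le_of_card_ge inf_le_left (by rw [h2, hcP])
      have e2 : (P : Subgroup G) ⊓ a = a :=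
        Subgroup.eq_of_le_of_card_ge inf_le_right (by rw [h2, hcS a])
      exact Sylow.ext (e2.symm.trans e1)
  have hPN : ∀ a : Sylow 23 G, a ≠ P → ∀ x ∈ (P : Subgroup G), x • a = a → x = 1 := by
    intro a ha x hx hxa
    have hx1 : x ∈ Subgroup.normalizer ((a : Subgroup G) : Set G) :=
      Sylow.smul_eq_iff_mem_normalizer.mp hxa
    have e : (P : Subgroup G) ⊓ Subgroup.normalizer ((a : Subgroup G) : Set G) =
        (P : Subgroup G) ⊓ a := P.2.inf_normalizer_sylow a
    have hx2 : x ∈ (P : Subgroup G) ⊓ Subgroup.normalizer ((a : Subgroup G) : Set G) := ⟨hx, hx1⟩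
    rw [e, hTI a ha] at hx2
    exact Subgroup.mem_bot.mp hx2
  by_cases hC : t ∈ Subgroup.centralizer ((P : Subgroup G) : Set G)
  · have h1 := Cfsg.Agent.Lib.Helper1_SylNum.modP P t hC
    have hcardsupp : Nat.card {S : Sylow 23 G // t • S ≠ S} = σ.support.card := by
      rw [Nat.card_eq_fintype_card, Fintype.card_subtype]
      congr 1
    rw [hcardsupp, hsupp] at h1
    have h4 : 23 ∣ m := (by norm_num : Nat.Coprime 23 4).dvd_of_dvd_mul_left h1
    have h5 : 23 ≤ m := Nat.le_of_dvd (by omega) h4
    omega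
  · -- t inverts P
    have hconjP : ∀ u ∈ (P : Subgroup G), t * u * t⁻¹ ∈ (P : Subgroup G) := fun u hu =>
      (Subgroup.mem_normalizer_iff.mp htN u).1 hu
    haveI : IsCyclic (P : Subgroup G) := isCyclic_of_prime_card hcP
    have hPab : ∀ x ∈ (P : Subgroup G), ∀ y ∈ (P : Subgroup G), x * y = y * x := by
      obtain ⟨g, hg⟩ := IsCyclic.exists_generator (α := (P : Subgroup G))
      intro x hx y hy
      obtain ⟨i, hi⟩ := Subgroup.mem_zpowers_iff.mp (hg ⟨x, hx⟩)
      obtain ⟨j, hj⟩ := Subgroup.mem_zpowers_iff.mp (hg ⟨y, hy⟩)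
      have := ((Commute.refl g).zpow_zpow i j).eq
      rw [hi, hj] at this
      exact congrArg Subtype.val this
    have hinvn : ∀ u ∈ (P : Subgroup G), u * (t * u * t⁻¹) = 1 := by
      intro u hu
      by_contra hw
      apply hC
      set w := u * (t * u * t⁻¹) with hwdef
      have hwP : w ∈ (P : Subgroup G) := (P : Subgroup G).mul_mem hu (hconjP u hu)
      have hwt : t * w = w * t := by
        have e1 : t * w * t⁻¹ = (t * u * t⁻¹) * u := by
          rw [hwdef, htinv]
          calc t * (u * (t * u * t)) * t = t * u * t * u * (t * t) := by group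
            _ = t * u * t * u := by rw [ht2, mul_one]
        rw [← hPab u hu _ (hconjP u hu)] at e1
        calc t * w = (t * w * t⁻¹) * t := by group
          _ = w * t := by rw [e1]
      have hzw : Subgroup.zpowers w = (P : Subgroup G) := by
        apply Subgroup.eq_of_le_of_card_ge
        · rw [Subgroup.zpowers_le]; exact hwP
        · rw [hcP, Nat.card_zpowers]
          have h1 : orderOf w ∣ 23 := by
            have h0 := orderOf_dvd_natCard (⟨w, hwP⟩ : (P : Subgroup G))
            rwa [hcP, Subgroup.orderOf_mk] at h0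
          rcases (Nat.dvd_prime (by norm_num)).1 h1 with h2 | h2
          · exact absurd (orderOf_eq_one_iff.mp h2) hw
          · exact h2.ge
      rw [Subgroup.mem_centralizer_iff]
      intro x hx
      have hx' : x ∈ Subgroup.zpowers w := by rw [hzw]; exact hx
      obtain ⟨i, rfl⟩ := Subgroup.mem_zpowers_iff.mp hx'
      exact ((show Commute w t from hwt.symm).zpow_left i).eq
    -- fixed points
    have hPfix : P ∈ σ.supportᶜ := by
      rw [Finset.mem_compl, Equiv.Perm.notMem_support]
      exact Sylow.smul_eq_iff_mem_normalizer.mpr htN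
    have hcc : σ.supportᶜ.card = 24 - 4 * m := by rw [Finset.card_compl, hcardX, hsupp]
    have hpos : 0 < σ.supportᶜ.card := Finset.card_pos.mpr ⟨P, hPfix⟩
    have her : 1 < (σ.supportᶜ.erase P).card := by
      rw [Finset.card_erase_of_mem hPfix]; omega
    obtain ⟨a, ha, b, hb, hab⟩ := Finset.one_lt_card.mp her
    rw [Finset.mem_erase, Finset.mem_compl, Equiv.Perm.notMem_support] at ha hb
    have hta : t • a = a := ha.2
    have htb : t • b = b := hb.2
    -- transitivity
    have hstab : MulAction.stabilizer (P : Subgroup G) a = ⊥ := by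
      rw [eq_bot_iff]; intro x hx
      exact Subgroup.mem_bot.mpr (Subtype.ext (hPN a ha.1 x x.2 hx))
    have hcard : (MulAction.orbit (P : Subgroup G) a).ncard = 23 := by
      rw [← MulAction.index_stabilizer, hstab, Subgroup.index_bot, hcP]
    have hsub : MulAction.orbit (P : Subgroup G) a ⊆ {P}ᶜ := by
      rintro _ ⟨u, rfl⟩ hu
      apply ha.1
      have h1 : (u : G) • a = P := hu
      have h2 : (u : G) • P = P :=
        Sylow.smul_eq_iff_mem_normalizer.mpr (Subgroup.le_normalizer u.2)
      exact smul_left_cancel (u : G) (h1.trans h2.symm)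
    have heq : MulAction.orbit (P : Subgroup G) a = {P}ᶜ := by
      apply Set.eq_of_subset_of_ncard_le hsub _ (Set.toFinite _)
      rw [hcard, Set.ncard_compl, Set.ncard_singleton, hn24]
    have hb' : b ∈ MulAction.orbit (P : Subgroup G) a := by rw [heq]; exact hb.1
    obtain ⟨u, hu⟩ := hb'
    have hu' : (u : G) • a = b := hu
    have h1 : t * (u : G) = (u : G)⁻¹ * t := by
      have := hinvn u u.2
      have e : t * (u : G) * t⁻¹ = (u : G)⁻¹ := (inv_eq_of_mul_eq_one_right this).symm
      calc t * (u : G) = (t * (u : G) * t⁻¹) * t := by group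
        _ = (u : G)⁻¹ * t := by rw [e]
    have h2 : (u : G)⁻¹ • a = (u : G) • a := by
      calc (u : G)⁻¹ • a = (u : G)⁻¹ • (t • a) := by rw [hta]
        _ = (t * (u : G)) • a := by rw [← mul_smul, h1]
        _ = t • b := by rw [mul_smul, hu']
        _ = (u : G) • a := by rw [htb, hu']
    have h3 : ((u : G) * (u : G)) • a = a := by
      rw [mul_smul, ← h2, smul_inv_smul]
    have h4 := hPN a ha.1 _ ((P : Subgroup G).mul_mem u.2 u.2) h3
    have h5 : (u : G) ^ 23 = 1 := by
      have : u ^ 23 = 1 := by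
        have h0 : u ^ Nat.card (P : Subgroup G) = 1 := pow_card_eq_one'
        rwa [hcP] at h0
      exact congrArg Subtype.val this
    have h6 : (u : G) = 1 := by
      have e : (u : G) ^ 23 = ((u : G) * (u : G)) ^ 11 * (u : G) := by
        rw [← pow_two, ← pow_mul, ← pow_succ]
      rw [e, h4, one_pow, one_mul] at h5
      exact h5
    apply hab
    rw [← hu', h6, one_smul]

end Cfsg.Agent.S1014
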