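import Cfsg.Statements.S1015
import Cfsg.Agent.Lib.helper6_Brodkey

set_option autoImplicit false
open Cfsg

namespace Cfsg.Agent.S1015

/-- No finite simple group has order 1200 = 2^4 * 3 * 5^2. -/
theorem result {G : Type*} [Group G] [Finite G] [IsSimpleGroup G] : Nat.card G ≠ 1200 := by
  intro h
  haveI : Fact (Nat.Prime 5) := ⟨by norm_num⟩
  have hsimple : ∀ (H : Subgroup G), H.Normal → H = ⊥ ∨ H = ⊤ := fun H hH => hH.eq_bot_or_eq_top
  have tool : ∀ H : Subgroup G, H.index ≤ 9 → H = ⊤ := by
    intro H hH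
    by_contra hne
    have hker : (MulAction.toPermHom G (G ⧸ H)).ker = ⊥ := by
      rcases hsimple _ (inferInstance : (MulAction.toPermHom G (G ⧸ H)).ker.Normal) with hb | ht
      · exact hb
      · exfalso
        apply hne
        rw [← Subgroup.normalCore_eq_ker] at ht
        exact top_le_iff.mp (ht ▸ Subgroup.normalCore_le H)
    have hinj : Function.Injective (MulAction.toPermHom G (G ⧸ H)) :=
      (MonoidHom.ker_eq_bot_iff _).mp hker
    have h1 := Subgroup.card_dvd_of_injective _ hinj
    rw [Nat.card_perm, h] at h1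
    have h2 : (Nat.card (G ⧸ H)).factorial ∣ (9 : ℕ).factorial := Nat.factorial_dvd_factorial hH
    have h3 := h1.trans h2
    have h9 : (9 : ℕ).factorial = 362880 := rfl
    rw [h9] at h3
    norm_num at h3
  obtain ⟨P⟩ : Nonempty (Sylow 5 G) := inferInstance
  have hcS : ∀ P : Sylow 5 G, Nat.card (P : Subgroup G) = 25 := by
    intro P
    obtain ⟨k, hk⟩ := P.2.exists_card_eq
    have h1 : 5 ^ k ∣ 1200 := by rw [← hk, ← h]; exact Subgroup.card_subgroup_dvd_card _
    have h2 : 5 ^ 2 ∣ Nat.card (P : Subgroup G) :=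
      P.pow_dvd_card_of_pow_dvd_card (by rw [h]; norm_num)
    rcases Nat.lt_or_ge k 3 with hk2 | hk2
    · interval_cases k
      · rw [hk] at h2; norm_num at h2
      · rw [hk] at h2; norm_num at h2
      · simpa using hk
    · exfalso
      have : 5 ^ 3 ∣ 1200 := (pow_dvd_pow 5 hk2).trans h1
      norm_num at this
  have hcP := hcS P
  have hnotnormal : ∀ D : Subgroup G, (Nat.card D = 5 ∨ Nat.card D = 25) → ¬ D.Normal := by
    intro D hD hn
    rcases hsimple D hn with hb | ht
    · rw [hb, Subgroup.card_bot] at hD; omega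
    · rw [ht, Subgroup.card_top, h] at hD; omega
  have hiP : (P : Subgroup G).index = 48 := by
    have := Subgroup.card_mul_index (P : Subgroup G)
    rw [hcP, h] at this
    omega
  have hnidx : Nat.card (Sylow 5 G) = (Subgroup.normalizer ((P : Subgroup G) : Set G)).index :=
    Sylow.card_eq_index_normalizer P
  have hn9 : 9 < Nat.card (Sylow 5 G) := by
    by_contra hle
    have := tool _ (by rw [← hnidx]; omega)
    exact hnotnormal _ (Or.inr hcP) (Subgroup.normalizer_eq_top_iff.mp this)
  have hn : Nat.card (Sylow 5 G) = 16 := by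
    have h1 : Nat.card (Sylow 5 G) ∣ 48 := hiP ▸ P.card_dvd_index
    have h2 := card_sylow_modEq_one 5 G
    have h3 : Nat.card (Sylow 5 G) ≤ 48 := Nat.le_of_dvd (by norm_num) h1
    unfold Nat.ModEq at h2
    obtain ⟨c, hc⟩ := h1
    generalize Nat.card (Sylow 5 G) = n at *
    have h4 : n = 11 ∨ n = 16 ∨ n = 21 ∨ n = 26 ∨ n = 31 ∨ n = 36 ∨ n = 41 ∨ n = 46 := by omega
    rcases h4 with h4 | h4 | h4 | h4 | h4 | h4 | h4 | h4
    · exfalso; subst h4; omega
    · exact h4
    all_goals (exfalso; subst h4; omega)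
  have hQ : ∃ Q : Sylow 5 G, P ≠ Q := by
    by_contra hcon
    push Not at hcon
    have : Subsingleton (Sylow 5 G) := ⟨fun a b => (hcon a).symm.trans (hcon b)⟩
    have := Nat.card_eq_one_iff_unique.mpr ⟨this, ⟨P⟩⟩
    omega
  obtain ⟨Q, hPQ⟩ := hQ
  have hrel : (Q : Subgroup G).relIndex P = 5 := by
    have h1 := Cfsg.Agent.Lib.helper6_Brodkey.relIndex_le_card_sylow P Q
    rw [hn] at h1
    have h2 : (Q : Subgroup G).relIndex P ∣ 5 ^ 2 := by
      have h0 := Subgroup.relIndex_dvd_card (Q : Subgroup G) (P : Subgroup G)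
      rw [hcP] at h0
      simpa using h0
    obtain ⟨j, hj2, hj⟩ := (Nat.dvd_prime_pow (by norm_num : Nat.Prime 5)).1 h2
    interval_cases j
    · exfalso
      rw [pow_zero, Subgroup.relIndex_eq_one] at hj
      exact hPQ (Sylow.ext (P.is_maximal' Q.2 hj).symm)
    · simpa using hj
    · rw [hj] at h1; norm_num at h1
  set D := (P : Subgroup G) ⊓ Q with hD
  have hcD : Nat.card D = 5 := by
    have h1 := Subgroup.relIndex_mul_relIndex ⊥ ((P : Subgroup G) ⊓ Q) P bot_le inf_le_left
    rw [Subgroup.relIndex_bot_left, Subgroup.relIndex_bot_left, Subgroup.inf_relIndex_left,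
      hrel, hcP] at h1
    rw [hD]; omega
  have hab : ∀ S : Sylow 5 G, D ≤ S → (S : Subgroup G) ≤ Subgroup.normalizer (D : Set G) := by
    intro S hDS a ha
    have hc : ∀ x y : (S : Subgroup G), x * y = y * x :=
      IsPGroup.commutative_of_card_eq_prime_sq (p := 5) (by rw [hcS S]; norm_num)
    rw [Subgroup.mem_normalizer_iff]
    intro d
    have key : d ∈ (S : Subgroup G) → a * d * a⁻¹ = d := by
      intro hd
      have := congrArg Subtype.val (hc ⟨a, ha⟩ ⟨d, hd⟩)
      have e : a * d = d * a := this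
      rw [e]; group
    constructor
    · intro hd
      rw [key (hDS hd)]; exact hd
    · intro hd
      have hd' : d ∈ (S : Subgroup G) := by
        have h1 := (S : Subgroup G).mul_mem ((S : Subgroup G).mul_mem ((S : Subgroup G).inv_mem ha)
          (hDS hd)) ha
        have e : a⁻¹ * (a * d * a⁻¹) * a = d := by group
        rwa [e] at h1
      rw [key hd'] at hd; exact hd
  set H := Subgroup.normalizer (D : Set G) with hH
  have hPH : (P : Subgroup G) ≤ H := hab P inf_le_left
  have hQH : (Q : Subgroup G) ≤ H := hab Q inf_le_right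
  have h5 : 5 ≤ (Q : Subgroup G).relIndex H := by
    have h0 : (Q : Subgroup G).relIndex P ≤ (Q : Subgroup G).relIndex H :=
      Subgroup.relIndex_le_of_le_right hPH
        (by unfold Subgroup.relIndex; exact Subgroup.index_ne_zero_of_finite)
    omega
  have hcH : 25 * (Q : Subgroup G).relIndex H = Nat.card H := by
    have h1 := Subgroup.relIndex_mul_relIndex ⊥ (Q : Subgroup G) H bot_le hQH
    rw [Subgroup.relIndex_bot_left, Subgroup.relIndex_bot_left, hcS Q] at h1
    exact h1
  have hidx : H.index ≤ 9 := by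
    have h1 := Subgroup.card_mul_index H
    rw [← hcH, h] at h1
    by_contra hlt
    push Not at hlt
    have : 25 * 5 * 10 ≤ 25 * (Q : Subgroup G).relIndex H * H.index :=
      Nat.mul_le_mul (Nat.mul_le_mul le_rfl h5) hlt
    omega
  have := tool H hidx
  exact hnotnormal D (Or.inl hcD) (Subgroup.normalizer_eq_top_iff.mp this)

end Cfsg.Agent.S1015
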