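import Cfsg.Statements.S1018
import Mathlib

set_option autoImplicit false
open Cfsg

namespace Cfsg.Agent.S1018

theorem mem_of_normalizer {G : Type*} [Group G] [Finite G] (p : ℕ) [Fact p.Prime] (P : Sylow p G)
    {z : G} (hz : orderOf z = p) (hn : z ∈ Subgroup.normalizer ((P : Subgroup G) : Set G)) :
    z ∈ (P : Subgroup G) := by
  have hpg : IsPGroup p (Subgroup.zpowers z) :=
    IsPGroup.iff_card.2 ⟨1, by rw [Nat.card_zpowers, hz, pow_one]⟩
  have h1 := hpg.inf_normalizer_sylow P
  have h2 : z ∈ Subgroup.zpowers z ⊓ Subgroup.normalizer (P : Set G) :=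
    ⟨Subgroup.mem_zpowers z, hn⟩
  rw [h1] at h2
  exact h2.2

theorem fixed_iff {G : Type*} [Group G] (Nn : Subgroup G) (y g : G) :
    (g : G ⧸ Nn) ∈ MulAction.fixedBy (G ⧸ Nn) y ↔ g⁻¹ * y * g ∈ Nn := by
  rw [MulAction.mem_fixedBy]
  show ((y * g : G) : G ⧸ Nn) = g ↔ _
  rw [eq_comm, QuotientGroup.eq, mul_assoc]

theorem exists_zpow {G : Type*} [Group G] (p : ℕ) [Fact p.Prime] (P : Subgroup G)
    (hP : Nat.card P = p) {u h : G} (hu : u ∈ P) (hu1 : u ≠ 1) (hh : h ∈ P) :
    ∃ k : ℤ, u ^ k = h := by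
  have h1 : (⟨h, hh⟩ : P) ∈ Subgroup.zpowers (⟨u, hu⟩ : P) :=
    mem_zpowers_of_prime_card hP (fun e => hu1 (congrArg Subtype.val e))
  obtain ⟨k, hk⟩ := Subgroup.mem_zpowers_iff.mp h1
  exact ⟨k, by simpa using congrArg Subtype.val hk⟩


/-- Let P be a Sylow p-subgroup of order p of a finite group G, and consider the action of G on the left cosets of the normalizer N of P. Then every element of order p fixes exactly one coset, and an element of N that does not centralize P fixes at most as many cosets as there are orbits of P. -/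
theorem result {G : Type*} [Group G] [Finite G] (p : ℕ) [Fact p.Prime] (P : Sylow p G) (hP : Nat.card ↥(P : Subgroup G) = p) : (∀ y : G, orderOf y = p → Nat.card (MulAction.fixedBy (G ⧸ Subgroup.normalizer ((P : Subgroup G) : Set G)) y) = 1) ∧ ∀ x : G, x ∈ Subgroup.normalizer ((P : Subgroup G) : Set G) → x ∉ Subgroup.centralizer ((P : Subgroup G) : Set G) → Nat.card (MulAction.fixedBy (G ⧸ Subgroup.normalizer ((P : Subgroup G) : Set G)) x) ≤ Nat.card (MulAction.orbitRel.Quotient ↥(P : Subgroup G) (G ⧸ Subgroup.normalizer ((P : Subgroup G) : Set G))) := by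
  refine ⟨?_, ?_⟩
  · intro y hy
    rw [Nat.card_eq_one_iff_exists]
    have hpg : IsPGroup p (Subgroup.zpowers y) :=
      IsPGroup.iff_card.2 ⟨1, by rw [Nat.card_zpowers, hy, pow_one]⟩
    obtain ⟨Q, hQ⟩ := hpg.exists_le_sylow
    obtain ⟨g, rfl⟩ := MulAction.exists_smul_eq G P Q
    have hyg : y ∈ ((g • P : Sylow p G) : Subgroup G) := hQ (Subgroup.mem_zpowers y)
    have hconj : ∀ g' : G, y ∈ ((g' • P : Sylow p G) : Subgroup G) ↔
        g'⁻¹ * y * g' ∈ (P : Subgroup G) := by
      intro g'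
      rw [Sylow.coe_subgroup_smul, Subgroup.mem_smul_pointwise_iff_exists]
      constructor
      · rintro ⟨s, hs, e⟩
        rw [MulAut.smul_def, MulAut.conj_apply] at e
        rw [← e]
        convert hs using 1
        group
      · intro h
        exact ⟨_, h, by rw [MulAut.smul_def, MulAut.conj_apply]; group⟩
    refine ⟨⟨(g : G ⧸ Subgroup.normalizer ((P : Subgroup G) : Set G)),
      (fixed_iff _ y g).mpr (Subgroup.le_normalizer ((hconj g).mp hyg))⟩, ?_⟩
    rintro ⟨ω, hω⟩
    obtain ⟨g', rfl⟩ := QuotientGroup.mk_surjective ω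
    apply Subtype.ext
    show (g' : G ⧸ Subgroup.normalizer ((P : Subgroup G) : Set G)) = g
    have h1 : g'⁻¹ * y * g' ∈ Subgroup.normalizer ((P : Subgroup G) : Set G) :=
      (fixed_iff _ y g').mp hω
    have ho : orderOf (g'⁻¹ * y * g') = p := by
      have := (MulAut.conj g'⁻¹).orderOf_eq y
      rw [MulAut.conj_apply, inv_inv] at this
      rw [this, hy]
    have h2 : g'⁻¹ * y * g' ∈ (P : Subgroup G) := mem_of_normalizer p P ho h1
    have h3 : y ∈ ((g' • P : Sylow p G) : Subgroup G) := (hconj g').mpr h2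
    have hcard : ∀ Q : Sylow p G, Nat.card (Q : Subgroup G) = p := by
      intro Q
      rw [Sylow.card_eq_multiplicity, ← Sylow.card_eq_multiplicity P, hP]
    have heq : ∀ Q : Sylow p G, y ∈ (Q : Subgroup G) → (Q : Subgroup G) = Subgroup.zpowers y := by
      intro Q hQ'
      symm
      apply Subgroup.eq_of_le_of_card_ge (Subgroup.zpowers_le.mpr hQ')
      rw [Nat.card_zpowers, hy, hcard Q]
    have h4 : g' • P = g • P := Sylow.ext ((heq _ h3).trans (heq _ hyg).symm)
    have h5 : (g'⁻¹ * g) • P = P := by rw [mul_smul, ← h4, inv_smul_smul]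
    rw [QuotientGroup.eq]
    exact Sylow.smul_eq_iff_mem_normalizer.mp h5
  · intro x hxN hxC
    refine Nat.card_le_card_of_injective (fun ω => (Quotient.mk'' ω.1 :
      MulAction.orbitRel.Quotient ↥(P : Subgroup G)
        (G ⧸ Subgroup.normalizer ((P : Subgroup G) : Set G)))) ?_
    rintro ⟨ω, hω⟩ ⟨ω', hω'⟩ h
    apply Subtype.ext
    show ω = ω'
    have h1 : ω ∈ MulAction.orbit ↥(P : Subgroup G) ω' := Quotient.exact' h
    obtain ⟨⟨u, huP⟩, hu⟩ := h1
    have hu' : u • ω' = ω := hu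
    have hxω : x • ω = ω := hω
    have hxω' : x • ω' = ω' := hω'
    by_cases hu1 : u = 1
    · rw [← hu', hu1, one_smul]
    have hcP : x⁻¹ * u⁻¹ * x * u ∈ (P : Subgroup G) := by
      have h2 := (Subgroup.mem_normalizer_iff.mp
        ((Subgroup.normalizer ((P : Subgroup G) : Set G)).inv_mem hxN) u⁻¹).mp
        ((P : Subgroup G).inv_mem huP)
      rw [inv_inv] at h2
      exact (P : Subgroup G).mul_mem h2 huP
    have hcω : (x⁻¹ * u⁻¹ * x * u) • ω' = ω' := by
      rw [mul_smul, mul_smul, mul_smul, hu', hxω, ← hu', inv_smul_smul, inv_smul_eq_iff, hxω']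
    by_cases hc : x⁻¹ * u⁻¹ * x * u = 1
    · exfalso
      apply hxC
      have hcomm : Commute u x := by
        show u * x = x * u
        calc u * x = u * x * (x⁻¹ * u⁻¹ * x * u) := by rw [hc, mul_one]
          _ = x * u := by group
      rw [Subgroup.mem_centralizer_iff]
      intro h' hh'
      obtain ⟨k, hk⟩ := exists_zpow p (P : Subgroup G) hP huP hu1 hh'
      rw [← hk]
      exact (hcomm.zpow_left k).eq
    · obtain ⟨k, hk⟩ := exists_zpow p (P : Subgroup G) hP hcP hc huP
      have h3 : x⁻¹ * u⁻¹ * x * u ∈ MulAction.stabilizer G ω' := hcω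
      have h4 : u ∈ MulAction.stabilizer G ω' := hk ▸ Subgroup.zpow_mem _ h3 k
      rw [← hu']
      exact h4

end Cfsg.Agent.S1018
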