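import Cfsg.Statements.S1019
import Mathlib
import Cfsg.Agent.Lib.CharIntegral


set_option autoImplicit false
open Cfsg

namespace Cfsg.Agent.S1019

/-- Let H be a subgroup of a finite group G and x an element of H. In the action of G on the left cosets of H, the number of cosets fixed by x, multiplied by the size of the conjugacy class of x, equals the index of H multiplied by the number of conjugates of x that lie in H. -/
theorem result {G : Type*} [Group G] [Finite G] (H : Subgroup G) (x : G) (hx : x ∈ H) : Nat.card (MulAction.fixedBy (G ⧸ H) x) * Nat.card {g : G // IsConj x g} = H.index * Nat.card {g : G // IsConj x g ∧ g ∈ H} := by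
  classical
  haveI : Fintype G := Fintype.ofFinite G
  set C := Subgroup.centralizer ({x} : Set G) with hC
  set fx := Nat.card (MulAction.fixedBy (G ⧸ H) x) with hfx
  set m := Nat.card {g : G // IsConj x g ∧ g ∈ H} with hm
  -- the set A
  have hA1 : Nat.card {g : G // g⁻¹ * x * g ∈ H} = Nat.card H * fx := by
    rw [hfx, ← Nat.card_prod]
    refine Nat.card_congr (Equiv.trans ?_
      (QuotientGroup.preimageMkEquivSubgroupProdSet H (MulAction.fixedBy (G ⧸ H) x)))
    refine Equiv.subtypeEquivRight fun g => ?_
    rw [Set.mem_preimage, MulAction.mem_fixedBy]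
    change _ ↔ ((x * g : G) : G ⧸ H) = (g : G ⧸ H)
    rw [eq_comm, QuotientGroup.eq, mul_assoc]
  have hA2 : Nat.card {g : G // g⁻¹ * x * g ∈ H} = Nat.card C * m := by
    have h := Cfsg.Agent.Lib.CharIntegral.sum_conj_eq x (fun y => if y ∈ H then 1 else 0)
    have h1 : Nat.card {g : G // g⁻¹ * x * g ∈ H} = ∑ u : G, (if u * x * u⁻¹ ∈ H then 1 else 0) := by
      rw [Nat.card_eq_fintype_card, Fintype.card_subtype, Finset.card_filter,
        ← Equiv.sum_comp (Equiv.inv G)]
      refine Finset.sum_congr rfl fun u _ => ?_
      simp
    have h2 : m = ∑ y ∈ Finset.univ.filter (IsConj x), (if y ∈ H then 1 else 0) := by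
      rw [hm, Nat.card_eq_fintype_card, Fintype.card_subtype, Finset.card_filter, Finset.sum_filter]
      refine Finset.sum_congr rfl fun y _ => ?_
      by_cases hy : IsConj x y <;> simp only [hy, true_and, false_and, if_true, if_false]
    rw [h1, h, ← h2, smul_eq_mul]
  have hcls : Nat.card {g : G // IsConj x g} = C.index := by
    rw [Nat.card_eq_fintype_card, Fintype.card_subtype]
    exact Cfsg.Agent.Lib.CharIntegral.card_class_eq_index x
  rw [hcls]
  have e1 : Nat.card H * fx = Nat.card C * m := hA1.symm.trans hA2
  have e2 := C.card_mul_index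
  have e3 := H.card_mul_index
  have hpos : 0 < Nat.card H * Nat.card C := Nat.mul_pos Nat.card_pos Nat.card_pos
  apply Nat.eq_of_mul_eq_mul_left hpos
  calc Nat.card H * Nat.card C * (fx * C.index) = (Nat.card H * fx) * (Nat.card C * C.index) := by ring
    _ = (Nat.card C * m) * (Nat.card H * H.index) := by rw [e1, e2, e3]
    _ = Nat.card H * Nat.card C * (H.index * m) := by ring

end Cfsg.Agent.S1019
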