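import Cfsg.Statements.S1124
import Cfsg.Agent.Lib.Helper4_Syl
import Cfsg.Agent.Lib.Helper3_Local

set_option autoImplicit false
open Cfsg

namespace Cfsg.Agent.S1124

open Cfsg.Agent.Lib.Helper4_Syl Cfsg.Agent.Lib.Helper3_Local
open scoped Pointwise

/-- Let `t` be an element of order 2 of a finite group normalising a subgroup `X` of odd order, `Y = C_X(t)` and `Z` the set of elements of `X` inverted by `t`. Then `(y, z) ↦ y z` is a bijection `Y × Z → X`, so `|X| = |Y| |Z|`, and the subgroup generated by `Z` is normal in `X`. -/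
theorem result {M : Type*} [Group M] [Finite M]
    (t : M) (ht : orderOf t = 2) (X : Subgroup M) (hodd : Odd (Nat.card X))
    (hnorm : ∀ x ∈ X, t * x * t⁻¹ ∈ X) :
    (∀ x ∈ X, ∃! p : M × M, p.1 ∈ X ⊓ Subgroup.centralizer {t} ∧ p.2 ∈ Cfsg.invertedBy X t ∧ x = p.1 * p.2) ∧
      Nat.card X = Nat.card ↥(X ⊓ Subgroup.centralizer {t}) * Nat.card (Cfsg.invertedBy X t) ∧
      ∀ x ∈ X, MulAut.conj x • Subgroup.closure (Cfsg.invertedBy X t) = Subgroup.closure (Cfsg.invertedBy X t) := by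
  have htt : t * t = 1 := by rw [← pow_two, ← ht, pow_orderOf_eq_one]
  have hti : t⁻¹ = t := inv_eq_of_mul_eq_one_left htt
  obtain ⟨k, hk⟩ := hodd
  have hXpow : ∀ x ∈ X, x ^ (2 * k + 1) = 1 := by
    intro x hx
    have := congrArg Subtype.val (pow_card_eq_one' (G := X) (x := ⟨x, hx⟩))
    rwa [Subgroup.coe_pow, Subgroup.coe_one, hk] at this
  have hsq : ∀ x ∈ X, (x ^ 2) ^ (k + 1) = x := by
    intro x hx
    rw [← pow_mul]
    have : 2 * (k + 1) = (2 * k + 1) + 1 := by ring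
    rw [this, pow_succ, hXpow x hx, one_mul]
  have hY : ∀ y : M, y ∈ X ⊓ Subgroup.centralizer {t} ↔ y ∈ X ∧ t * y * t⁻¹ = y := by
    intro y
    rw [Subgroup.mem_inf, Subgroup.mem_centralizer_singleton_iff]
    constructor
    · rintro ⟨h1, h2⟩
      exact ⟨h1, by rw [← h2]; group⟩
    · rintro ⟨h1, h2⟩
      refine ⟨h1, ?_⟩
      rw [mul_inv_eq_iff_eq_mul] at h2
      exact h2.symm
  -- the square of the `Z`-part
  have hu : ∀ y z : M, t * y * t⁻¹ = y → t * z * t⁻¹ = z⁻¹ →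
      (t * (y * z) * t⁻¹)⁻¹ * (y * z) = z ^ 2 := by
    intro y z h1 h2
    have : t * (y * z) * t⁻¹ = (t * y * t⁻¹) * (t * z * t⁻¹) := by group
    rw [this, h1, h2, pow_two]; group
  have hex : ∀ x ∈ X, ∃! q : M × M, q.1 ∈ X ⊓ Subgroup.centralizer {t} ∧
      q.2 ∈ Cfsg.invertedBy X t ∧ x = q.1 * q.2 := by
    intro x hx
    set u := (t * x * t⁻¹)⁻¹ * x with hudef
    have huX : u ∈ X := X.mul_mem (X.inv_mem (hnorm x hx)) hx
    have huinv : t * u * t⁻¹ = u⁻¹ := by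
      rw [hudef, hti]
      calc t * ((t * x * t)⁻¹ * x) * t = t * (t⁻¹ * x⁻¹ * t⁻¹) * x * t := by group
        _ = t * (t * x⁻¹ * t) * x * t := by rw [hti]
        _ = (t * t) * x⁻¹ * (t * x * t) := by group
        _ = ((t * x * t)⁻¹ * x)⁻¹ := by rw [htt]; group
    set z := u ^ (k + 1) with hz
    have hzX : z ∈ X := X.pow_mem huX _
    have hzinv : t * z * t⁻¹ = z⁻¹ := by rw [hz, ← conj_pow, huinv, inv_pow]
    have hz2 : z ^ 2 = u := by
      rw [hz, ← pow_mul, mul_comm, pow_mul]; exact hsq u huX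
    refine ⟨(x * z⁻¹, z), ⟨?_, ⟨hzX, hzinv⟩, by group⟩, ?_⟩
    · rw [hY]
      refine ⟨X.mul_mem hx (X.inv_mem hzX), ?_⟩
      have h1 : t * (x * z⁻¹) * t⁻¹ = (t * x * t⁻¹) * (t * z * t⁻¹)⁻¹ := by group
      have h2 : t * x * t⁻¹ = x * u⁻¹ := by rw [hudef]; group
      rw [h1, hzinv, inv_inv, h2, ← hz2, pow_two]; group
    · rintro ⟨y', z'⟩ ⟨h1, ⟨h2, h3⟩, h4⟩
      simp only at h1 h2 h3 h4
      have h5 := hu y' z' ((hY y').1 h1).2 h3
      rw [← h4, ← hudef] at h5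
      have h6 : z' = z := by rw [hz, h5, hsq z' h2]
      rw [h6] at h4 ⊢
      rw [h4]
      congr 1
      group
  refine ⟨hex, ?_, ?_⟩
  · let f : ↥(X ⊓ Subgroup.centralizer {t}) × (Cfsg.invertedBy X t) → X :=
      fun q => ⟨(q.1 : M) * (q.2 : M), X.mul_mem q.1.2.1 q.2.2.1⟩
    have hf : Function.Bijective f := by
      constructor
      · rintro ⟨y₁, z₁⟩ ⟨y₂, z₂⟩ h
        have h' : (y₁ : M) * (z₁ : M) = (y₂ : M) * (z₂ : M) := congrArg Subtype.val h
        obtain ⟨q, -, hq⟩ := hex _ (X.mul_mem y₁.2.1 z₁.2.1)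
        have e1 := hq ((y₁ : M), (z₁ : M)) ⟨y₁.2, z₁.2, rfl⟩
        have e2 := hq ((y₂ : M), (z₂ : M)) ⟨y₂.2, z₂.2, h'⟩
        have e3 := e1.trans e2.symm
        rw [Prod.mk.injEq] at e3
        exact Prod.ext (Subtype.ext e3.1) (Subtype.ext e3.2)
      · rintro ⟨x, hx⟩
        obtain ⟨⟨y, z⟩, ⟨h1, h2, h3⟩, -⟩ := hex x hx
        exact ⟨(⟨y, h1⟩, ⟨z, h2⟩), Subtype.ext h3.symm⟩
    rw [← Nat.card_prod]
    exact (Nat.card_congr (Equiv.ofBijective f hf)).symm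
  · intro x hx
    rw [← mem_normalizer_iff_conj_smul]
    obtain ⟨⟨y, z⟩, ⟨h1, h2, h3⟩, -⟩ := hex x hx
    simp only at h1 h2 h3
    rw [h3]
    apply Subgroup.mul_mem
    · rw [mem_normalizer_iff_conj_le]
      have hle : Subgroup.closure (Cfsg.invertedBy X t) ≤
          (Subgroup.closure (Cfsg.invertedBy X t)).comap (MulAut.conj y).toMonoidHom := by
        rw [Subgroup.closure_le]
        rintro w ⟨hw1, hw2⟩
        show y * w * y⁻¹ ∈ Subgroup.closure (Cfsg.invertedBy X t)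
        apply Subgroup.subset_closure
        obtain ⟨hy1, hy2⟩ := (hY y).1 h1
        refine ⟨X.mul_mem (X.mul_mem hy1 hw1) (X.inv_mem hy1), ?_⟩
        have : t * (y * w * y⁻¹) * t⁻¹ = (t * y * t⁻¹) * (t * w * t⁻¹) * (t * y * t⁻¹)⁻¹ := by group
        rw [this, hy2, hw2]; group
      exact fun h hh => hle hh
    · exact Subgroup.le_normalizer (Subgroup.subset_closure h2)

end Cfsg.Agent.S1124
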