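import Cfsg.Statements.S1176
import Cfsg.Agent.Lib.Helper7_Dih

set_option autoImplicit false
open Cfsg

namespace Cfsg.Agent.S1176

open scoped commutatorElement

/-- Let x₀ be an involution of the finite group G and D its conjugacy class. Assume (a) for each x ∈ D the subgroup W(x) generated by the members of D commuting with x is a 2-group of nilpotency class at most 2, and (b) the product of two distinct commuting members of D again lies in D. Then for all x, y ∈ D, if xy has even order greater than 2, its order is 4. -/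
theorem result {G : Type*} [Group G] [Finite G] (x₀ : G) (hx₀ : orderOf x₀ = 2) (ha : ∀ x : G, IsConj x₀ x → IsPGroup 2 ↥(Subgroup.closure {y : G | IsConj x₀ y ∧ Commute y x}) ∧ ⁅⁅Subgroup.closure {y : G | IsConj x₀ y ∧ Commute y x}, Subgroup.closure {y : G | IsConj x₀ y ∧ Commute y x}⁆, Subgroup.closure {y : G | IsConj x₀ y ∧ Commute y x}⁆ = ⊥) (hb : ∀ x y : G, IsConj x₀ x → IsConj x₀ y → x ≠ y → Commute x y → IsConj x₀ (x * y)) (x y : G) (hx : IsConj x₀ x) (hy : IsConj x₀ y) (heven : Even (orderOf (x * y))) (hgt : 2 < orderOf (x * y)) : orderOf (x * y) = 4 := by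
  have hx00 : x₀ * x₀ = 1 := by
    have := pow_orderOf_eq_one x₀
    rwa [hx₀, pow_two] at this
  have hinv : ∀ w : G, IsConj x₀ w → w * w = 1 := by
    intro w hw
    obtain ⟨g, rfl⟩ := isConj_iff.mp hw
    calc g * x₀ * g⁻¹ * (g * x₀ * g⁻¹) = g * (x₀ * x₀) * g⁻¹ := by group
      _ = 1 := by rw [hx00]; group
  have hxx := hinv x hx
  have hyy := hinv y hy
  have hxi : x⁻¹ = x := inv_eq_of_mul_eq_one_left hxx
  have hyi : y⁻¹ = y := inv_eq_of_mul_eq_one_left hyy
  have hD : ∀ g w : G, w ∈ {w : G | IsConj x₀ w} → g * w * g⁻¹ ∈ {w : G | IsConj x₀ w} := by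
    intro g w hw
    exact IsConj.trans hw (isConj_iff.mpr ⟨g, rfl⟩)
  obtain ⟨c, hc1, hcc, hcx, hcy, hcxD, hcyD⟩ :=
    Cfsg.Agent.Lib.Helper7_Dih.dih_even hD (a := x) (b := y) hx hy hxx hyy
      (Nat.not_odd_iff_even.mpr heven)
  have hcD : IsConj x₀ c := by
    have h1 : c * x ≠ x := by
      intro h
      apply hc1
      calc c = (c * x) * x⁻¹ := by group
        _ = 1 := by rw [h]; group
    have h2 : Commute (c * x) x := by
      show c * x * x = x * (c * x)
      rw [← mul_assoc, ← hcx]
    have h3 := hb (c * x) x hcxD hx h1 h2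
    rwa [mul_assoc, hxx, mul_one] at h3
  obtain ⟨-, hcl⟩ := ha c hcD
  have hxW : x ∈ Subgroup.closure {y : G | IsConj x₀ y ∧ Commute y c} :=
    Subgroup.subset_closure ⟨hx, hcx.symm⟩
  have hyW : y ∈ Subgroup.closure {y : G | IsConj x₀ y ∧ Commute y c} :=
    Subgroup.subset_closure ⟨hy, hcy.symm⟩
  have hmemW := Subgroup.commutator_mem_commutator
    (Subgroup.commutator_mem_commutator hxW hyW) hyW
  rw [hcl, Subgroup.mem_bot] at hmemW
  have e2 : (x * y * x * y)⁻¹ = y * x * y * x := by
    rw [mul_inv_rev, mul_inv_rev, mul_inv_rev, hxi, hyi]; group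
  have h4 : (x * y) ^ 4 = 1 := by
    rw [← hmemW, commutatorElement_def, commutatorElement_def, hxi, hyi, e2]
    symm
    calc x * y * x * y * y * (y * x * y * x) * y = x * y * x * (y * y) * y * x * y * x * y := by
          group
      _ = x * y * x * y * x * y * x * y := by rw [hyy, mul_one]
      _ = (x * y) ^ 4 := by simp only [pow_succ, pow_zero, one_mul, mul_assoc]
  have hd : orderOf (x * y) ∣ 4 := orderOf_dvd_of_pow_eq_one h4
  have hle : orderOf (x * y) ≤ 4 := Nat.le_of_dvd (by norm_num) hd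
  have h34 : orderOf (x * y) = 3 ∨ orderOf (x * y) = 4 := by omega
  rcases h34 with h | h
  · rw [h] at hd; norm_num at hd
  · exact h

end Cfsg.Agent.S1176
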