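import Cfsg.Statements.S1177
import Mathlib
import Cfsg.Agent.Lib.Helper2_Sylow

set_option autoImplicit false
open Cfsg

namespace Cfsg.Agent.S1177

open Cfsg.Agent.Lib.Helper2_Basic Cfsg.Agent.Lib.Helper2_Sylow

/-- Let A be a nontrivial elementary abelian 2-subgroup of a finite group G which is a T.I. set (each conjugate of A meets A trivially or equals A) and which does not commute elementwise with any conjugate of A other than A itself. Then for every a ∈ A, a ≠ 1, every conjugate of A contained in C_G(a) is equal to A (A is weakly closed in C_G(a)). -/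
theorem result {G : Type*} [Group G] [Finite G] (A : Subgroup G) (hA : Cfsg.IsElementaryAbelian 2 A) (hA1 : A ≠ ⊥) (hTI : ∀ g : G, A.map (MulAut.conj g).toMonoidHom ⊓ A = ⊥ ∨ A.map (MulAut.conj g).toMonoidHom = A) (hb : ∀ g : G, (∀ a ∈ A, ∀ b ∈ A.map (MulAut.conj g).toMonoidHom, a * b = b * a) → A.map (MulAut.conj g).toMonoidHom = A) (a : G) (ha : a ∈ A) (ha1 : a ≠ 1) (g : G) (hg : A.map (MulAut.conj g).toMonoidHom ≤ Subgroup.centralizer ({a} : Set G)) : A.map (MulAut.conj g).toMonoidHom = A := by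
  set B := A.map (MulAut.conj g).toMonoidHom with hB
  have hAc : ∀ x ∈ A, ∀ y ∈ A, x * y = y * x := isMulCommutative_iff_of_setLike.mp hA.1
  have hA2 : ∀ x ∈ A, x * x = 1 := fun x hx => by rw [← pow_two]; exact hA.2 x hx
  have hAi : ∀ x ∈ A, x⁻¹ = x := fun x hx => inv_eq_of_mul_eq_one_left (hA2 x hx)
  have hBc : ∀ x ∈ B, ∀ y ∈ B, x * y = y * x := by
    rintro _ ⟨x, hx, rfl⟩ _ ⟨y, hy, rfl⟩
    simp only [← map_mul]
    rw [hAc x hx y hy]
  have hB2 : ∀ x ∈ B, x * x = 1 := by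
    rintro _ ⟨x, hx, rfl⟩
    simp only [← map_mul]
    rw [hA2 x hx, map_one]
  -- TI consequences
  have F1 : ∀ x : G, ∀ c ∈ A, c ≠ 1 → x * c * x⁻¹ ∈ A → A.map (MulAut.conj x).toMonoidHom = A := by
    intro x c hc hc1 hxc
    rcases hTI x with h | h
    · exfalso
      have : x * c * x⁻¹ ∈ A.map (MulAut.conj x).toMonoidHom ⊓ A := ⟨cj_mem hc, hxc⟩
      rw [h, Subgroup.mem_bot] at this
      apply hc1
      have h2 : x * c = x := by simpa using (mul_inv_eq_one.mp this)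
      simpa using h2
    · exact h
  have tr : ∀ x : G, A.map (MulAut.conj (g⁻¹ * x * g)).toMonoidHom = A →
      B.map (MulAut.conj x).toMonoidHom = B := by
    intro x hx
    have : B.map (MulAut.conj x).toMonoidHom =
        (A.map (MulAut.conj (g⁻¹ * x * g)).toMonoidHom).map (MulAut.conj g).toMonoidHom := by
      rw [hB, cj_cj, cj_cj]; congr 3; simp [mul_assoc]
    rw [this, hx]
  have F1' : ∀ x : G, ∀ c ∈ B, c ≠ 1 → x * c * x⁻¹ ∈ B → B.map (MulAut.conj x).toMonoidHom = B := by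
    intro x c hc hc1 hxc
    apply tr
    rw [hB, mem_cj] at hc hxc
    apply F1 _ (g⁻¹ * c * g) hc
    · intro h
      apply hc1
      have : c = g * (g⁻¹ * c * g) * g⁻¹ := by simp [mul_assoc]
      rw [this, h]; simp
    · simpa [mul_assoc] using hxc
  have F2' : ∀ x : G, (∀ b ∈ B, ∀ b' ∈ B, (x * b * x⁻¹) * b' = b' * (x * b * x⁻¹)) →
      B.map (MulAut.conj x).toMonoidHom = B := by
    intro x hx
    apply tr
    apply hb
    intro a1 ha1 c hc
    rw [mem_cj] at hc
    have := hx (g * ((g⁻¹ * x * g)⁻¹ * c * (g⁻¹ * x * g)) * g⁻¹) (cj_mem hc) (g * a1 * g⁻¹) (cj_mem ha1)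
    have h2 := congrArg (fun w => g⁻¹ * w * g) this
    simp only [mul_assoc, mul_inv_rev, inv_inv, inv_mul_cancel_left, mul_inv_cancel_left,
      inv_mul_cancel, mul_one] at h2
    exact h2.symm
  rcases hTI g with hdis | h
  swap
  · exact h
  have hdis' : ∀ w, w ∈ A → w ∈ B → w = 1 := by
    intro w hwA hwB
    have : w ∈ B ⊓ A := ⟨hwB, hwA⟩
    rw [hdis] at this
    exact Subgroup.mem_bot.mp this
  -- Step 1 : B normalizes A
  have S1 : ∀ b ∈ B, ∀ c ∈ A, b * c * b⁻¹ ∈ A := by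
    intro b hb c hc
    have hba : b * a * b⁻¹ = a := by
      have := Subgroup.mem_centralizer_singleton_iff.mp (hg hb)
      rw [this]; simp
    have h1 := F1 b a ha ha1 (by rw [hba]; exact ha)
    rw [← h1]
    exact cj_mem hc
  -- Step 2
  have S2 : ∀ a' ∈ A, ∀ b ∈ B, ∀ b' ∈ B, (a' * b * a'⁻¹) * b' = b' * (a' * b * a'⁻¹) := by
    intro a' ha' b hb b' hb'
    by_cases hb1 : b = 1
    · subst hb1; simp
    set c := a' * (b * a'⁻¹ * b⁻¹) with hc
    have hbi : b⁻¹ = b := inv_eq_of_mul_eq_one_left (hB2 b hb)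
    have hcA : c ∈ A := A.mul_mem ha' (S1 b hb _ (A.inv_mem ha'))
    have hbc : b * c * b⁻¹ = c := by
      have e1 : b * c * b⁻¹ = (b * a' * b⁻¹) * a'⁻¹ := by
        rw [hc]
        calc b * (a' * (b * a'⁻¹ * b⁻¹)) * b⁻¹ = (b * a' * b⁻¹) * ((b * b) * a'⁻¹ * (b⁻¹ * b⁻¹)) := by
              simp [mul_assoc]
          _ = (b * a' * b⁻¹) * a'⁻¹ := by rw [hbi, hB2 b hb]; simp
      have e2 : (b * a' * b⁻¹) * a'⁻¹ = c⁻¹ := by
        rw [hc]; simp [mul_assoc]
      rw [e1, e2, hAi c hcA]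
    have hcb : c * b * c⁻¹ = b := by
      have : b * c = c * b := by
        calc b * c = b * c * b⁻¹ * b := by simp
          _ = c * b := by rw [hbc]
      rw [← this]; simp
    have hBc' := F1' c b hb hb1 (by rw [hcb]; exact hb)
    have hcomm : c * b' = b' * c := by
      have m1 : c * b' * c⁻¹ ∈ B := by rw [← hBc']; exact cj_mem hb'
      have m2 : c * b' * c⁻¹ * b'⁻¹ ∈ B := B.mul_mem m1 (B.inv_mem hb')
      have m3 : c * b' * c⁻¹ * b'⁻¹ ∈ A := by
        have : c * b' * c⁻¹ * b'⁻¹ = c * (b' * c⁻¹ * b'⁻¹) := by simp only [mul_assoc]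
        rw [this]
        exact A.mul_mem hcA (S1 b' hb' _ (A.inv_mem hcA))
      have m4 := hdis' _ m3 m2
      have m5 : c * b' * c⁻¹ = b' := mul_inv_eq_one.mp m4
      calc c * b' = c * b' * c⁻¹ * c := by simp
        _ = b' * c := by rw [m5]
    have e3 : a' * b * a'⁻¹ = c * b := by rw [hc]; simp [mul_assoc]
    rw [e3]
    calc c * b * b' = c * (b * b') := mul_assoc _ _ _
      _ = c * (b' * b) := by rw [hBc b hb b' hb']
      _ = (c * b') * b := (mul_assoc _ _ _).symm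
      _ = b' * c * b := by rw [hcomm]
      _ = b' * (c * b) := mul_assoc _ _ _
  -- Step 3 : A normalizes B
  have S3 : ∀ a' ∈ A, ∀ b ∈ B, a' * b * a'⁻¹ ∈ B := by
    intro a' ha' b hb
    have := F2' a' (S2 a' ha')
    rw [← this]
    exact cj_mem hb
  apply hb
  intro a' ha' b hb
  have m2 : a' * b * a'⁻¹ * b⁻¹ ∈ B := B.mul_mem (S3 a' ha' b hb) (B.inv_mem hb)
  have m3 : a' * b * a'⁻¹ * b⁻¹ ∈ A := by
    have : a' * b * a'⁻¹ * b⁻¹ = a' * (b * a'⁻¹ * b⁻¹) := by simp only [mul_assoc]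
    rw [this]
    exact A.mul_mem ha' (S1 b hb _ (A.inv_mem ha'))
  have m4 := hdis' _ m3 m2
  have m5 : a' * b * a'⁻¹ = b := mul_inv_eq_one.mp m4
  calc a' * b = a' * b * a'⁻¹ * a' := by simp
    _ = b * a' := by rw [m5]

end Cfsg.Agent.S1177
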