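import Cfsg.Statements.S1185
import Mathlib
import Cfsg.Agent.Lib.Helper2_Isolated

set_option autoImplicit false
open Cfsg

namespace Cfsg.Agent.S1185

open Cfsg.Agent.Lib.Helper2_Basic Cfsg.Agent.Lib.Helper2_Isolated

/-- Let z be an isolated involution of the finite group G with centralizer C. Then for every g ∈ G there is exactly one element k in the coset gC that has odd order and is inverted by z. -/
theorem result {G : Type*} [Group G] [Finite G] (z : G) (hz : Cfsg.IsIsolatedInvolution z) (g : G) : ∃! k : G, (Odd (orderOf k) ∧ z * k * z⁻¹ = k⁻¹) ∧ g⁻¹ * k ∈ Subgroup.centralizer ({z} : Set G) := by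
  have hzz := sq_eq_one_of_orderOf_two hz.1
  have hzi := inv_eq_self_of_orderOf_two hz.1
  have ht := conj_sq z g hzz
  obtain ⟨i, hi⟩ := exists_pow_conj hz g
  set d := g * z * g⁻¹ * z with hd
  have huniq : ∀ k1 k2 : G, Odd (orderOf k1) → Odd (orderOf k2) → z * k1 * z⁻¹ = k1⁻¹ →
      z * k2 * z⁻¹ = k2⁻¹ → k1 * z * k1⁻¹ = k2 * z * k2⁻¹ → k1 = k2 := by
    intro k1 k2 o1 o2 i1 i2 hk
    have f : ∀ k : G, z * k * z⁻¹ = k⁻¹ → k * z * k⁻¹ = k * k * z := by
      intro k hk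
      have h1 : z * k⁻¹ * z⁻¹ = k := by
        have := congrArg (fun x => x⁻¹) hk
        simpa [mul_assoc] using this
      have h2 : z * k⁻¹ = k * z := by
        calc z * k⁻¹ = z * k⁻¹ * z⁻¹ * z := by simp
          _ = k * z := by rw [h1]
      rw [mul_assoc, h2, mul_assoc]
    rw [f k1 i1, f k2 i2] at hk
    have hsq : k1 ^ 2 = k2 ^ 2 := by
      rw [pow_two, pow_two]; exact mul_right_cancel hk
    obtain ⟨c, hc⟩ := o1.mul o2
    have e1 : k1 ^ (orderOf k1 * orderOf k2) = 1 := by rw [pow_mul, pow_orderOf_eq_one, one_pow]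
    have e2 : k2 ^ (orderOf k1 * orderOf k2) = 1 := by
      rw [mul_comm, pow_mul, pow_orderOf_eq_one, one_pow]
    calc k1 = k1 ^ (orderOf k1 * orderOf k2) * k1 := by rw [e1, one_mul]
      _ = (k1 ^ 2) ^ (c + 1) := by rw [hc, ← pow_succ, ← pow_mul]; congr 1
      _ = (k2 ^ 2) ^ (c + 1) := by rw [hsq]
      _ = k2 ^ (orderOf k1 * orderOf k2) * k2 := by rw [hc, ← pow_succ, ← pow_mul]; congr 1
      _ = k2 := by rw [e2, one_mul]
  have hcen : ∀ k : G, g⁻¹ * k ∈ Subgroup.centralizer ({z} : Set G) ↔ k * z * k⁻¹ = g * z * g⁻¹ := by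
    intro k
    rw [Subgroup.mem_centralizer_singleton_iff]
    constructor
    · intro h
      have h1 : k * z = g * z * g⁻¹ * k := by
        calc k * z = g * (g⁻¹ * k * z) := by simp [mul_assoc]
          _ = g * (z * (g⁻¹ * k)) := by rw [h]
          _ = g * z * g⁻¹ * k := by simp [mul_assoc]
      rw [h1]; simp
    · intro h
      have h1 : k * z = g * z * g⁻¹ * k := by rw [← h]; simp
      calc g⁻¹ * k * z = g⁻¹ * (k * z) := by rw [mul_assoc]
        _ = g⁻¹ * (g * z * g⁻¹ * k) := by rw [h1]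
        _ = z * (g⁻¹ * k) := by simp [mul_assoc]
  have hodd : Odd (orderOf (d ^ i)) := (key hz g).of_dvd_nat (orderOf_pow_dvd i)
  have hinv : z * d ^ i * z⁻¹ = (d ^ i)⁻¹ := by
    rw [← conj_pow, conj_mul z _ hzz ht, inv_pow]
  refine ⟨d ^ i, ⟨⟨hodd, hinv⟩, (hcen _).mpr hi⟩, ?_⟩
  rintro k ⟨⟨ho, hki⟩, hkc⟩
  exact huniq k (d ^ i) ho hodd hki hinv (((hcen k).mp hkc).trans hi.symm)

end Cfsg.Agent.S1185
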