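import Cfsg.Statements.S1183
import Cfsg.Agent.S1185
import Cfsg.Agent.Lib.Helper7_ZStar
import Cfsg.Agent.Lib.Helper7_ZStar2
import Cfsg.Agent.Lib.Helper9_PResidual

set_option autoImplicit false
open Cfsg

namespace Cfsg.Agent.S1183

open Cfsg.Agent.Lib.Helper7_ZStar Cfsg.Agent.Lib.Helper7_ZStar2

theorem odd_iff_coprime (n : ℕ) : Odd n ↔ Nat.Coprime n 2 := by
  rw [Nat.coprime_comm, Nat.coprime_two_left]

/-- an element of odd order is a power of its square -/
theorem mem_of_sq_mem {G : Type*} [Group G] (H : Subgroup G) {k : G} (hk : Odd (orderOf k))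
    (h : k ^ 2 ∈ H) : k ∈ H := by
  obtain ⟨m, hm⟩ := hk
  have h1 : k = (k ^ 2) ^ (m + 1) := by
    rw [← pow_mul]
    have : 2 * (m + 1) = orderOf k + 1 := by omega
    rw [this, pow_succ, pow_orderOf_eq_one, one_mul]
  rw [h1]
  exact H.pow_mem h _

theorem decomp {G : Type*} [Group G] [Finite G] (z : G) (hz : Cfsg.IsIsolatedInvolution z) (g : G) :
    ∃ k c : G, Odd (orderOf k) ∧ k ∈ pPrimeCore 2 G ∧ c ∈ Subgroup.centralizer ({z} : Set G) ∧
      g = k * c := by
  obtain ⟨k, ⟨⟨hk1, hk2⟩, hk3⟩, -⟩ := Cfsg.Agent.S1185.result z hz g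
  refine ⟨k, k⁻¹ * g, hk1, ?_, ?_, by group⟩
  · have h1 := zstar hz k
    rw [hk2] at h1
    have h2 : k ^ 2 ∈ pPrimeCore 2 G := by
      have := (pPrimeCore 2 G).inv_mem h1
      have e : (k⁻¹ * k⁻¹)⁻¹ = k ^ 2 := by group
      rwa [e] at this
    exact mem_of_sq_mem _ hk1 h2
  · have := (Subgroup.centralizer ({z} : Set G)).inv_mem hk3
    have e : (g⁻¹ * k)⁻¹ = k⁻¹ * g := by group
    rwa [e] at this

/-- Let z be an isolated involution of the finite group G and C = C_G(z). Then the subgroup of G generated by its elements of odd order is all of G if and only if the subgroup of C generated by its elements of odd order is all of C. -/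
theorem result {G : Type*} [Group G] [Finite G] (z : G) (hz : Cfsg.IsIsolatedInvolution z) : Cfsg.pResidual 2 G = ⊤ ↔ Cfsg.pResidual 2 ↥(Subgroup.centralizer ({z} : Set G)) = ⊤ := by
  set C := Subgroup.centralizer ({z} : Set G) with hC
  have hmap : (Cfsg.pResidual 2 ↥C).map C.subtype ≤ Cfsg.pResidual 2 G := by
    unfold Cfsg.pResidual
    rw [MonoidHom.map_closure, Subgroup.closure_le]
    rintro _ ⟨c, hc, rfl⟩
    apply Subgroup.subset_closure
    show Nat.Coprime (orderOf (c : G)) 2
    rw [Subgroup.orderOf_coe]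
    exact hc
  constructor
  · intro h
    haveI hOn : (pPrimeCore 2 G).Normal := core_normal
    set D := (Cfsg.pResidual 2 ↥C).map C.subtype with hD
    have hDC : D ≤ C := Subgroup.map_subtype_le _
    have hoddC : ∀ c ∈ C, Odd (orderOf c) → c ∈ D := by
      intro c hc ho
      refine ⟨⟨c, hc⟩, ?_, rfl⟩
      apply Subgroup.subset_closure
      show Nat.Coprime (orderOf (⟨c, hc⟩ : C)) 2
      rw [← Subgroup.orderOf_coe]
      exact (odd_iff_coprime _).mp ho
    have hoddO : ∀ x ∈ pPrimeCore 2 G, Odd (orderOf x) := by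
      intro x hx
      have h1 : orderOf x ∣ Nat.card (pPrimeCore 2 G) := by
        have := orderOf_dvd_natCard (⟨x, hx⟩ : pPrimeCore 2 G)
        rwa [← Subgroup.orderOf_coe] at this
      exact Odd.of_dvd_nat core_odd h1
    have hall : Cfsg.pResidual 2 G ≤ pPrimeCore 2 G ⊔ D := by
      unfold Cfsg.pResidual
      rw [Subgroup.closure_le]
      intro g hg
      have hg' : Odd (orderOf g) := (odd_iff_coprime _).mpr hg
      obtain ⟨k, c, hk1, hk2, hc, rfl⟩ := decomp z hz g
      refine Subgroup.mul_mem _ (Subgroup.mem_sup_left hk2) (Subgroup.mem_sup_right ?_)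
      apply hoddC c hc
      -- c ^ m ∈ O
      set m := orderOf (k * c) with hm
      have h1 : c ^ m ∈ pPrimeCore 2 G := by
        rw [← QuotientGroup.eq_one_iff, QuotientGroup.mk_pow]
        have e1 : ((k * c : G) : G ⧸ pPrimeCore 2 G) = (c : G ⧸ pPrimeCore 2 G) := by
          rw [QuotientGroup.mk_mul, (QuotientGroup.eq_one_iff k).mpr hk2, one_mul]
        rw [← e1, ← QuotientGroup.mk_pow, hm, pow_orderOf_eq_one]
        rfl
      have h2 := hoddO _ h1
      have h3 : orderOf c ∣ m * orderOf (c ^ m) := by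
        rw [orderOf_dvd_iff_pow_eq_one, pow_mul, pow_orderOf_eq_one]
      exact Odd.of_dvd_nat (hg'.mul h2) h3
    rw [h, top_le_iff] at hall
    rw [eq_top_iff]
    intro c _
    have h1 : (c : G) ∈ pPrimeCore 2 G ⊔ D := by rw [hall]; trivial
    have h1' : (c : G) ∈ ((pPrimeCore 2 G ⊔ D : Subgroup G) : Set G) := h1
    rw [Subgroup.normal_mul] at h1'
    obtain ⟨n, hn, d, hd, hnd⟩ := h1'
    have hnC : n ∈ C := by
      have : n = (c : G) * d⁻¹ := by rw [← hnd]; group
      rw [this]
      exact C.mul_mem c.2 (C.inv_mem (hDC hd))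
    have hnD : n ∈ D := hoddC n hnC (hoddO n hn)
    have hcD : (c : G) ∈ D := hnd ▸ D.mul_mem hnD hd
    obtain ⟨c', hc', hcc⟩ := hcD
    have : c' = c := Subtype.ext hcc
    rw [← this]; exact hc'
  · intro h
    rw [eq_top_iff]
    intro g _
    obtain ⟨k, c, hk1, hk2, hc, rfl⟩ := decomp z hz g
    refine Subgroup.mul_mem _ ?_ ?_
    · exact Subgroup.subset_closure ((odd_iff_coprime _).mp hk1)
    · apply hmap
      refine ⟨⟨c, hc⟩, ?_, rfl⟩
      rw [h]; trivial

end Cfsg.Agent.S1183
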