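import Cfsg.Statements.S1184
import Mathlib
import Cfsg.Agent.Lib.Helper2_Isolated

set_option autoImplicit false
open Cfsg

namespace Cfsg.Agent.S1184

open Cfsg.Agent.Lib.Helper2_Basic Cfsg.Agent.Lib.Helper2_Isolated

/-- Let z be an isolated involution of the finite group G. If s and t are distinct conjugates of z, then st does not commute with z. -/
theorem result {G : Type*} [Group G] [Finite G] (z : G) (hz : Cfsg.IsIsolatedInvolution z) (g h : G) (hne : g * z * g⁻¹ ≠ h * z * h⁻¹) : ¬ Commute (g * z * g⁻¹ * (h * z * h⁻¹)) z := by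
  intro hc
  have hzz := sq_eq_one_of_orderOf_two hz.1
  have hzi := inv_eq_self_of_orderOf_two hz.1
  set s := g * z * g⁻¹ with hs
  set t := h * z * h⁻¹ with ht
  have hss : s * s = 1 := conj_sq z g hzz
  have htt : t * t = 1 := conj_sq z h hzz
  have hsi : s⁻¹ = s := inv_eq_of_mul_eq_one_left hss
  have hti : t⁻¹ = t := inv_eq_of_mul_eq_one_left htt
  -- e = s * z has odd order and inverts d = s * t
  have he : Odd (orderOf (s * z)) := key hz g
  have hinv : (s * z) * (s * t) * (s * z)⁻¹ = (s * t)⁻¹ := by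
    have h1 : z * (s * t) = (s * t) * z := hc.eq.symm
    calc (s * z) * (s * t) * (s * z)⁻¹ = s * (z * (s * t)) * z⁻¹ * s⁻¹ := by
          simp [mul_assoc]
      _ = s * ((s * t) * z) * z⁻¹ * s⁻¹ := by rw [h1]
      _ = (s * s) * t * s⁻¹ := by simp [mul_assoc]
      _ = t * s := by rw [hss, hsi, one_mul]
      _ = (s * t)⁻¹ := by rw [mul_inv_rev, hsi, hti]
  have hinv' : (s * z) * (s * t)⁻¹ * (s * z)⁻¹ = s * t := by
    have := congrArg (fun x => x⁻¹) hinv
    simpa [mul_assoc] using this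
  have h2 : Commute ((s * z) * (s * z)) (s * t) := by
    show (s * z) * (s * z) * (s * t) = (s * t) * ((s * z) * (s * z))
    have a1 : (s * z) * (s * t) = (s * t)⁻¹ * (s * z) := mul_inv_eq_iff_eq_mul.mp hinv
    have a2 : (s * z) * (s * t)⁻¹ = (s * t) * (s * z) := mul_inv_eq_iff_eq_mul.mp hinv'
    calc (s * z) * (s * z) * (s * t) = (s * z) * ((s * z) * (s * t)) := mul_assoc _ _ _
      _ = (s * z) * ((s * t)⁻¹ * (s * z)) := by rw [a1]
      _ = ((s * z) * (s * t)⁻¹) * (s * z) := (mul_assoc _ _ _).symm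
      _ = (s * t) * (s * z) * (s * z) := by rw [a2]
      _ = (s * t) * ((s * z) * (s * z)) := mul_assoc _ _ _
  obtain ⟨m, hm⟩ := he
  have h3 : ((s * z) * (s * z)) ^ m * (s * z) = 1 := by
    rw [← pow_two, ← pow_mul, ← pow_succ, ← hm, pow_orderOf_eq_one]
  have h4 : Commute (s * z) (s * t) := by
    have : s * z = (((s * z) * (s * z)) ^ m)⁻¹ := (inv_eq_of_mul_eq_one_right h3).symm
    rw [this]
    exact (h2.pow_left m).inv_left
  have h5 : (s * t) = (s * t)⁻¹ := by
    rw [← hinv, h4.eq, mul_inv_cancel_right]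
  have h6 : (s * t) * (s * t) = 1 := by
    nth_rewrite 2 [h5]; simp
  -- s * t has odd order
  have h7 : Odd (orderOf (t * s)) := by
    have := key (conj_isolated hz g) (h * g⁻¹)
    have e : h * g⁻¹ * (g * z * g⁻¹) * (h * g⁻¹)⁻¹ = t := by simp [ht, mul_assoc]
    rwa [e] at this
  have h8 : t * s = (s * t)⁻¹ := by rw [mul_inv_rev, hsi, hti]
  rw [h8, orderOf_inv] at h7
  have h9 : orderOf (s * t) ∣ 2 := orderOf_dvd_of_pow_eq_one (by rw [pow_two]; exact h6)
  have h10 : orderOf (s * t) = 1 := by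
    rcases (Nat.dvd_prime Nat.prime_two).mp h9 with h | h
    · exact h
    · rw [h] at h7; exact absurd h7 (by decide)
  rw [orderOf_eq_one_iff] at h10
  apply hne
  calc s = s * (t * t) := by rw [htt, mul_one]
    _ = (s * t) * t := (mul_assoc _ _ _).symm
    _ = t := by rw [h10, one_mul]

end Cfsg.Agent.S1184
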