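import Cfsg.Statements.S1187
import Mathlib
import Cfsg.Agent.Lib.Helper7_IsoSyl
import Cfsg.Agent.Lib.Helper7_Frat2
import Cfsg.Agent.Lib.Helper4_Syl

set_option autoImplicit false
open Cfsg

namespace Cfsg.Agent.S1187

/-- Let z be an isolated involution of the finite group G and p a prime. If Q is a p-subgroup normalized by z that is maximal among p-subgroups normalized by z, then Q is a Sylow p-subgroup of G. -/
theorem result {G : Type*} [Group G] [Finite G] (z : G) (hz : Cfsg.IsIsolatedInvolution z) {p : ℕ} [Fact p.Prime] (Q : Subgroup G) (hQ : IsPGroup p Q) (hzQ : z ∈ Subgroup.normalizer (Q : Set G)) (hmax : ∀ R : Subgroup G, IsPGroup p R → z ∈ Subgroup.normalizer (R : Set G) → Q ≤ R → R = Q) : ∃ P : Sylow p G, (P : Subgroup G) = Q := by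
  set N : Subgroup G := Subgroup.normalizer (Q : Set G) with hN
  set z' : N := ⟨z, hzQ⟩ with hz'
  have hz'iso : Cfsg.IsIsolatedInvolution z' := by
    refine ⟨?_, ?_⟩
    · rw [← Subgroup.orderOf_coe]; exact hz.1
    · intro g hc
      apply Subtype.ext
      apply hz.2 (g : G)
      exact congrArg Subtype.val hc
  obtain ⟨R, hR⟩ := Cfsg.Agent.Lib.Helper7_IsoSyl.exists_invariant hz'iso p
  have hQN : Q ≤ N := Subgroup.le_normalizer
  haveI hQnorm : (Q.subgroupOf N).Normal := Subgroup.normal_in_normalizer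
  have hQNp : IsPGroup p (Q.subgroupOf N) := hQ.comap_subtype
  have hQR : Q.subgroupOf N ≤ R :=
    Cfsg.Agent.Lib.Helper7_Frat2.normal_pgroup_le_sylow (Q.subgroupOf N) hQNp R
  have hRG : (R : Subgroup N).map N.subtype = Q := by
    apply hmax
    · exact R.2.map _
    · rw [Subgroup.mem_normalizer_iff] at hR ⊢
      intro h
      constructor
      · rintro ⟨y, hy, rfl⟩
        exact ⟨z' * y * z'⁻¹, (hR y).mp hy, rfl⟩
      · rintro ⟨y, hy, e⟩
        have hh : h ∈ N := by
          have : h = z⁻¹ * (y : G) * z := by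
            have e' : (y : G) = z * h * z⁻¹ := e
            rw [e']; group
          rw [this]
          exact N.mul_mem (N.mul_mem (N.inv_mem hzQ) y.2) hzQ
        refine ⟨⟨h, hh⟩, ?_, rfl⟩
        rw [SetLike.mem_coe, hR]
        have : z' * ⟨h, hh⟩ * z'⁻¹ = y := Subtype.ext e.symm
        rw [this]; exact hy
    · intro x hx
      exact ⟨⟨x, hQN hx⟩, hQR hx, rfl⟩
  obtain ⟨P, hP⟩ := hQ.exists_le_sylow
  refine ⟨P, ?_⟩
  by_contra hne
  obtain ⟨x, hxP, hxQ, hxN⟩ := Cfsg.Agent.Lib.Helper4_Syl.exists_mem_normalizer_not_mem P.2 hP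
    (Ne.symm hne)
  have h1 : ((P : Subgroup G).subgroupOf N) = R := by
    apply R.is_maximal' (P.2.comap_subtype)
    intro y hy
    have : (y : G) ∈ (R : Subgroup N).map N.subtype := ⟨y, hy, rfl⟩
    rw [hRG] at this
    exact hP this
  have h2 : (⟨x, hxN⟩ : N) ∈ (R : Subgroup N) := by
    rw [← h1]; exact hxP
  apply hxQ
  rw [← hRG]
  exact ⟨⟨x, hxN⟩, h2, rfl⟩

end Cfsg.Agent.S1187
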