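import Cfsg.Statements.S1226
import Cfsg.Agent.Lib.Helper4_Syl

set_option autoImplicit false
open Cfsg

namespace Cfsg.Agent.S1226

open Cfsg.Agent.Lib.Helper4_Syl
open scoped Pointwise

/-- Let G be a finite group with a Sylow 2-subgroup T that is neither cyclic nor normal, such that the centralizer of every involution is an elementary abelian 2-group. Then N_G(T) is a strongly embedded subgroup of G. -/
theorem result {G : Type*} [Group G] [Finite G] (T : Sylow 2 G) (hnc : ¬ IsCyclic (T : Subgroup G)) (hnn : ¬ (T : Subgroup G).Normal) (hC : ∀ t : G, orderOf t = 2 → IsMulCommutative (Subgroup.centralizer ({t} : Set G)) ∧ ∀ c ∈ Subgroup.centralizer ({t} : Set G), c ^ 2 = 1) : Cfsg.IsStronglyEmbedded (Subgroup.normalizer ((T : Subgroup G) : Set G)) := by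
  have hT1 : (T : Subgroup G) ≠ ⊥ := by
    intro h
    apply hnc
    rw [h]
    infer_instance
  have h2grp : ∀ t : G, orderOf t = 2 → IsPGroup 2 (Subgroup.centralizer ({t} : Set G)) := by
    intro t ht c
    refine ⟨1, ?_⟩
    apply Subtype.ext
    rw [pow_one, Subgroup.coe_pow, Subgroup.coe_one]
    exact (hC t ht).2 c c.2
  obtain ⟨z, hzT, hzo, hzc⟩ := exists_central_orderOf_eq T.2 hT1
  have hTz : Subgroup.centralizer ({z} : Set G) = (T : Subgroup G) := by
    apply T.3 (h2grp z hzo)
    intro s hs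
    rw [Subgroup.mem_centralizer_singleton_iff]
    exact hzc s hs
  have hTab : ∀ a ∈ (T : Subgroup G), ∀ b ∈ (T : Subgroup G), a * b = b * a := by
    intro a ha b hb
    rw [← hTz] at ha hb
    exact congrArg Subtype.val ((hC z hzo).1.is_comm.comm ⟨a, ha⟩ ⟨b, hb⟩)
  have hCT : ∀ t ∈ (T : Subgroup G), orderOf t = 2 →
      Subgroup.centralizer ({t} : Set G) = (T : Subgroup G) := by
    intro t ht hto
    apply T.3 (h2grp t hto)
    intro s hs
    rw [Subgroup.mem_centralizer_singleton_iff]
    exact hTab s hs t ht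
  have hmem : ∀ t ∈ Subgroup.normalizer ((T : Subgroup G) : Set G), orderOf t = 2 →
      t ∈ (T : Subgroup G) := by
    intro t ht hto
    have h1 := (isPGroup_zpowers (p := 2) hto).inf_normalizer_sylow T
    have h2 : t ∈ Subgroup.zpowers t ⊓ Subgroup.normalizer ((T : Subgroup G) : Set G) :=
      ⟨Subgroup.mem_zpowers t, ht⟩
    have h3 : t ∈ Subgroup.zpowers t ⊓ (T : Subgroup G) := h1 ▸ h2
    exact h3.2
  refine ⟨fun h => hnn (Subgroup.normalizer_eq_top_iff.1 h), ?_, ?_⟩
  · exact even_iff_two_dvd.2 ((dvd_card_of_ne_bot T.2 hT1).trans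
      (Subgroup.card_dvd_of_le Subgroup.le_normalizer))
  · intro g hg
    rw [← Nat.not_even_iff_odd]
    intro hev
    obtain ⟨t, hto⟩ := exists_prime_orderOf_dvd_card' 2 (even_iff_two_dvd.1 hev)
    rw [← Subgroup.orderOf_coe] at hto
    obtain ⟨t, ht1, ht2'⟩ := t
    have ht2 : g⁻¹ * t * g ∈ Subgroup.normalizer ((T : Subgroup G) : Set G) := mem_conj_smul.1 ht2'
    simp only at hto
    have hs : orderOf (g⁻¹ * t * g) = 2 := by
      have := orderOf_conj_eq g⁻¹ t
      rw [inv_inv] at this
      rw [this, hto]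
    have e1 := hCT _ (hmem _ ht1 hto) hto
    have e2 := hCT _ (hmem _ ht2 hs) hs
    apply hg
    rw [mem_normalizer_iff_conj_smul]
    have e3 := centralizer_conj_singleton g (g⁻¹ * t * g)
    have e4 : g * (g⁻¹ * t * g) * g⁻¹ = t := by group
    rw [e4, e1, e2] at e3
    exact e3.symm

end Cfsg.Agent.S1226
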