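import Cfsg.Statements.S1231
import Cfsg.Agent.Lib.Helper4_Syl
import Cfsg.Agent.Lib.Helper2_EA

set_option autoImplicit false
open Cfsg

namespace Cfsg.Agent.S1231

open Cfsg.Agent.Lib.Helper4_Syl Cfsg.Agent.Lib.Helper2_EA
open scoped Pointwise

/-- the subgroup `X` has `p`-rank larger than `n` -/
def Big {G : Type*} [Group G] (p n : ℕ) (X : Subgroup G) : Prop :=
  ∃ E : Subgroup G, E ≤ X ∧ Cfsg.IsElementaryAbelian p E ∧ p ^ n < Nat.card E

theorem big_iff {G : Type*} [Group G] {p n : ℕ} (X : Subgroup G) :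
    ¬ Cfsg.PRankLE p n ↥X ↔ Big p n X := by
  constructor
  · intro h
    unfold Cfsg.PRankLE at h
    push Not at h
    obtain ⟨A, h1, h2, h3⟩ := h
    refine ⟨A.map X.subtype, Subgroup.map_subtype_le _, ea_map ⟨h1, h2⟩ _, ?_⟩
    rwa [Subgroup.card_map_of_injective X.subtype_injective]
  · rintro ⟨E, hE, hea, hc⟩ h
    have h1 := ea_subgroupOf hea X
    have h2 := h _ h1.1 h1.2
    rw [Nat.card_congr (Subgroup.subgroupOfEquivOfLe hE).toEquiv] at h2
    omega

theorem Big.mono {G : Type*} [Group G] {p n : ℕ} {X Y : Subgroup G} (h : Big p n X) (hXY : X ≤ Y) :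
    Big p n Y := by
  obtain ⟨E, hE, h1, h2⟩ := h
  exact ⟨E, hE.trans hXY, h1, h2⟩

theorem Big.smul {G : Type*} [Group G] {p n : ℕ} {X : Subgroup G} (h : Big p n X) (g : G) :
    Big p n (MulAut.conj g • X) := by
  obtain ⟨E, hE, h1, h2⟩ := h
  exact ⟨MulAut.conj g • E, Subgroup.pointwise_smul_le_pointwise_smul_iff.2 hE,
    ea_map h1 (MulAut.conj g).toMonoidHom, by rwa [card_conj_smul]⟩

/-- Let H be a subgroup of the finite group G, p a prime, k ≥ 1, and P a Sylow p-subgroup of H whose p-rank is at least k. Then N_G(X) ≤ H for every subgroup X of P of p-rank at least k if and only if H ∩ gHg⁻¹ has p-rank less than k for every g ∉ H. -/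
theorem result {G : Type*} [Group G] [Finite G] {p : ℕ} [Fact p.Prime] (k : ℕ) (hk : 1 ≤ k) (H : Subgroup G) (P : Sylow p ↥H) (hP : ¬ Cfsg.PRankLE p (k - 1) ↥(P : Subgroup ↥H)) : (∀ X : Subgroup G, X ≤ (P : Subgroup ↥H).map H.subtype → ¬ Cfsg.PRankLE p (k - 1) ↥X → Subgroup.normalizer (X : Set G) ≤ H) ↔ (∀ g : G, g ∉ H → Cfsg.PRankLE p (k - 1) ↥(H ⊓ H.map (MulAut.conj g).toMonoidHom)) := by
  set P' := (P : Subgroup ↥H).map H.subtype with hP'
  have hP'syl : IsSylIn p P' H := IsSylIn.of_sylow H P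
  simp only [big_iff]
  have hrw : ∀ g : G, Cfsg.PRankLE p (k - 1) ↥(H ⊓ H.map (MulAut.conj g).toMonoidHom) ↔
      ¬ Big p (k - 1) (H ⊓ MulAut.conj g • H) := by
    intro g
    rw [← big_iff, not_not]
    rfl
  simp only [hrw]
  constructor
  · intro hyp
    -- extension to all `p`-subgroups of `H`
    have hE1 : ∀ X : Subgroup G, X ≤ H → IsPGroup p X → Big p (k - 1) X →
        Subgroup.normalizer (X : Set G) ≤ H := by
      intro X hXH hXp hXb
      obtain ⟨P₁, hP₁, hXP₁⟩ := exists_isSylIn_ge hXH hXp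
      obtain ⟨h, hh, hhP⟩ := hP₁.conj hP'syl
      have h1 := hyp (MulAut.conj h • X)
        (hhP ▸ Subgroup.pointwise_smul_le_pointwise_smul_iff.2 hXP₁) (hXb.smul h)
      rw [normalizer_conj, conj_smul_le_iff, conj_smul_eq_of_mem (H.inv_mem hh)] at h1
      exact h1
    have hE2 : ∀ (g : G) (X : Subgroup G), X ≤ MulAut.conj g • H → IsPGroup p X → Big p (k - 1) X →
        Subgroup.normalizer (X : Set G) ≤ MulAut.conj g • H := by
      intro g X hXH hXp hXb
      have h1 := hE1 (MulAut.conj g⁻¹ • X) (by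
        rw [conj_smul_le_iff, inv_inv]; exact hXH) (isPGroup_conj hXp _) (hXb.smul _)
      rw [normalizer_conj, conj_smul_le_iff, inv_inv] at h1
      exact h1
    by_contra hcon
    push Not at hcon
    obtain ⟨g₀, hg₀, E, hE, hEea, hEc⟩ := hcon
    have hne : Nonempty {U : Subgroup G // IsPGroup p U ∧ Big p (k - 1) U ∧
        ∃ g : G, g ∉ H ∧ U ≤ H ⊓ MulAut.conj g • H} :=
      ⟨⟨E, ea_isPGroup hEea, ⟨E, le_rfl, hEea, hEc⟩, g₀, hg₀, hE⟩⟩
    obtain ⟨⟨U, hUp, hUb, g, hg, hU⟩, hmax⟩ := Finite.exists_max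
      (fun U : {U : Subgroup G // IsPGroup p U ∧ Big p (k - 1) U ∧
        ∃ g : G, g ∉ H ∧ U ≤ H ⊓ MulAut.conj g • H} => Nat.card (U : Subgroup G))
    have hN1 := hE1 U (hU.trans inf_le_left) hUp hUb
    have hN2 := hE2 g U (hU.trans inf_le_right) hUp hUb
    obtain ⟨P₁, hP₁, hUP₁⟩ := exists_isSylIn_ge (hU.trans inf_le_left) hUp
    by_cases hUeq : U = P₁
    · obtain ⟨P₂, hP₂, hUP₂⟩ := exists_isSylIn_ge (hU.trans inf_le_right) hUp
      obtain ⟨m, hm, hmP⟩ := (hP₁.smul g).conj hP₂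
      have hcard : Nat.card P₂ = Nat.card U := by
        rw [← hmP, card_conj_smul, card_conj_smul, hUeq]
      have hUP₂' : U = P₂ := Subgroup.eq_of_le_of_card_ge hUP₂ hcard.le
      rw [← hUP₂', ← hUeq, ← conj_mul_smul] at hmP
      have h1 : m * g ∈ H := hN1 (mem_normalizer_iff_conj_smul.2 hmP)
      have h2 : g⁻¹ * m * g ∈ H := mem_conj_smul.1 hm
      apply hg
      have : g = (m * g) * (g⁻¹ * m * g)⁻¹ := by group
      rw [this]
      exact H.mul_mem h1 (H.inv_mem h2)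
    · obtain ⟨x, hxP, hxU, hxN⟩ := exists_mem_normalizer_not_mem hP₁.isPGroup hUP₁ hUeq
      set U' := P₁ ⊓ Subgroup.normalizer (U : Set G) with hU'
      have hUU' : U ≤ U' := le_inf hUP₁ Subgroup.le_normalizer
      have h1 := hmax ⟨U', hP₁.isPGroup.to_le inf_le_left, hUb.mono hUU', g, hg,
        inf_le_right.trans (le_inf hN1 hN2)⟩
      simp only at h1
      have h2 : U = U' := Subgroup.eq_of_le_of_card_ge hUU' h1
      apply hxU
      rw [h2]
      exact ⟨hxP, hxN⟩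
  · intro hyp X hXP hXb g hg
    by_contra hgH
    apply hyp g hgH
    apply hXb.mono
    refine le_inf (hXP.trans hP'syl.le) ?_
    rw [← mem_normalizer_iff_conj_smul.1 hg]
    exact Subgroup.pointwise_smul_le_pointwise_smul_iff.2 (hXP.trans hP'syl.le)

end Cfsg.Agent.S1231
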