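import Cfsg.Statements.S1241
import Cfsg.Agent.Lib.Helper7_Transfer

set_option autoImplicit false
open Cfsg

namespace Cfsg.Agent.S1241

open Cfsg.Agent.Lib.Helper7_Transfer

/-- Let G be a finite group, p a prime, H a subgroup of index prime to p, K a subgroup of H normal in H with H/K commutative, and g ∈ H ∖ K an element of p-power order such that for all integers m and all a ∈ G with a g^m a⁻¹ ∈ H one has a g^m a⁻¹ ∈ g^m K. Then g ∉ G'. -/
theorem result {G : Type*} [Group G] [Finite G] {p : ℕ} [Fact p.Prime] (H K : Subgroup G) (hHK : K ≤ H) (hKn : (K.subgroupOf H).Normal) (hab : ∀ x ∈ H, ∀ y ∈ H, x * y * x⁻¹ * y⁻¹ ∈ K) (hidx : Nat.Coprime p H.index) (g : G) (hgH : g ∈ H) (hgK : g ∉ K) (hgp : ∃ k : ℕ, orderOf g = p ^ k) (hctrl : ∀ (m : ℤ) (a : G), a * g ^ m * a⁻¹ ∈ H → (a * g ^ m * a⁻¹) * (g ^ m)⁻¹ ∈ K) : g ∉ commutator G := by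
  letI : CommGroup (H ⧸ K.subgroupOf H) :=
    { (inferInstance : Group (H ⧸ K.subgroupOf H)) with
      mul_comm := by
        intro a b
        induction a using QuotientGroup.induction_on with
        | H a =>
        induction b using QuotientGroup.induction_on with
        | H b =>
        rw [← QuotientGroup.mk_mul, ← QuotientGroup.mk_mul, QuotientGroup.eq,
          Subgroup.mem_subgroupOf]
        have := hab _ (H.inv_mem b.2) _ (H.inv_mem a.2)
        simpa [mul_assoc] using this }
  set ϕ : H →* H ⧸ K.subgroupOf H := QuotientGroup.mk' (K.subgroupOf H) with hϕ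
  have h1 : MonoidHom.transfer ϕ g ≠ 1 := by
    apply transfer_ne_one ϕ hidx g hgH _ hgp
    · intro k g₀ hk
      rw [← map_pow]
      have h2 := hctrl k g₀⁻¹ (by simpa using hk)
      rw [hϕ, QuotientGroup.mk'_apply, QuotientGroup.mk'_apply, eq_comm, QuotientGroup.eq,
        Subgroup.mem_subgroupOf]
      have h3 := hKn.conj_mem ⟨_, hHK h2⟩ (Subgroup.mem_subgroupOf.mpr h2) (⟨g, hgH⟩ ^ k)⁻¹
      rw [Subgroup.mem_subgroupOf] at h3
      simpa [mul_assoc] using h3
    · intro h
      apply hgK
      rw [hϕ, QuotientGroup.mk'_apply, QuotientGroup.eq_one_iff, Subgroup.mem_subgroupOf] at h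
      exact h
  intro hg
  exact h1 (Abelianization.commutator_subset_ker _ hg)

end Cfsg.Agent.S1241
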