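import Cfsg.Statements.S1242
import Cfsg.Agent.Lib.Helper7_Transfer
import Cfsg.Agent.Lib.Helper9_PResidual

set_option autoImplicit false
open Cfsg

namespace Cfsg.Agent.S1242

open Cfsg.Agent.Lib.Helper7_Transfer Cfsg.Agent.Lib.Helper9_PResidual
open scoped commutatorElement

/-- Let G be a finite group, p a prime and H a subgroup of index prime to p such that any two elements of H of p-power order that are conjugate in G are conjugate in H. Then (O^p(G)·G') ∩ H = O^p(H)·H', where O^p denotes the subgroup generated by the elements of order prime to p. -/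
theorem result {G : Type*} [Group G] [Finite G] {p : ℕ} [Fact p.Prime] (H : Subgroup G) (hidx : Nat.Coprime p H.index) (hfus : ∀ g ∈ H, (∃ k : ℕ, orderOf g = p ^ k) → ∀ a : G, a * g * a⁻¹ ∈ H → ∃ h ∈ H, h * g * h⁻¹ = a * g * a⁻¹) : (Cfsg.pResidual p G ⊔ commutator G) ⊓ H = (Cfsg.pResidual p ↥H ⊔ commutator ↥H).map H.subtype := by
  have hp : p.Prime := Fact.out
  haveI : (Cfsg.pResidual p ↥H).Normal := pResidual_normal p H
  set K₀ : Subgroup H := Cfsg.pResidual p ↥H ⊔ commutator ↥H with hK₀
  haveI : K₀.Normal := inferInstance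
  apply le_antisymm
  · rintro x ⟨hx1, hx2⟩
    letI : CommGroup (H ⧸ K₀) :=
      { (inferInstance : Group (H ⧸ K₀)) with
        mul_comm := by
          intro a b
          induction a using QuotientGroup.induction_on with
          | H a =>
          induction b using QuotientGroup.induction_on with
          | H b =>
          rw [← QuotientGroup.mk_mul, ← QuotientGroup.mk_mul, QuotientGroup.eq]
          apply Subgroup.mem_sup_right
          have : (a * b)⁻¹ * (b * a) = ⁅b⁻¹, a⁻¹⁆ := by
            rw [commutatorElement_def]; group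
          rw [this]
          exact Subgroup.commutator_mem_commutator (Subgroup.mem_top _) (Subgroup.mem_top _) }
    set ϕ : H →* H ⧸ K₀ := QuotientGroup.mk' K₀ with hϕ
    set V := MonoidHom.transfer ϕ with hV
    have hϕ1 : ∀ h : H, h ∈ K₀ → ϕ h = 1 := fun h hh => (QuotientGroup.eq_one_iff h).mpr hh
    -- the target is a p-group
    have hApow : ∀ a : H ⧸ K₀, ∃ k : ℕ, a ^ (p ^ k) = 1 := by
      intro a
      induction a using QuotientGroup.induction_on with
      | H a =>
      obtain ⟨k, hk⟩ := exists_pow_mem_pResidual (p := p) a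
      exact ⟨k, by rw [← QuotientGroup.mk_pow]; exact hϕ1 _ (Subgroup.mem_sup_left hk)⟩
    have hVker : Cfsg.pResidual p G ⊔ commutator G ≤ V.ker := by
      apply sup_le
      · unfold Cfsg.pResidual
        rw [Subgroup.closure_le]
        intro y hy
        obtain ⟨k, hk⟩ := hApow (V y)
        have h1 : V y ^ orderOf y = 1 := by rw [← map_pow, pow_orderOf_eq_one, map_one]
        exact eq_one_of_pow_coprime (Nat.Coprime.pow_right k hy) h1 hk
      · exact Abelianization.commutator_subset_ker _
    have hVx : V x = 1 := hVker hx1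
    -- p-part exponent
    obtain ⟨a, n', hn', hcard⟩ := Nat.exists_eq_pow_mul_and_not_dvd (Nat.card_pos (α := G)).ne' p
      hp.ne_one
    have hcop : IsCoprime ((p ^ a : ℕ) : ℤ) (n' : ℤ) := by
      rw [Nat.isCoprime_iff_coprime]
      exact Nat.Coprime.pow_left a ((Nat.Prime.coprime_iff_not_dvd hp).mpr hn')
    obtain ⟨u, v, huv⟩ := hcop
    set e : ℤ := v * n' with he
    set g := x ^ e with hg
    have hgH : g ∈ H := H.zpow_mem hx2 _
    have hgpow : g ^ (p ^ a) = 1 := by
      rw [hg, ← zpow_natCast, ← zpow_mul]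
      have : e * ((p ^ a : ℕ) : ℤ) = (Nat.card G : ℤ) * v := by
        rw [he, hcard]; push_cast; ring
      rw [this, zpow_mul, zpow_natCast, pow_card_eq_one', one_zpow]
    have hgp : ∀ k : ℕ, ∃ j : ℕ, orderOf (g ^ k) = p ^ j := by
      intro k
      have h1 : (g ^ k) ^ (p ^ a) = 1 := by rw [← pow_mul, mul_comm, pow_mul, hgpow, one_pow]
      obtain ⟨j, -, hj⟩ := (Nat.dvd_prime_pow hp).mp (orderOf_dvd_of_pow_eq_one h1)
      exact ⟨j, hj⟩
    have hrest : (⟨x, hx2⟩ : H) ^ (1 - e) ∈ K₀ := by
      apply Subgroup.mem_sup_left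
      apply mem_pResidual_of_coprime
      have h1 : ((⟨x, hx2⟩ : H) ^ (1 - e)) ^ n' = 1 := by
        rw [← zpow_natCast, ← zpow_mul]
        have : (1 - e) * (n' : ℤ) = (Nat.card G : ℤ) * u := by
          have : 1 - e = u * ((p ^ a : ℕ) : ℤ) := by rw [he]; linarith
          rw [this, hcard]; push_cast; ring
        rw [this, zpow_mul, zpow_natCast]
        have : (⟨x, hx2⟩ : H) ^ Nat.card G = 1 := by
          apply Subtype.ext
          rw [Subgroup.coe_pow]
          exact pow_card_eq_one'
        rw [this, one_zpow]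
      exact Nat.Coprime.coprime_dvd_left (orderOf_dvd_of_pow_eq_one h1)
        ((Nat.Prime.coprime_iff_not_dvd hp).mpr hn').symm
    have hϕg : ϕ ⟨g, hgH⟩ = ϕ ⟨x, hx2⟩ := by
      have h1 : (⟨x, hx2⟩ : H) = ⟨g, hgH⟩ * (⟨x, hx2⟩ : H) ^ (1 - e) := by
        apply Subtype.ext
        rw [Subgroup.coe_mul, Subgroup.coe_zpow]
        show x = x ^ e * x ^ (1 - e)
        rw [← zpow_add]; simp
      conv_rhs => rw [h1]
      rw [map_mul, hϕ1 _ hrest, mul_one]
    by_contra hxK
    have hne : ϕ ⟨g, hgH⟩ ≠ 1 := by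
      rw [hϕg]
      intro h
      apply hxK
      exact ⟨⟨x, hx2⟩, (QuotientGroup.eq_one_iff _).mp h, rfl⟩
    have hVg : V g ≠ 1 := by
      apply transfer_ne_one ϕ hidx g hgH hne (by simpa using hgp 1)
      intro k g₀ hk
      obtain ⟨h, hh, hconj⟩ := hfus (g ^ k) (H.pow_mem hgH k) (hgp k) g₀⁻¹ (by simpa using hk)
      have h1 : (⟨g₀⁻¹ * g ^ k * g₀, hk⟩ : H) = ⟨h, hh⟩ * ⟨g, hgH⟩ ^ k * ⟨h, hh⟩⁻¹ := by
        apply Subtype.ext
        simp only [Subgroup.coe_mul, Subgroup.coe_pow, Subgroup.coe_inv]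
        rw [hconj]; simp
      rw [h1, map_mul, map_mul, map_inv, map_pow, mul_comm, inv_mul_cancel_left]
    apply hVg
    rw [hg, map_zpow, hVx, one_zpow]
  · rw [Subgroup.map_sup]
    apply le_inf _ (by rw [← Subgroup.map_sup]; exact Subgroup.map_subtype_le _)
    apply sup_le_sup
    · unfold Cfsg.pResidual
      rw [MonoidHom.map_closure, Subgroup.closure_le]
      rintro _ ⟨c, hc, rfl⟩
      apply Subgroup.subset_closure
      show Nat.Coprime (orderOf (c : G)) p
      rw [Subgroup.orderOf_coe]
      exact hc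
    · rw [commutator_def, commutator_def, Subgroup.map_commutator]
      exact Subgroup.commutator_mono le_top le_top

end Cfsg.Agent.S1242
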