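import Cfsg.Statements.S1243
import Mathlib
import Cfsg.Agent.Lib.Helper2_Sylow

set_option autoImplicit false
open Cfsg

namespace Cfsg.Agent.S1243

open Cfsg.Agent.Lib.Helper2_Basic Cfsg.Agent.Lib.Helper2_Sylow

/-- Let T be a Sylow p-subgroup of the finite group G and W ≤ T a subgroup weakly closed in T. If d and g d g⁻¹ both centralize W, then g d g⁻¹ = h d h⁻¹ for some h ∈ N_G(W). -/
theorem result {G : Type*} [Group G] [Finite G] {p : ℕ} [Fact p.Prime] (T : Sylow p G) (W : Subgroup G) (hW : Cfsg.IsWeaklyClosed W (T : Subgroup G)) (d g : G) (hd : d ∈ Subgroup.centralizer (W : Set G)) (hgd : g * d * g⁻¹ ∈ Subgroup.centralizer (W : Set G)) : ∃ h ∈ Subgroup.normalizer (W : Set G), h * d * h⁻¹ = g * d * g⁻¹ := by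
  have hWp : IsPGroup p W := T.2.to_le hW.1
  have hWC : W ≤ Subgroup.centralizer ({g * d * g⁻¹} : Set G) := by
    intro w hw
    rw [Subgroup.mem_centralizer_singleton_iff]
    exact Subgroup.mem_centralizer_iff.mp hgd w hw
  have hWgC : W.map (MulAut.conj g).toMonoidHom ≤ Subgroup.centralizer ({g * d * g⁻¹} : Set G) := by
    rintro _ ⟨w, hw, rfl⟩
    rw [Subgroup.mem_centralizer_singleton_iff]
    have h1 : w * d = d * w := Subgroup.mem_centralizer_iff.mp hd w hw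
    show g * w * g⁻¹ * (g * d * g⁻¹) = g * d * g⁻¹ * (g * w * g⁻¹)
    calc g * w * g⁻¹ * (g * d * g⁻¹) = g * (w * d) * g⁻¹ := by simp [mul_assoc]
      _ = g * (d * w) * g⁻¹ := by rw [h1]
      _ = g * d * g⁻¹ * (g * w * g⁻¹) := by simp [mul_assoc]
  obtain ⟨c, hc, P, hP, hWP, hcP⟩ := exists_conj_common_pGroup hWC hWgC hWp (isPGroup_cj hWp g)
  rw [cj_cj] at hcP
  have h2 := weaklyClosed_eq_of_le_pGroup T hW hP hWP (c * g) hcP
  refine ⟨c * g, cj_eq_self_iff.mp h2, ?_⟩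
  have h3 : c * (g * d * g⁻¹) = (g * d * g⁻¹) * c := Subgroup.mem_centralizer_singleton_iff.mp hc
  calc c * g * d * (c * g)⁻¹ = c * (g * d * g⁻¹) * c⁻¹ := by simp [mul_assoc]
    _ = (g * d * g⁻¹) * c * c⁻¹ := by rw [h3]
    _ = g * d * g⁻¹ := by simp

end Cfsg.Agent.S1243
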