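import Cfsg.Statements.S1244
import Cfsg.Agent.Lib.Helper1_Invol2

set_option autoImplicit false
open Cfsg

namespace Cfsg.Agent.S1244

open MulAction Subgroup

theorem card_sub_of_le {G : Type*} [Group G] {H K : Subgroup G} (h : H ≤ K) :
    Nat.card (H.subgroupOf K) = Nat.card H :=
  Nat.card_congr (Subgroup.subgroupOfEquivOfLe h).toEquiv

theorem card_sub_inf {G : Type*} [Group G] (H K : Subgroup G) :
    Nat.card (H.subgroupOf K) = Nat.card (H ⊓ K : Subgroup G) := by
  rw [← Subgroup.inf_subgroupOf_right, card_sub_of_le inf_le_right]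

/-- exact order of the elementary part from rank bounds -/
theorem card_of_rank {G : Type*} [Group G] [Finite G] (T E : Subgroup G) (hT : IsPGroup 2 T)
    (hcomm : ∀ x ∈ T, ∀ y ∈ T, x * y = y * x)
    (hE : ∀ x, x ∈ E ↔ x ∈ T ∧ x ^ 2 = 1) (k : ℕ) (h1 : Cfsg.PRankLE 2 k T)
    (h2 : k = 0 ∨ ¬ Cfsg.PRankLE 2 (k - 1) T) : Nat.card E = 2 ^ k := by
  haveI : Fact (Nat.Prime 2) := ⟨Nat.prime_two⟩
  have hET : E ≤ T := fun x hx => ((hE x).mp hx).1
  obtain ⟨j, hj⟩ := IsPGroup.iff_card.mp (hT.to_le hET)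
  have hle : Nat.card E ≤ 2 ^ k := by
    rw [← card_sub_of_le hET]
    apply h1
    · exact ⟨⟨fun a b => Subtype.ext (Subtype.ext (hcomm _ a.1.2 _ b.1.2))⟩⟩
    · intro a ha
      apply Subtype.ext
      rw [Subgroup.coe_pow]
      exact ((hE _).mp (Subgroup.mem_subgroupOf.mp ha)).2
  rw [hj] at hle ⊢
  have hjk : j ≤ k := (Nat.pow_le_pow_iff_right (by norm_num)).mp hle
  rcases h2 with h2 | h2
  · have : j = k := by omega
    rw [this]
  · unfold Cfsg.PRankLE at h2
    push Not at h2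
    obtain ⟨A, hA1, hA2, hA3⟩ := h2
    have hAE : A.map T.subtype ≤ E := by
      rintro _ ⟨a, ha, rfl⟩
      rw [hE]
      refine ⟨a.2, ?_⟩
      have := congrArg Subtype.val (hA2 a ha)
      simpa using this
    have h3 : Nat.card A ≤ Nat.card E := by
      rw [← Subgroup.card_map_of_injective T.subtype_injective]
      exact Subgroup.card_le_of_le hAE
    rw [hj] at h3
    have h4 : k - 1 < j := (Nat.pow_lt_pow_iff_right (by norm_num)).mp (lt_of_lt_of_le hA3 h3)
    have : j = k := by omega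
    rw [this]

/-- Let G be a finite group with no subgroup of index 2 whose Sylow 2-subgroup S is commutative, and let R ≤ S be a subgroup whose 2-rank is exactly one less than the 2-rank r of S. Then every involution of S is conjugate, by an element of N_G(S), to an element of R. -/
theorem result {G : Type*} [Group G] [Finite G] (hG : ∀ H : Subgroup G, H.index ≠ 2) (S : Sylow 2 G) (hS : IsMulCommutative (S : Subgroup G)) (r : ℕ) (hr1 : 1 ≤ r) (hSr : Cfsg.PRankLE 2 r (S : Subgroup G) ∧ ¬ Cfsg.PRankLE 2 (r - 1) (S : Subgroup G)) (R : Subgroup G) (hRS : R ≤ S) (hRr : Cfsg.PRankLE 2 (r - 1) R ∧ (r = 1 ∨ ¬ Cfsg.PRankLE 2 (r - 2) R)) (t : G) (ht : orderOf t = 2) (htS : t ∈ S) : ∃ n ∈ Subgroup.normalizer ((S : Subgroup G) : Set G), n * t * n⁻¹ ∈ R := by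
  classical
  by_contra hcon
  push Not at hcon
  haveI : Fact (Nat.Prime 2) := ⟨Nat.prime_two⟩
  have ht2 : t ^ 2 = 1 := by rw [← ht, pow_orderOf_eq_one]
  have hcomm : ∀ x ∈ (S : Subgroup G), ∀ y ∈ (S : Subgroup G), x * y = y * x := fun x hx y hy =>
    congrArg Subtype.val (hS.is_comm.comm ⟨x, hx⟩ ⟨y, hy⟩)
  let E : Subgroup G :=
    { carrier := {x | x ∈ (S : Subgroup G) ∧ x ^ 2 = 1}
      one_mem' := ⟨(S : Subgroup G).one_mem, one_pow 2⟩
      mul_mem' := by
        rintro a b ⟨ha, ha2⟩ ⟨hb, hb2⟩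
        refine ⟨mul_mem ha hb, ?_⟩
        rw [(show Commute a b from hcomm a ha b hb).mul_pow, ha2, hb2, one_mul]
      inv_mem' := by
        rintro a ⟨ha, ha2⟩
        exact ⟨inv_mem ha, by rw [inv_pow, ha2, inv_one]⟩ }
  have hEmem : ∀ x, x ∈ E ↔ x ∈ (S : Subgroup G) ∧ x ^ 2 = 1 := fun x => Iff.rfl
  have hcE : Nat.card E = 2 ^ r :=
    card_of_rank (S : Subgroup G) E S.isPGroup' hcomm hEmem r hSr.1 (Or.inr hSr.2)
  set E₀ : Subgroup G := E ⊓ R with hE₀
  have hcE₀ : Nat.card E₀ = 2 ^ (r - 1) := by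
    apply card_of_rank R E₀ (S.isPGroup'.to_le hRS) (fun x hx y hy => hcomm x (hRS hx) y (hRS hy))
      _ (r - 1) hRr.1
    · rcases hRr.2 with h | h
      · left; omega
      · right
        have : r - 1 - 1 = r - 2 := by omega
        rw [this]; exact h
    · intro x
      rw [hE₀, Subgroup.mem_inf, hEmem]
      constructor
      · rintro ⟨⟨-, h2⟩, h3⟩; exact ⟨h3, h2⟩
      · rintro ⟨h3, h2⟩; exact ⟨⟨hRS h3, h2⟩, h3⟩
  have hidx : (E₀.subgroupOf E).index = 2 := by
    have h1 := Subgroup.card_mul_index (E₀.subgroupOf E)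
    rw [card_sub_of_le inf_le_left, hcE₀, hcE] at h1
    have h2 : 2 ^ r = 2 ^ (r - 1) * 2 := by
      rw [← pow_succ]; congr 1; omega
    rw [h2] at h1
    exact Nat.eq_of_mul_eq_mul_left (by positivity) h1
  have hmul : ∀ a ∈ E, ∀ b ∈ E, (a * b ∈ E₀ ↔ (a ∈ E₀ ↔ b ∈ E₀)) := by
    intro a ha b hb
    have := Subgroup.mul_mem_iff_of_index_two hidx (a := ⟨a, ha⟩) (b := ⟨b, hb⟩)
    simpa [Subgroup.mem_subgroupOf] using this
  letI : CommGroup (S : Subgroup G) :=
    { (inferInstance : Group (S : Subgroup G)) with mul_comm := fun a b => hS.is_comm.comm a b }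
  set V := MonoidHom.transfer (MonoidHom.id (S : Subgroup G)) with hV
  let := (S : Subgroup G).fintypeQuotientOfFiniteIndex
  have hVt := MonoidHom.transfer_eq_prod_quotient_orbitRel_zpowers_quot
    (MonoidHom.id (S : Subgroup G)) t
  set k : Quotient (orbitRel (zpowers t) (G ⧸ (S : Subgroup G))) → ℕ :=
    fun q => Function.minimalPeriod (t • ·) q.out with hk
  set s : Quotient (orbitRel (zpowers t) (G ⧸ (S : Subgroup G))) → (S : Subgroup G) :=
    fun q => ⟨q.out.out⁻¹ * t ^ Function.minimalPeriod (t • ·) q.out * q.out.out,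
      QuotientGroup.out_conj_pow_minimalPeriod_mem (S : Subgroup G) t q.out⟩ with hs
  have hfact : ∀ q, (k q = 1 ∧ (s q : G) ∈ E ∧ (s q : G) ∉ E₀) ∨ (k q = 2 ∧ s q = 1) := by
    intro q
    have hdvd : k q ∣ 2 := by
      apply Function.IsPeriodicPt.minimalPeriod_dvd
      show (t • ·)^[2] q.out = q.out
      simp only [Function.iterate_succ, Function.iterate_zero, Function.comp_apply, id_eq]
      rw [smul_smul, ← pow_two, ht2, one_smul]
    have hcoe : (s q : G) = q.out.out⁻¹ * t ^ k q * q.out.out := rfl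
    rcases (Nat.dvd_prime Nat.prime_two).mp hdvd with h1 | h2
    · left
      rw [h1, pow_one] at hcoe
      refine ⟨h1, ⟨(s q).2, ?_⟩, ?_⟩
      · rw [hcoe]
        have : ∀ y : G, (y⁻¹ * t * y) ^ 2 = y⁻¹ * t ^ 2 * y := by
          intro y; rw [pow_two, pow_two]; group
        rw [this, ht2]; group
      · intro hmem
        have hR : (s q : G) ∈ R := hmem.2
        have hSm : q.out.out⁻¹ * t * q.out.out ∈ S := hcoe ▸ (s q).2
        obtain ⟨n, hn, hn2⟩ := S.conj_eq_normalizer_conj_of_mem t q.out.out htS hSm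
        apply hcon n⁻¹ (inv_mem hn)
        rw [inv_inv, ← hn2, ← hcoe]
        exact hR
    · right
      refine ⟨h2, Subtype.ext ?_⟩
      rw [hcoe, h2, ht2]
      simp
  have hind : ∀ F : Finset (Quotient (orbitRel (zpowers t) (G ⧸ (S : Subgroup G)))),
      (((∏ q ∈ F, s q : (S : Subgroup G)) : G) ∈ E) ∧
      ((((∏ q ∈ F, s q : (S : Subgroup G)) : G) ∈ E₀) ↔ Even (∑ q ∈ F, k q)) := by
    intro F
    induction F using Finset.induction_on with
    | empty => simp [E.one_mem, E₀.one_mem]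
    | insert q F hq ih =>
      rw [Finset.prod_insert hq, Finset.sum_insert hq, Subgroup.coe_mul]
      rcases hfact q with ⟨h1, h2, h3⟩ | ⟨h1, h2⟩
      · refine ⟨E.mul_mem h2 ih.1, ?_⟩
        rw [hmul _ h2 _ ih.1, ih.2, h1]
        simp only [h3, false_iff]
        rw [Nat.not_even_iff_odd, add_comm, Nat.even_add_one, Nat.not_even_iff_odd]
      · rw [h2, h1]
        simp only [Subgroup.coe_one, one_mul]
        refine ⟨ih.1, ?_⟩
        rw [ih.2, Nat.even_add]
        simp
  have hsum : ∑ q, k q = (S : Subgroup G).index := (index_eq_sum_minimalPeriod _ t).symm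
  have hVne : V t ≠ 1 := by
    intro h
    have h1 := (hind Finset.univ).2
    rw [hsum] at h1
    have h2 : ((∏ q, s q : (S : Subgroup G)) : G) ∈ E₀ := by
      have : (∏ q, s q : (S : Subgroup G)) = V t := hVt.symm
      rw [this, h]
      exact E₀.one_mem
    have h3 := h1.mp h2
    exact S.not_dvd_index (even_iff_two_dvd.mp h3)
  have hrange : IsPGroup 2 V.range := S.isPGroup'.to_subgroup _
  obtain ⟨j, hj⟩ := IsPGroup.iff_card.mp hrange
  have hj0 : j ≠ 0 := by
    rintro rfl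
    rw [pow_zero, Subgroup.card_eq_one] at hj
    apply hVne
    have : V t ∈ V.range := ⟨t, rfl⟩
    rw [hj] at this
    exact this
  obtain ⟨j', rfl⟩ := Nat.exists_eq_succ_of_ne_zero hj0
  have hker : V.ker.index = 2 ^ (j' + 1) := by rw [Subgroup.index_ker, hj]
  obtain ⟨H, hH, -⟩ := Cfsg.Agent.Lib.Helper1_Invol2.exists_index_two V.ker hker
  exact hG H hH

end Cfsg.Agent.S1244
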