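import Cfsg.Statements.S1246
import Cfsg.Agent.Lib.Helper4_CharP2
import Cfsg.Agent.Lib.Helper4_Core

set_option autoImplicit false
open Cfsg

namespace Cfsg.Agent.S1246

open Subgroup Cfsg.Agent.Lib.Helper4_CharP Cfsg.Agent.Lib.Helper4_CharP2 in
theorem aux {G : Type*} [Group G] [Finite G] {p : ℕ} [Fact p.Prime] (U V : Subgroup G) (hVU : V ≤ U) (hU : IsPGroup p U) (hV : IsPGroup p ↥(Cfsg.generalizedFittingSubgroup ↥(Subgroup.centralizer (V : Set G)))) : IsPGroup p ↥(Cfsg.generalizedFittingSubgroup ↥(Subgroup.centralizer (U : Set G))) := by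
  have h1 : CP p (centralizer (V : Set G)) := by
    rw [cp_iff_gfs]
    apply le_antisymm
    · exact Cfsg.Agent.Lib.Helper4_Core.le_pCore
        (Cfsg.Agent.Lib.Helper3_Comp.generalizedFittingSubgroup_normal _) hV
    · exact (Cfsg.Agent.Lib.Helper3_Local.pCore_le_fittingSubgroup p _).trans
        (Cfsg.Agent.Lib.Helper3_Comp.fittingSubgroup_le_generalizedFittingSubgroup _)
  have h2 := cp_normalizer_of_centralizer (hU.to_le hVU) h1
  have h3 := cp_normalizer_of_le hU hVU h2
  have h4 := cp_centralizer_of_normalizer h3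
  rw [cp_iff_gfs] at h4
  rw [h4]
  exact Cfsg.Agent.Lib.Helper4_Core.pCore_isPGroup p _

/-- Let V ≤ U be p-subgroups of the finite group G. If the generalized Fitting subgroup of C_G(V) is a p-group, then so is that of C_G(U). -/
theorem result {G : Type*} [Group G] [Finite G] {p : ℕ} [Fact p.Prime] (U V : Subgroup G) (hVU : V ≤ U) (hU : IsPGroup p U) (hV : IsPGroup p ↥(Cfsg.generalizedFittingSubgroup ↥(Subgroup.centralizer (V : Set G)))) : IsPGroup p ↥(Cfsg.generalizedFittingSubgroup ↥(Subgroup.centralizer (U : Set G))) := by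
  exact aux U V hVU hU hV

end Cfsg.Agent.S1246
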