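import Cfsg.Statements.S1253
import Cfsg.Agent.Lib.Helper7_IsoSyl
import Cfsg.Agent.Lib.Helper2_Isolated

set_option autoImplicit false
open Cfsg

namespace Cfsg.Agent.S1253

open Cfsg.Agent.Lib

theorem isolated_sub {G : Type*} [Group G] {z : G} (hz : IsIsolatedInvolution z) (N : Subgroup G)
    (hzN : z ∈ N) : IsIsolatedInvolution (⟨z, hzN⟩ : N) := by
  refine ⟨?_, ?_⟩
  · rw [← Subgroup.orderOf_coe]
    exact hz.1
  · intro g hg
    apply Subtype.ext
    apply hz.2 (g : G)
    have := congrArg (Subtype.val) hg.eq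
    exact this

/-- Claim A: an invariant `p`-subgroup lies in an invariant Sylow `p`-subgroup. -/
theorem claimA {G : Type*} [Group G] [Finite G] {z : G} (hz : IsIsolatedInvolution z) {p : ℕ}
    [Fact p.Prime] (U : Subgroup G) (hU : IsPGroup p U)
    (hzU : z ∈ Subgroup.normalizer ((U : Subgroup G) : Set G)) :
    ∃ Q : Sylow p G, U ≤ Q ∧ z ∈ Subgroup.normalizer ((Q : Subgroup G) : Set G) := by
  classical
  let 𝒮 : Set (Subgroup G) := {V | IsPGroup p V ∧ z ∈ Subgroup.normalizer (V : Set G) ∧ U ≤ V}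
  have hfin : 𝒮.Finite := Set.toFinite _
  obtain ⟨V, hUV, hV⟩ := hfin.exists_le_maximal (a := U) ⟨hU, hzU, le_rfl⟩
  obtain ⟨⟨hVp, hzV, -⟩, hmax⟩ := hV
  set N := Subgroup.normalizer (V : Set G) with hN
  obtain ⟨S, hS⟩ := Helper7_IsoSyl.exists_invariant (isolated_sub hz N hzV) p
  haveI : (V.subgroupOf N).Normal := Subgroup.normal_in_normalizer
  have hVS : V.subgroupOf N ≤ S :=
    IsPGroup.le_sylow_of_normal (N := V.subgroupOf N) (hVp.comap_subtype) S
  have hVN : V ≤ N := Subgroup.le_normalizer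
  set W := (S : Subgroup N).map N.subtype with hW
  have hVW : V ≤ W := by
    intro x hx
    exact ⟨⟨x, hVN hx⟩, hVS hx, rfl⟩
  have hWS : W ∈ 𝒮 := by
    refine ⟨S.2.map _, ?_, hUV.trans hVW⟩
    rw [Subgroup.mem_normalizer_iff] at hS ⊢
    intro x
    constructor
    · rintro ⟨y, hy, rfl⟩
      exact ⟨_, (hS y).1 hy, rfl⟩
    · rintro ⟨y, hy, hyx⟩
      have hxN : x ∈ N := by
        have h1 : x = z⁻¹ * (y : G) * z := by
          have : (y : G) = z * x * z⁻¹ := hyx
          rw [this]; group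
        rw [h1]
        exact N.mul_mem (N.mul_mem (N.inv_mem hzV) y.2) hzV
      refine ⟨⟨x, hxN⟩, (hS ⟨x, hxN⟩).2 ?_, rfl⟩
      have e : (⟨z, hzV⟩ : N) * ⟨x, hxN⟩ * (⟨z, hzV⟩ : N)⁻¹ = y := Subtype.ext hyx.symm
      rw [e]
      exact hy
  have hWV : W ≤ V := hmax hWS hVW
  have hSV : (S : Subgroup N) = V.subgroupOf N := by
    apply le_antisymm _ hVS
    intro x hx
    exact hWV ⟨x, hx, rfl⟩
  have h1 : ¬ p ∣ (S : Subgroup N).index := S.not_dvd_index
  obtain ⟨n, hn⟩ := IsPGroup.iff_card.mp hVp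
  have h2 := Sylow.card_quotient_normalizer_modEq_card_quotient hn
  have h3 : ¬ p ∣ V.index := by
    intro h
    apply h1
    rw [hSV]
    have h4 : Nat.card (G ⧸ V) ≡ 0 [MOD p] := (Nat.modEq_zero_iff_dvd).2 h
    exact (Nat.modEq_zero_iff_dvd).1 (h2.trans h4)
  refine ⟨hVp.toSylow h3, ?_, ?_⟩
  · rw [IsPGroup.toSylow_coe]; exact hUV
  · rw [IsPGroup.toSylow_coe]; exact hzV

/-- Claim B: invariant Sylow subgroups are conjugate under the centralizer. -/
theorem claimB {G : Type*} [Group G] [Finite G] {z : G} (hz : IsIsolatedInvolution z) {p : ℕ}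
    [Fact p.Prime] (P Q : Sylow p G)
    (hzP : z ∈ Subgroup.normalizer ((P : Subgroup G) : Set G))
    (hzQ : z ∈ Subgroup.normalizer ((Q : Subgroup G) : Set G)) :
    ∃ c ∈ Subgroup.centralizer ({z} : Set G), c • P = Q := by
  obtain ⟨g, hg⟩ := MulAction.exists_smul_eq G P Q
  have hzP' : z • P = P := Sylow.smul_eq_iff_mem_normalizer.mpr hzP
  have hzQ' : z • Q = Q := Sylow.smul_eq_iff_mem_normalizer.mpr hzQ
  have h1 : (g⁻¹ * z * g⁻¹⁻¹) • P = P := by
    rw [inv_inv, mul_smul, mul_smul, hg, hzQ', ← hg, inv_smul_smul]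
  obtain ⟨i, hi⟩ := Helper2_Isolated.exists_pow_conj hz g⁻¹
  set n := (g⁻¹ * z * g⁻¹⁻¹ * z) ^ i with hn
  have h2 : n • P = P := by
    have h3 : (g⁻¹ * z * g⁻¹⁻¹ * z) • P = P := by rw [mul_smul, hzP', h1]
    rw [hn]
    clear hi hn
    induction i with
    | zero => simp
    | succ k ih => rw [pow_succ, mul_smul, h3, ih]
  refine ⟨g * n, ?_, by rw [mul_smul, h2, hg]⟩
  rw [Subgroup.mem_centralizer_singleton_iff]
  have h4 : n * z = g⁻¹ * z * g * n := by
    have := congrArg (· * n) hi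
    simpa [mul_assoc] using this
  calc g * n * z = g * (n * z) := by group
    _ = g * (g⁻¹ * z * g * n) := by rw [h4]
    _ = z * (g * n) := by group

theorem result {G : Type*} [Group G] [Finite G] (z : G) (hz : Cfsg.IsIsolatedInvolution z) {p : ℕ} [Fact p.Prime] (hp : p ≠ 2) (P : Sylow p G) (hzP : z ∈ Subgroup.normalizer ((P : Subgroup G) : Set G)) : ¬ p ∣ ((P : Subgroup G) ⊓ Subgroup.centralizer ({z} : Set G)).relIndex (Subgroup.centralizer ({z} : Set G)) ∧ ((P : Subgroup G) ⊓ Subgroup.centralizer ({z} : Set G)).relIndex (P : Subgroup G) = Nat.card {x : G // x ∈ P ∧ z * x * z⁻¹ = x⁻¹} := by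
  classical
  have hzz : z * z = 1 := by rw [← pow_two, ← hz.1, pow_orderOf_eq_one]
  have hzi : z⁻¹ = z := inv_eq_of_mul_eq_one_left hzz
  set C := Subgroup.centralizer ({z} : Set G) with hC
  constructor
  · obtain ⟨R⟩ : Nonempty (Sylow p C) := inferInstance
    set U := (R : Subgroup C).map C.subtype with hU
    have hUC : U ≤ C := by
      rintro _ ⟨y, -, rfl⟩
      exact y.2
    have hzU : z ∈ Subgroup.normalizer (U : Set G) := by
      rw [Subgroup.mem_normalizer_iff]
      intro x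
      by_cases hx : x ∈ C
      · have : z * x * z⁻¹ = x := by
          rw [hC, Subgroup.mem_centralizer_singleton_iff] at hx
          rw [← hx]; group
        rw [this]
      · constructor
        · intro h; exact absurd (hUC h) hx
        · intro h
          exfalso
          apply hx
          have h1 := hUC h
          have hzC : z ∈ C := by
            rw [hC, Subgroup.mem_centralizer_singleton_iff]
          have : x = z⁻¹ * (z * x * z⁻¹) * z := by group
          rw [this]
          exact C.mul_mem (C.mul_mem (C.inv_mem hzC) h1) hzC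
    obtain ⟨Q, hUQ, hzQ⟩ := claimA hz U (R.2.map _) hzU
    obtain ⟨c, hc, hcQ⟩ := claimB hz P Q hzP hzQ
    set c' : C := ⟨c, hc⟩ with hc'
    set R' : Sylow p C := c'⁻¹ • R with hR'
    have h1 : (R' : Subgroup C).map C.subtype ≤ (P : Subgroup G) ⊓ C := by
      rintro _ ⟨y, hy, rfl⟩
      refine ⟨?_, y.2⟩
      rw [hR', Sylow.coe_subgroup_smul, SetLike.mem_coe,
        Subgroup.mem_pointwise_smul_iff_inv_smul_mem] at hy
      have hy' : c' * y * c'⁻¹ ∈ (R : Subgroup C) := by
        have e : (MulAut.conj c'⁻¹)⁻¹ • y = c' * y * c'⁻¹ := by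
          rw [map_inv, inv_inv]; rfl
        rw [e] at hy
        exact hy
      have h2 : c * (y : G) * c⁻¹ ∈ U := ⟨_, hy', rfl⟩
      have h3 := hUQ h2
      rw [← hcQ, Sylow.coe_subgroup_smul, Subgroup.mem_pointwise_smul_iff_inv_smul_mem] at h3
      have h4 : (MulAut.conj c)⁻¹ • (c * (y : G) * c⁻¹) = (y : G) := by
        rw [← map_inv]
        show c⁻¹ * (c * (y : G) * c⁻¹) * c⁻¹⁻¹ = y
        group
      rw [h4] at h3
      exact h3
    have h2 := Subgroup.relIndex_dvd_of_le_left C h1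
    have h3 : ((R' : Subgroup C).map C.subtype).relIndex C = (R' : Subgroup C).index := by
      rw [Subgroup.relIndex, Subgroup.subgroupOf,
        Subgroup.comap_map_eq_self_of_injective C.subtype_injective]
    rw [h3] at h2
    intro h
    exact R'.not_dvd_index (h.trans h2)
  · rw [Subgroup.relIndex, Subgroup.index]
    set D := ((P : Subgroup G) ⊓ C).subgroupOf (P : Subgroup G) with hD
    have hzn : ∀ y ∈ (P : Subgroup G), z * y * z⁻¹ ∈ (P : Subgroup G) := fun y hy =>
      ((Subgroup.mem_normalizer_iff.mp hzP) y).1 hy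
    let f : ↥(P : Subgroup G) → {x : G // x ∈ P ∧ z * x * z⁻¹ = x⁻¹} := fun y =>
      ⟨(y : G) * (z * (y : G)⁻¹ * z⁻¹), (P : Subgroup G).mul_mem y.2
        (hzn _ ((P : Subgroup G).inv_mem y.2)), by
        simp only [hzi, mul_inv_rev, inv_inv, mul_assoc]
        rw [hzz, mul_one]⟩
    have hf : ∀ a b : ↥(P : Subgroup G), (QuotientGroup.leftRel D) a b → f a = f b := by
      intro a b hab
      rw [QuotientGroup.leftRel_apply] at hab
      have h1 : (a : G)⁻¹ * (b : G) ∈ C := hab.2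
      rw [hC, Subgroup.mem_centralizer_singleton_iff] at h1
      apply Subtype.ext
      show (a : G) * (z * (a : G)⁻¹ * z⁻¹) = (b : G) * (z * (b : G)⁻¹ * z⁻¹)
      have h2 : z * (b : G)⁻¹ = (b : G)⁻¹ * (a : G) * z * (a : G)⁻¹ := by
        have : z = (b : G)⁻¹ * (a : G) * z * ((a : G)⁻¹ * (b : G)) := by
          rw [mul_assoc ((b : G)⁻¹ * (a : G)), ← h1]; group
        calc z * (b : G)⁻¹ = ((b : G)⁻¹ * (a : G) * z * ((a : G)⁻¹ * (b : G))) * (b : G)⁻¹ := by
              rw [← this]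
          _ = _ := by group
      rw [h2]; group
    refine Nat.card_congr (Equiv.ofBijective (Quotient.lift f hf) ⟨?_, ?_⟩)
    · intro a b
      induction a using Quotient.inductionOn with | _ a => ?_
      induction b using Quotient.inductionOn with | _ b => ?_
      intro hab
      apply Quotient.sound
      show (QuotientGroup.leftRel D) a b
      rw [QuotientGroup.leftRel_apply]
      have h1 : (a : G) * (z * (a : G)⁻¹ * z⁻¹) = (b : G) * (z * (b : G)⁻¹ * z⁻¹) :=
        congrArg Subtype.val hab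
      refine ⟨(a⁻¹ * b).2, ?_⟩
      show (a : G)⁻¹ * (b : G) ∈ C
      rw [hC, Subgroup.mem_centralizer_singleton_iff]
      have h2 : (a : G) * z * (a : G)⁻¹ = (b : G) * z * (b : G)⁻¹ := by
        have := congrArg (· * z) h1
        simpa [mul_assoc] using this
      calc (a : G)⁻¹ * (b : G) * z = (a : G)⁻¹ * ((b : G) * z * (b : G)⁻¹) * (b : G) := by group
        _ = (a : G)⁻¹ * ((a : G) * z * (a : G)⁻¹) * (b : G) := by rw [h2]
        _ = z * ((a : G)⁻¹ * (b : G)) := by group
    · rintro ⟨x, hxP, hx⟩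
      have hodd : Odd (orderOf x) := by
        obtain ⟨k, hk⟩ := P.2 ⟨x, hxP⟩
        have hk' : x ^ p ^ k = 1 := congrArg Subtype.val hk
        obtain ⟨j, -, hj⟩ := (Nat.dvd_prime_pow Fact.out).1 (orderOf_dvd_of_pow_eq_one hk')
        rw [hj]
        exact ((Fact.out : p.Prime).odd_of_ne_two hp).pow
      obtain ⟨m, hm⟩ := hodd
      have hy2 : x ^ (m + 1) * x ^ (m + 1) = x := by
        rw [← pow_add]
        have : m + 1 + (m + 1) = orderOf x + 1 := by omega
        rw [this, pow_succ, pow_orderOf_eq_one, one_mul]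
      have hyi : z * (x ^ (m + 1))⁻¹ * z⁻¹ = x ^ (m + 1) := by
        have h1 : z * (x ^ (m + 1))⁻¹ * z⁻¹ = ((z * x * z⁻¹) ^ (m + 1))⁻¹ := by
          rw [conj_pow, mul_inv_rev, mul_inv_rev, inv_inv, mul_assoc]
        rw [h1, hx, inv_pow, inv_inv]
      refine ⟨Quotient.mk _ ⟨x ^ (m + 1), (P : Subgroup G).pow_mem hxP _⟩, ?_⟩
      apply Subtype.ext
      show x ^ (m + 1) * (z * (x ^ (m + 1))⁻¹ * z⁻¹) = x
      rw [hyi, hy2]

end Cfsg.Agent.S1253
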