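import Cfsg.Statements.S1279
import Cfsg.Agent.Lib.Helper3_Bal

set_option autoImplicit false
open Cfsg

namespace Cfsg.Agent.S1279

/-- Let A be a noncyclic elementary abelian p-subgroup of the finite group G such that C_G(a) is solvable for every non-identity a ∈ A. Then a ↦ O_{p'}(C_G(a)) is a solvable A-signalizer functor on G. -/
theorem result {G : Type*} [Group G] [Finite G] (p : ℕ) [Fact p.Prime] (A : Subgroup G) (hA : Cfsg.IsElementaryAbelian p A) (hA2 : p ^ 2 ≤ Nat.card ↥A) (hsolv : ∀ a ∈ A, a ≠ 1 → Group.IsSolvable ↥(Subgroup.centralizer ({a} : Set G))) : Cfsg.IsSolvableSignalizerFunctor p A (fun a => Cfsg.centralizerPPrimeCore p a) := by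
  have hcomm := Cfsg.Agent.Lib.Helper2_EA.ea_comm hA
  refine ⟨⟨?_, ?_, ?_, ?_⟩, ?_⟩
  · intro a _ _
    exact Cfsg.Agent.Lib.Helper3_Bal.centralizerPPrimeCore_le p a
  · intro a _ _ h
    have := Cfsg.Agent.Lib.Helper3_Bal.centralizerPPrimeCore_coprime p a
    exact (Nat.Prime.coprime_iff_not_dvd Fact.out).mp this.symm h
  · intro a ha _ b hb x hx
    have hb' : b ∈ Subgroup.centralizer {a} :=
      Subgroup.mem_centralizer_singleton_iff.mpr (hcomm b hb a ha)
    exact Subgroup.le_normalizer_iff.mp (Cfsg.Agent.Lib.Helper3_Bal.centralizer_le_normalizer_core p a) b hb' x hx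
  · intro a ha ha1 b hb hb1
    haveI := hsolv b hb hb1
    exact Cfsg.Agent.Lib.Helper3_Bal.balance_of_pLayer (hcomm a ha b hb)
      ((Cfsg.Agent.Lib.Helper2_EA.ea_isPGroup hA).to_le (Subgroup.zpowers_le.mpr ha))
      Cfsg.Agent.Lib.Helper3_Bal.pLayer_eq_bot_of_isSolvable
  · intro a ha ha1
    haveI := hsolv a ha ha1
    exact Cfsg.Agent.Lib.Helper1_Coprime.isSolvable_of_le (Cfsg.Agent.Lib.Helper3_Bal.centralizerPPrimeCore_le p a)

end Cfsg.Agent.S1279
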