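import Cfsg.Statements.S1281
import Cfsg.Agent.Lib.Helper3_Sig2

set_option autoImplicit false
open Cfsg

namespace Cfsg.Agent.S1281

/-- Let θ be a solvable A-signalizer functor on the finite group G (A a noncyclic elementary abelian p-subgroup) and N a normal subgroup of order prime to p. Then for all non-identity a, b ∈ A, the image of θ a in G / N meets the centralizer of the image of b inside the image of θ b. -/
theorem result {G : Type*} [Group G] [Finite G] (p : ℕ) [Fact p.Prime] (A : Subgroup G) (hA : Cfsg.IsElementaryAbelian p A) (hA2 : p ^ 2 ≤ Nat.card ↥A) (θ : G → Subgroup G) (hθ : Cfsg.IsSolvableSignalizerFunctor p A θ) (N : Subgroup G) [N.Normal] (hN : ¬ p ∣ Nat.card ↥N) (a b : G) (ha : a ∈ A) (ha1 : a ≠ 1) (hb : b ∈ A) (hb1 : b ≠ 1) : (θ a).map (QuotientGroup.mk' N) ⊓ Subgroup.centralizer {QuotientGroup.mk' N b} ≤ (θ b).map (QuotientGroup.mk' N) := by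
  rintro _ ⟨⟨x, hx, rfl⟩, hxb⟩
  have hx' : x ∈ θ a := hx
  obtain ⟨⟨h1, h2, h3, h4⟩, h5⟩ := hθ
  have hZA : Subgroup.zpowers b ≤ A := Subgroup.zpowers_le.mpr hb
  have hZ : Cfsg.IsElementaryAbelian p (Subgroup.zpowers b) := Cfsg.Agent.Lib.Helper2_EA.ea_mono hA hZA
  have hAθ : A ≤ Subgroup.normalizer (θ a : Set G) :=
    Cfsg.Agent.Lib.Helper3_Sig.le_normalizer_iff_conj_mem.mpr (h3 a ha ha1)
  have hNn : ∀ K : Subgroup G, K ≤ Subgroup.normalizer (N : Set G) := fun K => by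
    rw [Subgroup.normalizer_eq_top]; exact le_top
  have hcomm : QuotientGroup.mk' N x * QuotientGroup.mk' N b = QuotientGroup.mk' N b * QuotientGroup.mk' N x :=
    Subgroup.mem_centralizer_singleton_iff.mp hxb
  have hC : Subgroup.zpowers b ≤ (Subgroup.centralizer {QuotientGroup.mk' N x}).comap (QuotientGroup.mk' N) := by
    rw [Subgroup.zpowers_le, Subgroup.mem_comap, Subgroup.mem_centralizer_singleton_iff]
    exact hcomm.symm
  obtain ⟨c, hc, hcx⟩ := Cfsg.Agent.S0022.result (Subgroup.zpowers b) (θ a) (hZA.trans hAθ)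
    (Cfsg.Agent.Lib.Helper3_Sig.ea_coprime hZ (h2 a ha ha1))
    (Or.inl (Cfsg.Agent.Lib.Helper3_Sig.ea_isSolvable hZ)) (θ a ⊓ N) inf_le_left
    (le_trans (le_inf Subgroup.le_normalizer (hNn _)) Subgroup.inf_normalizer_le_normalizer_inf)
    (le_trans (le_inf (hZA.trans hAθ) (hNn _)) Subgroup.inf_normalizer_le_normalizer_inf)
    x hx' (by
      intro d hd
      refine Subgroup.mem_inf.mpr ⟨mul_mem (h3 a ha ha1 d (hZA hd) x hx') (inv_mem hx'), ?_⟩
      have hd' := Subgroup.mem_centralizer_singleton_iff.mp (hC hd)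
      rw [← QuotientGroup.eq_one_iff]
      have e : ((d * x * d⁻¹ * x⁻¹ : G) : G ⧸ N) =
        QuotientGroup.mk' N d * QuotientGroup.mk' N x * (QuotientGroup.mk' N d)⁻¹ * (QuotientGroup.mk' N x)⁻¹ := rfl
      rw [e, hd']
      group)
  rw [Cfsg.Agent.Lib.Helper3_Sig.centralizer_zpowers_eq] at hc
  refine ⟨c, h4 a ha ha1 b hb hb1 hc, ?_⟩
  exact (QuotientGroup.eq.mpr hcx.2).symm

end Cfsg.Agent.S1281
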