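import Cfsg.Statements.S1300
import Cfsg.Agent.Lib.Helper3_Bal

set_option autoImplicit false
open Cfsg

namespace Cfsg.Agent.S1300

/-- For a finite group G, balance in the sense of commuting involutions is the same as 1-balance for the prime 2. -/
theorem result {G : Type*} [Group G] [Finite G] : Cfsg.IsBalanced G ↔ Cfsg.IsKBalanced 2 1 G := by
  constructor
  · intro h A hA hcard b hb hcomm
    have hne : A ≠ ⊥ := by
      rintro rfl
      rw [Subgroup.card_bot] at hcard
      norm_num at hcard
    obtain ⟨x, hx, hx1⟩ : ∃ a : G, a ∈ A ∧ a ≠ 1 := by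
      obtain ⟨a, h⟩ := Subgroup.ne_bot_iff_exists_ne_one.mp hne
      exact ⟨(a : G), a.2, fun h' => h (Subtype.ext h')⟩
    have hox : orderOf x = 2 := orderOf_eq_prime (hA.2 x hx) hx1
    have h1 : Cfsg.signalizerDelta 2 A ≤ Cfsg.centralizerPPrimeCore 2 x :=
      iInf_le (fun a : {a : G // a ∈ A ∧ a ≠ 1} => Cfsg.centralizerPPrimeCore 2 (a : G)) ⟨x, hx, hx1⟩
    refine (inf_le_inf_right _ h1).trans ?_
    rw [h x b hox hb (hcomm x hx)]
    exact inf_le_left
  · intro h
    have key : ∀ x y : G, orderOf x = 2 → orderOf y = 2 → x * y = y * x →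
        Cfsg.centralizerPPrimeCore 2 x ⊓ Subgroup.centralizer {y} ≤
          Cfsg.centralizerPPrimeCore 2 y ⊓ Subgroup.centralizer {x} := by
      intro x y hx hy hxy
      have hx2 : x ^ 2 = 1 := by rw [← hx]; exact pow_orderOf_eq_one x
      have hx1 : x ≠ 1 := by
        rintro rfl
        rw [orderOf_one] at hx
        norm_num at hx
      refine le_inf ?_ (inf_le_left.trans (Cfsg.Agent.Lib.Helper3_Bal.centralizerPPrimeCore_le 2 x))
      have h1 := h (Subgroup.zpowers x) (Cfsg.Agent.Lib.Helper2_EA.ea_zpowers hx2)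
        (by rw [Nat.card_zpowers, hx, pow_one]) y hy (by
          intro a ha
          have : Subgroup.zpowers x ≤ Subgroup.centralizer {y} := by
            rw [Subgroup.zpowers_le, Subgroup.mem_centralizer_singleton_iff]; exact hxy
          exact Subgroup.mem_centralizer_singleton_iff.mp (this ha))
      refine le_trans (inf_le_inf_right _ ?_) h1
      refine le_iInf ?_
      rintro ⟨a, ha, ha1⟩
      obtain ⟨k, rfl⟩ := Subgroup.mem_zpowers_iff.mp ha
      have : x ^ k = x := by
        rcases Int.even_or_odd' k with ⟨m, rfl | rfl⟩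
        · exfalso
          apply ha1
          rw [zpow_mul, zpow_ofNat, hx2, one_zpow]
        · rw [zpow_add, zpow_mul, zpow_ofNat, hx2, one_zpow, one_mul, zpow_one]
      show _ ≤ Cfsg.centralizerPPrimeCore 2 (x ^ k)
      rw [this]
    intro x y hx hy hxy
    exact le_antisymm (key x y hx hy hxy) (key y x hy hx hxy.symm)

end Cfsg.Agent.S1300
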