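import Cfsg.Statements.S1306
import Cfsg.Agent.Lib.Helper3_Comp

set_option autoImplicit false
open Cfsg

namespace Cfsg.Agent.S1306

open Cfsg.Agent.Lib.Helper3_Comp

theorem conj_component_aux {G : Type*} [Group G] [Finite G] (L : Subgroup G)
    (hne : ∀ y : G, orderOf y = 2 → y ∈ Subgroup.centralizer (L : Set G) → L ≤ Subgroup.centralizer ({y} : Set G) ∧ Cfsg.IsComponent (L.subgroupOf (Subgroup.centralizer ({y} : Set G))))
    (hnc : ∀ g : G, L.map (MulAut.conj g).toMonoidHom ≠ L → ⁅L, L.map (MulAut.conj g).toMonoidHom⁆ ≠ ⊥)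
    (g y : G) (hy : orderOf y = 2) (hy1 : y ∈ Subgroup.centralizer (L : Set G))
    (hy2 : y ∈ (Subgroup.centralizer (L : Set G)).map (MulAut.conj g).toMonoidHom) :
    L.map (MulAut.conj g).toMonoidHom = L := by
  by_contra hcon
  apply hnc g hcon
  obtain ⟨w, hw, hwy⟩ := hy2
  have hwy' : g * w * g⁻¹ = y := hwy
  have hwo : orderOf w = 2 := by
    rw [← hy, ← hwy']
    exact (orderOf_injective (MulAut.conj g).toMonoidHom (MulAut.conj g).injective w).symm
  obtain ⟨h1, h2⟩ := hne y hy hy1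
  obtain ⟨h3, h4⟩ := hne w hwo hw
  set C := Subgroup.centralizer ({y} : Set G) with hC
  set Lg := L.map (MulAut.conj g).toMonoidHom with hLg
  -- `L^g ≤ C(y)`
  have h5 : Lg ≤ C := by
    rintro _ ⟨l, hl, rfl⟩
    rw [hC, Subgroup.mem_centralizer_singleton_iff]
    have := Subgroup.mem_centralizer_singleton_iff.mp (h3 hl)
    show g * l * g⁻¹ * y = y * (g * l * g⁻¹)
    rw [← hwy']
    calc g * l * g⁻¹ * (g * w * g⁻¹) = g * (l * w) * g⁻¹ := by group
      _ = g * (w * l) * g⁻¹ := by rw [this]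
      _ = _ := by group
  -- `L^g` is a component of `C(y)`
  have hmapC : (Subgroup.centralizer ({w} : Set G)).map (MulAut.conj g).toMonoidHom = C := by
    ext x
    rw [hC, Subgroup.mem_centralizer_singleton_iff, Subgroup.mem_map]
    constructor
    · rintro ⟨c, hc, rfl⟩
      have := Subgroup.mem_centralizer_singleton_iff.mp hc
      show g * c * g⁻¹ * y = y * (g * c * g⁻¹)
      rw [← hwy']
      calc g * c * g⁻¹ * (g * w * g⁻¹) = g * (c * w) * g⁻¹ := by group
        _ = g * (w * c) * g⁻¹ := by rw [this]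
        _ = _ := by group
    · intro hx
      refine ⟨g⁻¹ * x * g, ?_, ?_⟩
      · rw [Subgroup.mem_centralizer_singleton_iff]
        have hw' : w = g⁻¹ * y * g := by rw [← hwy']; group
        rw [hw']
        calc g⁻¹ * x * g * (g⁻¹ * y * g) = g⁻¹ * (x * y) * g := by group
          _ = g⁻¹ * (y * x) * g := by rw [hx]
          _ = _ := by group
      · show g * (g⁻¹ * x * g) * g⁻¹ = x
        group
  have h6 : Cfsg.IsComponent (Lg.subgroupOf C) := by
    refine ⟨?_, isQuasisimple_of_equiv (((MulAut.conj g).subgroupMap L).trans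
      (Subgroup.subgroupOfEquivOfLe h5).symm) (isQuasisimple_of_equiv (Subgroup.subgroupOfEquivOfLe h3) h4.2)⟩
    -- subnormality transported by conjugation
    let e : ↥(Subgroup.centralizer ({w} : Set G)) ≃* ↥C :=
      ((MulAut.conj g).subgroupMap _).trans (MulEquiv.subgroupCongr hmapC)
    have h7 := h4.1.map (f := e.toMonoidHom) e.surjective
    have h8 : (L.subgroupOf (Subgroup.centralizer ({w} : Set G))).map e.toMonoidHom = Lg.subgroupOf C := by
      ext x
      rw [Subgroup.mem_map, Subgroup.mem_subgroupOf]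
      constructor
      · rintro ⟨c, hc, rfl⟩
        exact ⟨c, hc, rfl⟩
      · rintro ⟨l, hl, hlx⟩
        refine ⟨⟨l, h3 hl⟩, hl, ?_⟩
        ext
        exact hlx
    rwa [h8] at h7
  rcases IsComponent.eq_or_commutator_eq_bot h2 h6 with h | h
  · exfalso
    apply hcon
    have := congrArg (Subgroup.map C.subtype) h
    rw [Subgroup.map_subgroupOf_eq_of_le h1, Subgroup.map_subgroupOf_eq_of_le h5] at this
    exact this.symm
  · exact (commutator_subgroupOf_eq_bot h1 h5).mp h


/-- Let G be finite, x an involution and L ≤ C_G(x) a component of C_G(x). Suppose L is a component of C_G(y) for every involution y ∈ C_G(L), and ⁅L, g L g⁻¹⁆ ≠ 1 whenever g L g⁻¹ ≠ L. Then L is a standard subgroup of G. -/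
theorem result {G : Type*} [Group G] [Finite G] (x : G) (hx : orderOf x = 2) (L : Subgroup G) (hLx : L ≤ Subgroup.centralizer ({x} : Set G)) (hL : Cfsg.IsComponent (L.subgroupOf (Subgroup.centralizer ({x} : Set G)))) (hne : ∀ y : G, orderOf y = 2 → y ∈ Subgroup.centralizer (L : Set G) → L ≤ Subgroup.centralizer ({y} : Set G) ∧ Cfsg.IsComponent (L.subgroupOf (Subgroup.centralizer ({y} : Set G)))) (hnc : ∀ g : G, L.map (MulAut.conj g).toMonoidHom ≠ L → ⁅L, L.map (MulAut.conj g).toMonoidHom⁆ ≠ ⊥) : Cfsg.IsStandardSubgroup L := by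
  have hxL : x ∈ Subgroup.centralizer (L : Set G) := by
    rw [Subgroup.mem_centralizer_iff]
    intro l hl
    exact Subgroup.mem_centralizer_singleton_iff.mp (hLx hl)
  have hmem : ∀ g : G, L.map (MulAut.conj g).toMonoidHom = L → g ∈ Subgroup.normalizer (L : Set G) := by
    intro g hg
    rw [Subgroup.mem_normalizer_iff]
    intro l
    constructor
    · intro hl
      rw [← hg]; exact ⟨l, hl, rfl⟩
    · intro hl
      rw [← hg] at hl
      obtain ⟨l', hl', h⟩ := hl
      have : l' = l := by simpa using h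
      rwa [← this]
  have hNK : Subgroup.normalizer (L : Set G) ≤
      Subgroup.normalizer ((Subgroup.centralizer (L : Set G) : Subgroup G) : Set G) := by
    have key : ∀ m ∈ Subgroup.normalizer (L : Set G), ∀ c ∈ Subgroup.centralizer (L : Set G),
        m * c * m⁻¹ ∈ Subgroup.centralizer (L : Set G) := by
      intro m hm c hc
      rw [Subgroup.mem_centralizer_iff]
      intro a ha
      have h1 : m⁻¹ * a * m⁻¹⁻¹ ∈ L :=
        (Subgroup.mem_normalizer_iff.mp (Subgroup.inv_mem _ hm) a).mp ha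
      have h2 := Subgroup.mem_centralizer_iff.mp hc _ h1
      calc a * (m * c * m⁻¹) = m * ((m⁻¹ * a * m⁻¹⁻¹) * c) * m⁻¹ := by group
        _ = m * (c * (m⁻¹ * a * m⁻¹⁻¹)) * m⁻¹ := by rw [h2]
        _ = m * c * m⁻¹ * a := by group
    intro m hm
    rw [Subgroup.mem_normalizer_iff]
    intro c
    refine ⟨key m hm c, fun h => ?_⟩
    have := key m⁻¹ (Subgroup.inv_mem _ hm) _ h
    have e : m⁻¹ * (m * c * m⁻¹) * m⁻¹⁻¹ = c := by group
    rwa [e] at this
  refine ⟨isQuasisimple_of_equiv (Subgroup.subgroupOfEquivOfLe hLx) hL.2, ⟨?_, ?_⟩, hnc, ?_⟩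
  · -- even order
    have := orderOf_dvd_natCard (⟨x, hxL⟩ : Subgroup.centralizer (L : Set G))
    rw [Subgroup.orderOf_mk, hx] at this
    exact even_iff_two_dvd.mpr this
  · intro g hg
    by_contra hodd
    rw [Nat.not_odd_iff_even, even_iff_two_dvd] at hodd
    haveI : Fact (Nat.Prime 2) := ⟨Nat.prime_two⟩
    obtain ⟨⟨y, hy⟩, hyo⟩ := exists_prime_orderOf_dvd_card' 2 hodd
    rw [Subgroup.orderOf_mk] at hyo
    exact hg (hNK (hmem g (conj_component_aux L hne hnc g y hyo hy.1 hy.2)))
  · apply le_antisymm hNK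
    intro g hg
    apply hmem g
    apply conj_component_aux L hne hnc g x hx hxL
    refine ⟨g⁻¹ * x * g⁻¹⁻¹, (Subgroup.mem_normalizer_iff.mp (Subgroup.inv_mem _ hg) x).mp hxL, ?_⟩
    show g * (g⁻¹ * x * g⁻¹⁻¹) * g⁻¹ = x
    group

end Cfsg.Agent.S1306
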