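import Cfsg.Statements.S1314
import Cfsg.Agent.Lib.Helper2_EA

set_option autoImplicit false
open Cfsg

namespace Cfsg.Agent.S1314

open scoped commutatorElement

/-- Let x be an involution of a group G and L a perfect subgroup with ⁅L, x L x⁻¹⁆ = 1. Then l ↦ l (x l x⁻¹) is a group homomorphism π from L to G whose kernel is central in L and whose image lies in C_G(x); and the commutator subgroup of C_{L ⊔ xLx⁻¹}(x) equals the image of π. -/
theorem result {G : Type*} [Group G] [Finite G] (x : G) (hx : orderOf x = 2) (L : Subgroup G) (hperf : ⁅L, L⁆ = L) (hcomm : ⁅L, L.map (MulAut.conj x).toMonoidHom⁆ = ⊥) : ∃ π : ↥L →* G, (∀ l : ↥L, π l = (l : G) * (x * (l : G) * x⁻¹)) ∧ π.ker ≤ Subgroup.center ↥L ∧ π.range ≤ Subgroup.centralizer ({x} : Set G) ∧ ⁅(L ⊔ L.map (MulAut.conj x).toMonoidHom) ⊓ Subgroup.centralizer ({x} : Set G), (L ⊔ L.map (MulAut.conj x).toMonoidHom) ⊓ Subgroup.centralizer ({x} : Set G)⁆ = π.range := by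
  have hxx : x * x = 1 := by
    have := pow_orderOf_eq_one x
    rwa [hx, sq] at this
  have hxi : x⁻¹ = x := inv_eq_of_mul_eq_one_left hxx
  have hc : ∀ a ∈ L, ∀ b ∈ L, a * (x * b * x⁻¹) = (x * b * x⁻¹) * a := by
    intro a ha b hb
    have h1 := (Subgroup.commutator_eq_bot_iff_le_centralizer).1 hcomm ha
    exact (Subgroup.mem_centralizer_iff.1 h1 (x * b * x⁻¹) ⟨b, hb, rfl⟩).symm
  have hc' : ∀ a ∈ L, ∀ b ∈ L.map (MulAut.conj x).toMonoidHom, a * b = b * a := by
    rintro a ha _ ⟨b, hb, rfl⟩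
    exact hc a ha b hb
  let π : ↥L →* G := MonoidHom.mk' (fun l => (l : G) * (x * (l : G) * x⁻¹)) (by
    intro l m
    show ((l * m : ↥L) : G) * (x * ((l * m : ↥L) : G) * x⁻¹) =
      (l : G) * (x * (l : G) * x⁻¹) * ((m : G) * (x * (m : G) * x⁻¹))
    rw [Subgroup.coe_mul]
    calc (l : G) * m * (x * ((l : G) * m) * x⁻¹)
        = (l : G) * ((m : G) * (x * (l : G) * x⁻¹)) * (x * (m : G) * x⁻¹) := by group
      _ = (l : G) * ((x * (l : G) * x⁻¹) * (m : G)) * (x * (m : G) * x⁻¹) := by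
          rw [hc m m.2 l l.2]
      _ = (l : G) * (x * (l : G) * x⁻¹) * ((m : G) * (x * (m : G) * x⁻¹)) := by group)
  have hπ : ∀ l : ↥L, π l = (l : G) * (x * (l : G) * x⁻¹) := fun _ => rfl
  have hrC : π.range ≤ Subgroup.centralizer ({x} : Set G) := by
    rintro _ ⟨l, rfl⟩
    rw [Subgroup.mem_centralizer_singleton_iff, hπ, hc l l.2 l l.2, hxi]
    calc x * (l : G) * x * (l : G) * x = x * ((l : G) * (x * (l : G) * x)) := by group
      _ = x * ((l : G) * (x * (l : G) * x⁻¹)) := by rw [hxi]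
      _ = x * ((x * (l : G) * x⁻¹) * (l : G)) := by rw [hc l l.2 l l.2]
      _ = x * (x * (l : G) * x * (l : G)) := by rw [hxi]
  have hrM : π.range ≤ L ⊔ L.map (MulAut.conj x).toMonoidHom := by
    rintro _ ⟨l, rfl⟩
    rw [hπ]
    exact Subgroup.mul_mem _ ((le_sup_left : L ≤ _) l.2)
      ((le_sup_right : L.map (MulAut.conj x).toMonoidHom ≤ _) ⟨l, l.2, rfl⟩)
  refine ⟨π, hπ, ?_, hrC, ?_⟩
  · intro l hl
    rw [MonoidHom.mem_ker, hπ] at hl
    rw [Subgroup.mem_center_iff]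
    intro m
    apply Subtype.ext
    show (m : G) * l = l * m
    have h1 : (l : G) = (x * (l : G)⁻¹ * x⁻¹) := by
      have h2 := eq_inv_of_mul_eq_one_left hl
      calc (l : G) = (x * (l : G) * x⁻¹)⁻¹ := h2
        _ = x * (l : G)⁻¹ * x⁻¹ := by group
    rw [h1]
    exact hc m m.2 _ (L.inv_mem l.2)
  · apply le_antisymm
    · rw [Subgroup.commutator_le]
      have hdec : ∀ c ∈ (L ⊔ L.map (MulAut.conj x).toMonoidHom) ⊓
          Subgroup.centralizer ({x} : Set G), ∃ a : ↥L, ∃ z : G, c = π a * z ∧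
          z ∈ L ⊔ L.map (MulAut.conj x).toMonoidHom ∧
          ∀ y ∈ L ⊔ L.map (MulAut.conj x).toMonoidHom, z * y * z⁻¹ = y := by
        rintro c ⟨hcM, hcx⟩
        obtain ⟨a, ha, _, ⟨b, hb, rfl⟩, rfl⟩ :=
          (Cfsg.Agent.Lib.Helper2_EA.mem_sup_of_comm hc').1 hcM
        have hcx2 : a * (x * b * x⁻¹) ∈ Subgroup.centralizer ({x} : Set G) := hcx
        rw [Subgroup.mem_centralizer_singleton_iff] at hcx2
        have hcx' : a * (x * b * x⁻¹) * x = x * (a * (x * b * x⁻¹)) := hcx2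
        have hz : a⁻¹ * b = x * (a⁻¹ * b) * x⁻¹ := by
          have e1 : a * (x * b * x⁻¹) = (x * a * x⁻¹) * b := by
            calc a * (x * b * x⁻¹) = (a * (x * b * x⁻¹) * x) * x⁻¹ := by group
              _ = x * (a * (x * b * x⁻¹)) * x⁻¹ := by rw [hcx']
              _ = (x * a * x⁻¹) * ((x * x) * b * (x⁻¹ * x⁻¹)) := by group
              _ = (x * a * x⁻¹) * b := by rw [hxi, hxx]; group
          calc a⁻¹ * b = a⁻¹ * ((x * a * x⁻¹)⁻¹ * ((x * a * x⁻¹) * b)) := by group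
            _ = a⁻¹ * ((x * a * x⁻¹)⁻¹ * (a * (x * b * x⁻¹))) := by rw [e1]
            _ = a⁻¹ * ((x * a⁻¹ * x⁻¹) * a) * (x * b * x⁻¹) := by group
            _ = a⁻¹ * (a * (x * a⁻¹ * x⁻¹)) * (x * b * x⁻¹) := by
                rw [hc a ha a⁻¹ (L.inv_mem ha)]
            _ = x * (a⁻¹ * b) * x⁻¹ := by group
        have hzL : a⁻¹ * b ∈ L := L.mul_mem (L.inv_mem ha) hb
        refine ⟨⟨a, ha⟩, a⁻¹ * b, ?_, (le_sup_left : L ≤ _) hzL, ?_⟩
        · rw [hπ]
          show a * (x * b * x⁻¹) = a * (x * a * x⁻¹) * (a⁻¹ * b)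
          rw [hz]; group
        · have hle : L ⊔ L.map (MulAut.conj x).toMonoidHom ≤
              Subgroup.centralizer ({a⁻¹ * b} : Set G) := by
            refine sup_le ?_ ?_
            · intro y hy
              rw [Subgroup.mem_centralizer_singleton_iff, hz]
              exact hc y hy _ hzL
            · intro y hy
              rw [Subgroup.mem_centralizer_singleton_iff]
              exact (hc' _ hzL y hy).symm
          intro y hy
          have h1 := Subgroup.mem_centralizer_singleton_iff.1 (hle hy)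
          rw [← h1, mul_assoc, mul_inv_cancel, mul_one]
      intro c₁ hc₁ c₂ hc₂
      obtain ⟨a₁, z, rfl, hzM, hzc⟩ := hdec c₁ hc₁
      obtain ⟨a₂, z', rfl, hzM', hzc'⟩ := hdec c₂ hc₂
      have hk : π a₁ ∈ L ⊔ L.map (MulAut.conj x).toMonoidHom := hrM ⟨a₁, rfl⟩
      have hk' : π a₂ ∈ L ⊔ L.map (MulAut.conj x).toMonoidHom := hrM ⟨a₂, rfl⟩
      have hzinv : ∀ y ∈ L ⊔ L.map (MulAut.conj x).toMonoidHom, z⁻¹ * y * z⁻¹⁻¹ = y := by
        intro y hy
        have := hzc y hy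
        calc z⁻¹ * y * z⁻¹⁻¹ = z⁻¹ * (z * y * z⁻¹) * z := by rw [this, inv_inv]
          _ = y := by group
      have h1 : ⁅π a₁ * z, π a₂ * z'⁆ = ⁅π a₁, π a₂⁆ := by
        rw [commutatorElement_def, commutatorElement_def]
        calc π a₁ * z * (π a₂ * z') * (π a₁ * z)⁻¹ * (π a₂ * z')⁻¹
            = π a₁ * (z * (π a₂ * (z' * (z⁻¹ * (π a₁)⁻¹) * z'⁻¹) * (π a₂)⁻¹) * z⁻¹) * z := by group
          _ = π a₁ * (π a₂ * (z⁻¹ * (π a₁)⁻¹) * (π a₂)⁻¹) * z := by
              rw [hzc' _ (Subgroup.mul_mem _ (Subgroup.inv_mem _ hzM) (Subgroup.inv_mem _ hk)),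
                hzc _ (Subgroup.mul_mem _ (Subgroup.mul_mem _ hk'
                  (Subgroup.mul_mem _ (Subgroup.inv_mem _ hzM) (Subgroup.inv_mem _ hk)))
                  (Subgroup.inv_mem _ hk'))]
          _ = π a₁ * π a₂ * (z⁻¹ * ((π a₁)⁻¹ * (π a₂)⁻¹) * z⁻¹⁻¹) := by group
          _ = π a₁ * π a₂ * (π a₁)⁻¹ * (π a₂)⁻¹ := by
              rw [hzinv _ (Subgroup.mul_mem _ (Subgroup.inv_mem _ hk) (Subgroup.inv_mem _ hk'))]
              group
      rw [h1]
      exact ⟨⁅a₁, a₂⁆, by rw [map_commutatorElement]⟩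
    · have hperf' : Group.IsPerfect ↥L := (Subgroup.isPerfect_iff).2 hperf
      have h1 : π.range = ⁅π.range, π.range⁆ := by
        conv_lhs => rw [MonoidHom.range_eq_map, ← hperf'.commutator_eq_top, commutator_def,
          Subgroup.map_commutator, ← MonoidHom.range_eq_map]
      rw [h1]
      exact Subgroup.commutator_mono (le_inf hrM hrC) (le_inf hrM hrC)

end Cfsg.Agent.S1314
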