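import Cfsg.Statements.S1331
import Cfsg.Agent.Lib.Helper3_Sig2

set_option autoImplicit false
open Cfsg

namespace Cfsg.Agent.S1331

/-- Let θ be a solvable A-signalizer functor on the finite group G for the prime p, A elementary abelian of rank at least 3, X a member of the family of θ, and B ≤ A with |B| ≥ p². Then X is generated by the subgroups X ∩ ⋂_{d ∈ D, d ≠ 1} θ d, D ranging over the subgroups of index p in B. -/
theorem result {G : Type*} [Group G] [Finite G] (p : ℕ) [Fact p.Prime] (A : Subgroup G) (hA : Cfsg.IsElementaryAbelian p A) (hA3 : p ^ 3 ≤ Nat.card ↥A) (θ : G → Subgroup G) (hθ : Cfsg.IsSolvableSignalizerFunctor p A θ) (X : Subgroup G) (hX : X ∈ Cfsg.signalizerFamily p A θ) (B : Subgroup G) (hB : B ≤ A) (hB2 : p ^ 2 ≤ Nat.card ↥B) : X = ⨆ D : {D : Subgroup G // D ≤ B ∧ D.relIndex B = p}, X ⊓ Cfsg.signalizerInf (D : Subgroup G) θ := by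
  have hBne : B ≠ ⊥ := by
    rintro rfl
    rw [Subgroup.card_bot] at hB2
    have h1 := (Fact.out : p.Prime).one_lt
    have : 1 < p ^ 2 := Nat.one_lt_pow (by norm_num) h1
    omega
  have fX := Cfsg.Agent.Lib.Helper3_Sig2.mem_family_iff.mp hX
  apply le_antisymm
  · refine (Cfsg.Agent.Lib.Helper3_Sig.le_iSup_centralizer_hyperplane (p := p) _ B X rfl
      (Cfsg.Agent.Lib.Helper2_EA.ea_mono hA hB) hBne fX.2.1 (hB.trans fX.2.2.1)).trans ?_
    refine iSup_le ?_
    rintro ⟨D, hD, hDi⟩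
    refine le_trans ?_ (le_iSup (fun D : {D : Subgroup G // D ≤ B ∧ D.relIndex B = p} =>
      X ⊓ Cfsg.signalizerInf (D : Subgroup G) θ) ⟨D, hD, hDi⟩)
    exact le_inf inf_le_left (Cfsg.Agent.Lib.Helper3_Sig2.family_inf_centralizer_le hX (hD.trans hB))
  · exact iSup_le fun B => inf_le_left

end Cfsg.Agent.S1331
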