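import Cfsg.Statements.S1335
import Mathlib
import Cfsg.Agent.Lib.Helper3_Local

set_option autoImplicit false
open Cfsg

namespace Cfsg.Agent.S1335

theorem pRankLE_of_injective {p k : ℕ} {G G' : Type*} [Group G] [Group G'] (f : G →* G')
    (hf : Function.Injective f) (h : Cfsg.PRankLE p k G') : Cfsg.PRankLE p k G := by
  intro A hA hAp
  have h1 := h (A.map f) (by
    rw [isMulCommutative_iff_of_setLike]
    rintro _ ⟨x, hx, rfl⟩ _ ⟨y, hy, rfl⟩
    rw [← map_mul, ← map_mul, (isMulCommutative_iff_of_setLike.mp hA) x hx y hy]) (by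
    rintro _ ⟨x, hx, rfl⟩
    rw [← map_pow, hAp x hx, map_one])
  rwa [Nat.card_congr (A.equivMapOfInjective f hf).toEquiv.symm] at h1


/-- Let H be a subgroup of the finite group G, p a prime, k ≥ 1, P a Sylow p-subgroup of H of p-rank at least k, and suppose N_G(X) ≤ H for every subgroup X ≤ P of p-rank at least k. Then P is a Sylow p-subgroup of G. -/
theorem result {G : Type*} [Group G] [Finite G] {p : ℕ} [Fact p.Prime] (k : ℕ) (hk : 1 ≤ k) (H : Subgroup G) (P : Sylow p ↥H) (hP : ¬ Cfsg.PRankLE p (k - 1) ↥(P : Subgroup ↥H)) (hΓ : (∀ X : Subgroup G, X ≤ (P : Subgroup ↥H).map H.subtype → ¬ Cfsg.PRankLE p (k - 1) ↥X → Subgroup.normalizer (X : Set G) ≤ H)) : ∃ Q : Sylow p G, (Q : Subgroup G) = (P : Subgroup ↥H).map H.subtype := by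
  set P' := (P : Subgroup ↥H).map H.subtype with hP'
  have hP'p : IsPGroup p P' := P.2.map _
  have hrk : ¬ Cfsg.PRankLE p (k - 1) ↥P' := by
    intro h
    apply hP
    exact pRankLE_of_injective
      ((P : Subgroup ↥H).equivMapOfInjective H.subtype H.subtype_injective).toMonoidHom
      (MulEquiv.injective _) h
  have hN : Subgroup.normalizer (P' : Set G) ≤ H := hΓ P' le_rfl hrk
  obtain ⟨Q, hQ⟩ := hP'p.exists_le_sylow
  refine ⟨Q, ?_⟩
  by_contra hne
  have hlt : P' < (Q : Subgroup G) := lt_of_le_of_ne hQ (Ne.symm hne)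
  obtain ⟨x, hxQ, hxN, hxP⟩ := Cfsg.Agent.Lib.Helper3_Local.exists_mem_normalizer_not_mem Q.2 hlt
  -- R = Q ⊓ N(P') is a p-subgroup of H containing P' properly
  set R := (Q : Subgroup G) ⊓ Subgroup.normalizer (P' : Set G) with hR
  have hRH : R ≤ H := inf_le_right.trans hN
  have hRp : IsPGroup p (R.subgroupOf H) := by
    have : IsPGroup p R := Q.2.to_le inf_le_left
    exact this.comap_of_injective _ H.subtype_injective |>.to_le (by
      intro y hy; exact hy)
  have hPR : (P : Subgroup ↥H) ≤ R.subgroupOf H := by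
    intro y hy
    rw [Subgroup.mem_subgroupOf]
    have : (y : G) ∈ P' := ⟨y, hy, rfl⟩
    exact ⟨hQ this, Subgroup.le_normalizer this⟩
  have heq := P.3 hRp hPR
  have hx' : (⟨x, hRH ⟨hxQ, hxN⟩⟩ : ↥H) ∈ R.subgroupOf H := by
    rw [Subgroup.mem_subgroupOf]; exact ⟨hxQ, hxN⟩
  rw [heq] at hx'
  exact hxP ⟨_, hx', rfl⟩

end Cfsg.Agent.S1335
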