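import Cfsg.Statements.S1336
import Cfsg.Agent.Lib.Helper9_SE1

set_option autoImplicit false
open Cfsg

namespace Cfsg.Agent.S1336

/-- Let G be finite and p prime. Then G has a proper subgroup H with p ∣ |H| and p ∤ |H ∩ gHg⁻¹| for every g ∉ H (a strongly p-embedded subgroup) if and only if G is not 1-connected for p. -/
theorem result {G : Type*} [Group G] [Finite G] (p : ℕ) [Fact p.Prime] : (∃ H : Subgroup G, H ≠ ⊤ ∧ p ∣ Nat.card ↥H ∧ ∀ g : G, g ∉ H → ¬ p ∣ Nat.card ↥(H ⊓ H.map (MulAut.conj g).toMonoidHom)) ↔ ¬ Cfsg.IsKConnected p 1 G := by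
  constructor
  · rintro ⟨H, hne, hp, hs⟩
    exact Cfsg.Agent.Lib.Helper9_SE1.forward p H hne hp hs
  · intro h
    exact Cfsg.Agent.Lib.Helper9_SE1.backward p h

end Cfsg.Agent.S1336
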