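import Cfsg.Statements.S1386
import Mathlib
import Cfsg.Agent.Lib.helper6_Cyclic


set_option autoImplicit false
open Cfsg

namespace Cfsg.Agent.S1386

open Cfsg.Agent.Lib.helper6_Cyclic
open scoped Pointwise

theorem coprime_of_cyclic {G : Type*} [Group G] [Finite G] (W₁ A : Subgroup G)
    (hc : IsCyclic ↥(W₁ ⊔ A)) (hd : W₁ ⊓ A = ⊥) : (Nat.card W₁).Coprime (Nat.card A) := by
  apply Nat.coprime_of_dvd
  intro r hr h1 h2
  haveI : Fact r.Prime := ⟨hr⟩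
  obtain ⟨u, hu⟩ := exists_prime_orderOf_dvd_card' (G := W₁) r h1
  obtain ⟨v, hv⟩ := exists_prime_orderOf_dvd_card' (G := A) r h2
  have hu' : orderOf (u : G) = r := by rw [Subgroup.orderOf_coe]; exact hu
  have hv' : orderOf (v : G) = r := by rw [Subgroup.orderOf_coe]; exact hv
  have h3 := mem_zpowers_of_pow_orderOf' (W₁ ⊔ A) (y := (u : G)) (z := (v : G))
    (Subgroup.mem_sup_left u.2) (Subgroup.mem_sup_right v.2) (by rw [hu', ← hv', pow_orderOf_eq_one])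
  have hvW : (v : G) ∈ W₁ := (Subgroup.zpowers_le.mpr u.2) h3
  have h4 : (v : G) ∈ W₁ ⊓ A := Subgroup.mem_inf.mpr ⟨hvW, v.2⟩
  rw [hd, Subgroup.mem_bot] at h4
  rw [h4, orderOf_one] at hv'
  exact hr.one_lt.ne hv'

theorem le_of {G : Type*} [Group G] [Finite G] (W₁ A B : Subgroup G)
    (hcop : (Nat.card W₁).Coprime (Nat.card A)) (hdB : W₁ ⊓ B = ⊥)
    (hcomm : ∀ w ∈ W₁, ∀ b ∈ B, w * b = b * w)
    (hdec : ∀ a ∈ A, ∃ w ∈ W₁, ∃ b ∈ B, a = w * b) : A ≤ B := by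
  intro a ha
  obtain ⟨w, hw, b, hb, rfl⟩ := hdec a ha
  have h1 : (w * b) ^ (Nat.card A) = 1 :=
    orderOf_dvd_iff_pow_eq_one.mp (Subgroup.orderOf_dvd_natCard A ha)
  rw [(show Commute w b from hcomm w hw b hb).mul_pow] at h1
  have h2 : w ^ (Nat.card A) ∈ W₁ ⊓ B := by
    refine Subgroup.mem_inf.mpr ⟨Subgroup.pow_mem _ hw _, ?_⟩
    rw [eq_inv_of_mul_eq_one_left h1]
    exact Subgroup.inv_mem _ (Subgroup.pow_mem _ hb _)
  rw [hdB, Subgroup.mem_bot] at h2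
  have h3 : orderOf w ∣ Nat.card A := orderOf_dvd_of_pow_eq_one h2
  have h4 : orderOf w ∣ Nat.card W₁ := Subgroup.orderOf_dvd_natCard W₁ hw
  have h5 : orderOf w ∣ 1 := by
    have := Nat.dvd_gcd h4 h3
    rwa [hcop.gcd_eq_one] at this
  have h6 : w = 1 := orderOf_eq_one_iff.mp (Nat.dvd_one.mp h5)
  rw [h6, one_mul]; exact hb

theorem comm_of_cyclic {G : Type*} [Group G] (C : Subgroup G) (hc : IsCyclic C) :
    ∀ u ∈ C, ∀ v ∈ C, u * v = v * u := by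
  intro u hu v hv
  obtain ⟨g, hg⟩ := IsCyclic.exists_generator (α := C)
  obtain ⟨i, hi⟩ := Subgroup.mem_zpowers_iff.mp (hg ⟨u, hu⟩)
  obtain ⟨j, hj⟩ := Subgroup.mem_zpowers_iff.mp (hg ⟨v, hv⟩)
  have h1 : (⟨u, hu⟩ : C) * ⟨v, hv⟩ = ⟨v, hv⟩ * ⟨u, hu⟩ := by
    rw [← hi, ← hj, ← zpow_add, ← zpow_add, add_comm]
  exact congrArg Subtype.val h1

/-- Let G be a finite group, W₁, W₂ subgroups forming a self-normalizing cyclic pair, S a subgroup with W₂ ≤ S and W₁ a complement to S' in S, and (W₁, U, W₂') type-P data for S. Then W₂' = W₂ (that is, C_{S'}(W₁) = W₂). -/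
theorem result {G : Type*} [Group G] [Finite G] (W₁ W₂ S U W₂' : Subgroup G) (hW : Cfsg.IsSelfNormalizingCyclic W₁ W₂)
    (hSW : Cfsg.IsComplIn ⁅S, S⁆ W₁ S) (hW₂S : W₂ ≤ S) (hP : Cfsg.IsTypePWith S W₁ U W₂') :
    W₂' = W₂ := by
  classical
  obtain ⟨hW1ne, hW2ne, hd, hcm, hcyc, hnorm⟩ := hW
  obtain ⟨-, hW2'ne, hd', hcm', hcyc', hnorm'⟩ := hP.selfNormalizing
  obtain ⟨x', hx'1⟩ := Subgroup.ne_bot_iff_exists_ne_one.mp hW1ne
  obtain ⟨b₀', hb₀'1⟩ := Subgroup.ne_bot_iff_exists_ne_one.mp hW2ne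
  obtain ⟨x, hx0⟩ : ∃ x : G, x = (x' : G) := ⟨_, rfl⟩
  have hx : x ∈ W₁ := hx0 ▸ x'.2
  have hx1 : x ≠ 1 := fun h => hx'1 (Subtype.ext (hx0 ▸ h))
  obtain ⟨b₀, hb0⟩ : ∃ b : G, b = (b₀' : G) := ⟨_, rfl⟩
  have hb₀ : b₀ ∈ W₂ := hb0 ▸ b₀'.2
  have hb₀1 : b₀ ≠ 1 := fun h => hb₀'1 (Subtype.ext (hb0 ▸ h))
  have hW1comm := comm_of_cyclic W₁ hP.W₁_cyclic
  have hdec1 : ∀ b ∈ W₂, ∃ w ∈ W₁, ∃ b' ∈ W₂', b = w * b' := by
    intro b hb
    obtain ⟨s', hs', w, hw, hbe⟩ := hSW.2.2.2 b (hW₂S hb)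
    have hs'c : s' ∈ ⁅S, S⁆ ⊓ Subgroup.centralizer ({x} : Set G) := by
      refine Subgroup.mem_inf.mpr ⟨hs', ?_⟩
      rw [Subgroup.mem_centralizer_singleton_iff]
      have e1 : s' = b * w⁻¹ := by rw [hbe]; group
      have e2 : x * b = b * x := hcm x hx b hb
      have e3 : x * w = w * x := hW1comm x hx w hw
      have e4 : w⁻¹ * x = x * w⁻¹ := by
        calc w⁻¹ * x = w⁻¹ * (x * w) * w⁻¹ := by group
          _ = w⁻¹ * (w * x) * w⁻¹ := by rw [e3]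
          _ = x * w⁻¹ := by group
      calc s' * x = b * (w⁻¹ * x) := by rw [e1]; group
        _ = b * (x * w⁻¹) := by rw [e4]
        _ = (b * x) * w⁻¹ := by group
        _ = (x * b) * w⁻¹ := by rw [e2]
        _ = x * s' := by rw [e1]; group
    rw [hP.W₂_centralizer x hx hx1] at hs'c
    exact ⟨w, hw, s', hs'c, by rw [hbe]; exact (hcm' w hw s' hs'c).symm⟩
  have hle1 : W₂ ≤ W₂' := le_of W₁ W₂ W₂' (coprime_of_cyclic W₁ W₂ hcyc hd) hd' hcm' hdec1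
  have hx₀T : x * b₀ ∈ (↑(W₁ ⊔ W₂) : Set G) \ (↑W₁ ∪ ↑W₂) := by
    refine ⟨Subgroup.mul_mem _ (Subgroup.mem_sup_left hx) (Subgroup.mem_sup_right hb₀), ?_⟩
    rintro (h | h)
    · have h2 : b₀ ∈ W₁ := by
        have : b₀ = x⁻¹ * (x * b₀) := by group
        rw [this]; exact W₁.mul_mem (W₁.inv_mem hx) h
      have h3 : b₀ ∈ W₁ ⊓ W₂ := Subgroup.mem_inf.mpr ⟨h2, hb₀⟩
      rw [hd, Subgroup.mem_bot] at h3
      exact hb₀1 h3
    · have h2 : x ∈ W₂ := by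
        have : x = (x * b₀) * b₀⁻¹ := by group
        rw [this]; exact W₂.mul_mem h (W₂.inv_mem hb₀)
      have h3 : x ∈ W₁ ⊓ W₂ := Subgroup.mem_inf.mpr ⟨hx, h2⟩
      rw [hd, Subgroup.mem_bot] at h3
      exact hx1 h3
  have hN := hnorm {x * b₀} (by
    intro y hy
    rw [Set.mem_singleton_iff] at hy
    rw [hy]; exact hx₀T) (Set.singleton_nonempty _)
  have hW'comm := comm_of_cyclic (W₁ ⊔ W₂') hcyc'
  have hW'W : W₁ ⊔ W₂' ≤ W₁ ⊔ W₂ := by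
    refine le_trans ?_ hN.le
    intro c hc'
    have hc : c * (x * b₀) = (x * b₀) * c := hW'comm c hc' _
      (Subgroup.mul_mem _ (Subgroup.mem_sup_left hx) (Subgroup.mem_sup_right (hle1 hb₀)))
    rw [Subgroup.mem_set_normalizer_iff]
    intro n
    simp only [Set.mem_singleton_iff]
    constructor
    · rintro rfl
      rw [hc]; group
    · intro h
      have : n = c⁻¹ * (c * n * c⁻¹) * c := by group
      rw [this, h]
      calc c⁻¹ * (x * b₀) * c = c⁻¹ * (c * (x * b₀)) := by rw [mul_assoc, hc]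
        _ = x * b₀ := by group
  have hnz : W₁ ≤ Subgroup.normalizer (W₂ : Set G) := by
    intro w hw
    rw [Subgroup.mem_normalizer_iff]
    intro k
    constructor
    · intro hk
      have : w * k * w⁻¹ = k := by rw [hcm w hw k hk]; group
      rw [this]; exact hk
    · intro hk
      have e := hcm w⁻¹ (W₁.inv_mem hw) _ hk
      have : k = w⁻¹ * (w * k * w⁻¹) * w := by group
      rw [this, e]
      have : w * k * w⁻¹ * w⁻¹ * w = w * k * w⁻¹ := by group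
      rw [this]; exact hk
  have hdec2 : ∀ b' ∈ W₂', ∃ w ∈ W₁, ∃ b ∈ W₂, b' = w * b := by
    intro b' hb'
    have h1 : b' ∈ (↑(W₁ ⊔ W₂) : Set G) := hW'W (Subgroup.mem_sup_right hb')
    rw [Subgroup.coe_mul_of_left_le_normalizer_right W₁ W₂ hnz] at h1
    obtain ⟨w, hw, b, hb, rfl⟩ := Set.mem_mul.mp h1
    exact ⟨w, hw, b, hb, rfl⟩
  have hle2 : W₂' ≤ W₂ := le_of W₁ W₂' W₂ (coprime_of_cyclic W₁ W₂' hcyc' hd') hd hcm hdec2
  exact le_antisymm hle2 hle1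

end Cfsg.Agent.S1386
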