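import Cfsg.Statements.S1441
import Cfsg.Agent.S0027
import Cfsg.Agent.Lib.Helper1_Coprime

set_option autoImplicit false
open Cfsg

namespace Cfsg.Agent.S1441

/-- Let G be a finite group, H a solvable subgroup and A a subgroup normalizing H. Suppose there is a chain H = H₀ ≥ H₁ ≥ ⋯ ≥ H_n = 1 of subgroups normal in H and normalized by A such that A acts trivially on each factor H_{i-1}/H_i (that is, [H_{i-1}, A] ≤ H_i). Then every prime dividing the index of C_A(H) in A divides the order of H. -/
theorem result {G : Type*} [Group G] [Finite G] (H A : Subgroup G) (hH : Group.IsSolvable H) (hA : (A ≤ Subgroup.normalizer (H : Set G)))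
    (n : ℕ) (c : Fin (n + 1) → Subgroup G) (hc0 : c 0 = H) (hcn : c (Fin.last n) = ⊥) (hanti : Antitone c)
    (hcN : ∀ i, H ≤ Subgroup.normalizer ((c i : Subgroup G) : Set G)) (hcA : ∀ i, A ≤ Subgroup.normalizer ((c i : Subgroup G) : Set G))
    (htriv : ∀ i : Fin n, ⁅c i.castSucc, A⁆ ≤ c i.succ) :
    ∀ p : ℕ, p.Prime → p ∣ (A ⊓ Subgroup.centralizer (H : Set G)).relIndex A → p ∣ Nat.card H := by
  intro p hp hdvd
  by_contra hpH
  haveI : Fact p.Prime := ⟨hp⟩
  obtain ⟨P⟩ : Nonempty (Sylow p A) := inferInstance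
  set PX := (P : Subgroup A).map A.subtype with hPX
  have hPXA : PX ≤ A := Subgroup.map_subtype_le _
  have hPXp : IsPGroup p PX := P.2.map _
  have hle : ∀ i, c i ≤ H := fun i => hc0 ▸ hanti (Fin.zero_le i)
  have hcop : ∀ i, (Nat.card PX).Coprime (Nat.card (c i)) := by
    intro i
    obtain ⟨k, hk⟩ := IsPGroup.iff_card.mp hPXp
    rw [hk]
    apply Nat.Coprime.pow_left
    rw [Nat.Prime.coprime_iff_not_dvd hp]
    exact fun h => hpH (h.trans (Subgroup.card_dvd_of_le (hle i)))
  have key : ∀ i, ⁅c i, PX⁆ = ⊥ := by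
    intro i
    induction i using Fin.reverseInduction with
    | last => rw [hcn]; exact Subgroup.commutator_bot_left _
    | cast i ih =>
      have h1 := Cfsg.Agent.S0027.result PX (c i.castSucc) (hPXA.trans (hcA _)) (hcop _)
        (Or.inr (Cfsg.Agent.Lib.Helper1_Coprime.isSolvable_of_le (hle _)))
      rw [← h1, eq_bot_iff, ← ih]
      exact Subgroup.commutator_mono ((Subgroup.commutator_mono le_rfl hPXA).trans (htriv i)) le_rfl
  have h0 := key 0
  rw [hc0, Subgroup.commutator_comm, Subgroup.commutator_eq_bot_iff_le_centralizer] at h0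
  have h1 : (A ⊓ Subgroup.centralizer (H : Set G)).relIndex A ∣ PX.relIndex A :=
    Subgroup.relIndex_dvd_of_le_left A (le_inf hPXA h0)
  have h2 : PX.relIndex A = (P : Subgroup A).index := by
    rw [Subgroup.relIndex, hPX, Subgroup.subgroupOf,
      Subgroup.comap_map_eq_self_of_injective A.subtype_injective]
  rw [h2] at h1
  exact P.not_dvd_index (hdvd.trans h1)

end Cfsg.Agent.S1441
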