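import Cfsg.Statements.S1442
import Cfsg.Agent.S0027
import Cfsg.Agent.Lib.Helper3_Local
import Cfsg.Agent.Lib.Helper1_Comm

set_option autoImplicit false
open Cfsg

namespace Cfsg.Agent.S1442

/-- Let G be a finite group, H a nilpotent subgroup and A a subgroup normalizing H with the orders of A and H coprime. Put C = H ∩ C_G(A). If H ∩ C_G(C) ≤ C then A centralizes H. -/
theorem result {G : Type*} [Group G] [Finite G] (H A : Subgroup G) (hH : Group.IsNilpotent H) (hA : (A ≤ Subgroup.normalizer (H : Set G))) (hcop : (Nat.card A).Coprime (Nat.card H))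
    (hC : H ⊓ Subgroup.centralizer (((H ⊓ Subgroup.centralizer (A : Set G)) : Subgroup G) : Set G) ≤ (H ⊓ Subgroup.centralizer (A : Set G))) :
    A ≤ Subgroup.centralizer (H : Set G) := by
  set C := H ⊓ Subgroup.centralizer (A : Set G) with hCdef
  by_cases hCH : C = H
  · rw [Subgroup.le_centralizer_iff]
    rw [← hCH]; exact inf_le_right
  exfalso
  have hlt : C < H := lt_of_le_of_ne inf_le_left hCH
  -- normalizers grow
  obtain ⟨x, hxH, hxN, hxC⟩ : ∃ x ∈ H, x ∈ Subgroup.normalizer (C : Set G) ∧ x ∉ C := by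
    have hnc := Group.normalizerCondition_of_isNilpotent (G := H)
    have h1 : C.subgroupOf H < ⊤ := by
      rw [lt_top_iff_ne_top, Ne, Subgroup.subgroupOf_eq_top]
      exact not_le_of_gt hlt
    have h2 := hnc _ h1
    rw [← Subgroup.subgroupOf_normalizer_eq hlt.le] at h2
    obtain ⟨x, hx1, hx2⟩ := SetLike.exists_of_lt h2
    exact ⟨x, x.2, hx1, hx2⟩
  set N := H ⊓ Subgroup.normalizer (C : Set G) with hN
  have hAC : A ≤ Subgroup.normalizer (C : Set G) :=
    Cfsg.Agent.Lib.Helper3_Local.le_normalizer_inf hA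
      (Cfsg.Agent.Lib.Helper3_Local.le_normalizer_centralizer Subgroup.le_normalizer)
  have hAN : A ≤ Subgroup.normalizer (N : Set G) :=
    Cfsg.Agent.Lib.Helper3_Local.le_normalizer_inf hA
      (Cfsg.Agent.Lib.Helper3_Local.le_normalizer_normalizer hAC)
  have hCA : ⁅C, A⁆ = ⊥ := by
    rw [Subgroup.commutator_eq_bot_iff_le_centralizer]; exact inf_le_right
  have h1 : ⁅⁅N, C⁆, A⁆ = ⊥ := by
    rw [eq_bot_iff, ← hCA]
    apply Subgroup.commutator_mono _ le_rfl
    rw [Subgroup.commutator_comm]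
    exact Cfsg.Agent.Lib.Helper1_Comm.commutator_le_left inf_le_right
  have h2 : ⁅⁅C, A⁆, N⁆ = ⊥ := by rw [hCA]; exact Subgroup.commutator_bot_left N
  have h3 : ⁅⁅A, N⁆, C⁆ = ⊥ := Subgroup.commutator_commutator_eq_bot_of_rotate h1 h2
  have h4 : ⁅N, A⁆ ≤ C := by
    apply le_trans _ hC
    refine le_inf ((Cfsg.Agent.Lib.Helper1_Comm.commutator_le_left hAN).trans inf_le_left) ?_
    rw [Subgroup.commutator_comm]
    exact Subgroup.commutator_eq_bot_iff_le_centralizer.mp h3
  have hNs : Group.IsSolvable N := by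
    haveI : Group.IsSolvable H := inferInstance
    exact Cfsg.Agent.Lib.Helper1_Coprime.isSolvable_of_le (inf_le_left : N ≤ H)
  have h5 := Cfsg.Agent.S0027.result A N hAN
    (Nat.Coprime.coprime_dvd_right (Subgroup.card_dvd_of_le inf_le_left) hcop) (Or.inr hNs)
  have h6 : ⁅N, A⁆ = ⊥ := by
    rw [← h5, eq_bot_iff, ← hCA]
    exact Subgroup.commutator_mono h4 le_rfl
  have h7 : N ≤ Subgroup.centralizer (A : Set G) := Subgroup.commutator_eq_bot_iff_le_centralizer.mp h6
  exact hxC ⟨hxH, h7 ⟨hxH, hxN⟩⟩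

end Cfsg.Agent.S1442
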