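import Cfsg.Statements.S1443
import Mathlib
import Cfsg.Agent.S0120
import Cfsg.Agent.S1442


set_option autoImplicit false
open Cfsg

namespace Cfsg.Agent.S1443

/-- conjugation action of `S` on `D` -/
def conjHom' {Γ : Type*} [Group Γ] (D S : Subgroup Γ) (hnorm : ∀ s ∈ S, ∀ g ∈ D, s * g * s⁻¹ ∈ D) :
    S →* MulAut D where
  toFun s :=
    { toFun := fun g => ⟨s * g * s⁻¹, hnorm s s.2 g g.2⟩
      invFun := fun g => ⟨s⁻¹ * g * s, by simpa using hnorm s⁻¹ (inv_mem s.2) g g.2⟩
      left_inv := fun g => by apply Subtype.ext; simp [mul_assoc]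
      right_inv := fun g => by apply Subtype.ext; simp [mul_assoc]
      map_mul' := fun g g' => by apply Subtype.ext; simp [mul_assoc] }
  map_one' := by ext g; simp
  map_mul' s t := by ext g; simp [mul_assoc]

/-- Let G be a finite group, p an odd prime, H a p-subgroup, E an elementary abelian subgroup of H, and A a subgroup of order coprime to p normalizing H. If A centralizes every element of order p in H ∩ C_G(E), then A centralizes H. -/
theorem result {G : Type*} [Group G] [Finite G] (p : ℕ) [Fact p.Prime] (hp : p ≠ 2) (H E A : Subgroup G) (hH : IsPGroup p H) (hE : E ≤ H) (hEe : Cfsg.IsElementaryAbelian p E)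
    (hA : (A ≤ Subgroup.normalizer (H : Set G))) (hcop : (Nat.card A).Coprime p)
    (hfix : ∀ x ∈ (H ⊓ Subgroup.centralizer (E : Set G)), orderOf x = p → A ≤ Subgroup.centralizer ({x} : Set G)) :
    A ≤ Subgroup.centralizer (H : Set G) := by
  classical
  set D := H ⊓ Subgroup.centralizer (E : Set G) with hD
  have hEcomm : ∀ a ∈ E, ∀ b ∈ E, a * b = b * a := by
    intro a ha b hb
    have := hEe.1.is_comm.comm (⟨a, ha⟩ : E) ⟨b, hb⟩
    exact congrArg Subtype.val this
  have hAE : ∀ a ∈ A, ∀ e ∈ E, a * e = e * a := by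
    intro a ha e he
    by_cases he1 : e = 1
    · simp [he1]
    · have heo : orderOf e = p := orderOf_eq_prime (hEe.2 e he) he1
      have heD : e ∈ D := by
        refine Subgroup.mem_inf.mpr ⟨hE he, ?_⟩
        rw [Subgroup.mem_centralizer_iff]
        intro y hy
        exact hEcomm y hy e he
      exact Subgroup.mem_centralizer_singleton_iff.mp (hfix e heD heo ha)
  have hnormD : ∀ a ∈ A, ∀ d ∈ D, a * d * a⁻¹ ∈ D := by
    intro a ha d hd
    obtain ⟨hd1, hd2⟩ := Subgroup.mem_inf.mp hd
    refine Subgroup.mem_inf.mpr ⟨(Subgroup.mem_normalizer_iff.mp (hA ha) d).mp hd1, ?_⟩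
    rw [Subgroup.mem_centralizer_iff]
    intro y hy
    have h1 : a * y = y * a := hAE a ha y hy
    have h2 : y * d = d * y := Subgroup.mem_centralizer_iff.mp hd2 y hy
    have hy' : a * y * a⁻¹ = y := by rw [h1]; group
    calc y * (a * d * a⁻¹) = (a * y * a⁻¹) * (a * d * a⁻¹) := by rw [hy']
      _ = a * (y * d) * a⁻¹ := by group
      _ = a * (d * y) * a⁻¹ := by rw [h2]
      _ = (a * d * a⁻¹) * (a * y * a⁻¹) := by group
      _ = (a * d * a⁻¹) * y := by rw [hy']
  have hAD : ∀ a ∈ A, ∀ d ∈ D, a * d * a⁻¹ = d := by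
    intro a ha d hd
    let φ := conjHom' D A hnormD
    have hDp : IsPGroup p D := hH.to_le inf_le_left
    have h1 : φ ⟨a, ha⟩ = 1 := by
      apply Cfsg.Agent.S0120.result hp hDp
      · have d1 : orderOf (φ ⟨a, ha⟩) ∣ orderOf (⟨a, ha⟩ : A) := orderOf_map_dvd φ _
        have d2 : orderOf (⟨a, ha⟩ : A) ∣ Nat.card A := orderOf_dvd_natCard _
        exact Nat.Coprime.coprime_dvd_left (d1.trans d2) hcop
      · intro x hx
        by_cases hx1 : x = 1
        · rw [hx1, map_one]
        · have hxo : orderOf (x : G) = p := by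
            rw [Subgroup.orderOf_coe]; exact orderOf_eq_prime hx hx1
          have h3 := hfix x x.2 hxo ha
          apply Subtype.ext
          show a * (x : G) * a⁻¹ = x
          rw [Subgroup.mem_centralizer_singleton_iff.mp h3]; group
    have := congrArg (fun f : MulAut D => ((f ⟨d, hd⟩ : D) : G)) h1
    exact this
  have hcop' : (Nat.card A).Coprime (Nat.card H) := by
    obtain ⟨n, hn⟩ := IsPGroup.iff_card.mp hH
    rw [hn]; exact Nat.Coprime.pow_right n hcop
  refine Cfsg.Agent.S1442.result H A hH.isNilpotent hA hcop' ?_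
  intro h hh
  obtain ⟨hh1, hh2⟩ := Subgroup.mem_inf.mp hh
  have hhD : h ∈ D := by
    refine Subgroup.mem_inf.mpr ⟨hh1, ?_⟩
    rw [Subgroup.mem_centralizer_iff]
    intro y hy
    refine Subgroup.mem_centralizer_iff.mp hh2 y (Subgroup.mem_inf.mpr ⟨hE hy, ?_⟩)
    rw [Subgroup.mem_centralizer_iff]
    intro a ha
    exact hAE a ha y hy
  refine Subgroup.mem_inf.mpr ⟨hh1, ?_⟩
  rw [Subgroup.mem_centralizer_iff]
  intro a ha
  calc a * h = a * h * a⁻¹ * a := by group
    _ = h * a := by rw [hAD a ha h hhD]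

end Cfsg.Agent.S1443
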