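import Cfsg.Statements.S1460
import Cfsg.Agent.Lib.Helper1_Coprime
import Cfsg.Agent.Lib.Helper4_Cop

set_option autoImplicit false
open Cfsg

namespace Cfsg.Agent.S1460

open scoped Pointwise commutatorElement

/-- Let G be a finite solvable group, K a normal subgroup and U a subgroup with G = KU, and H ≤ U a subgroup whose order is coprime to that of K. Then H ∩ G' = H ∩ U'; N_G(H) is generated by K ∩ C_G(H) and U ∩ N_G(H); and if gHg⁻¹ ≤ U for some g ∈ G then g = u c with u ∈ U and c ∈ K ∩ C_G(H). -/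
theorem result {G : Type*} [Group G] [Finite G] [Group.IsSolvable G] (K U H : Subgroup G) [K.Normal] (hKU : K ⊔ U = ⊤) (hH : H ≤ U) (hcop : (Nat.card H).Coprime (Nat.card K)) :
    H ⊓ commutator G = H ⊓ ⁅U, U⁆ ∧
      Subgroup.normalizer (H : Set G) = (K ⊓ Subgroup.centralizer (H : Set G)) ⊔ (U ⊓ Subgroup.normalizer (H : Set G)) ∧
      ∀ g : G, H.map (MulAut.conj g).toMonoidHom ≤ U → ∃ u ∈ U, ∃ c ∈ K ⊓ Subgroup.centralizer (H : Set G), g = u * c := by
  have hKn : ∀ X : Subgroup G, X ≤ Subgroup.normalizer (K : Set G) := fun X => by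
    rw [Subgroup.normalizer_eq_top]; exact le_top
  have hdisj : Disjoint H K := Subgroup.disjoint_of_coprime_natCard hcop
  -- part (c)
  have hc : ∀ g : G, H.map (MulAut.conj g).toMonoidHom ≤ U →
      ∃ u ∈ U, ∃ c ∈ K ⊓ Subgroup.centralizer (H : Set G), g = u * c := by
    intro g hg
    have hgmem : g ∈ U ⊔ K := by rw [sup_comm, hKU]; exact Subgroup.mem_top g
    rw [Subgroup.mem_sup_of_normal_right] at hgmem
    obtain ⟨u, hu, k, hk, rfl⟩ := hgmem
    have hkU : ∀ h ∈ H, k * h * k⁻¹ ∈ U := by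
      intro h hh
      have h1 : (u * k) * h * (u * k)⁻¹ ∈ U := hg ⟨h, hh, rfl⟩
      have h2 : k * h * k⁻¹ = u⁻¹ * ((u * k) * h * (u * k)⁻¹) * u := by group
      rw [h2]
      exact U.mul_mem (U.mul_mem (U.inv_mem hu) h1) hu
    have hHV : H ≤ Subgroup.normalizer ((U ⊓ K : Subgroup G) : Set G) :=
      le_trans (le_inf (hH.trans Subgroup.le_normalizer) (hKn H)) Subgroup.inf_normalizer_le_normalizer_inf
    have hB : MulAut.conj k • H ≤ H ⊔ (U ⊓ K) := by
      intro b hb
      rw [Cfsg.Agent.Lib.Helper1_Basic.mem_conj_smul] at hb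
      set h := k⁻¹ * b * k with hh
      have hb' : b = k * h * k⁻¹ := by rw [hh]; group
      have h3 : b = h * (h⁻¹ * (k * h * k⁻¹)) := by rw [hb']; group
      rw [h3]
      refine Subgroup.mul_mem _ (Subgroup.mem_sup_left hb) (Subgroup.mem_sup_right ⟨?_, ?_⟩)
      · exact U.mul_mem (U.inv_mem (hH hb)) (hkU h hb)
      · have : h⁻¹ * (k * h * k⁻¹) = (h⁻¹ * k * h⁻¹⁻¹) * k⁻¹ := by group
        rw [this]
        exact K.mul_mem (‹K.Normal›.conj_mem k hk _) (K.inv_mem hk)
    obtain ⟨w, hw, hwH⟩ := Cfsg.Agent.Lib.Helper1_Coprime.conj_of_le_sup hHV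
      (Nat.Coprime.coprime_dvd_right (Subgroup.card_dvd_of_le inf_le_right) hcop)
      (Or.inl inferInstance) hB (Cfsg.Agent.Lib.Helper1_Basic.card_conj_smul _ _)
    have hcK : w⁻¹ * k ∈ K := K.mul_mem (K.inv_mem hw.2) hk
    have hcH : MulAut.conj (w⁻¹ * k) • H = H := by
      rw [map_mul, mul_smul, ← hwH, ← mul_smul, ← map_mul, inv_mul_cancel, map_one, one_smul]
    refine ⟨u * w, U.mul_mem hu hw.1, w⁻¹ * k,
      ⟨hcK, Cfsg.Agent.Lib.Helper1_Coprime.mem_centralizer_of_conj_smul_eq (hKn H) hdisj hcK hcH⟩, by group⟩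
  refine ⟨?_, ?_, hc⟩
  · -- part (a)
    apply le_antisymm
    · have hG' : commutator G ≤ ⁅U, U⁆ ⊔ K := by
        rw [commutator_def, Subgroup.commutator_le]
        intro g₁ _ g₂ _
        have key : ∀ g : G, ∃ u ∈ U, QuotientGroup.mk' K g = QuotientGroup.mk' K u := by
          intro g
          have hgmem : g ∈ U ⊔ K := by rw [sup_comm, hKU]; exact Subgroup.mem_top g
          rw [Subgroup.mem_sup_of_normal_right] at hgmem
          obtain ⟨u, hu, k, hk, rfl⟩ := hgmem
          refine ⟨u, hu, ?_⟩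
          have hk1 : QuotientGroup.mk' K k = 1 := (QuotientGroup.eq_one_iff k).mpr hk
          rw [map_mul, hk1, mul_one]
        obtain ⟨u₁, hu₁, e₁⟩ := key g₁
        obtain ⟨u₂, hu₂, e₂⟩ := key g₂
        have h1 : QuotientGroup.mk' K ⁅g₁, g₂⁆ ∈ (⁅U, U⁆).map (QuotientGroup.mk' K) := by
          rw [map_commutatorElement, e₁, e₂, ← map_commutatorElement]
          exact Subgroup.mem_map_of_mem _ (Subgroup.commutator_mem_commutator hu₁ hu₂)
        rw [← Subgroup.mem_comap, Subgroup.comap_map_eq, QuotientGroup.ker_mk'] at h1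
        exact h1
      rintro x ⟨hxH, hxG⟩
      refine ⟨hxH, ?_⟩
      have hx2 := hG' hxG
      rw [Subgroup.mem_sup_of_normal_right] at hx2
      obtain ⟨w, hw, k, hk, hwk⟩ := hx2
      have hwU : w ∈ U := Subgroup.commutator_le_self U hw
      have hxU : x ∈ U := hH hxH
      have hkU : k ∈ U := by
        have : k = w⁻¹ * x := by rw [← hwk]; group
        rw [this]; exact U.mul_mem (U.inv_mem hwU) hxU
      -- pass to the abelianization of `U`
      have hker : ∀ y : U, Abelianization.of y = 1 ↔ (y : G) ∈ ⁅U, U⁆ := by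
        intro y
        rw [← Subgroup.map_subtype_commutator, ← MonoidHom.mem_ker, Abelianization.ker_of]
        constructor
        · intro h; exact ⟨y, h, rfl⟩
        · rintro ⟨z, hz, hzy⟩
          have : z = y := Subtype.ext hzy
          exact this ▸ hz
      refine (hker ⟨x, hxU⟩).mp ?_
      have e1 : Abelianization.of (⟨x, hxU⟩ : U) = Abelianization.of (⟨k, hkU⟩ : U) := by
        have : (⟨x, hxU⟩ : U) = ⟨w, hwU⟩ * ⟨k, hkU⟩ := Subtype.ext hwk.symm
        rw [this, map_mul, (hker ⟨w, hwU⟩).mpr hw, one_mul]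
      have e2 : (Abelianization.of (⟨x, hxU⟩ : U)) ^ Nat.card H = 1 := by
        rw [← map_pow]
        have : (⟨x, hxU⟩ : U) ^ Nat.card H = 1 := by
          apply Subtype.ext
          have h9 := pow_card_eq_one' (x := (⟨x, hxH⟩ : H))
          have h10 : x ^ Nat.card H = 1 := congrArg Subtype.val h9
          simpa using h10
        rw [this, map_one]
      have e3 : (Abelianization.of (⟨x, hxU⟩ : U)) ^ Nat.card K = 1 := by
        rw [e1, ← map_pow]
        have : (⟨k, hkU⟩ : U) ^ Nat.card K = 1 := by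
          apply Subtype.ext
          have h9 := pow_card_eq_one' (x := (⟨k, hk⟩ : K))
          have h10 : k ^ Nat.card K = 1 := congrArg Subtype.val h9
          simpa using h10
        rw [this, map_one]
      exact Cfsg.Agent.Lib.Helper4_Cop.eq_one_of_coprime_pow e2 e3 hcop
    · refine inf_le_inf_left _ ?_
      rw [commutator_def]
      exact Subgroup.commutator_mono le_top le_top
  · -- part (b)
    apply le_antisymm
    · intro g hg
      have h1 : H.map (MulAut.conj g).toMonoidHom ≤ U := by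
        rintro _ ⟨h, hh, rfl⟩
        exact hH ((Subgroup.mem_normalizer_iff.mp hg h).mp hh)
      obtain ⟨u, hu, c, hcc, rfl⟩ := hc g h1
      have hcN : c ∈ Subgroup.normalizer (H : Set G) := Subgroup.centralizer_le_normalizer _ hcc.2
      have huN : u ∈ Subgroup.normalizer (H : Set G) := by
        have : u = (u * c) * c⁻¹ := by group
        rw [this]
        exact Subgroup.mul_mem _ hg (Subgroup.inv_mem _ hcN)
      exact Subgroup.mul_mem _ (Subgroup.mem_sup_right ⟨hu, huN⟩) (Subgroup.mem_sup_left hcc)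
    · exact sup_le (inf_le_right.trans (Subgroup.centralizer_le_normalizer _)) inf_le_right

end Cfsg.Agent.S1460
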