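import Cfsg.Statements.S1461
import Cfsg.Agent.S1460
import Cfsg.Agent.Lib.Helper3_Frat

set_option autoImplicit false
open Cfsg

namespace Cfsg.Agent.S1461

open scoped Pointwise

theorem ups_succ_even (p : ℕ) (G : Type*) [Group G] (n : ℕ) (h : Even n) :
    (Cfsg.upperPSeries p G (n + 1)).1 =
      (Cfsg.pPrimeCore p (G ⧸ (Cfsg.upperPSeries p G n).1)).comap (QuotientGroup.mk' _) := by
  rw [Cfsg.upperPSeries]
  simp only [h, if_true]

theorem ups_succ_odd (p : ℕ) (G : Type*) [Group G] (n : ℕ) (h : ¬ Even n) :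
    (Cfsg.upperPSeries p G (n + 1)).1 =
      (Cfsg.pCore p (G ⧸ (Cfsg.upperPSeries p G n).1)).comap (QuotientGroup.mk' _) := by
  rw [Cfsg.upperPSeries]
  simp only [h, if_false]

/-- structure of groups of `p`-length one -/
theorem plength_one_structure {G : Type*} [Group G] [Finite G] (p : ℕ) [Fact p.Prime]
    (hpl : Cfsg.PLengthLE p 1 G) (S : Sylow p G) :
    ∃ K : Subgroup G, K.Normal ∧ (Nat.card K).Coprime p ∧
      K ⊔ Subgroup.normalizer ((S : Subgroup G) : Set G) = ⊤ := by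
  set U₁ := (Cfsg.upperPSeries p G 1).1 with hU₁
  set U₂ := (Cfsg.upperPSeries p G 2).1 with hU₂
  have e1 : U₁ = (Cfsg.pPrimeCore p (G ⧸ (Cfsg.upperPSeries p G 0).1)).comap (QuotientGroup.mk' _) :=
    ups_succ_even p G 0 (by decide)
  have e2 : U₂ = (Cfsg.pCore p (G ⧸ U₁)).comap (QuotientGroup.mk' _) :=
    ups_succ_odd p G 1 (by decide)
  have e3 : (Cfsg.upperPSeries p G 3).1 = (Cfsg.pPrimeCore p (G ⧸ U₂)).comap (QuotientGroup.mk' _) :=
    ups_succ_even p G 2 (by decide)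
  have hU₁n : U₁.Normal := (Cfsg.upperPSeries p G 1).2
  have hU₂n : U₂.Normal := (Cfsg.upperPSeries p G 2).2
  have h0 : (Cfsg.upperPSeries p G 0).1 = ⊥ := rfl
  have hK : (Nat.card U₁).Coprime p := by
    rw [e1, Cfsg.Agent.Lib.Helper3_PComp.card_comap_of_surjective _ (QuotientGroup.mk'_surjective _),
      QuotientGroup.ker_mk']
    have hc0 : Nat.card (Cfsg.upperPSeries p G 0).1 = 1 := by rw [h0, Subgroup.card_bot]
    rw [hc0, one_mul]
    exact Cfsg.Agent.Lib.Helper3_PComp.pPrimeCore_coprime p _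
  -- `G / U₂` is a `p'`-group
  have htop : Cfsg.pPrimeCore p (G ⧸ U₂) = ⊤ := by
    have h3 : (Cfsg.upperPSeries p G 3).1 = ⊤ := hpl
    rw [e3] at h3
    rw [eq_top_iff]
    intro q _
    obtain ⟨g, rfl⟩ := QuotientGroup.mk'_surjective U₂ q
    have : g ∈ (Cfsg.pPrimeCore p (G ⧸ U₂)).comap (QuotientGroup.mk' U₂) := by rw [h3]; trivial
    exact this
  have hidx : (Nat.card (G ⧸ U₂)).Coprime p := by
    have := Cfsg.Agent.Lib.Helper3_PComp.pPrimeCore_coprime p (G ⧸ U₂)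
    rwa [htop, Subgroup.card_top] at this
  have hSU : (S : Subgroup G) ≤ U₂ := by
    intro s hs
    obtain ⟨k, hk⟩ := S.2 ⟨s, hs⟩
    have hk' : s ^ p ^ k = 1 := congrArg Subtype.val hk
    rw [← QuotientGroup.eq_one_iff]
    have e4 : ((s : G) : G ⧸ U₂) ^ p ^ k = 1 := by
      rw [← QuotientGroup.mk_pow, hk']; rfl
    exact Cfsg.Agent.Lib.Helper4_Cop.eq_one_of_coprime_pow e4 pow_card_eq_one'
      (Nat.Coprime.pow_left k hidx.symm)
  -- `U₂ = S U₁`
  have hU₂eq : U₂ = (S : Subgroup G) ⊔ U₁ := by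
    have hsub : (S : Subgroup G) ≤ (Cfsg.pCore p (G ⧸ U₁)).comap (QuotientGroup.mk' U₁) := e2 ▸ hSU
    have h5 := Cfsg.Agent.Lib.Helper3_Frat.sylow_comap_map (QuotientGroup.mk' U₁)
      (QuotientGroup.mk'_surjective _) (Cfsg.pCore p (G ⧸ U₁))
      (Cfsg.Agent.Lib.Helper3_PComp.pCore_isPGroup p _) (S.subtype hsub)
    rw [Sylow.coe_subtype, Subgroup.map_subgroupOf_eq_of_le hsub] at h5
    rw [e2, ← h5, Subgroup.comap_map_eq, QuotientGroup.ker_mk']
  refine ⟨U₁, hU₁n, hK, ?_⟩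
  have h6 := Sylow.normalizer_sup_eq_top (S.subtype hSU)
  rw [Sylow.coe_subtype, Subgroup.map_subgroupOf_eq_of_le hSU] at h6
  rw [eq_top_iff, ← h6, hU₂eq]
  refine sup_le le_sup_right (sup_le (Subgroup.le_normalizer.trans le_sup_right) le_sup_left)


/-- Let G be a finite solvable group, p a prime with G = O_{p',p,p'}(G), and S a Sylow p-subgroup. Then: if S ≤ G' then S ≤ [N_G(S), N_G(S)]; if Y ⊆ S and xYx⁻¹ ⊆ S then x = g c for some g ∈ N_G(S) and c centralizing Y; and for every p-subgroup Q there is x ∈ C_G(Q ∩ S) with xQx⁻¹ ≤ S. -/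
theorem result {G : Type*} [Group G] [Finite G] [Group.IsSolvable G] (p : ℕ) [Fact p.Prime] (hpl : Cfsg.PLengthLE p 1 G) (S : Sylow p G) :
    ((S : Subgroup G) ≤ commutator G → (S : Subgroup G) ≤ ⁅Subgroup.normalizer ((S : Subgroup G) : Set G), Subgroup.normalizer ((S : Subgroup G) : Set G)⁆) ∧
      (∀ (Y : Set G) (x : G), Y ⊆ (S : Subgroup G) → (fun y => x * y * x⁻¹) '' Y ⊆ (S : Subgroup G) →
        ∃ g ∈ Subgroup.normalizer ((S : Subgroup G) : Set G), ∃ c ∈ Subgroup.centralizer Y, g * c = x) ∧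
      ∀ Q : Subgroup G, IsPGroup p Q → ∃ x ∈ Subgroup.centralizer ((Q ⊓ (S : Subgroup G) : Subgroup G) : Set G), Q.map (MulAut.conj x).toMonoidHom ≤ (S : Subgroup G) := by
  obtain ⟨K, hKn, hKp, hKU⟩ := plength_one_structure p hpl S
  set U := Subgroup.normalizer ((S : Subgroup G) : Set G) with hU
  have hSU : (S : Subgroup G) ≤ U := Subgroup.le_normalizer
  have hcop : ∀ H : Subgroup G, H ≤ (S : Subgroup G) → (Nat.card H).Coprime (Nat.card K) := by
    intro H hH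
    obtain ⟨k, hk⟩ := IsPGroup.iff_card.mp (S.2.to_le hH)
    rw [hk]
    exact Nat.Coprime.pow_left k hKp.symm
  refine ⟨?_, ?_, ?_⟩
  · intro hS
    have h1 := (Cfsg.Agent.S1460.result K U (S : Subgroup G) hKU hSU (hcop _ le_rfl)).1
    rw [inf_eq_left.mpr hS] at h1
    rw [h1]; exact inf_le_right
  · intro Y x hY hxY
    have hH : Subgroup.closure Y ≤ (S : Subgroup G) := (Subgroup.closure_le _).mpr hY
    have h1 := (Cfsg.Agent.S1460.result K U (Subgroup.closure Y) hKU (hH.trans hSU) (hcop _ hH)).2.2 x (by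
      rw [MonoidHom.map_closure, Subgroup.closure_le]
      exact fun y hy => hSU (hxY hy))
    obtain ⟨u, hu, c, hc, rfl⟩ := h1
    refine ⟨u, hu, c, ?_, rfl⟩
    have := hc.2
    rwa [Subgroup.centralizer_closure] at this
  · intro Q hQ
    obtain ⟨P, hP⟩ := hQ.exists_le_sylow
    obtain ⟨g, hg⟩ := MulAction.exists_smul_eq G P S
    have hgQ : ∀ q ∈ Q, g * q * g⁻¹ ∈ (S : Subgroup G) := by
      intro q hq
      rw [← hg, Sylow.coe_subgroup_smul]
      exact ⟨q, hP hq, rfl⟩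
    have h1 := (Cfsg.Agent.S1460.result K U (Q ⊓ (S : Subgroup G)) hKU (inf_le_right.trans hSU)
      (hcop _ inf_le_right)).2.2 g (by
        rintro _ ⟨q, hq, rfl⟩
        exact hSU (hgQ q hq.1))
    obtain ⟨u, hu, c, hc, rfl⟩ := h1
    refine ⟨c, hc.2, ?_⟩
    rintro _ ⟨q, hq, rfl⟩
    have h2 := hgQ q hq
    have h3 : u⁻¹ * ((u * c) * q * (u * c)⁻¹) * u⁻¹⁻¹ ∈ (S : Subgroup G) :=
      (Subgroup.mem_normalizer_iff.mp (Subgroup.inv_mem _ hu) _).mp h2
    have h4 : u⁻¹ * ((u * c) * q * (u * c)⁻¹) * u⁻¹⁻¹ = c * q * c⁻¹ := by group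
    rw [h4] at h3
    exact h3

end Cfsg.Agent.S1461
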