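import Cfsg.Statements.S1466
import Mathlib
import Cfsg.Agent.Lib.Helper1_MaxAb


set_option autoImplicit false
open Cfsg

namespace Cfsg.Agent.S1466

open Cfsg.Agent.Lib.Helper1_MaxAb

/-- Let p be a prime and R a nontrivial finite p-group. Then for every i > 0, Z(R) ≤ C_R(L_i(R)) ≤ L_i(R); likewise Z(R) ≤ C_R(L_*(R)) ≤ L_*(R) and Z(R) ≤ C_R(L(R)) ≤ L(R); and L(R) ≠ 1, L_*(R) ≠ 1. -/
theorem result {R : Type*} [Group R] [Finite R] (p : ℕ) [Fact p.Prime] (hR : IsPGroup p R) [Nontrivial R] :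
    (∀ i : ℕ, 0 < i → Subgroup.center R ≤ Subgroup.centralizer ((Cfsg.puigSeq R i : Subgroup R) : Set R) ∧
        Subgroup.centralizer ((Cfsg.puigSeq R i : Subgroup R) : Set R) ≤ Cfsg.puigSeq R i) ∧
      (Subgroup.center R ≤ Subgroup.centralizer ((Cfsg.puigLower R : Subgroup R) : Set R) ∧ Subgroup.centralizer ((Cfsg.puigLower R : Subgroup R) : Set R) ≤ Cfsg.puigLower R) ∧
      (Subgroup.center R ≤ Subgroup.centralizer ((Cfsg.puigSubgroup R : Subgroup R) : Set R) ∧ Subgroup.centralizer ((Cfsg.puigSubgroup R : Subgroup R) : Set R) ≤ Cfsg.puigSubgroup R) ∧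
      Cfsg.puigSubgroup R ≠ ⊥ ∧ Cfsg.puigLower R ≠ ⊥ := by
  classical
  haveI : Group.IsNilpotent R := hR.isNilpotent
  obtain ⟨A, hAn, hAab, hAmax⟩ := exists_maximal_normal_abelian (G := R)
  haveI := hAn
  have hCA : Subgroup.centralizer (A : Set R) ≤ A := centralizer_le_of_maximal A hAmax hAab
  have hAc : IsMulCommutative A := ⟨⟨fun a b => Subtype.ext (hAab a a.2 b b.2)⟩⟩
  have hstep : ∀ X : Subgroup R, A ≤ Cfsg.puigStep X := by
    intro X
    apply le_sSup
    refine ⟨hAc, ?_⟩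
    intro x _
    rw [Subgroup.mem_normalizer_iff]
    intro k
    constructor
    · intro hk; exact hAn.conj_mem k hk x
    · intro hk
      have := hAn.conj_mem _ hk x⁻¹
      have e : x⁻¹ * (x * k * x⁻¹) * x⁻¹⁻¹ = k := by group
      rwa [e] at this
  have hseq : ∀ i : ℕ, 0 < i → A ≤ Cfsg.puigSeq R i := by
    intro i hi
    obtain ⟨j, rfl⟩ : ∃ j, i = j + 1 := ⟨i - 1, by omega⟩
    exact hstep _
  have hcen : ∀ Y : Subgroup R, Subgroup.center R ≤ Subgroup.centralizer (Y : Set R) := by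
    intro Y
    exact Subgroup.center_le_centralizer _
  have hgen : ∀ Y : Subgroup R, A ≤ Y → Subgroup.centralizer (Y : Set R) ≤ Y := by
    intro Y hY
    exact (Subgroup.centralizer_le hY).trans (hCA.trans hY)
  have hA1 : A ≠ ⊥ := by
    intro h
    rw [h] at hCA
    have h1 : Subgroup.centralizer (((⊥ : Subgroup R)) : Set R) = ⊤ := by
      rw [eq_top_iff]
      intro x _
      rw [Subgroup.mem_centralizer_iff]
      intro y hy
      have : y = 1 := hy
      rw [this]; simp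
    rw [h1] at hCA
    have h2 : (⊤ : Subgroup R) = ⊥ := le_antisymm hCA bot_le
    exact top_ne_bot h2
  have hlow : A ≤ Cfsg.puigLower R := by
    refine le_trans (hseq 2 (by norm_num)) ?_
    exact le_iSup (fun n : ℕ => Cfsg.puigSeq R (2 * n)) 1
  have hup : A ≤ Cfsg.puigSubgroup R := by
    apply le_iInf
    intro n
    exact hseq _ (by omega)
  refine ⟨fun i hi => ⟨hcen _, hgen _ (hseq i hi)⟩, ⟨hcen _, hgen _ hlow⟩, ⟨hcen _, hgen _ hup⟩,
    ?_, ?_⟩
  · intro h
    rw [h] at hup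
    exact hA1 (le_antisymm hup bot_le)
  · intro h
    rw [h] at hlow
    exact hA1 (le_antisymm hlow bot_le)

end Cfsg.Agent.S1466
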