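import Cfsg.Statements.S1467
import Mathlib


set_option autoImplicit false
open Cfsg

namespace Cfsg.Agent.S1467



/-- Let G be a finite group with Puig series L_n(G). Then L_0 = 1, L_1 = G; L_{2n} ≤ L_{2n+2} ≤ L_{2m+3} ≤ L_{2m+1} for all n, m; there is k with L_{2n}(G) = L_*(G) and L_{2n+1}(G) = L(G) for all n ≥ k; L_*(G) ≤ L(G); and applying one Puig step to L_*(G) gives L(G) and to L(G) gives L_*(G). -/
theorem result {G : Type*} [Group G] [Finite G] :
    Cfsg.puigSeq G 0 = ⊥ ∧ Cfsg.puigSeq G 1 = ⊤ ∧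
      (∀ n m : ℕ, Cfsg.puigSeq G (2 * n) ≤ Cfsg.puigSeq G (2 * n + 2) ∧ Cfsg.puigSeq G (2 * n) ≤ Cfsg.puigSeq G (2 * m + 1) ∧
        Cfsg.puigSeq G (2 * m + 3) ≤ Cfsg.puigSeq G (2 * m + 1)) ∧
      (∃ k : ℕ, ∀ n : ℕ, k ≤ n → Cfsg.puigSeq G (2 * n) = Cfsg.puigLower G ∧ Cfsg.puigSeq G (2 * n + 1) = Cfsg.puigSubgroup G) ∧
      Cfsg.puigLower G ≤ Cfsg.puigSubgroup G ∧
      Cfsg.puigStep (Cfsg.puigLower G) = Cfsg.puigSubgroup G ∧ Cfsg.puigStep (Cfsg.puigSubgroup G) = Cfsg.puigLower G := by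
  classical
  have hanti : ∀ X Y : Subgroup G, X ≤ Y → Cfsg.puigStep Y ≤ Cfsg.puigStep X := by
    intro X Y h
    apply sSup_le_sSup
    rintro A ⟨h1, h2⟩
    exact ⟨h1, h.trans h2⟩
  have h1 : Cfsg.puigSeq G 1 = ⊤ := by
    rw [eq_top_iff]
    intro g _
    have : Subgroup.zpowers g ≤ Cfsg.puigStep (⊥ : Subgroup G) :=
      le_sSup ⟨inferInstance, bot_le⟩
    exact this (Subgroup.mem_zpowers g)
  let E : ℕ → Subgroup G := fun n => Cfsg.puigSeq G (2 * n)
  let O : ℕ → Subgroup G := fun n => Cfsg.puigSeq G (2 * n + 1)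
  have heven : ∀ n, E n ≤ E (n + 1) := by
    intro n
    induction n with
    | zero => exact bot_le
    | succ n ih => exact hanti _ _ (hanti _ _ ih)
  have hE : Monotone E := monotone_nat_of_le_succ heven
  have hodd : ∀ m, O (m + 1) ≤ O m := fun m => hanti _ _ (heven m)
  have hO : Antitone O := antitone_nat_of_succ_le hodd
  have hEO : ∀ n, E n ≤ O n := by
    intro n
    induction n with
    | zero => exact bot_le
    | succ n ih =>
      have step1 : E (n + 1) ≤ O n := hanti _ _ ih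
      exact hanti _ _ step1
  have hgen : ∀ n m, E n ≤ O m := fun n m =>
    (hE (le_max_left n m)).trans ((hEO (max n m)).trans (hO (le_max_right n m)))
  obtain ⟨k, hk⟩ := WellFoundedGT.monotone_chain_condition (⟨E, hE⟩ : ℕ →o Subgroup G)
  have hk' : ∀ m, k ≤ m → E k = E m := hk
  have hOE : ∀ n, O n = Cfsg.puigStep (E n) := fun n => rfl
  have hlow : Cfsg.puigLower G = E k :=
    le_antisymm (iSup_le fun n => (hE (le_max_left n k)).trans
      (hk' (max n k) (le_max_right n k)).symm.le) (le_iSup E k)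
  have hupp : Cfsg.puigSubgroup G = O k := by
    refine le_antisymm (iInf_le O k) (le_iInf fun n => ?_)
    have h2 : O (max n k) = O k := by
      rw [hOE, hOE, ← hk' _ (le_max_right n k)]
    rw [← h2]
    exact hO (le_max_left n k)
  refine ⟨rfl, h1, fun n m => ⟨heven n, hgen n m, hodd m⟩, ⟨k, fun n hn => ⟨?_, ?_⟩⟩, ?_, ?_, ?_⟩
  · rw [hlow]; exact (hk' n hn).symm
  · rw [hupp]
    show O n = O k
    rw [hOE, hOE, ← hk' n hn]
  · rw [hlow, hupp]; exact hEO k
  · rw [hlow, hupp]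
    rfl
  · rw [hlow, hupp]
    exact (hk' (k + 1) (Nat.le_succ k)).symm

end Cfsg.Agent.S1467
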