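import Mathlib
import Cfsg.Agent.Lib.Helper7_Max
import Cfsg.Agent.Lib.Helper1_MinNormal
import Cfsg.Agent.Lib.helper6_MaxClass
import Cfsg.Statements.S1473

set_option autoImplicit false
open Cfsg

namespace Cfsg.Agent.S1473

open Subgroup Cfsg.Agent.Lib

theorem nil_of_le {G : Type*} [Group G] {K L : Subgroup G} (h : K ≤ L) (hL : Group.IsNilpotent L) :
    Group.IsNilpotent K := by
  haveI := hL
  exact Group.nilpotent_of_mulEquiv (subgroupOfEquivOfLe h)

theorem nil_map {G G' : Type*} [Group G] [Group G'] (f : G →* G') (N : Subgroup G)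
    (hN : Group.IsNilpotent N) : Group.IsNilpotent (N.map f) := by
  haveI := hN
  exact Group.nilpotent_of_surjective (f.subgroupMap N) (f.subgroupMap_surjective N)

theorem cop {G : Type*} [Group G] {x y : G} {p r a b : ℕ} (hp : p.Prime) (hr : r.Prime) (hrp : r ≠ p)
    (hx : x^(r^a) = 1) (hy : y^(p^b) = 1) : (orderOf x).Coprime (orderOf y) :=
  Nat.Coprime.coprime_dvd_left (orderOf_dvd_of_pow_eq_one hx)
    (Nat.Coprime.coprime_dvd_right (orderOf_dvd_of_pow_eq_one hy)
      (Nat.Coprime.pow _ _ ((Nat.coprime_primes hr hp).2 hrp)))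

theorem lemF {G G' : Type*} [Group G] [Finite G] [Group G'] (f : G →* G') (p r : ℕ) (hp : p.Prime)
    (hr : r.Prime) (hrp : r ≠ p)
    (hker : IsPGroup p f.ker) (u v : G) (a : ℕ) (hu : u ^ (r ^ a) = 1) (huv : Commute (f u) (f v)) :
    ∃ w, f w = f v ∧ Commute u w := by
  haveI := Fact.mk hp
  haveI := Fact.mk hr
  have hk : ∀ k : zpowers u, Commute (f k) (f v) := by
    rintro ⟨k, hk⟩
    obtain ⟨i, rfl⟩ := mem_zpowers_iff.1 hk
    simp only [map_zpow]
    exact huv.zpow_left i
  letI act : MulAction (zpowers u) {w : G // f w = f v} :=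
    { smul := fun k w => ⟨(k : G) * w * (k : G)⁻¹, by
        rw [map_mul, map_mul, map_inv, w.2, (hk k).eq, mul_inv_cancel_right]⟩
      one_smul := fun w => by
        apply Subtype.ext
        show ((1 : zpowers u) : G) * w * ((1 : zpowers u) : G)⁻¹ = w
        simp
      mul_smul := fun k l w => by
        apply Subtype.ext
        show ((k * l : zpowers u) : G) * w * ((k * l : zpowers u) : G)⁻¹ = (k : G) * ((l : G) * w * (l : G)⁻¹) * (k : G)⁻¹
        simp [mul_assoc] }
  have hA : IsPGroup r (zpowers u) := by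
    rintro ⟨k, hk⟩
    obtain ⟨i, rfl⟩ := mem_zpowers_iff.1 hk
    refine ⟨a, Subtype.ext ?_⟩
    show (u ^ i) ^ (r ^ a) = 1
    rw [← zpow_natCast, ← zpow_mul, mul_comm, zpow_mul, zpow_natCast, hu, one_zpow]
  have hcard : Nat.card {w : G // f w = f v} = Nat.card f.ker := by
    apply Nat.card_congr
    exact { toFun := fun w => ⟨v⁻¹ * w, by rw [MonoidHom.mem_ker, map_mul, map_inv, w.2, inv_mul_cancel]⟩
            invFun := fun h => ⟨v * h, by rw [map_mul, MonoidHom.mem_ker.1 h.2, mul_one]⟩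
            left_inv := fun w => by simp
            right_inv := fun h => by simp }
  obtain ⟨n, hn⟩ := IsPGroup.iff_card.1 hker
  have hnd : ¬ r ∣ Nat.card {w : G // f w = f v} := by
    rw [hcard, hn]
    intro h
    exact hrp ((Nat.prime_dvd_prime_iff_eq hr hp).1 (hr.dvd_of_dvd_pow h))
  obtain ⟨w, hw⟩ := hA.nonempty_fixed_point_of_prime_not_dvd_card _ hnd
  refine ⟨w, w.2, ?_⟩
  have := hw ⟨u, mem_zpowers u⟩
  have h2 : u * w * u⁻¹ = w := congrArg Subtype.val this
  exact mul_inv_eq_iff_eq_mul.1 h2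

theorem lemZ {G : Type*} [Group G] [Finite G] (p : ℕ) (hp : p.Prime) (H : Subgroup G) [H.Normal]
    (hH : IsPGroup p H) (hne : H ≠ ⊥)
    (L : Subgroup G) (hL : ∀ g ∈ L, ∃ k : ℕ, ∀ h ∈ H, Commute (g ^ (p ^ k)) h) :
    ∃ z ∈ H, z ≠ 1 ∧ ∀ g ∈ L, Commute g z := by
  haveI := Fact.mk hp
  let Φ : Subgroup (MulAut H) := L.map (MulAut.conjNormal)
  have hΦ : IsPGroup p Φ := by
    rintro ⟨α, hα⟩
    obtain ⟨g, hg, rfl⟩ := mem_map.1 hα
    obtain ⟨k, hk⟩ := hL g hg
    refine ⟨k, Subtype.ext ?_⟩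
    show (MulAut.conjNormal g) ^ (p ^ k) = 1
    rw [← map_pow]
    ext h
    rw [MulAut.conjNormal_apply]
    simp only [MulAut.one_apply]
    rw [(hk h h.2).eq, mul_inv_cancel_right]
  have hdvd : p ∣ Nat.card H := by
    obtain ⟨n, hn⟩ := IsPGroup.iff_card.1 hH
    rw [hn]
    apply dvd_pow_self
    rintro rfl
    rw [pow_zero] at hn
    exact hne (eq_bot_of_card_eq H hn)
  have hfix : (1 : H) ∈ MulAction.fixedPoints Φ H := by
    intro α
    show (α : MulAut H) 1 = 1
    exact map_one _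
  obtain ⟨b, hb, hb1⟩ := hΦ.exists_fixed_point_of_prime_dvd_card_of_fixed_point H hdvd hfix
  refine ⟨b, b.2, ?_, ?_⟩
  · intro h; exact hb1 (Subtype.ext h.symm)
  · intro g hg
    have := hb ⟨MulAut.conjNormal g, mem_map_of_mem _ hg⟩
    have h2 : (MulAut.conjNormal g) b = b := this
    have h3 := congrArg Subtype.val h2
    rw [MulAut.conjNormal_apply] at h3
    exact mul_inv_eq_iff_eq_mul.1 h3

theorem pcase {G G' : Type*} [Group G] [Finite G] [Group G'] (f : G →* G') (hf : Function.Surjective f)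
    (p : ℕ) (hp : p.Prime) (hker : IsPGroup p f.ker) (hCN : Cfsg.IsCNGroup G) : Cfsg.IsCNGroup G' := by
  intro xb hxb
  suffices h : ∃ t : G, t ≠ 1 ∧ centralizer {xb} ≤ (centralizer {t}).map f by
    obtain ⟨t, ht, hle⟩ := h
    exact nil_of_le hle (nil_map f _ (hCN t ht))
  haveI : Finite G' := Finite.of_surjective f hf
  obtain ⟨x0, rfl⟩ := hf xb
  by_cases hbot : f.ker = ⊥
  · refine ⟨x0, fun h => hxb (by rw [h, map_one]), ?_⟩
    intro gb hgb
    obtain ⟨g, rfl⟩ := hf gb
    refine mem_map_of_mem f ?_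
    rw [Helper7_Nilp.mem_centralizer_singleton_iff] at hgb ⊢
    have hinj := (MonoidHom.ker_eq_bot_iff f).1 hbot
    apply hinj
    rw [map_mul, map_mul]; exact hgb
  by_cases hq : ∃ q : ℕ, q.Prime ∧ q ≠ p ∧ q ∣ orderOf (f x0)
  · obtain ⟨q, hqp, hqne, hqd⟩ := hq
    obtain ⟨a, m, hm, hnm⟩ := Nat.exists_eq_pow_mul_and_not_dvd (orderOf_pos x0).ne' q hqp.ne_one
    have hx1 : (x0 ^ m) ^ (q ^ a) = 1 := by
      rw [← pow_mul, mul_comm, ← hnm, pow_orderOf_eq_one]
    have hx2 : f (x0 ^ m) ≠ 1 := by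
      rw [map_pow]
      intro h
      exact hm (hqd.trans (orderOf_dvd_of_pow_eq_one h))
    refine ⟨x0 ^ m, fun h => hx2 (by rw [h, map_one]), ?_⟩
    intro gb hgb
    obtain ⟨g, rfl⟩ := hf gb
    rw [Helper7_Nilp.mem_centralizer_singleton_iff] at hgb
    obtain ⟨w, hw1, hw2⟩ := lemF f p q hp hqp hqne hker (x0 ^ m) g a hx1
      (by rw [map_pow]; exact hgb.pow_left m)
    exact ⟨w, Helper7_Nilp.mem_centralizer_singleton_iff.2 hw2, hw1⟩
  · push Not at hq
    have hHp : ∀ h ∈ f.ker, ∃ b : ℕ, h ^ (p ^ b) = 1 := by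
      intro h hh
      obtain ⟨b, hb⟩ := hker ⟨h, hh⟩
      exact ⟨b, congrArg Subtype.val hb⟩
    have hR : ∀ (r : ℕ), r.Prime → r ≠ p → ∀ g : G, Commute (f x0) (f g) → ∀ a : ℕ, g ^ (r ^ a) = 1 →
        ∀ h ∈ f.ker, Commute g h := by
      intro r hr hrp g hg a hga
      obtain ⟨y, hy1, hy2⟩ := lemF f p r hp hr hrp hker g x0 a hga hg.symm
      have hy_ne : y ≠ 1 := fun h => hxb (by rw [← hy1, h, map_one])
      have hyp : ∃ k, y ^ (p ^ k) = 1 := by
        have h1 := Nat.eq_prime_pow_of_unique_prime_dvd (p := p) (orderOf_pos (f x0)).ne'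
          (fun {d} hd hdvd => by
            by_contra hne
            exact hq d hd hne hdvd)
        have h2 : y ^ (p ^ (orderOf (f x0)).primeFactorsList.length) ∈ f.ker := by
          rw [MonoidHom.mem_ker, map_pow, hy1, ← h1, pow_orderOf_eq_one]
        obtain ⟨b, hb⟩ := hHp _ h2
        exact ⟨_ + b, by rw [pow_add, pow_mul]; exact hb⟩
      obtain ⟨ky, hky⟩ := hyp
      have hyz : IsPGroup p (zpowers y) := by
        rintro ⟨k, hk⟩
        obtain ⟨i, rfl⟩ := mem_zpowers_iff.1 hk
        refine ⟨ky, Subtype.ext ?_⟩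
        show (y ^ i) ^ (p ^ ky) = 1
        rw [← zpow_natCast, ← zpow_mul, mul_comm, zpow_mul, zpow_natCast, hky, one_zpow]
      have hLp : IsPGroup p (zpowers y ⊔ f.ker : Subgroup G) := IsPGroup.to_sup_of_normal_right hyz hker
      obtain ⟨z, hzH, hz1, hzL⟩ := lemZ p hp f.ker hker hbot (zpowers y ⊔ f.ker) (fun g hg => by
        obtain ⟨k, hk⟩ := hLp ⟨g, hg⟩
        have hk' : g ^ (p ^ k) = 1 := congrArg Subtype.val hk
        exact ⟨k, fun h _ => by rw [hk']; exact Commute.one_left h⟩)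
      obtain ⟨bz, hbz⟩ := hHp z hzH
      have c1 : Commute g z := Helper7_Max.commute_of_mem_nilpotent (centralizer {y}) (hCN y hy_ne)
        (Helper7_Nilp.mem_centralizer_singleton_iff.2 hy2.symm)
        (Helper7_Nilp.mem_centralizer_singleton_iff.2 (hzL y (mem_sup_left (mem_zpowers y))))
        (cop hp hr hrp hga hbz)
      intro h hh
      obtain ⟨bh, hbh⟩ := hHp h hh
      exact Helper7_Max.commute_of_mem_nilpotent (centralizer {z}) (hCN z hz1)
        (Helper7_Nilp.mem_centralizer_singleton_iff.2 c1.symm)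
        (Helper7_Nilp.mem_centralizer_singleton_iff.2 (hzL h (mem_sup_right hh)).symm)
        (cop hp hr hrp hga hbh)
    obtain ⟨C, hC⟩ : ∃ C : Subgroup G, C = (centralizer {f x0}).comap f := ⟨_, rfl⟩
    have hCmem : ∀ g, g ∈ C ↔ Commute (f x0) (f g) := by
      intro g
      rw [hC, mem_comap, Helper7_Nilp.mem_centralizer_singleton_iff]
    have hP' : ∀ g ∈ C, (orderOf g).Coprime p → ∀ h ∈ f.ker, Commute g h := by
      intro g hg hcop
      have key := Helper7_Nilp.mem_of_prime_power_parts (G := C)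
        ((centralizer (f.ker : Set G)).subgroupOf C) (fun q => q ≠ p) (by
          rintro ⟨y, hy⟩ ⟨q, b, hq', hqp, hyo⟩
          rw [mem_subgroupOf, mem_centralizer_iff]
          intro h hh
          rw [Subgroup.orderOf_mk] at hyo
          exact (hR q hq' hqp y ((hCmem y).1 hy) b (by rw [← hyo, pow_orderOf_eq_one]) h hh).symm.eq)
        ⟨g, hg⟩ (by
          rintro q hq' hqd rfl
          rw [Subgroup.orderOf_mk] at hqd
          exact (Nat.Prime.coprime_iff_not_dvd hq').1 hcop.symm hqd)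
      rw [mem_subgroupOf, mem_centralizer_iff] at key
      intro h hh
      exact (key h hh).symm
    obtain ⟨z, hzH, hz1, hzC⟩ := lemZ p hp f.ker hker hbot C (fun g hg => by
      obtain ⟨k, m, hm, hnm⟩ := Nat.exists_eq_pow_mul_and_not_dvd (orderOf_pos g).ne' p hp.ne_one
      refine ⟨k, hP' _ (C.pow_mem hg _) ?_⟩
      have : orderOf (g ^ (p ^ k)) = m :=
        Helper7_Nilp.orderOf_pow_of_eq_mul (hnm.trans (mul_comm _ _)) (pow_pos hp.pos k).ne'
      rw [this]
      exact ((Nat.Prime.coprime_iff_not_dvd hp).2 hm).symm)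
    refine ⟨z, hz1, ?_⟩
    intro gb hgb
    obtain ⟨g, rfl⟩ := hf gb
    refine mem_map_of_mem f ?_
    rw [Helper7_Nilp.mem_centralizer_singleton_iff]
    exact (hzC g (by rw [hC]; exact hgb)).symm

universe u

theorem gen (n : ℕ) : ∀ {G G' : Type u} [Group G] [Finite G] [Group G'] (f : G →* G'),
    Function.Surjective f → Group.IsSolvable f.ker → Nat.card f.ker = n → Cfsg.IsCNGroup G →
    Cfsg.IsCNGroup G' := by
  induction n using Nat.strong_induction_on with
  | _ n ih =>
    intro G G' _ _ _ f hf hsol hcard hCN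
    by_cases hbot : f.ker = ⊥
    · exact pcase f hf 2 Nat.prime_two (by rw [hbot]; exact IsPGroup.of_bot) hCN
    · haveI := hsol
      obtain ⟨p, M, hp, hMn, hMne, hMle, -, hpow, -⟩ :=
        Helper1_MinNormal.exists_normal_elementary_abelian_le f.ker hbot
      haveI := hMn
      have hCN1 : Cfsg.IsCNGroup (G ⧸ M) := pcase (QuotientGroup.mk' M) (QuotientGroup.mk'_surjective M) p hp
        (by rw [QuotientGroup.ker_mk']; exact Helper1_MinNormal.isPGroup_of_pow_eq_one hpow) hCN
      let fb : G ⧸ M →* G' := QuotientGroup.lift M f (fun x hx => hMle hx)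
      have hfb : Function.Surjective fb := fun y => by
        obtain ⟨x, rfl⟩ := hf y
        exact ⟨QuotientGroup.mk x, rfl⟩
      have hker : fb.ker = f.ker.map (QuotientGroup.mk' M) := by
        ext y
        obtain ⟨x, rfl⟩ := QuotientGroup.mk'_surjective M y
        constructor
        · intro h; exact ⟨x, h, rfl⟩
        · rintro ⟨x', hx', he⟩
          rw [MonoidHom.mem_ker, ← he]; exact hx'
      have hsol' : Group.IsSolvable fb.ker := by
        rw [hker]
        exact Group.isSolvable_of_surjective ((QuotientGroup.mk' M).subgroupMap_surjective f.ker)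
      have hlt : Nat.card fb.ker < n := by
        have h1 := helper6_MaxClass.card_map_mk M f.ker hMle
        rw [← hker, hcard] at h1
        have h2 : 1 < Nat.card M := by
          rw [Subgroup.one_lt_card_iff_ne_bot]; exact hMne
        have h3 : 0 < Nat.card fb.ker := Nat.card_pos
        nlinarith
      exact ih _ hlt fb hfb hsol' rfl hCN1


/-- Let G be a finite group in which the centralizer of every non-identity element is nilpotent, and H a solvable normal subgroup of G. Then in G/H the centralizer of every non-identity element is nilpotent. -/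
theorem result {G : Type*} [Group G] [Finite G] (hCN : Cfsg.IsCNGroup G) (H : Subgroup G) [H.Normal] (hH : Group.IsSolvable H) :
    Cfsg.IsCNGroup (G ⧸ H) := by
  exact gen _ (QuotientGroup.mk' H) (QuotientGroup.mk'_surjective H)
    (by rw [QuotientGroup.ker_mk']; exact hH) rfl hCN

end Cfsg.Agent.S1473
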