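import Cfsg.Statements.S1477
import Cfsg.Agent.Lib.Helper7_Nilp

set_option autoImplicit false
open Cfsg

namespace Cfsg.Agent.S1477

open Cfsg.Agent.Lib.Helper7_Nilp

variable {G : Type*} [Group G] [Finite G]

theorem comm_cop (N : Subgroup G) [Group.IsNilpotent N] {x y : G} (hx : x ∈ N) (hy : y ∈ N)
    (h : (orderOf x).Coprime (orderOf y)) : x * y = y * x := by
  have h1 : Commute (⟨x, hx⟩ : N) ⟨y, hy⟩ := by
    apply commute_of_coprime_orderOf
    rwa [Subgroup.orderOf_mk, Subgroup.orderOf_mk]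
  exact congrArg Subtype.val h1.eq

theorem sylow_mem (N : Subgroup G) [Group.IsNilpotent N] {q : ℕ} [Fact q.Prime] (Q : Sylow q G)
    (hQ : (Q : Subgroup G) ≤ N) {u : G} (hu : u ∈ N) {a : ℕ} (ho : orderOf u = q ^ a) :
    u ∈ (Q : Subgroup G) := by
  have h1 : (⟨u, hu⟩ : N) ∈ ((Q.subtype hQ : Sylow q N) : Subgroup N) :=
    mem_sylow_of_orderOf_of_normal _ inferInstance (a := a) (by rw [Subgroup.orderOf_mk, ho])
  rw [Sylow.coe_subtype, Subgroup.mem_subgroupOf] at h1
  exact h1

theorem central_of_parts (H : Subgroup G) {w : G} (hw : w ∈ H)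
    (h : ∀ y ∈ H, (∃ q b : ℕ, q.Prime ∧ orderOf y = q ^ b) → w * y = y * w) :
    ∀ y ∈ H, w * y = y * w := by
  intro y hy
  have h1 : (⟨y, hy⟩ : H) ∈ Subgroup.centralizer ({(⟨w, hw⟩ : H)} : Set H) := by
    apply mem_of_prime_power_parts (Subgroup.centralizer ({(⟨w, hw⟩ : H)} : Set H)) (fun _ => True)
    · rintro u ⟨q, b, hq, -, hu⟩
      rw [Subgroup.mem_centralizer_singleton_iff]
      apply Subtype.ext
      exact (h u u.2 ⟨q, b, hq, by rw [← hu]; exact Subgroup.orderOf_coe u⟩).symm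
    · intro _ _ _
      trivial
  rw [Subgroup.mem_centralizer_singleton_iff] at h1
  exact (congrArg Subtype.val h1).symm

omit [Finite G] in
theorem orderOf_of_mem_sylow {p : ℕ} [Fact p.Prime] (P : Sylow p G) {w : G}
    (hw : w ∈ (P : Subgroup G)) : ∃ k : ℕ, orderOf w = p ^ k := by
  obtain ⟨k, hk⟩ := IsPGroup.iff_orderOf.mp P.isPGroup' ⟨w, hw⟩
  exact ⟨k, by rw [← hk]; exact (Subgroup.orderOf_mk w hw).symm⟩

omit [Finite G] in
theorem cent_eq (hCN : Cfsg.IsCNGroup G) (H : Subgroup G)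
    (hmax : ∀ L : Subgroup G, Group.IsNilpotent L → H ≤ L → L = H) {w : G} (hw1 : w ≠ 1)
    (hc : ∀ y ∈ H, w * y = y * w) : Subgroup.centralizer ({w} : Set G) = H := by
  apply hmax _ (hCN w hw1)
  intro y hy
  rw [Subgroup.mem_centralizer_singleton_iff]
  exact (hc y hy).symm

theorem lemmaA (hCN : Cfsg.IsCNGroup G) (H : Subgroup G) [hH : Group.IsNilpotent H]
    (hmax : ∀ L : Subgroup G, Group.IsNilpotent L → H ≤ L → L = H) (p : ℕ) [hp : Fact p.Prime]
    (hdv : p ∣ Nat.card H) :
    ∃ (P : Sylow p G) (w : G), (P : Subgroup G) ≤ H ∧ w ∈ (P : Subgroup G) ∧ w ≠ 1 ∧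
      ∀ y ∈ H, w * y = y * w := by
  obtain ⟨Q₀⟩ : Nonempty (Sylow p H) := inferInstance
  have hQn : (Q₀ : Subgroup H).Normal := inferInstance
  set Hp : Subgroup G := (Q₀ : Subgroup H).map H.subtype with hHp
  have hHpH : Hp ≤ H := by
    rintro _ ⟨y, -, rfl⟩
    exact y.2
  have hHpg : IsPGroup p Hp := Q₀.isPGroup'.map _
  have hmemHp : ∀ y ∈ H, ∀ a : ℕ, orderOf y = p ^ a → y ∈ Hp := by
    intro y hy a ha
    refine ⟨⟨y, hy⟩, ?_, rfl⟩
    exact mem_sylow_of_orderOf_of_normal Q₀ hQn (a := a) (by rw [Subgroup.orderOf_mk, ha])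
  have hHpne : Nontrivial Hp := by
    obtain ⟨x, hx⟩ := exists_prime_orderOf_dvd_card' (G := H) p hdv
    have h1 : (x : G) ∈ Hp := hmemHp x x.2 1 (by rw [pow_one, ← hx]; exact Subgroup.orderOf_coe x)
    refine ⟨⟨⟨x, h1⟩, 1, ?_⟩⟩
    intro e
    have h2 : (x : G) = 1 := congrArg Subtype.val e
    have h3 : x = 1 := Subtype.ext h2
    rw [h3, orderOf_one] at hx
    exact hp.out.one_lt.ne hx
  -- a central p-element of H
  have hzc := hHpg.center_nontrivial
  obtain ⟨z, hz⟩ := exists_ne (1 : Subgroup.center Hp)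
  have hz1 : ((z : Hp) : G) ≠ 1 := by
    intro e
    apply hz
    apply Subtype.ext
    apply Subtype.ext
    exact e
  have hzH : ((z : Hp) : G) ∈ H := hHpH (z : Hp).2
  obtain ⟨kz, hkz⟩ : ∃ k : ℕ, orderOf ((z : Hp) : G) = p ^ k := by
    obtain ⟨k, hk⟩ := IsPGroup.iff_orderOf.mp hHpg (z : Hp)
    exact ⟨k, by rw [← hk]; exact Subgroup.orderOf_coe (z : Hp)⟩
  have hzcen : ∀ y ∈ H, ((z : Hp) : G) * y = y * ((z : Hp) : G) := by
    apply central_of_parts H hzH
    rintro y hy ⟨q, b, hq, hyo⟩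
    by_cases hqp : q = p
    · subst hqp
      have h1 := hmemHp y hy b hyo
      have h2 := Subgroup.mem_center_iff.mp z.2 ⟨y, h1⟩
      exact (congrArg Subtype.val h2).symm
    · apply comm_cop H hzH hy
      rw [hkz, hyo]
      exact Nat.Coprime.pow _ _ ((Nat.coprime_primes hp.out hq).mpr (Ne.symm hqp))
  have hCz := cent_eq hCN H hmax hz1 hzcen
  obtain ⟨P, hP⟩ := hHpg.exists_le_sylow
  haveI : Nontrivial (P : Subgroup G) := by
    refine ⟨⟨⟨_, hP (z : Hp).2⟩, 1, ?_⟩⟩
    intro e
    exact hz1 (congrArg Subtype.val e)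
  have hwc := P.isPGroup'.center_nontrivial
  obtain ⟨w, hw⟩ := exists_ne (1 : Subgroup.center (P : Subgroup G))
  have hw1 : ((w : (P : Subgroup G)) : G) ≠ 1 := by
    intro e
    apply hw
    apply Subtype.ext
    apply Subtype.ext
    exact e
  have hwP : ∀ y ∈ (P : Subgroup G), ((w : (P : Subgroup G)) : G) * y = y * ((w : (P : Subgroup G)) : G) := by
    intro y hy
    have h2 := Subgroup.mem_center_iff.mp w.2 ⟨y, hy⟩
    exact (congrArg Subtype.val h2).symm
  have hwH : ((w : (P : Subgroup G)) : G) ∈ H := by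
    rw [← hCz, Subgroup.mem_centralizer_singleton_iff]
    exact hwP _ (hP (z : Hp).2)
  obtain ⟨kw, hkw⟩ := orderOf_of_mem_sylow P (w : (P : Subgroup G)).2
  have hwcen : ∀ y ∈ H, ((w : (P : Subgroup G)) : G) * y = y * ((w : (P : Subgroup G)) : G) := by
    apply central_of_parts H hwH
    rintro y hy ⟨q, b, hq, hyo⟩
    by_cases hqp : q = p
    · subst hqp
      exact hwP y (hP (hmemHp y hy b hyo))
    · apply comm_cop H hwH hy
      rw [hkw, hyo]
      exact Nat.Coprime.pow _ _ ((Nat.coprime_primes hp.out hq).mpr (Ne.symm hqp))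
  have hCw := cent_eq hCN H hmax hw1 hwcen
  refine ⟨P, _, ?_, (w : (P : Subgroup G)).2, hw1, hwcen⟩
  intro y hy
  rw [← hCw, Subgroup.mem_centralizer_singleton_iff]
  exact (hwP y hy).symm

/-- an element of prime order in `⟨x⟩`. -/
theorem exists_prime_pow {x : G} (hx : x ≠ 1) :
    ∃ (p n : ℕ), p.Prime ∧ orderOf (x ^ n) = p := by
  have h1 : orderOf x ≠ 1 := fun h => hx (orderOf_eq_one_iff.mp h)
  obtain ⟨p, hp, hdv⟩ := Nat.exists_prime_and_dvd h1
  exact ⟨p, orderOf x / p, hp, orderOf_pow_orderOf_div (orderOf_pos x).ne' hdv⟩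

theorem conj_mem_sylow (hCN : Cfsg.IsCNGroup G) (H : Subgroup G) [hH : Group.IsNilpotent H]
    {p q : ℕ} (hp : p.Prime) [hq : Fact q.Prime] (hpq : q ≠ p) (Q : Sylow q G)
    (hQ : (Q : Subgroup G) ≤ H) {g x' x'' : G} (hx' : x' ∈ H) (hx'' : x'' ∈ H)
    (ho : orderOf x' = p) (ho'' : orderOf x'' = p) (he : x' = g * x'' * g⁻¹) :
    ∀ u ∈ (Q : Subgroup G), g * u * g⁻¹ ∈ (Q : Subgroup G) := by
  intro u hu
  have hx1 : x' ≠ 1 := by
    intro e
    rw [e, orderOf_one] at ho
    exact hp.one_lt.ne ho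
  haveI := hCN x' hx1
  obtain ⟨k, hk⟩ := orderOf_of_mem_sylow Q hu
  have hcop : ∀ (v : G) (j : ℕ), orderOf v = q ^ j → (orderOf v).Coprime p := by
    intro v j hv
    rw [hv]
    exact Nat.Coprime.pow_left _ ((Nat.coprime_primes hq.out hp).mpr hpq)
  have hQN : (Q : Subgroup G) ≤ Subgroup.centralizer ({x'} : Set G) := by
    intro v hv
    obtain ⟨j, hj⟩ := orderOf_of_mem_sylow Q hv
    rw [Subgroup.mem_centralizer_singleton_iff]
    exact comm_cop H (hQ hv) hx' (by rw [ho]; exact hcop v j hj)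
  have h1 : u * x'' = x'' * u := comm_cop H (hQ hu) hx'' (by rw [ho'']; exact hcop u k hk)
  have h2 : g * u * g⁻¹ ∈ Subgroup.centralizer ({x'} : Set G) := by
    rw [Subgroup.mem_centralizer_singleton_iff, he]
    calc g * u * g⁻¹ * (g * x'' * g⁻¹) = g * (u * x'') * g⁻¹ := by group
      _ = g * (x'' * u) * g⁻¹ := by rw [h1]
      _ = _ := by group
  apply sylow_mem _ Q hQN h2 (a := k)
  rw [← hk]
  exact (MulAut.conj g).orderOf_eq u

/-- Let G be a finite group in which every non-identity element has nilpotent centralizer, and H a nilpotent subgroup not properly contained in any nilpotent subgroup. Then the order of H is coprime to its index; if the order of H is not a prime power then H ∩ gHg⁻¹ = 1 whenever gHg⁻¹ ≠ H; and if H ∩ gHg⁻¹ = 1 whenever gHg⁻¹ ≠ H, then C_G(x) ≤ H for every non-identity x ∈ H. -/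
theorem result {G : Type*} [Group G] [Finite G] (hCN : Cfsg.IsCNGroup G) (H : Subgroup G) (hH : Group.IsNilpotent H)
    (hmax : ∀ L : Subgroup G, Group.IsNilpotent L → H ≤ L → L = H) :
    (Nat.card H).Coprime H.index ∧
      (¬ IsPrimePow (Nat.card H) → Nat.card H ≠ 1 → ∀ g : G, H.map (MulAut.conj g).toMonoidHom ≠ H → H ⊓ H.map (MulAut.conj g).toMonoidHom = ⊥) ∧
      ((∀ g : G, H.map (MulAut.conj g).toMonoidHom ≠ H → H ⊓ H.map (MulAut.conj g).toMonoidHom = ⊥) → ∀ x ∈ H, x ≠ 1 → Subgroup.centralizer ({x} : Set G) ≤ H) := by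
  haveI := hH
  refine ⟨?_, ?_, ?_⟩
  · apply Nat.coprime_of_dvd
    intro p hp hdv hdv2
    haveI : Fact p.Prime := ⟨hp⟩
    obtain ⟨P, w, hPH, -, -, -⟩ := lemmaA hCN H hmax p hdv
    exact P.not_dvd_index (hdv2.trans (Subgroup.index_dvd_of_le hPH))
  · intro hpp hc1 g hg
    by_contra hne
    obtain ⟨x, hx, hx1⟩ : ∃ x ∈ H ⊓ H.map (MulAut.conj g).toMonoidHom, x ≠ 1 := by
      by_contra hcon
      push Not at hcon
      exact hne ((Subgroup.eq_bot_iff_forall _).mpr hcon)
    obtain ⟨p, n, hp, hn⟩ := exists_prime_pow hx1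
    have hx'mem := pow_mem hx n
    set x' := x ^ n with hx'def
    obtain ⟨x'', hx''H, hx''e⟩ := hx'mem.2
    have he : x' = g * x'' * g⁻¹ := hx''e.symm
    have ho'' : orderOf x'' = p := by
      rw [← hn, he]
      exact ((MulAut.conj g).orderOf_eq x'').symm
    have hpH : p ∣ Nat.card H := by
      have := orderOf_dvd_natCard (⟨x', hx'mem.1⟩ : H)
      rwa [Subgroup.orderOf_mk, hn] at this
    obtain ⟨q, hq, hqH, hqp⟩ : ∃ q : ℕ, q.Prime ∧ q ∣ Nat.card H ∧ q ≠ p := by
      by_contra hcon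
      push Not at hcon
      apply hpp
      rw [isPrimePow_nat_iff]
      have h0 : Nat.card H ≠ 0 := Nat.card_pos.ne'
      have h1 := Nat.eq_prime_pow_of_unique_prime_dvd h0 (fun {d} hd hdv => hcon d hd hdv)
      refine ⟨p, _, hp, ?_, h1.symm⟩
      rcases Nat.eq_zero_or_pos (Nat.card H).primeFactorsList.length with h2 | h2
      · exfalso
        rw [h2, pow_zero] at h1
        exact hc1 h1
      · exact h2
    haveI : Fact q.Prime := ⟨hq⟩
    obtain ⟨Q, z, hQH, hzQ, hz1, hzc⟩ := lemmaA hCN H hmax q hqH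
    have c1 := conj_mem_sylow hCN H hp hqp Q hQH hx'mem.1 hx''H hn ho'' he
    have he2 : x'' = g⁻¹ * x' * g⁻¹⁻¹ := by rw [he]; group
    have c2 := conj_mem_sylow hCN H hp hqp Q hQH hx''H hx'mem.1 ho'' hn he2
    have hz'' : g⁻¹ * z * g⁻¹⁻¹ ∈ (Q : Subgroup G) := c2 z hzQ
    obtain ⟨kz, hkz⟩ := orderOf_of_mem_sylow Q hz''
    have hz''c : ∀ y ∈ H, (g⁻¹ * z * g⁻¹⁻¹) * y = y * (g⁻¹ * z * g⁻¹⁻¹) := by
      apply central_of_parts H (hQH hz'')
      rintro y hy ⟨r, b, hr, hyo⟩
      by_cases hrq : r = q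
      · subst hrq
        have h1 : y ∈ (Q : Subgroup G) := sylow_mem H Q hQH hy hyo
        have h2 := hzc _ (hQH (c1 y h1))
        calc g⁻¹ * z * g⁻¹⁻¹ * y = g⁻¹ * (z * (g * y * g⁻¹)) * g := by group
          _ = g⁻¹ * ((g * y * g⁻¹) * z) * g := by rw [h2]
          _ = _ := by group
      · apply comm_cop H (hQH hz'') hy
        rw [hkz, hyo]
        exact Nat.Coprime.pow _ _ ((Nat.coprime_primes hq hr).mpr (Ne.symm hrq))
    have hCz := cent_eq hCN H hmax hz1 hzc
    apply hg
    apply Subgroup.eq_of_le_of_card_ge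
    · rintro _ ⟨y, hy, rfl⟩
      rw [← hCz, Subgroup.mem_centralizer_singleton_iff]
      have h2 := hz''c y hy
      show g * y * g⁻¹ * z = z * (g * y * g⁻¹)
      calc g * y * g⁻¹ * z = g * (y * (g⁻¹ * z * g⁻¹⁻¹)) * g⁻¹ := by group
        _ = g * ((g⁻¹ * z * g⁻¹⁻¹) * y) * g⁻¹ := by rw [h2]
        _ = _ := by group
    · rw [Subgroup.card_map_of_injective (MulAut.conj g).injective]
  · intro hTI x hxH hx1 c hc
    have key : (⟨c, hc⟩ : Subgroup.centralizer ({x} : Set G)) ∈
        H.subgroupOf (Subgroup.centralizer ({x} : Set G)) := by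
      apply mem_of_prime_power_parts _ (fun _ => True)
      · rintro y ⟨r, b, hr, -, hyo⟩
        rw [Subgroup.mem_subgroupOf]
        have hyo' : orderOf (y : G) = r ^ b := by rw [← hyo]; exact Subgroup.orderOf_coe y
        have hyx : (y : G) * x = x * (y : G) := Subgroup.mem_centralizer_singleton_iff.mp y.2
        obtain ⟨p, n, hp, hn⟩ := exists_prime_pow hx1
        have hx'H : x ^ n ∈ H := pow_mem hxH n
        have hyx' : (y : G) * x ^ n = x ^ n * (y : G) :=
          (Commute.pow_right (show Commute (y : G) x from hyx) n).eq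
        have hx'1 : x ^ n ≠ 1 := by
          intro e
          rw [e, orderOf_one] at hn
          exact hp.one_lt.ne hn
        haveI : Fact p.Prime := ⟨hp⟩
        have hpH : p ∣ Nat.card H := by
          have := orderOf_dvd_natCard (⟨x ^ n, hx'H⟩ : H)
          rwa [Subgroup.orderOf_mk, hn] at this
        obtain ⟨P, w, hPH, hwP, hw1, hwc⟩ := lemmaA hCN H hmax p hpH
        have hCw := cent_eq hCN H hmax hw1 hwc
        obtain ⟨kw, hkw⟩ := orderOf_of_mem_sylow P hwP
        haveI := hCN (x ^ n) hx'1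
        by_cases hrp : r = p
        · subst hrp
          have hconj : H.map (MulAut.conj (y : G)).toMonoidHom = H := by
            by_contra hne
            have h1 := hTI _ hne
            have h2 : x ^ n ∈ H ⊓ H.map (MulAut.conj (y : G)).toMonoidHom := by
              refine ⟨hx'H, x ^ n, hx'H, ?_⟩
              show (y : G) * x ^ n * (y : G)⁻¹ = x ^ n
              rw [hyx']; group
            rw [h1, Subgroup.mem_bot] at h2
            exact hx'1 h2
          have hyN : (y : G) ∈ Subgroup.normalizer ((P : Subgroup G) : Set G) := by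
            rw [Subgroup.mem_normalizer_iff]
            intro u
            constructor
            · intro hu
              obtain ⟨k, hk⟩ := orderOf_of_mem_sylow P hu
              have h1 : (y : G) * u * (y : G)⁻¹ ∈ H := by
                rw [← hconj]
                exact ⟨u, hPH hu, rfl⟩
              apply sylow_mem H P hPH h1 (a := k)
              rw [← hk]
              exact (MulAut.conj (y : G)).orderOf_eq u
            · intro hu
              obtain ⟨k, hk⟩ := orderOf_of_mem_sylow P hu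
              have h1 : (y : G) * u * (y : G)⁻¹ ∈ H.map (MulAut.conj (y : G)).toMonoidHom := by
                rw [hconj]; exact hPH hu
              obtain ⟨v, hv, hve⟩ := h1
              have h2 : v = u := (MulAut.conj (y : G)).injective hve
              apply sylow_mem H P hPH (h2 ▸ hv) (a := k)
              rw [← hk]
              exact ((MulAut.conj (y : G)).orderOf_eq u).symm
          have hz : IsPGroup r (Subgroup.zpowers (y : G)) :=
            IsPGroup.of_card (n := b) (by rw [Nat.card_zpowers, hyo'])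
          have h3 := hz.inf_normalizer_sylow P
          exact hPH (h3.le ⟨Subgroup.mem_zpowers _, hyN⟩).2
        · rw [← hCw, Subgroup.mem_centralizer_singleton_iff]
          apply comm_cop (Subgroup.centralizer ({x ^ n} : Set G))
          · rw [Subgroup.mem_centralizer_singleton_iff]; exact hyx'
          · rw [Subgroup.mem_centralizer_singleton_iff]; exact hwc _ hx'H
          · rw [hyo', hkw]
            exact Nat.Coprime.pow _ _ ((Nat.coprime_primes hr hp).mpr hrp)
      · intro _ _ _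
        trivial
    exact Subgroup.mem_subgroupOf.mp key

end Cfsg.Agent.S1477
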