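import Cfsg.Statements.S1486
import Cfsg.Agent.Lib.CharClifford2

set_option autoImplicit false
open Cfsg

namespace Cfsg.Agent.S1486

/-- Let H be a normal subgroup of the finite group G and θ, φ irreducible characters of H. If φ is a G-conjugate of θ then the functions induced from θ and φ coincide; if φ is not a G-conjugate of θ then the induced functions are orthogonal. -/
theorem result {G : Type*} [Group G] [Fintype G] (H : Subgroup G) [hN : H.Normal] (θ φ : H → ℂ) (hθ : Cfsg.IsIrrCharacter H θ) (hφ : Cfsg.IsIrrCharacter H φ) : ((∃ g : G, φ = fun h : H => θ ⟨g * h * g⁻¹, hN.conj_mem h h.2 g⟩) → Cfsg.indFun H φ = Cfsg.indFun H θ) ∧ ((¬ ∃ g : G, φ = fun h : H => θ ⟨g * h * g⁻¹, hN.conj_mem h h.2 g⟩) → Cfsg.classInner (Cfsg.indFun H φ) (Cfsg.indFun H θ) = 0) := by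
  constructor
  · rintro ⟨g, rfl⟩
    exact Cfsg.Agent.Lib.CharClifford2.indFun_conjFun H hN θ g
  · intro hno
    have e := Cfsg.Agent.Lib.CharClifford.card_mul_classInner_ind' H hN hφ hθ
    have hNc : (Nat.card H : ℂ) ≠ 0 := by exact_mod_cast Nat.card_pos.ne'
    have hemp : IsEmpty {x : G // Cfsg.Agent.Lib.CharClifford.conjFun H hN θ x = φ} :=
      ⟨fun x => hno ⟨x.1, x.2.symm⟩⟩
    rw [@Nat.card_of_isEmpty _ hemp, Nat.cast_zero] at e
    exact (mul_eq_zero.mp e).resolve_left hNc

end Cfsg.Agent.S1486
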