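import Cfsg.Statements.S1491
import Cfsg.Agent.Lib.CharAbQuot

set_option autoImplicit false
open Cfsg

namespace Cfsg.Agent.S1491

open Cfsg.Agent.Lib.CharAbQuot Cfsg.Agent.Lib.CharClifford Cfsg.Agent.Lib.CharCorr Cfsg.Agent.Lib.CharBasic

/-- Let H be a normal subgroup of the finite group G and θ an irreducible character of H with inertia group T, where T/H is abelian (commutators of T lie in H) and the index of H in T is coprime to the order of H. Then the function induced from θ is the sum of a set of exactly [T:H] irreducible characters of G, each of degree [G:T] * θ(1). -/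
theorem result {G : Type*} [Group G] [Fintype G] (H T : Subgroup G) [hN : H.Normal] (θ : H → ℂ) (hθ : Cfsg.IsIrrCharacter H θ) (hT : ∀ g : G, g ∈ T ↔ ∀ h : H, θ ⟨g * h * g⁻¹, hN.conj_mem h h.2 g⟩ = θ h) (hab : ∀ x ∈ T, ∀ y ∈ T, x * y * x⁻¹ * y⁻¹ ∈ H) (hcop : Nat.Coprime (Nat.card H) (H.relIndex T)) : ∃ C : Finset (G → ℂ), (∀ χ ∈ C, Cfsg.IsIrrCharacter G χ) ∧ C.card = H.relIndex T ∧ Cfsg.indFun H θ = ∑ χ ∈ C, χ ∧ ∀ χ ∈ C, χ 1 = (T.index : ℂ) * θ 1 := by
  classical
  have hT' : ∀ g : G, g ∈ T ↔ Cfsg.Agent.Lib.CharClifford.conjFun H hN θ g = θ := by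
    intro g
    rw [hT g]
    constructor
    · intro h; ext n; rw [conjFun_apply]; exact h n
    · intro h n; have := congrFun h n; rwa [conjFun_apply] at this
  have hNT : H ≤ T := by
    intro g hg
    rw [hT']
    ext n
    rw [conjFun_apply]
    exact isClassFunction_of_isCharacter (isCharacter_of_isIrr hθ) n ⟨g, hg⟩
  obtain ⟨e, C, he, h1, h2, h3, h4, h5⟩ := ind_inertia H hN T hθ hT' hab
  have hN' : (H.subgroupOf T).Normal := hN.subgroupOf T
  have hinv' : ∀ t : T, Cfsg.Agent.Lib.CharClifford.conjFun (H.subgroupOf T) hN' (sub H T θ) t = sub H T θ := by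
    intro t
    ext n
    have := congrFun ((hT' t).mp t.2) ⟨(n : T), Subgroup.mem_subgroupOf.mp n.2⟩
    rw [conjFun_apply] at this ⊢
    exact this
  have hcard : Nat.card (H.subgroupOf T) = Nat.card H :=
    Nat.card_congr (Subgroup.subgroupOfEquivOfLe hNT).toEquiv
  have he1 : e = 1 := by
    apply h5
    apply exists_ext_hall (H.subgroupOf T) hN' (isIrr_sub H T hNT hθ) hinv'
    rw [hcard]
    exact hcop
  subst he1
  refine ⟨C, h1, ?_, by simpa using h3, fun χ hχ => by simpa using h4 χ hχ⟩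
  have h6 : H.relIndex T * Nat.card H = Nat.card T := by
    rw [← hcard, mul_comm]
    exact Subgroup.card_mul_index (H.subgroupOf T)
  have h7 : C.card * Nat.card H = H.relIndex T * Nat.card H := by
    rw [h6, ← h2]; ring
  exact Nat.eq_of_mul_eq_mul_right Nat.card_pos h7

end Cfsg.Agent.S1491
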