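import Cfsg.Statements.S1492
import Mathlib
import Cfsg.Agent.Lib.CharKer
import Cfsg.Agent.Lib.CharQuot
import Cfsg.Agent.Lib.helper8_Center


set_option autoImplicit false
open Cfsg

namespace Cfsg.Agent.S1492

open Cfsg.Agent.Lib.CharBasic Cfsg.Agent.Lib.CharOrtho Cfsg.Agent.Lib.CharMore
  Cfsg.Agent.Lib.CharInd Cfsg.Agent.Lib.CharKer Cfsg.Agent.Lib.CharQuot
  Cfsg.Agent.Lib.helper8_Center Cfsg.Agent.Lib.CharComplete
open scoped ComplexConjugate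

/-- Let ψ be an irreducible character of the finite group G and B ≤ D ≤ C subgroups with B normal in C, every commutator of an element of D with an element of C lying in B (so D/B is central in C/B), and ψ constant equal to ψ 1 on B. Then ψ(1) ^ 2 * |C| * |D| ≤ |G| ^ 2. -/
theorem result {G : Type*} [Group G] [Finite G] (ψ : G → ℂ) (hψ : Cfsg.IsIrrCharacter G ψ) (B C D : Subgroup G) (hBD : B ≤ D) (hDC : D ≤ C) (hBn : ∀ c ∈ C, ∀ b ∈ B, c * b * c⁻¹ ∈ B) (hcent : ∀ d ∈ D, ∀ c ∈ C, d * c * d⁻¹ * c⁻¹ ∈ B) (hker : ∀ b ∈ B, ψ b = ψ 1) : ‖ψ 1‖ ^ 2 * (Nat.card C : ℝ) * (Nat.card D : ℝ) ≤ (Nat.card G : ℝ) ^ 2 := by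
  classical
  haveI := Fintype.ofFinite G
  haveI : Fintype C := Fintype.ofFinite _
  have hψc := isCharacter_of_isIrr hψ
  have hres : IsCharacter C (fun c : C => ψ c) := isCharacter_restrict C hψc
  obtain ⟨ξ, hξ⟩ := exists_constituent hres (by
    intro h; exact irr_degree_ne_zero hψ (congrFun h 1))
  have h1 : classInner (indFun C (ξ : C → ℂ)) ψ ≠ 0 := by
    rw [frobenius_reciprocity C ξ ψ (isClassFunction_of_isCharacter hψc), ← classInner_conj_symm]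
    exact fun h0 => hξ ((map_eq_zero _).mp h0)
  obtain ⟨a, b, ha, hb, hab⟩ := degree_le_of_constituent
    (isCharacter_indFun C ξ (isCharacter_of_isIrr ξ.2)) hψ h1
  rw [indFun_one] at ha
  let B' : Subgroup C := B.subgroupOf C
  haveI hB'n : B'.Normal := ⟨fun n hn g => Subgroup.mem_subgroupOf.mpr
    (hBn g g.2 n (Subgroup.mem_subgroupOf.mp hn))⟩
  have hker' : ∀ n ∈ B', (ξ : C → ℂ) n = (ξ : C → ℂ) 1 := fun n hn =>
    constituent_ker hres ξ.2 hξ (hker n (Subgroup.mem_subgroupOf.mp hn))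
  obtain ⟨ξ', hξ', hξeq⟩ := exists_deflate_irr B' ξ.2 hker'
  set δ : ℝ := (charDegree ξ' : ℝ) with hδ
  have hnorm : ∀ d : C, (d : G) ∈ D → ‖(ξ : C → ℂ) d‖ = δ := by
    intro d hd
    rw [hξeq]
    refine central_norm hξ' (z := (QuotientGroup.mk d : C ⧸ B')) (fun g => ?_)
    obtain ⟨c, rfl⟩ := QuotientGroup.mk_surjective g
    rw [← QuotientGroup.mk_mul, ← QuotientGroup.mk_mul]
    symm
    rw [QuotientGroup.eq]
    apply Subgroup.mem_subgroupOf.mpr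
    have h3 := hcent d⁻¹ (D.inv_mem hd) c⁻¹ (C.inv_mem c.2)
    have e : (((d * c)⁻¹ * (c * d) : C) : G) =
        ((d : G)⁻¹ * (c : G)⁻¹ * (d : G)⁻¹⁻¹ * (c : G)⁻¹⁻¹)⁻¹ := by
      push_cast
      group
    rw [e]
    exact B.inv_mem h3
  have f2 : δ ^ 2 * (Nat.card D : ℝ) ≤ (Nat.card C : ℝ) := by
    have s1 := sum_norm_sq ξ.2
    have s2 : ∑ a : D.subgroupOf C, ‖(ξ : C → ℂ) a‖ ^ 2 ≤ ∑ g : C, ‖(ξ : C → ℂ) g‖ ^ 2 := by
      rw [← Finset.sum_subtype (Finset.univ.filter (· ∈ D.subgroupOf C)) (by simp)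
        (fun g => ‖(ξ : C → ℂ) g‖ ^ 2)]
      exact Finset.sum_le_univ_sum_of_nonneg fun g => by positivity
    have s3 : ∀ a : D.subgroupOf C, ‖(ξ : C → ℂ) a‖ ^ 2 = δ ^ 2 := by
      intro a
      rw [hnorm a (Subgroup.mem_subgroupOf.mp a.2)]
    simp only [s3, Finset.sum_const, Finset.card_univ, nsmul_eq_mul, ← Nat.card_eq_fintype_card]
      at s2
    rw [s1, Nat.card_congr (Subgroup.subgroupOfEquivOfLe hDC).toEquiv] at s2
    linarith
  have f1 : ‖ψ 1‖ ≤ (C.index : ℝ) * δ := by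
    have e1 : ‖ψ 1‖ = (b : ℝ) := by rw [hb]; simp
    have e2 : ((C.index : ℝ)) * δ = (a : ℝ) := by
      have := congrArg norm ha
      rw [norm_mul, hnorm 1 D.one_mem] at this
      simpa using this
    rw [e1, e2]
    exact_mod_cast hab
  have f3 : (C.index : ℝ) * (Nat.card C : ℝ) = (Nat.card G : ℝ) := by
    exact_mod_cast C.index_mul_card
  have g1 : ‖ψ 1‖ ^ 2 ≤ ((C.index : ℝ) * δ) ^ 2 := pow_le_pow_left₀ (norm_nonneg _) f1 2
  calc ‖ψ 1‖ ^ 2 * (Nat.card C : ℝ) * (Nat.card D : ℝ)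
      ≤ ((C.index : ℝ) * δ) ^ 2 * (Nat.card C : ℝ) * (Nat.card D : ℝ) := by gcongr
    _ = (C.index : ℝ) ^ 2 * (Nat.card C : ℝ) * (δ ^ 2 * (Nat.card D : ℝ)) := by ring
    _ ≤ (C.index : ℝ) ^ 2 * (Nat.card C : ℝ) * (Nat.card C : ℝ) := by gcongr
    _ = ((C.index : ℝ) * (Nat.card C : ℝ)) ^ 2 := by ring
    _ = (Nat.card G : ℝ) ^ 2 := by rw [f3]

end Cfsg.Agent.S1492
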