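import Cfsg.Statements.S1494
import Cfsg.Agent.Lib.CharIto

set_option autoImplicit false
open Cfsg

namespace Cfsg.Agent.S1494

open Cfsg.Agent.Lib.CharBasic Cfsg.Agent.Lib.CharMore Cfsg.Agent.Lib.CharIto Cfsg.Agent.Lib.CharLinear

/-- Let χ be a generalized character of the finite group G, p a prime, x an element of order p and y an element commuting with x. Then χ(x * y) − χ(y) = (1 − ε) * ω for some algebraic integer ω, where ε = exp(2πi/p). -/
theorem result {G : Type*} [Group G] [Finite G] (χ : G → ℂ) (hχ : Cfsg.IsGeneralizedCharacter G χ) (p : ℕ) (hp : p.Prime) (x y : G) (hx : orderOf x = p) (hxy : x * y = y * x) : ∃ ω : ℂ, IsIntegral ℤ ω ∧ χ (x * y) - χ y = (1 - Complex.exp (2 * Real.pi * Complex.I / p)) * ω := by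
  classical
  haveI := Fintype.ofFinite G
  haveI : NeZero p := ⟨hp.ne_zero⟩
  set ζ := Complex.exp (2 * Real.pi * Complex.I / p) with hζ
  have hprim : IsPrimitiveRoot ζ p := Complex.isPrimitiveRoot_exp p hp.ne_zero
  have hζint : IsIntegral ℤ ζ := hprim.isIntegral hp.pos
  have key : ∀ a : G → ℂ, Cfsg.IsCharacter G a →
      ∃ ω : ℂ, IsIntegral ℤ ω ∧ a (x * y) - a y = (1 - ζ) * ω := by
    intro a ha
    set A : Subgroup G := Subgroup.closure {x, y} with hA
    haveI : Fintype A := Fintype.ofFinite A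
    have hxA : x ∈ A := Subgroup.subset_closure (by simp)
    have hyA : y ∈ A := Subgroup.subset_closure (by simp)
    have hcomm : ∀ u v : A, u * v = v * u := by
      have hc : ∀ u ∈ ({x, y} : Set G), ∀ v ∈ ({x, y} : Set G), u * v = v * u := by
        intro u hu v hv
        simp only [Set.mem_insert_iff, Set.mem_singleton_iff] at hu hv
        rcases hu with rfl | rfl <;> rcases hv with rfl | rfl <;> simp [hxy]
      letI := Subgroup.closureCommGroupOfComm hc
      intro u v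
      exact mul_comm u v
    obtain ⟨m, -, hexp⟩ := exists_mult (isCharacter_restrict A ha)
    have hlin : ∀ ψ : Cfsg.IrrCharacter A, (ψ : A → ℂ) 1 = 1 := fun ψ =>
      degree_one_of_comm hcomm ψ.2
    have hw : ∀ ψ : Cfsg.IrrCharacter A, ∃ w : ℂ, IsIntegral ℤ w ∧
        (ψ : A → ℂ) ⟨x, hxA⟩ - 1 = (1 - ζ) * w := by
      intro ψ
      have hch := isCharacter_of_isIrr ψ.2
      have hpow : (ψ : A → ℂ) ⟨x, hxA⟩ ^ p = 1 := by
        have h1 : ((homOfLinear hch (hlin ψ)) ⟨x, hxA⟩) ^ p = 1 := by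
          rw [← map_pow]
          have : (⟨x, hxA⟩ : A) ^ p = 1 := by
            apply Subtype.ext
            simp only [Subgroup.coe_pow, Subgroup.coe_one]
            rw [← hx, pow_orderOf_eq_one]
          rw [this, map_one]
        have := congrArg (fun u : ℂˣ => (u : ℂ)) h1
        simpa [homOfLinear_apply] using this
      obtain ⟨k, -, hk⟩ := hprim.eq_pow_of_pow_eq_one hpow
      refine ⟨-∑ i ∈ Finset.range k, ζ ^ i, ?_, ?_⟩
      · exact (IsIntegral.sum _ fun i _ => hζint.pow i).neg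
      · rw [← hk]
        have := mul_neg_geom_sum ζ k
        linear_combination this
    choose w hwint hw using hw
    refine ⟨∑ ψ : Cfsg.IrrCharacter A, (m ψ : ℂ) * ((ψ : A → ℂ) ⟨y, hyA⟩ * w ψ), ?_, ?_⟩
    · refine IsIntegral.sum _ fun ψ _ => ?_
      refine IsIntegral.mul (isIntegral_algebraMap (R := ℤ) (x := (m ψ : ℤ)) |> fun h => by simpa using h) ?_
      refine IsIntegral.mul ?_ (hwint ψ)
      obtain ⟨n, ρ, -, hρ⟩ := ψ.2
      rw [← hρ]
      exact char_isIntegral ρ _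
    · have e1 := congrFun hexp ⟨x * y, A.mul_mem hxA hyA⟩
      have e2 := congrFun hexp ⟨y, hyA⟩
      simp only [Finset.sum_apply, Pi.smul_apply, smul_eq_mul] at e1 e2
      rw [e1, e2, ← Finset.sum_sub_distrib, Finset.mul_sum]
      refine Finset.sum_congr rfl fun ψ _ => ?_
      have h3 : (ψ : A → ℂ) ⟨x * y, A.mul_mem hxA hyA⟩ =
          (ψ : A → ℂ) ⟨x, hxA⟩ * (ψ : A → ℂ) ⟨y, hyA⟩ :=
        char_mul_of_degree_one (isCharacter_of_isIrr ψ.2) (hlin ψ) ⟨x, hxA⟩ ⟨y, hyA⟩
      rw [h3]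
      linear_combination (m ψ : ℂ) * (ψ : A → ℂ) ⟨y, hyA⟩ * hw ψ
  obtain ⟨a, b, ha, hb, rfl⟩ := hχ
  obtain ⟨ω₁, h1, e1⟩ := key a ha
  obtain ⟨ω₂, h2, e2⟩ := key b hb
  refine ⟨ω₁ - ω₂, h1.sub h2, ?_⟩
  simp only [Pi.sub_apply]
  linear_combination e1 - e2

end Cfsg.Agent.S1494
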