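import Cfsg.Statements.S1495
import Cfsg.Agent.Lib.helper8_ModP

set_option autoImplicit false
open Cfsg

namespace Cfsg.Agent.S1495

open Cfsg.Agent.Lib.helper8_ModP Cfsg.Agent.Lib.helper8_DefectZero Cfsg.Agent.Lib.Helper2_BlockLocal

/-- Let p be a prime, ε = exp(2πi/p), and n an integer such that n = (1 − ε) * ω for some algebraic integer ω. Then p divides n. -/
theorem result (p : ℕ) (hp : p.Prime) (n : ℤ) (ω : ℂ) (hω : IsIntegral ℤ ω) (h : (n : ℂ) = (1 - Complex.exp (2 * Real.pi * Complex.I / p)) * ω) : (p : ℤ) ∣ n := by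
  obtain ⟨M, hM⟩ := exists_modular hp
  have hP := isPrime_of_modular hM
  set ζ := Complex.exp (2 * Real.pi * Complex.I / p) with hζ
  have hprim : IsPrimitiveRoot ζ p := Complex.isPrimitiveRoot_exp p hp.ne_zero
  have hζint : IsIntegral ℤ ζ := hprim.isIntegral hp.pos
  have h1 : Cfsg.MemLocalIdeal M ((1 : ℂ) - ζ) := by
    apply ideal_sub_of_pow_eq hM isIntegral_one hζint (j := 1)
    rw [pow_one, one_pow, hprim.pow_eq_one]
  have h2 : Cfsg.MemLocalIdeal M (n : ℂ) := by
    rw [h]
    exact ideal_mul_right hP h1 (ring_of_isIntegral hP hω)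
  have h3 : Cfsg.MemLocalIdeal M ((n.natAbs : ℕ) : ℂ) := by
    rcases Int.natAbs_eq n with hn | hn
    · have : ((n.natAbs : ℕ) : ℂ) = (n : ℂ) := by
        have := congrArg (fun z : ℤ => (z : ℂ)) hn
        simpa using this.symm
      rw [this]; exact h2
    · have : ((n.natAbs : ℕ) : ℂ) = -(n : ℂ) := by
        have := congrArg (fun z : ℤ => (z : ℂ)) hn
        simp only [Int.cast_neg, Int.cast_natCast] at this
        rw [this, neg_neg]
      rw [this]; exact ideal_neg h2
  have h4 := (ideal_natCast_iff hM _).mp h3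
  exact Int.natCast_dvd.mpr h4

end Cfsg.Agent.S1495
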