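import Cfsg.Statements.S1496
import Mathlib
import Cfsg.Agent.Lib.Helper1_Coprime
import Cfsg.Agent.Lib.Helper4_Cop

set_option autoImplicit false
open Cfsg

namespace Cfsg.Agent.S1496

open scoped Pointwise

theorem pow_coset {G : Type*} [Group G] (H : Subgroup G) (g : G)
    (hg : g ∈ Subgroup.normalizer (H : Set G)) (w : G) (hw : w ∈ H) (k : ℕ) :
    ∃ w' ∈ H, (w * g) ^ k = w' * g ^ k := by
  induction k with
  | zero => exact ⟨1, H.one_mem, by simp⟩
  | succ k ih =>
    obtain ⟨w', hw', e⟩ := ih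
    have hgk : g ^ k ∈ Subgroup.normalizer (H : Set G) := pow_mem hg k
    refine ⟨w' * (g ^ k * w * (g ^ k)⁻¹), H.mul_mem hw' ((Subgroup.mem_normalizer_iff.mp hgk w).mp hw), ?_⟩
    rw [pow_succ, e, pow_succ]
    group


/-- Let H be a subgroup of the finite group G and g an element normalising H whose order is coprime to the order of H. Then for every h ∈ H there are x ∈ H and c ∈ H commuting with g such that x * (h * g) * x⁻¹ = c * g. -/
theorem result {G : Type*} [Group G] [Finite G] (H : Subgroup G) (g : G) (hg : g ∈ Subgroup.normalizer (H : Set G)) (hcop : Nat.Coprime (orderOf g) (Nat.card H)) (h : G) (hh : h ∈ H) : ∃ x ∈ H, ∃ c ∈ H, c * g = g * c ∧ x * (h * g) * x⁻¹ = c * g := by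
  set n := orderOf g with hn
  set m := Nat.card H with hm
  have hHpow : ∀ w ∈ H, w ^ m = 1 := by
    intro w hw
    have h1 : (⟨w, hw⟩ : H) ^ Nat.card H = 1 := pow_card_eq_one'
    have h2 := congrArg Subtype.val h1
    rwa [Subgroup.coe_pow, Subgroup.coe_one] at h2
  obtain ⟨e, he1, he0⟩ := Nat.chineseRemainder hcop 1 0
  have hme : m ∣ e := (Nat.modEq_zero_iff_dvd).mp he0
  have hge : g ^ e = g := by
    have := (pow_eq_pow_iff_modEq (x := g) (n := e) (m := 1)).mpr he1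
    simpa using this
  set y := h * g with hy
  set u := y ^ e with hu
  obtain ⟨w1, hw1, e1⟩ := pow_coset H g hg h hh e
  rw [hge] at e1
  replace e1 : u = w1 * g := e1
  obtain ⟨w2, hw2, e2⟩ := pow_coset H g hg h hh n
  rw [hn, pow_orderOf_eq_one, mul_one, ← hn] at e2
  replace e2 : y ^ n = w2 := e2
  have hun : u ^ n = 1 := by
    obtain ⟨e', rfl⟩ := hme
    rw [hu, ← pow_mul, mul_comm, ← mul_assoc, pow_mul, pow_mul, e2, hHpow w2 hw2, one_pow]
  have hou : orderOf u = n := by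
    apply Nat.dvd_antisymm (orderOf_dvd_of_pow_eq_one hun)
    obtain ⟨w3, hw3, e3⟩ := pow_coset H g hg w1 hw1 (orderOf u)
    rw [← e1, pow_orderOf_eq_one] at e3
    have hgk : g ^ orderOf u ∈ H := by
      have : g ^ orderOf u = w3⁻¹ := (inv_eq_of_mul_eq_one_right e3.symm).symm
      rw [this]; exact H.inv_mem hw3
    have h1 : g ^ orderOf u = 1 := by
      apply Cfsg.Agent.Lib.Helper4_Cop.eq_one_of_coprime_pow (m := n) (n := m) _ (hHpow _ hgk) hcop
      rw [← pow_mul, mul_comm, pow_mul, hn, pow_orderOf_eq_one, one_pow]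
    exact orderOf_dvd_of_pow_eq_one h1
  have hzg : Subgroup.zpowers g ≤ Subgroup.normalizer (H : Set G) := Subgroup.zpowers_le.mpr hg
  obtain ⟨d, hd, hdc⟩ := Cfsg.Agent.Lib.Helper1_Coprime.conj_of_le_sup (A := Subgroup.zpowers g) (D := H)
    (B := Subgroup.zpowers u) hzg (by rw [Nat.card_zpowers]; exact hcop) (Or.inl inferInstance)
    (by
      rw [Subgroup.zpowers_le, e1]
      exact mul_mem (Subgroup.mem_sup_right hw1) (Subgroup.mem_sup_left (Subgroup.mem_zpowers g)))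
    (by rw [Nat.card_zpowers, Nat.card_zpowers, hou])
  have hdisj : Subgroup.zpowers u ⊓ H = ⊥ :=
    (Subgroup.disjoint_of_coprime_natCard (by rw [Nat.card_zpowers, hou]; exact hcop)).eq_bot
  have hdg : d * g * d⁻¹ = u := by
    have m1 : d * g * d⁻¹ * u⁻¹ ∈ Subgroup.zpowers u := by
      refine mul_mem ?_ (inv_mem (Subgroup.mem_zpowers u))
      rw [← hdc]
      exact Cfsg.Agent.Lib.Helper1_Basic.conj_mem_conj_smul (Subgroup.mem_zpowers g)
    have m2 : d * g * d⁻¹ * u⁻¹ ∈ H := by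
      have : d * g * d⁻¹ * u⁻¹ = d * (g * d⁻¹ * g⁻¹) * w1⁻¹ := by
        rw [e1]; group
      rw [this]
      exact H.mul_mem (H.mul_mem hd ((Subgroup.mem_normalizer_iff.mp hg _).mp (H.inv_mem hd))) (H.inv_mem hw1)
    have m3 : d * g * d⁻¹ * u⁻¹ ∈ Subgroup.zpowers u ⊓ H := Subgroup.mem_inf.mpr ⟨m1, m2⟩
    rw [hdisj, Subgroup.mem_bot] at m3
    exact mul_inv_eq_one.mp m3
  have hv : y * u⁻¹ ∈ H := by
    have : y * u⁻¹ = h * w1⁻¹ := by rw [e1, hy]; group
    rw [this]; exact H.mul_mem hh (H.inv_mem hw1)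
  have hyu : y * u = u * y := by
    rw [hu, ← pow_succ', ← pow_succ]
  have hg' : g = d⁻¹ * u * d := by rw [← hdg]; group
  refine ⟨d⁻¹, H.inv_mem hd, d⁻¹ * (y * u⁻¹) * d, H.mul_mem (H.mul_mem (H.inv_mem hd) hv) hd, ?_, ?_⟩
  · rw [hg']
    have : d⁻¹ * (y * u⁻¹) * d * (d⁻¹ * u * d) = d⁻¹ * y * d := by group
    rw [this]
    have : d⁻¹ * u * d * (d⁻¹ * (y * u⁻¹) * d) = d⁻¹ * (u * y) * u⁻¹ * d := by group
    rw [this, ← hyu]
    group
  · rw [hg']
    group

end Cfsg.Agent.S1496
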