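import Cfsg.Statements.S1498
import Mathlib
import Cfsg.Agent.Lib.Helper4_Cop

set_option autoImplicit false
open Cfsg

namespace Cfsg.Agent.S1498

open scoped Pointwise

theorem pow_coset {G : Type*} [Group G] (H : Subgroup G) (g : G)
    (hg : g ∈ Subgroup.normalizer (H : Set G)) (w : G) (hw : w ∈ H) (k : ℕ) :
    ∃ w' ∈ H, (w * g) ^ k = w' * g ^ k := by
  induction k with
  | zero => exact ⟨1, H.one_mem, by simp⟩
  | succ k ih =>
    obtain ⟨w', hw', e⟩ := ih
    have hgk : g ^ k ∈ Subgroup.normalizer (H : Set G) := pow_mem hg k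
    refine ⟨w' * (g ^ k * w * (g ^ k)⁻¹), H.mul_mem hw' ((Subgroup.mem_normalizer_iff.mp hgk w).mp hw), ?_⟩
    rw [pow_succ, e, pow_succ]
    group

theorem pow_card_eq_one_of_mem {G : Type*} [Group G] (H : Subgroup G) {w : G} (hw : w ∈ H) :
    w ^ Nat.card H = 1 := by
  have h1 : (⟨w, hw⟩ : H) ^ Nat.card H = 1 := pow_card_eq_one'
  have h2 := congrArg Subtype.val h1
  rwa [Subgroup.coe_pow, Subgroup.coe_one] at h2

/-- a subgroup of `N ⊔ M` (`M` normalizing `N`, `N ⊓ M = ⊥`) of order coprime to `M` lies in `N`. -/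
theorem le_of_coprime {G : Type*} [Group G] [Finite G] (N M X : Subgroup G)
    (hMN : M ≤ Subgroup.normalizer (N : Set G)) (hdisj : N ⊓ M = ⊥) (hX : X ≤ N ⊔ M)
    (hcop : Nat.Coprime (Nat.card X) (Nat.card M)) : X ≤ N := by
  intro u hu
  have hu' : u ∈ ((N ⊔ M : Subgroup G) : Set G) := hX hu
  rw [Subgroup.coe_mul_of_right_le_normalizer_left N M hMN] at hu'
  obtain ⟨n, hn, m, hm, rfl⟩ := hu'
  obtain ⟨w', hw', e⟩ := pow_coset N m (hMN hm) n hn (Nat.card X)
  rw [pow_card_eq_one_of_mem X hu] at e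
  have hmk : m ^ Nat.card X ∈ N ⊓ M := by
    refine Subgroup.mem_inf.mpr ⟨?_, M.pow_mem hm _⟩
    have : m ^ Nat.card X = w'⁻¹ := (inv_eq_of_mul_eq_one_right e.symm).symm
    rw [this]; exact N.inv_mem hw'
  rw [hdisj, Subgroup.mem_bot] at hmk
  have : m = 1 := Cfsg.Agent.Lib.Helper4_Cop.eq_one_of_coprime_pow hmk (pow_card_eq_one_of_mem M hm) hcop
  subst this
  simpa using hn


/-- Under the Dade hypothesis for (A, L, H): for a ∈ A and x ∈ L, the subgroup attached to x * a * x⁻¹ is the conjugate of H a by x. -/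
theorem result {G : Type*} [Group G] [Finite G] (A : Set G) (L : Subgroup G) (H : G → Subgroup G) (hD : Cfsg.DadeHypothesis A L H) (a : G) (ha : a ∈ A) (x : G) (hx : x ∈ L) : H (x * a * x⁻¹) = (H a).map (MulAut.conj x).toMonoidHom := by
  set b := x * a * x⁻¹ with hb
  have hbA : b ∈ A := hD.conj_mem x hx a ha
  have hnorm : ∀ c ∈ A, L ⊓ Subgroup.centralizer ({c} : Set G) ≤ Subgroup.normalizer (H c : Set G) := by
    intro c hc y hy
    rw [Subgroup.mem_normalizer_iff]
    intro u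
    constructor
    · exact hD.conj_mem_H c hc y hy.2 u
    · intro h
      have := hD.conj_mem_H c hc y⁻¹ (inv_mem hy.2) _ h
      simpa [mul_assoc] using this
  -- conjugation by x maps C(a) to C(b)
  have hcent : ∀ u, u ∈ Subgroup.centralizer ({a} : Set G) → x * u * x⁻¹ ∈ Subgroup.centralizer ({b} : Set G) := by
    intro u hu
    rw [Subgroup.mem_centralizer_singleton_iff] at hu ⊢
    rw [hb]
    calc x * u * x⁻¹ * (x * a * x⁻¹) = x * (u * a) * x⁻¹ := by group
      _ = x * (a * u) * x⁻¹ := by rw [hu]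
      _ = x * a * x⁻¹ * (x * u * x⁻¹) := by group
  have hcent' : ∀ u, u ∈ Subgroup.centralizer ({b} : Set G) → x⁻¹ * u * x ∈ Subgroup.centralizer ({a} : Set G) := by
    intro u hu
    rw [Subgroup.mem_centralizer_singleton_iff] at hu ⊢
    have ea : a = x⁻¹ * b * x := by rw [hb]; group
    rw [ea]
    calc x⁻¹ * u * x * (x⁻¹ * b * x) = x⁻¹ * (u * b) * x := by group
      _ = x⁻¹ * (b * u) * x := by rw [hu]
      _ = x⁻¹ * b * x * (x⁻¹ * u * x) := by group
  have hcardmap : Nat.card ((H a).map (MulAut.conj x).toMonoidHom) = Nat.card (H a) :=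
    Nat.card_congr ((H a).equivMapOfInjective _ (MulEquiv.injective _)).toEquiv.symm
  have h1 : (H a).map (MulAut.conj x).toMonoidHom ≤ H b := by
    apply le_of_coprime (H b) (L ⊓ Subgroup.centralizer ({b} : Set G)) _ (hnorm b hbA)
      (hD.inf_eq_bot b hbA)
    · rw [hD.sup_eq b hbA]
      rintro _ ⟨u, hu, rfl⟩
      exact hcent u (hD.le_centralizer a ha hu)
    · rw [hcardmap]
      exact hD.coprime a ha b hbA
  have h2 : (H b).map (MulAut.conj x⁻¹).toMonoidHom ≤ H a := by
    apply le_of_coprime (H a) (L ⊓ Subgroup.centralizer ({a} : Set G)) _ (hnorm a ha)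
      (hD.inf_eq_bot a ha)
    · rw [hD.sup_eq a ha]
      rintro _ ⟨u, hu, rfl⟩
      have := hcent' u (hD.le_centralizer b hbA hu)
      simpa using this
    · rw [Nat.card_congr ((H b).equivMapOfInjective _ (MulEquiv.injective _)).toEquiv.symm]
      exact hD.coprime b hbA a ha
  apply le_antisymm _ h1
  intro u hu
  have : x⁻¹ * u * x ∈ H a := h2 ⟨u, hu, by simp⟩
  exact ⟨x⁻¹ * u * x, this, by simp [mul_assoc]⟩

end Cfsg.Agent.S1498
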