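import Cfsg.Statements.S1499
import Mathlib

set_option autoImplicit false
open Cfsg

namespace Cfsg.Agent.S1499

theorem pow_card_eq_one_of_mem {G : Type*} [Group G] (H : Subgroup G) {w : G} (hw : w ∈ H) :
    w ^ Nat.card H = 1 := by
  have h1 : (⟨w, hw⟩ : H) ^ Nat.card H = 1 := pow_card_eq_one'
  have h2 := congrArg Subtype.val h1
  rwa [Subgroup.coe_pow, Subgroup.coe_one] at h2

/-- the common exponent extracting the `A`-part. -/
theorem exists_exp {G : Type*} [Group G] [Finite G] (A : Set G) (L : Subgroup G) (H : G → Subgroup G)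
    (hD : Cfsg.DadeHypothesis A L H) (a b : G) (ha : a ∈ A) (hb : b ∈ A) :
    ∃ e : ℕ, (∀ u ∈ H a, (a * u) ^ e = a) ∧ (∀ v ∈ H b, (b * v) ^ e = b) := by
  set n := Nat.card ↥(L ⊓ Subgroup.centralizer ({a} : Set G)) * Nat.card ↥(L ⊓ Subgroup.centralizer ({b} : Set G)) with hn
  set m := Nat.card (H a) * Nat.card (H b) with hm
  have hcop : Nat.Coprime n m := by
    apply Nat.Coprime.mul_left
    · exact Nat.Coprime.mul_right (hD.coprime a ha a ha).symm (hD.coprime b hb a ha).symm
    · exact Nat.Coprime.mul_right (hD.coprime a ha b hb).symm (hD.coprime b hb b hb).symm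
  obtain ⟨e, he1, he0⟩ := Nat.chineseRemainder hcop 1 0
  have hme : m ∣ e := (Nat.modEq_zero_iff_dvd).mp he0
  have gen : ∀ c ∈ A, Nat.card ↥(L ⊓ Subgroup.centralizer ({c} : Set G)) ∣ n → Nat.card (H c) ∣ m →
      ∀ u ∈ H c, (c * u) ^ e = c := by
    intro c hc h1 h2 u hu
    have hcu : Commute c u := by
      have := Subgroup.mem_centralizer_singleton_iff.mp (hD.le_centralizer c hc hu)
      exact this.symm
    rw [hcu.mul_pow]
    have hu1 : u ^ e = 1 := by
      obtain ⟨k, rfl⟩ := h2.trans hme
      rw [pow_mul, pow_card_eq_one_of_mem _ hu, one_pow]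
    have hcmem : c ∈ L ⊓ Subgroup.centralizer ({c} : Set G) :=
      ⟨hD.subset hc, Subgroup.mem_centralizer_singleton_iff.mpr rfl⟩
    have hc1 : c ^ e = c := by
      have hord : orderOf c ∣ n := (orderOf_dvd_of_pow_eq_one (pow_card_eq_one_of_mem _ hcmem)).trans h1
      have := (pow_eq_pow_iff_modEq (x := c) (n := e) (m := 1)).mpr (he1.of_dvd hord)
      simpa using this
    rw [hu1, hc1, mul_one]
  exact ⟨e, gen a ha (Dvd.intro _ rfl) (Dvd.intro _ rfl), gen b hb (Dvd.intro_left _ rfl) (Dvd.intro_left _ rfl)⟩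


/-- Under the Dade hypothesis for (A, L, H), let a, b ∈ A. If an element of the coset a·H(a) is conjugate in G to an element of b·H(b), then a and b are conjugate by an element of L. Moreover the set normaliser of the coset a·H(a) is the centraliser of a. -/
theorem result {G : Type*} [Group G] [Finite G] (A : Set G) (L : Subgroup G) (H : G → Subgroup G) (hD : Cfsg.DadeHypothesis A L H) (a b : G) (ha : a ∈ A) (hb : b ∈ A) : ((∃ u ∈ H a, ∃ v ∈ H b, ∃ g : G, g * (a * u) * g⁻¹ = b * v) → ∃ x ∈ L, x * a * x⁻¹ = b) ∧ Subgroup.normalizer ((fun u : G => a * u) '' (H a : Set G)) = Subgroup.centralizer ({a} : Set G) := by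
  constructor
  · rintro ⟨u, hu, v, hv, g, hg⟩
    obtain ⟨e, he1, he2⟩ := exists_exp A L H hD a b ha hb
    have h1 : g * a * g⁻¹ = b := by
      have := congrArg (· ^ e) hg
      simp only [conj_pow] at this
      rwa [he1 u hu, he2 v hv] at this
    obtain ⟨x, hx, hxa⟩ := hD.fusion a ha g (h1 ▸ hb)
    exact ⟨x, hx, hxa.trans h1⟩
  · obtain ⟨e, he1, -⟩ := exists_exp A L H hD a a ha ha
    have hsub : ∀ c ∈ Subgroup.centralizer ({a} : Set G), ∀ y ∈ (fun u : G => a * u) '' (H a : Set G),
        c * y * c⁻¹ ∈ (fun u : G => a * u) '' (H a : Set G) := by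
      rintro c hc _ ⟨u, hu, rfl⟩
      refine ⟨c * u * c⁻¹, hD.conj_mem_H a ha c hc u hu, ?_⟩
      have hca : c * a = a * c := Subgroup.mem_centralizer_singleton_iff.mp hc
      change a * (c * u * c⁻¹) = c * (a * u) * c⁻¹
      calc a * (c * u * c⁻¹) = (a * c) * u * c⁻¹ := by group
        _ = (c * a) * u * c⁻¹ := by rw [hca]
        _ = c * (a * u) * c⁻¹ := by group
    apply le_antisymm
    · intro g hg
      rw [Subgroup.mem_set_normalizer_iff] at hg
      have h1 : a ∈ (fun u : G => a * u) '' (H a : Set G) := ⟨1, (H a).one_mem, by simp⟩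
      obtain ⟨v, hv, hgv⟩ := (hg a).mp h1
      have hgv' : a * v = g * a * g⁻¹ := hgv
      have h2 : g * a * g⁻¹ = a := by
        have := congrArg (· ^ e) hgv'
        simp only [conj_pow] at this
        have ha1 := he1 1 (H a).one_mem
        rw [mul_one] at ha1
        rw [he1 v hv, ha1] at this
        exact this.symm
      rw [Subgroup.mem_centralizer_singleton_iff]
      calc g * a = g * a * g⁻¹ * g := by group
        _ = a * g := by rw [h2]
    · intro c hc
      rw [Subgroup.mem_set_normalizer_iff]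
      intro y
      constructor
      · exact hsub c hc y
      · intro h
        have := hsub c⁻¹ (inv_mem hc) _ h
        simpa [mul_assoc] using this

end Cfsg.Agent.S1499
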