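import Cfsg.Statements.S1503
import Mathlib
import Cfsg.Agent.Lib.CharComplete
import Cfsg.Agent.Lib.CharLinear


set_option autoImplicit false
open Cfsg

namespace Cfsg.Agent.S1503

open Cfsg.Agent.Lib.CharBasic Cfsg.Agent.Lib.CharOrtho Cfsg.Agent.Lib.CharComplete
  Cfsg.Agent.Lib.CharLinear
open scoped ComplexConjugate

theorem ci_sign {G : Type*} [Group G] [Fintype G] {a b a' b' : G → ℂ} (ha : a' = a ∨ a' = -a)
    (hb : b' = b ∨ b' = -b) (h : classInner a b = 0) : classInner a' b' = 0 := by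
  unfold classInner at *
  rcases ha with rfl | rfl <;> rcases hb with rfl | rfl
  · exact h
  · simp only [Pi.neg_apply, mul_neg, map_neg, Finset.sum_neg_distrib]
    linear_combination -h
  · simp only [Pi.neg_apply, neg_mul, Finset.sum_neg_distrib, mul_neg]
    linear_combination -h
  · simp only [Pi.neg_apply, neg_mul, mul_neg, map_neg, neg_neg]
    exact h

theorem card_hom_cyclic {W : Type*} [Group W] [Finite W] [IsCyclic W] :
    Nat.card (W →* ℂˣ) = Nat.card W := by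
  rw [← Nat.card_congr (linearEquiv (G := W)), card_linear]
  have : commutator W = ⊥ := by
    rw [commutator_def, Subgroup.commutator_eq_bot_iff_le_centralizer]
    intro x _
    rw [Subgroup.mem_centralizer_iff]
    intro y _
    obtain ⟨g, hg⟩ := IsCyclic.exists_generator (α := W)
    obtain ⟨i, rfl⟩ := Subgroup.mem_zpowers_iff.mp (hg x)
    obtain ⟨j, rfl⟩ := Subgroup.mem_zpowers_iff.mp (hg y)
    rw [← zpow_add, ← zpow_add, add_comm]
  rw [this, Subgroup.index_bot]

/-- Let W₁, W₂ ≤ G with W = W₁ ⊔ W₂ and let χ an orthonormal family of irreducible characters of G up to sign, indexed by the linear characters ω of W, with χ_1 = 1, χ_ω = ω on W outside W₁ ∪ W₂, and the induction identity for (1 − φ)(1 − ψ). If θ is an irreducible character of G orthogonal to χ ω for every linear character ω of W, then θ vanishes at every element of W lying outside W₁ ∪ W₂. -/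
theorem result {G : Type*} [Group G] [Fintype G] (W₁ W₂ : Subgroup G) (hW : Cfsg.IsSelfNormalizingCyclic W₁ W₂) (χ : (↥(W₁ ⊔ W₂) →* ℂˣ) → (G → ℂ)) (hχ : Cfsg.IsCyclicTIFamily W₁ W₂ χ) (θ : G → ℂ) (hθ : Cfsg.IsIrrCharacter G θ) (horth : ∀ ω, Cfsg.classInner θ (χ ω) = 0) (w : ↥(W₁ ⊔ W₂)) (hw₁ : (w : G) ∉ W₁) (hw₂ : (w : G) ∉ W₂) : θ w = 0 := by
  classical
  obtain ⟨-, -, -, -, hcyc, hnorm⟩ := hW
  haveI := hcyc
  have hcardW := card_hom_cyclic (W := ↥(W₁ ⊔ W₂))
  haveI hfin : Finite (↥(W₁ ⊔ W₂) →* ℂˣ) := by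
    apply Nat.finite_of_card_ne_zero
    rw [hcardW]
    exact Nat.card_pos.ne'
  haveI : Fintype (↥(W₁ ⊔ W₂) →* ℂˣ) := Fintype.ofFinite _
  have hN := hnorm {(w : G)} (by
    intro x hx
    rw [Set.mem_singleton_iff] at hx
    subst hx
    exact ⟨w.2, fun h => h.elim hw₁ hw₂⟩) (Set.singleton_nonempty _)
  have hle : Subgroup.centralizer ({(w : G)} : Set G) ≤ W₁ ⊔ W₂ := by
    refine le_trans ?_ hN.le
    intro c hc
    rw [Subgroup.mem_centralizer_singleton_iff] at hc
    rw [Subgroup.mem_set_normalizer_iff]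
    intro n
    simp only [Set.mem_singleton_iff]
    constructor
    · rintro rfl
      rw [hc]; group
    · intro h
      have : n = c⁻¹ * (c * n * c⁻¹) * c := by group
      rw [this, h]
      calc c⁻¹ * (w : G) * c = c⁻¹ * (c * (w : G)) := by rw [mul_assoc, hc]
        _ = w := by group
  have hcardle : (Nat.card (Subgroup.centralizer ({(w : G)} : Set G)) : ℝ) ≤
      (Nat.card ↥(W₁ ⊔ W₂) : ℝ) := by
    exact_mod_cast Subgroup.card_le_of_le hle
  have hso := second_orthogonality_conj (w : G) (w : G) (IsConj.refl _)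
  have h2 : ∀ ψ : IrrCharacter G, (ψ : G → ℂ) w * conj ((ψ : G → ℂ) w) =
      ((‖(ψ : G → ℂ) w‖ ^ 2 : ℝ) : ℂ) := by
    intro ψ
    rw [Complex.mul_conj, Complex.normSq_eq_norm_sq]
  simp only [h2] at hso
  have hso' : ∑ ψ : IrrCharacter G, ‖(ψ : G → ℂ) w‖ ^ 2 =
      (Nat.card (Subgroup.centralizer ({(w : G)} : Set G)) : ℝ) := by
    exact_mod_cast hso
  have hex : ∀ ω : ↥(W₁ ⊔ W₂) →* ℂˣ, ∃ ψ : IrrCharacter G,
      (ψ : G → ℂ) = χ ω ∨ (ψ : G → ℂ) = -χ ω := by
    intro ω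
    rcases hχ.irr_or_neg ω with h | h
    · exact ⟨⟨_, h⟩, Or.inl rfl⟩
    · exact ⟨⟨_, h⟩, Or.inr rfl⟩
  choose ι hι using hex
  have hinj : Function.Injective ι := by
    intro ω ω' h
    by_contra hne
    have h0 : classInner (χ ω) (χ ω') = 0 := by rw [hχ.orthonormal, if_neg hne]
    have h1 := ci_sign (hι ω) (hι ω') h0
    rw [h, classInner_irr_self (ι ω').2] at h1
    exact one_ne_zero h1
  have hθne : (⟨θ, hθ⟩ : IrrCharacter G) ∉ Finset.univ.image ι := by
    intro hmem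
    obtain ⟨ω, -, hω⟩ := Finset.mem_image.mp hmem
    have h1 := ci_sign (Or.inl rfl) (hι ω) (horth ω)
    rw [hω] at h1
    have h3 : classInner θ θ = 0 := h1
    rw [classInner_irr_self hθ] at h3
    exact one_ne_zero h3
  have hval : ∀ ω, ‖(ι ω : G → ℂ) w‖ ^ 2 = 1 := by
    intro ω
    have h1 : ‖χ ω w‖ = 1 := by
      rw [hχ.eq_on ω w hw₁ hw₂]
      apply Complex.norm_eq_one_of_pow_eq_one (n := orderOf w) _ (orderOf_pos w).ne'
      rw [← Units.val_pow_eq_pow_val, ← map_pow, pow_orderOf_eq_one, map_one, Units.val_one]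
    rcases hι ω with h | h
    · rw [h, h1, one_pow]
    · rw [h, Pi.neg_apply, norm_neg, h1, one_pow]
  have hsum : ∑ ψ ∈ insert (⟨θ, hθ⟩ : IrrCharacter G) (Finset.univ.image ι),
      ‖(ψ : G → ℂ) w‖ ^ 2 ≤ ∑ ψ : IrrCharacter G, ‖(ψ : G → ℂ) w‖ ^ 2 :=
    Finset.sum_le_univ_sum_of_nonneg fun g => by positivity
  rw [Finset.sum_insert hθne, Finset.sum_image (fun a _ b _ h => hinj h)] at hsum
  simp only [hval, Finset.sum_const, Finset.card_univ, nsmul_eq_mul, mul_one,
    ← Nat.card_eq_fintype_card, hcardW] at hsum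
  rw [hso'] at hsum
  have h5 : ‖θ w‖ ^ 2 ≤ 0 := by linarith
  have h6 : ‖θ w‖ = 0 := by
    have := sq_nonneg ‖θ w‖
    exact pow_eq_zero_iff (two_ne_zero) |>.mp (le_antisymm h5 this)
  exact norm_eq_zero.mp h6

end Cfsg.Agent.S1503
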