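import Cfsg.Statements.S1504
import Mathlib


set_option autoImplicit false
open Cfsg

namespace Cfsg.Agent.S1504

theorem hom_ext' {G : Type*} [Group G] (W₁ W₂ : Subgroup G) (a b : ↥(W₁ ⊔ W₂) →* ℂˣ)
    (h1 : ∀ w : ↥(W₁ ⊔ W₂), (w : G) ∈ W₁ → a w = b w)
    (h2 : ∀ w : ↥(W₁ ⊔ W₂), (w : G) ∈ W₂ → a w = b w) : a = b := by
  have h3 : W₁.subgroupOf (W₁ ⊔ W₂) ⊔ W₂.subgroupOf (W₁ ⊔ W₂) ≤ a.eqLocus b :=
    sup_le (fun w hw => h1 w (Subgroup.mem_subgroupOf.mp hw))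
      (fun w hw => h2 w (Subgroup.mem_subgroupOf.mp hw))
  rw [← Subgroup.subgroupOf_sup le_sup_left le_sup_right, Subgroup.subgroupOf_self] at h3
  ext w
  exact congrArg Units.val (h3 (Subgroup.mem_top w))

theorem pair_inj {G : Type*} [Group G] (W₁ W₂ : Subgroup G) (a b a' b' : ↥(W₁ ⊔ W₂) →* ℂˣ)
    (ha : ∀ w : ↥(W₁ ⊔ W₂), (w : G) ∈ W₂ → a w = 1)
    (ha' : ∀ w : ↥(W₁ ⊔ W₂), (w : G) ∈ W₂ → a' w = 1)
    (hb : ∀ w : ↥(W₁ ⊔ W₂), (w : G) ∈ W₁ → b w = 1)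
    (hb' : ∀ w : ↥(W₁ ⊔ W₂), (w : G) ∈ W₁ → b' w = 1) (h : a * b = a' * b') :
    a = a' ∧ b = b' := by
  constructor
  · apply hom_ext' W₁ W₂
    · intro w hw
      have := DFunLike.congr_fun h w
      rwa [MonoidHom.mul_apply, MonoidHom.mul_apply, hb w hw, hb' w hw, mul_one, mul_one] at this
    · intro w hw
      rw [ha w hw, ha' w hw]
  · apply hom_ext' W₁ W₂
    · intro w hw
      rw [hb w hw, hb' w hw]
    · intro w hw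
      have := DFunLike.congr_fun h w
      rwa [MonoidHom.mul_apply, MonoidHom.mul_apply, ha w hw, ha' w hw, one_mul, one_mul] at this

theorem sum_hom {W : Type*} [Group W] [Fintype W] (a : W →* ℂˣ) [Decidable (a = 1)] :
    ∑ w : W, ((a w : ℂˣ) : ℂ) = if a = 1 then (Fintype.card W : ℂ) else 0 := by
  classical
  have h := sum_hom_units ((Units.coeHom ℂ).comp a)
  have e : ((Units.coeHom ℂ).comp a = 1) ↔ a = 1 := by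
    constructor
    · intro h1
      ext w
      exact DFunLike.congr_fun h1 w
    · rintro rfl
      rfl
  simp only [e] at h
  split_ifs with h1
  · rw [if_pos h1] at h
    exact_mod_cast h
  · rw [if_neg h1] at h
    exact_mod_cast h

/-- Let W₁, W₂ be subgroups of a finite group with W₁ ⊓ W₂ = ⊥ whose elements commute, and W = W₁ ⊔ W₂. For linear characters φ, ψ of W with φ trivial on W₂ and ψ trivial on W₁, the function (1 − φ)(1 − ψ) vanishes on W₁ ∪ W₂; and the family of these functions, indexed by pairs (φ, ψ) with φ ≠ 1 ≠ ψ, is linearly independent over ℂ. -/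
theorem result {G : Type*} [Group G] [Finite G] (W₁ W₂ : Subgroup G) (hdisj : W₁ ⊓ W₂ = ⊥) (hcomm : ∀ a ∈ W₁, ∀ b ∈ W₂, a * b = b * a) : (∀ φ ψ : ↥(W₁ ⊔ W₂) →* ℂˣ, (∀ w : ↥(W₁ ⊔ W₂), (w : G) ∈ W₂ → φ w = 1) → (∀ w : ↥(W₁ ⊔ W₂), (w : G) ∈ W₁ → ψ w = 1) → ∀ w : ↥(W₁ ⊔ W₂), ((w : G) ∈ W₁ ∨ (w : G) ∈ W₂) → (1 - (φ w : ℂ) - (ψ w : ℂ) + (φ w : ℂ) * (ψ w : ℂ)) = 0) ∧ LinearIndependent ℂ (fun p : {p : (↥(W₁ ⊔ W₂) →* ℂˣ) × (↥(W₁ ⊔ W₂) →* ℂˣ) // p.1 ≠ 1 ∧ p.2 ≠ 1 ∧ (∀ w : ↥(W₁ ⊔ W₂), (w : G) ∈ W₂ → p.1 w = 1) ∧ (∀ w : ↥(W₁ ⊔ W₂), (w : G) ∈ W₁ → p.2 w = 1)} => fun w : ↥(W₁ ⊔ W₂) => 1 - (p.1.1 w : ℂ) - (p.1.2 w : ℂ) + (p.1.1 w : ℂ) * (p.1.2 w : ℂ)) := by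
  classical
  haveI : Fintype ↥(W₁ ⊔ W₂) := Fintype.ofFinite _
  refine ⟨?_, ?_⟩
  · intro φ ψ hφ hψ w hw
    rcases hw with hw | hw
    · rw [hψ w hw]; simp
    · rw [hφ w hw]; simp
  rw [linearIndependent_iff']
  intro s g hsum p₀ hp₀
  obtain ⟨⟨φ₀, ψ₀⟩, hφ₀1, hψ₀1, hφ₀, hψ₀⟩ := p₀
  simp only at hφ₀1 hψ₀1 hφ₀ hψ₀
  set c : ↥(W₁ ⊔ W₂) →* ℂˣ := (φ₀ * ψ₀)⁻¹ with hc
  have hone : ∀ w : ↥(W₁ ⊔ W₂), (1 : ↥(W₁ ⊔ W₂) →* ℂˣ) w = 1 := fun w => rfl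
  have hc1 : ∀ a : ↥(W₁ ⊔ W₂) →* ℂˣ, a * c = 1 ↔ a = φ₀ * ψ₀ := fun a => by
    rw [DFunLike.ext_iff, DFunLike.ext_iff]
    refine forall_congr' fun w => ?_
    rw [hc, MonoidHom.mul_apply, MonoidHom.inv_apply, MonoidHom.one_apply, mul_inv_eq_one]
  have hc0 : c = 1 ↔ φ₀ * ψ₀ = 1 := by
    rw [DFunLike.ext_iff, DFunLike.ext_iff]
    refine forall_congr' fun w => ?_
    rw [hc, MonoidHom.inv_apply, MonoidHom.one_apply, inv_eq_one]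
  have key : ∀ p : {p : (↥(W₁ ⊔ W₂) →* ℂˣ) × (↥(W₁ ⊔ W₂) →* ℂˣ) // p.1 ≠ 1 ∧ p.2 ≠ 1 ∧
      (∀ w : ↥(W₁ ⊔ W₂), (w : G) ∈ W₂ → p.1 w = 1) ∧
      (∀ w : ↥(W₁ ⊔ W₂), (w : G) ∈ W₁ → p.2 w = 1)},
      ∑ w : ↥(W₁ ⊔ W₂), (1 - (p.1.1 w : ℂ) - (p.1.2 w : ℂ) + (p.1.1 w : ℂ) * (p.1.2 w : ℂ)) *
        ((c w : ℂˣ) : ℂ) =
      if p = ⟨⟨φ₀, ψ₀⟩, hφ₀1, hψ₀1, hφ₀, hψ₀⟩ then (Fintype.card ↥(W₁ ⊔ W₂) : ℂ) else 0 := by
    rintro ⟨⟨φ, ψ⟩, hφ1, hψ1, hφ, hψ⟩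
    simp only at hφ1 hψ1 hφ hψ
    have e : ∑ w : ↥(W₁ ⊔ W₂), (1 - (φ w : ℂ) - (ψ w : ℂ) + (φ w : ℂ) * (ψ w : ℂ)) *
        ((c w : ℂˣ) : ℂ) =
        ∑ w : ↥(W₁ ⊔ W₂), ((c w : ℂˣ) : ℂ) - ∑ w : ↥(W₁ ⊔ W₂), (((φ * c) w : ℂˣ) : ℂ) -
          ∑ w : ↥(W₁ ⊔ W₂), (((ψ * c) w : ℂˣ) : ℂ) +
          ∑ w : ↥(W₁ ⊔ W₂), (((φ * ψ * c) w : ℂˣ) : ℂ) := by
      rw [← Finset.sum_sub_distrib, ← Finset.sum_sub_distrib, ← Finset.sum_add_distrib]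
      refine Finset.sum_congr rfl fun w _ => ?_
      simp only [MonoidHom.mul_apply, Units.val_mul]
      ring
    show ∑ w : ↥(W₁ ⊔ W₂), (1 - (φ w : ℂ) - (ψ w : ℂ) + (φ w : ℂ) * (ψ w : ℂ)) *
        ((c w : ℂˣ) : ℂ) = _
    rw [e, sum_hom, sum_hom, sum_hom, sum_hom]
    have n1 : c ≠ 1 := by
      intro h
      rw [hc0] at h
      have := pair_inj W₁ W₂ φ₀ ψ₀ 1 1 hφ₀ (fun w _ => hone w) hψ₀ (fun w _ => hone w)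
        (by rw [h]; ext w; simp)
      exact hφ₀1 this.1
    have n2 : φ * c ≠ 1 := by
      intro h
      rw [hc1] at h
      have := pair_inj W₁ W₂ φ 1 φ₀ ψ₀ hφ hφ₀ (fun w _ => hone w) hψ₀ (by rw [← h]; ext w; simp)
      exact hψ₀1 this.2.symm
    have n3 : ψ * c ≠ 1 := by
      intro h
      rw [hc1] at h
      have := pair_inj W₁ W₂ 1 ψ φ₀ ψ₀ (fun w _ => hone w) hφ₀ hψ hψ₀ (by rw [← h]; ext w; simp)
      exact hφ₀1 this.1.symm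
    rw [if_neg n1, if_neg n2, if_neg n3]
    by_cases h4 : φ * ψ * c = 1
    · rw [if_pos h4]
      rw [hc1] at h4
      have := pair_inj W₁ W₂ φ ψ φ₀ ψ₀ hφ hφ₀ hψ hψ₀ h4
      rw [if_pos (by
        apply Subtype.ext
        exact Prod.ext this.1 this.2)]
      ring
    · rw [if_neg h4, if_neg (by
        intro h5
        apply h4
        have h6 := congrArg Subtype.val h5
        have h7 : φ = φ₀ := congrArg Prod.fst h6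
        have h8 : ψ = ψ₀ := congrArg Prod.snd h6
        rw [hc1, h7, h8])]
      ring
  have h1 := congrArg (fun f : ↥(W₁ ⊔ W₂) → ℂ => ∑ w, f w * ((c w : ℂˣ) : ℂ)) hsum
  simp only [Finset.sum_apply, Pi.smul_apply, smul_eq_mul, Pi.zero_apply, zero_mul,
    Finset.sum_const_zero, Finset.sum_mul] at h1
  rw [Finset.sum_comm] at h1
  simp only [mul_assoc, ← Finset.mul_sum] at h1
  simp only [key] at h1
  rw [Finset.sum_eq_single_of_mem _ hp₀ (by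
    intro b _ hb
    rw [if_neg hb, mul_zero])] at h1
  rw [if_pos rfl] at h1
  have hcard : (Fintype.card ↥(W₁ ⊔ W₂) : ℂ) ≠ 0 := by
    exact_mod_cast Fintype.card_ne_zero
  exact (mul_eq_zero.mp h1).resolve_right hcard

end Cfsg.Agent.S1504
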