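import Cfsg.Statements.S1505
import Mathlib
import Cfsg.Agent.Lib.CharComplete
import Cfsg.Agent.Lib.CharLinear
import Cfsg.Agent.Lib.CharTI
import Cfsg.Agent.Lib.helper6_Cyclic
import Cfsg.Agent.S1504


set_option autoImplicit false
open Cfsg

namespace Cfsg.Agent.S1505

open Cfsg.Agent.Lib.CharBasic Cfsg.Agent.Lib.CharOrtho Cfsg.Agent.Lib.CharComplete
  Cfsg.Agent.Lib.CharLinear Cfsg.Agent.Lib.CharInd Cfsg.Agent.Lib.CharTI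
  Cfsg.Agent.Lib.helper6_Cyclic Cfsg.Agent.S1504
open scoped ComplexConjugate

open Classical in
/-- Let W₁, W₂ ≤ G form a self-normalising cyclic subgroup W = W₁ ⊔ W₂. For nontrivial linear characters φ, φ' of W trivial on W₂ and ψ, ψ' trivial on W₁, put α = (1 − φ)(1 − ψ) and α' = (1 − φ')(1 − ψ'). Then the function induced from α to G has inner product 1 with the principal character, and the inner product of the functions induced from α and α' is 1 + a + b + ab where a = 1 if φ = φ' (else 0) and b = 1 if ψ = ψ' (else 0). -/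
theorem result {G : Type*} [Group G] [Fintype G] (W₁ W₂ : Subgroup G) (hW : Cfsg.IsSelfNormalizingCyclic W₁ W₂) (φ φ' ψ ψ' : ↥(W₁ ⊔ W₂) →* ℂˣ) (hφ : φ ≠ 1) (hφ' : φ' ≠ 1) (hψ : ψ ≠ 1) (hψ' : ψ' ≠ 1) (hφ₂ : ∀ w : ↥(W₁ ⊔ W₂), (w : G) ∈ W₂ → φ w = 1 ∧ φ' w = 1) (hψ₁ : ∀ w : ↥(W₁ ⊔ W₂), (w : G) ∈ W₁ → ψ w = 1 ∧ ψ' w = 1) : Cfsg.classInner (Cfsg.indFun (W₁ ⊔ W₂) (fun w => 1 - (φ w : ℂ) - (ψ w : ℂ) + (φ w : ℂ) * (ψ w : ℂ))) (fun _ => 1) = 1 ∧ Cfsg.classInner (Cfsg.indFun (W₁ ⊔ W₂) (fun w => 1 - (φ w : ℂ) - (ψ w : ℂ) + (φ w : ℂ) * (ψ w : ℂ))) (Cfsg.indFun (W₁ ⊔ W₂) (fun w => 1 - (φ' w : ℂ) - (ψ' w : ℂ) + (φ' w : ℂ) * (ψ' w : ℂ))) = 1 + (if φ = φ' then 1 else 0) + (if ψ = ψ' then 1 else 0) + (if φ = φ' then 1 else 0) * (if ψ = ψ' then 1 else 0) := by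
  classical
  obtain ⟨-, -, -, -, hcyc, hnorm⟩ := hW
  haveI := hcyc
  haveI : Fintype ↥(W₁ ⊔ W₂) := Fintype.ofFinite _
  let T : Set G := (↑(W₁ ⊔ W₂) : Set G) \ (↑W₁ ∪ ↑W₂)
  have hTI : ∀ g : G, g ∉ W₁ ⊔ W₂ → ∀ t ∈ T, g * t * g⁻¹ ∈ T → t = 1 := by
    intro g hg t ht ht'
    exfalso; apply hg
    let f := (MulAut.conj g).toMonoidHom
    have ho : orderOf (g * t * g⁻¹) = orderOf t := (MulAut.conj g).orderOf_eq t
    have hz : Subgroup.zpowers (g * t * g⁻¹) = Subgroup.zpowers t := by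
      apply le_antisymm
      · rw [Subgroup.zpowers_le]
        exact mem_zpowers_of_pow_orderOf' (W₁ ⊔ W₂) ht.1 ht'.1 (by rw [← ho, pow_orderOf_eq_one])
      · rw [Subgroup.zpowers_le]
        exact mem_zpowers_of_pow_orderOf' (W₁ ⊔ W₂) ht'.1 ht.1 (by rw [ho, pow_orderOf_eq_one])
    have hX := hnorm {u | Subgroup.zpowers u = Subgroup.zpowers t} (by
      intro u hu
      have hu' : Subgroup.zpowers u = Subgroup.zpowers t := hu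
      have htu : t ∈ Subgroup.zpowers u := hu' ▸ Subgroup.mem_zpowers t
      have hut : u ∈ Subgroup.zpowers t := hu' ▸ Subgroup.mem_zpowers u
      refine ⟨(Subgroup.zpowers_le.mpr ht.1) hut, ?_⟩
      rintro (h | h)
      · exact ht.2 (Or.inl ((Subgroup.zpowers_le.mpr h) htu))
      · exact ht.2 (Or.inr ((Subgroup.zpowers_le.mpr h) htu))) ⟨t, rfl⟩
    rw [← hX, Subgroup.mem_set_normalizer_iff]
    intro h
    show Subgroup.zpowers h = Subgroup.zpowers t ↔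
      Subgroup.zpowers (g * h * g⁻¹) = Subgroup.zpowers t
    constructor
    · intro e
      have := congrArg (Subgroup.map f) e
      rw [MonoidHom.map_zpowers, MonoidHom.map_zpowers] at this
      exact this.trans hz
    · intro e
      apply Subgroup.map_injective (f := f) (MulAut.conj g).injective
      rw [MonoidHom.map_zpowers, MonoidHom.map_zpowers]
      exact e.trans hz.symm
  let e : (↥(W₁ ⊔ W₂) →* ℂˣ) → (↥(W₁ ⊔ W₂) → ℂ) := fun a w => ((a w : ℂˣ) : ℂ)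
  have hip : ∀ a b : ↥(W₁ ⊔ W₂) →* ℂˣ, classInner (e a) (e b) = if a = b then 1 else 0 := by
    intro a b
    by_cases h : a = b
    · subst h
      rw [if_pos rfl]
      exact classInner_irr_self (isIrr_hom a)
    · rw [if_neg h]
      refine classInner_irr_ne (isIrr_hom a) (isIrr_hom b) ?_
      intro h1
      apply h
      ext w
      exact congrFun h1 w
  have ipp : ∀ a b a' b' : ↥(W₁ ⊔ W₂) →* ℂˣ, (∀ w : ↥(W₁ ⊔ W₂), (w : G) ∈ W₂ → a w = 1) →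
      (∀ w : ↥(W₁ ⊔ W₂), (w : G) ∈ W₂ → a' w = 1) →
      (∀ w : ↥(W₁ ⊔ W₂), (w : G) ∈ W₁ → b w = 1) →
      (∀ w : ↥(W₁ ⊔ W₂), (w : G) ∈ W₁ → b' w = 1) →
      classInner (e (a * b)) (e (a' * b')) =
        (if a = a' then 1 else 0) * (if b = b' then 1 else 0) := by
    intro a b a' b' h1 h2 h3 h4
    rw [hip]
    by_cases h : a * b = a' * b'
    · obtain ⟨r1, r2⟩ := pair_inj W₁ W₂ a b a' b' h1 h2 h3 h4 h
      rw [if_pos h, if_pos r1, if_pos r2, one_mul]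
    · rw [if_neg h]
      by_cases r1 : a = a'
      · by_cases r2 : b = b'
        · exact absurd (by rw [r1, r2]) h
        · rw [if_neg r2, mul_zero]
      · rw [if_neg r1, zero_mul]
  have tφ : ∀ w : ↥(W₁ ⊔ W₂), (w : G) ∈ W₂ → φ w = 1 := fun w hw => (hφ₂ w hw).1
  have tφ' : ∀ w : ↥(W₁ ⊔ W₂), (w : G) ∈ W₂ → φ' w = 1 := fun w hw => (hφ₂ w hw).2
  have tψ : ∀ w : ↥(W₁ ⊔ W₂), (w : G) ∈ W₁ → ψ w = 1 := fun w hw => (hψ₁ w hw).1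
  have tψ' : ∀ w : ↥(W₁ ⊔ W₂), (w : G) ∈ W₁ → ψ' w = 1 := fun w hw => (hψ₁ w hw).2
  have t1 : ∀ {V : Subgroup G} (w : ↥(W₁ ⊔ W₂)), (w : G) ∈ V →
      (1 : ↥(W₁ ⊔ W₂) →* ℂˣ) w = 1 := fun w _ => rfl
  have hform : ∀ a b : ↥(W₁ ⊔ W₂) →* ℂˣ,
      (fun w : ↥(W₁ ⊔ W₂) => 1 - (a w : ℂ) - (b w : ℂ) + (a w : ℂ) * (b w : ℂ)) =
        e (1 * 1) - e (a * 1) - e (1 * b) + e (a * b) := by
    intro a b
    funext w
    simp [e]
  have hvan : ∀ a b : ↥(W₁ ⊔ W₂) →* ℂˣ, (∀ w : ↥(W₁ ⊔ W₂), (w : G) ∈ W₂ → a w = 1) →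
      (∀ w : ↥(W₁ ⊔ W₂), (w : G) ∈ W₁ → b w = 1) → ∀ x : ↥(W₁ ⊔ W₂), (x : G) ∉ T →
      (1 - (a x : ℂ) - (b x : ℂ) + (a x : ℂ) * (b x : ℂ)) = 0 := by
    intro a b ha hb x hx
    have hx' : (x : G) ∈ W₁ ∨ (x : G) ∈ W₂ := by
      by_contra hcon
      exact hx ⟨x.2, hcon⟩
    rcases hx' with h | h
    · rw [hb x h]; simp
    · rw [ha x h]; simp
  have hconj : ∀ (a : ↥(W₁ ⊔ W₂) →* ℂˣ) (g h : ↥(W₁ ⊔ W₂)), a (h * g * h⁻¹) = a g := by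
    intro a g h
    rw [map_mul, map_mul, map_inv, mul_comm (a h), mul_inv_cancel_right]
  refine ⟨?_, ?_⟩
  · rw [frobenius_reciprocity (W₁ ⊔ W₂) _ _ (fun _ _ => rfl)]
    have h1 : (fun _ : ↥(W₁ ⊔ W₂) => (1 : ℂ)) = e (1 * 1) := by
      funext w
      simp [e]
    rw [h1, hform]
    simp only [classInner_add_left, classInner_sub_left]
    rw [ipp 1 1 1 1 t1 t1 t1 t1,
      ipp φ 1 1 1 tφ t1 t1 t1,
      ipp 1 ψ 1 1 t1 t1 tψ t1,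
      ipp φ ψ 1 1 tφ t1 tψ t1]
    simp only [if_true, if_neg hφ, if_neg hψ]
    ring
  rw [classInner_indFun_ti (W₁ ⊔ W₂) T hTI _ _ (by
      intro g h
      simp only [hconj]) (hvan φ ψ tφ tψ) (hvan φ' ψ' tφ' tψ') (by simp)]
  rw [hform, hform]
  simp only [classInner_add_left, classInner_sub_left, classInner_add_right, classInner_sub_right]
  rw [ipp 1 1 1 1 t1 t1 t1 t1,
    ipp 1 1 φ' 1 t1 tφ' t1 t1,
    ipp 1 1 1 ψ' t1 t1 t1 tψ',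
    ipp 1 1 φ' ψ' t1 tφ' t1 tψ',
    ipp φ 1 1 1 tφ t1 t1 t1,
    ipp φ 1 φ' 1 tφ tφ' t1 t1,
    ipp φ 1 1 ψ' tφ t1 t1 tψ',
    ipp φ 1 φ' ψ' tφ tφ' t1 tψ',
    ipp 1 ψ 1 1 t1 t1 tψ t1,
    ipp 1 ψ φ' 1 t1 tφ' tψ t1,
    ipp 1 ψ 1 ψ' t1 t1 tψ tψ',
    ipp 1 ψ φ' ψ' t1 tφ' tψ tψ',
    ipp φ ψ 1 1 tφ t1 tψ t1,
    ipp φ ψ φ' 1 tφ tφ' tψ t1,
    ipp φ ψ 1 ψ' tφ t1 tψ tψ',
    ipp φ ψ φ' ψ' tφ tφ' tψ tψ']
  simp only [if_true, if_neg hφ, if_neg hψ, if_neg (Ne.symm hφ'), if_neg (Ne.symm hψ')]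
  split_ifs <;> ring

end Cfsg.Agent.S1505
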