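import Cfsg.Statements.S1506
import Mathlib
import Cfsg.Agent.Lib.CharInd

set_option autoImplicit false
open Cfsg

namespace Cfsg.Agent.S1506

open Cfsg.Agent.Lib.CharOrtho Cfsg.Agent.Lib.CharInd
open scoped ComplexConjugate


/-- Let W₁, W₂ ≤ G form a self-normalising cyclic subgroup W = W₁ ⊔ W₂ and χ an orthonormal family of irreducible characters of G up to sign, indexed by the linear characters ω of W, with χ_1 = 1, χ_ω = ω on W outside W₁ ∪ W₂, and the induction identity for (1 − φ)(1 − ψ). Let θ be a class function of G vanishing at every element of W outside W₁ ∪ W₂. For linear characters φ, φ' of W trivial on W₂ and ψ, ψ' trivial on W₁, the inner products a(ω) = ⟨θ, χ ω⟩ satisfy a(φψ) + a(φ'ψ') = a(φψ') + a(φ'ψ). -/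
theorem result {G : Type*} [Group G] [Fintype G] (W₁ W₂ : Subgroup G) (hW : Cfsg.IsSelfNormalizingCyclic W₁ W₂) (χ : (↥(W₁ ⊔ W₂) →* ℂˣ) → (G → ℂ)) (hχ : Cfsg.IsCyclicTIFamily W₁ W₂ χ) (θ : G → ℂ) (hθ : Cfsg.IsClassFunction G θ) (hθV : ∀ w : ↥(W₁ ⊔ W₂), (w : G) ∉ W₁ → (w : G) ∉ W₂ → θ w = 0) (φ φ' ψ ψ' : ↥(W₁ ⊔ W₂) →* ℂˣ) (hφ₂ : ∀ w : ↥(W₁ ⊔ W₂), (w : G) ∈ W₂ → φ w = 1 ∧ φ' w = 1) (hψ₁ : ∀ w : ↥(W₁ ⊔ W₂), (w : G) ∈ W₁ → ψ w = 1 ∧ ψ' w = 1) : Cfsg.classInner θ (χ (φ * ψ)) + Cfsg.classInner θ (χ (φ' * ψ')) = Cfsg.classInner θ (χ (φ * ψ')) + Cfsg.classInner θ (χ (φ' * ψ)) := by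
  classical
  have : Fintype ↥(W₁ ⊔ W₂) := Fintype.ofFinite _
  have key : ∀ f g : ↥(W₁ ⊔ W₂) →* ℂˣ, (∀ w : ↥(W₁ ⊔ W₂), (w : G) ∈ W₂ → f w = 1) →
      (∀ w : ↥(W₁ ⊔ W₂), (w : G) ∈ W₁ → g w = 1) →
      Cfsg.classInner θ (χ (f * g)) = Cfsg.classInner θ (χ f) + Cfsg.classInner θ (χ g) - Cfsg.classInner θ (χ 1) := by
    intro f g hf hg
    by_cases hf1 : f = 1
    · subst hf1
      have : (1 * g : ↥(W₁ ⊔ W₂) →* ℂˣ) = g := by ext; simp
      rw [this]; ring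
    by_cases hg1 : g = 1
    · subst hg1
      have : (f * 1 : ↥(W₁ ⊔ W₂) →* ℂˣ) = f := by ext; simp
      rw [this]; ring
    have h1 := hχ.induced_eq f g hf1 hg1 hf hg
    have h2 := frobenius_reciprocity (W₁ ⊔ W₂)
      (fun w => 1 - (f w : ℂ) - (g w : ℂ) + (f w : ℂ) * (g w : ℂ)) θ hθ
    have h3 : Cfsg.classInner (fun w : ↥(W₁ ⊔ W₂) => 1 - (f w : ℂ) - (g w : ℂ) + (f w : ℂ) * (g w : ℂ))
        (fun h : ↥(W₁ ⊔ W₂) => θ h) = 0 := by
      unfold Cfsg.classInner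
      rw [Finset.sum_eq_zero, mul_zero]
      intro w _
      beta_reduce
      by_cases hw1 : (w : G) ∈ W₁
      · rw [hg w hw1]; simp
      by_cases hw2 : (w : G) ∈ W₂
      · rw [hf w hw2]; simp
      rw [hθV w hw1 hw2]; simp
    rw [h3, h1] at h2
    have h4 : (fun g_1 => 1 - χ f g_1 - χ g g_1 + χ (f * g) g_1) = χ 1 - χ f - χ g + χ (f * g) := by
      ext x; simp [hχ.map_one]
    rw [h4] at h2
    have h5 := congrArg conj h2
    rw [classInner_conj_symm, map_zero, classInner_add_right, classInner_sub_right, classInner_sub_right] at h5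
    linear_combination h5
  rw [key φ ψ (fun w hw => (hφ₂ w hw).1) (fun w hw => (hψ₁ w hw).1),
    key φ' ψ' (fun w hw => (hφ₂ w hw).2) (fun w hw => (hψ₁ w hw).2),
    key φ ψ' (fun w hw => (hφ₂ w hw).1) (fun w hw => (hψ₁ w hw).2),
    key φ' ψ (fun w hw => (hφ₂ w hw).2) (fun w hw => (hψ₁ w hw).1)]
  ring

end Cfsg.Agent.S1506
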