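import Cfsg.Statements.S1509
import Mathlib
import Cfsg.Agent.Lib.CharMore

set_option autoImplicit false
open Cfsg

namespace Cfsg.Agent.S1509

open Cfsg.Agent.Lib.CharOrtho Cfsg.Agent.Lib.CharMore
open scoped ComplexConjugate

theorem signed {X : Type*} [Group X] (α : X → ℂ)
    (h : Cfsg.IsIrrCharacter X α ∨ Cfsg.IsIrrCharacter X (-α)) :
    ∃ (s : ℂ) (χ : X → ℂ), s * s = 1 ∧ conj s = s ∧ Cfsg.IsIrrCharacter X χ ∧ α = s • χ := by
  rcases h with h | h
  · exact ⟨1, α, by simp, by simp, h, by simp⟩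
  · exact ⟨-1, -α, by simp, by simp, h, by simp⟩

theorem alg (u v sa sb sc sd x y : ℂ) (hsa : sa * sa = 1) (hsb : sb * sb = 1) (hsd : sd * sd = 1)
    (hx : x ≠ 0) (hv : v ≠ 0) (h1 : sa * x = sb * y) (h2 : u * (sc * x) = v * (sd * y))
    (hm : u * sc * sa + v * sd * sb = 0) : False := by
  have e1 : y = sb * sa * x := by linear_combination (-sb) * h1 - y * hsb
  have e2 : (u * sc - v * sd * sb * sa) * x = 0 := by rw [e1] at h2; linear_combination h2
  have e3 := (mul_eq_zero.mp e2).resolve_right hx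
  have e4 : 2 * v * sd * sb = 0 := by linear_combination hm - sa * e3 - v * sd * sb * hsa
  have e5 : v = 0 := by linear_combination (sd * sb / 2) * e4 - v * sb * sb * hsd - v * hsb
  exact hv e5


/-- Let α, β, γ, δ be functions on a finite group X each of which is an irreducible character or the negative of one, and u, v nonzero real numbers. Suppose ⟨α, β⟩ = ⟨γ, δ⟩ = 0, ⟨α − β, uγ − vδ⟩ = 0, α 1 = β 1 and u γ 1 = v δ 1. Then also ⟨α, γ⟩ = ⟨α, δ⟩ = ⟨β, γ⟩ = ⟨β, δ⟩ = 0. -/
theorem result {X : Type*} [Group X] [Fintype X] (α β γ δ : X → ℂ) (hα : Cfsg.IsIrrCharacter X α ∨ Cfsg.IsIrrCharacter X (-α)) (hβ : Cfsg.IsIrrCharacter X β ∨ Cfsg.IsIrrCharacter X (-β)) (hγ : Cfsg.IsIrrCharacter X γ ∨ Cfsg.IsIrrCharacter X (-γ)) (hδ : Cfsg.IsIrrCharacter X δ ∨ Cfsg.IsIrrCharacter X (-δ)) (u v : ℝ) (hu : u ≠ 0) (hv : v ≠ 0) (hab : Cfsg.classInner α β = 0) (hcd : Cfsg.classInner γ δ = 0) (hmix : Cfsg.classInner (α - β) ((u : ℂ) • γ - (v : ℂ) • δ) = 0) (h1 : α 1 = β 1) (h2 : (u : ℂ) *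 γ 1 = (v : ℂ) * δ 1) : Cfsg.classInner α γ = 0 ∧ Cfsg.classInner α δ = 0 ∧ Cfsg.classInner β γ = 0 ∧ Cfsg.classInner β δ = 0 := by
  classical
  obtain ⟨sa, a, hsa, csa, ha, rfl⟩ := signed α hα
  obtain ⟨sb, b, hsb, csb, hb, rfl⟩ := signed β hβ
  obtain ⟨sc, c, hsc, csc, hc, rfl⟩ := signed γ hγ
  obtain ⟨sd, d, hsd, csd, hd, rfl⟩ := signed δ hδ
  have hu' : (u : ℂ) ≠ 0 := by exact_mod_cast hu
  have hv' : (v : ℂ) ≠ 0 := by exact_mod_cast hv
  have nz : ∀ s : ℂ, s * s = 1 → s ≠ 0 := by
    intro s hs h0; rw [h0] at hs; simp at hs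
  have hx := irr_degree_ne_zero ha
  have hy := irr_degree_ne_zero hb
  have nsa := nz sa hsa
  have nsb := nz sb hsb
  have nsc := nz sc hsc
  have nsd := nz sd hsd
  simp only [classInner_sub_left, classInner_sub_right, classInner_smul_left, classInner_smul_right,
    csa, csb, csc, csd, Complex.conj_ofReal, classInner_irr ha hb, classInner_irr hc hd,
    classInner_irr ha hc, classInner_irr ha hd, classInner_irr hb hc, classInner_irr hb hd,
    Pi.smul_apply, smul_eq_mul] at *
  have hab' : a ≠ b := by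
    intro h; rw [if_pos h] at hab
    simp_all
  have hcd' : c ≠ d := by
    intro h; rw [if_pos h] at hcd
    simp_all
  by_cases hac : a = c
  · subst hac
    have had : a ≠ d := hcd'
    have hbc : b ≠ a := fun h => hab' h.symm
    rw [if_pos rfl, if_neg had, if_neg hbc] at hmix
    exfalso
    by_cases hbd : b = d
    · subst hbd
      rw [if_pos rfl] at hmix
      exact alg u v sa sb sc sd (a 1) (b 1) hsa hsb hsd hx hv' h1 h2 (by linear_combination hmix)
    · rw [if_neg hbd] at hmix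
      simp_all
  · by_cases had : a = d
    · subst had
      have hbd : b ≠ a := fun h => hab' h.symm
      rw [if_neg hac, if_pos rfl, if_neg hbd] at hmix
      exfalso
      by_cases hbc : b = c
      · subst hbc
        rw [if_pos rfl] at hmix
        exact alg u v sb sa sc sd (b 1) (a 1) hsb hsa hsd hy hv' h1.symm h2 (by linear_combination -hmix)
      · rw [if_neg hbc] at hmix
        simp_all
    · rw [if_neg hac, if_neg had] at hmix ⊢
      by_cases hbc : b = c
      · subst hbc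
        rw [if_pos rfl, if_neg hcd'] at hmix
        exfalso
        simp_all
      · by_cases hbd : b = d
        · subst hbd
          rw [if_neg hbc, if_pos rfl] at hmix
          exfalso
          simp_all
        · rw [if_neg hbc, if_neg hbd]
          simp

end Cfsg.Agent.S1509
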