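import Cfsg.Statements.S1510
import Mathlib


set_option autoImplicit false
open Cfsg

namespace Cfsg.Agent.S1510

open scoped Pointwise

theorem crt_exp {L : Type*} [Group L] [Finite L] (W₁ W₂ : Subgroup L)
    (hcop : (Nat.card W₁).Coprime (Nat.card W₂)) :
    ∃ m : ℕ, (∀ a ∈ W₁, a ^ m = a) ∧ (∀ b ∈ W₂, b ^ m = 1) := by
  obtain ⟨m, hm1, hm2⟩ := Nat.chineseRemainder hcop 1 0
  refine ⟨m, ?_, ?_⟩
  · intro a ha
    have h1 : m ≡ 1 [MOD orderOf a] := hm1.of_dvd (Subgroup.orderOf_dvd_natCard W₁ ha)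
    have := pow_eq_pow_iff_modEq.mpr h1
    rwa [pow_one] at this
  · intro b hb
    have h1 : m ≡ 0 [MOD orderOf b] := hm2.of_dvd (Subgroup.orderOf_dvd_natCard W₂ hb)
    have := pow_eq_pow_iff_modEq.mpr h1
    rwa [pow_zero] at this

/-- Let L be a finite group with a normal subgroup K and a nontrivial cyclic subgroup W₁ of order coprime to its index, K ⊓ W₁ = ⊥ and K ⊔ W₁ = ⊤; let W₂ ≠ ⊥ be a cyclic subgroup of K with K ⊓ C_L(x) = W₂ for every non-identity x ∈ W₁, and suppose W₁ ⊔ W₂ has odd order. Then (W₁, W₂) is a self-normalising cyclic pair in L. -/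
theorem result {L : Type*} [Group L] [Fintype L] (K W₁ W₂ : Subgroup L) [hK : K.Normal] (hKW₁ : K ⊓ W₁ = ⊥) (hKW₁' : K ⊔ W₁ = ⊤) (hW₁ : W₁ ≠ ⊥) (hW₁c : IsCyclic W₁) (hHall : Nat.Coprime (Nat.card W₁) W₁.index) (hW₂ : W₂ ≠ ⊥) (hW₂c : IsCyclic W₂) (hW₂K : W₂ ≤ K) (hC : ∀ x ∈ W₁, x ≠ 1 → K ⊓ Subgroup.centralizer ({x} : Set L) = W₂) (hodd : Odd (Nat.card ↥(W₁ ⊔ W₂))) : Cfsg.IsSelfNormalizingCyclic W₁ W₂ := by
  classical
  have hdisj : W₁ ⊓ W₂ = ⊥ := by
    rw [eq_bot_iff, ← hKW₁]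
    exact le_inf (inf_le_right.trans hW₂K) inf_le_left
  have hcomm : ∀ a ∈ W₁, ∀ b ∈ W₂, a * b = b * a := by
    intro a ha b hb
    by_cases ha1 : a = 1
    · rw [ha1]; simp
    · have hb' : b ∈ K ⊓ Subgroup.centralizer ({a} : Set L) := by rw [hC a ha ha1]; exact hb
      exact (Subgroup.mem_centralizer_singleton_iff.mp (Subgroup.mem_inf.mp hb').2).symm
  have hmul : (K : Set L) * (W₁ : Set L) = Set.univ := by
    rw [← Subgroup.normal_mul, hKW₁']
    rfl
  have hcompl : Subgroup.IsComplement' K W₁ :=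
    Subgroup.isComplement'_of_disjoint_and_mul_eq_univ (disjoint_iff.mpr hKW₁) hmul
  have hidx : W₁.index = Nat.card K := hcompl.index_eq_card
  have hcop : (Nat.card W₁).Coprime (Nat.card W₂) := by
    rw [hidx] at hHall
    exact Nat.Coprime.coprime_dvd_right (Subgroup.card_dvd_of_le hW₂K) hHall
  obtain ⟨m, hm1, hm2⟩ := crt_exp W₁ W₂ hcop
  obtain ⟨m', hm1', hm2'⟩ := crt_exp W₂ W₁ hcop.symm
  obtain ⟨g₁, hg₁⟩ := IsCyclic.exists_generator (α := W₁)
  obtain ⟨g₂, hg₂⟩ := IsCyclic.exists_generator (α := W₂)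
  have hc12 : Commute (g₁ : L) (g₂ : L) := hcomm g₁ g₁.2 g₂ g₂.2
  set c : L := (g₁ : L) * (g₂ : L) with hc
  have hW : W₁ ⊔ W₂ = Subgroup.zpowers c := by
    apply le_antisymm
    · refine sup_le ?_ ?_
      · intro a ha
        obtain ⟨i, hi⟩ := Subgroup.mem_zpowers_iff.mp (hg₁ ⟨a, ha⟩)
        have h1 : (g₁ : L) ^ i = a := by
          have := congrArg Subtype.val hi
          simpa using this
        have h2 : c ^ m = g₁ := by
          rw [hc, hc12.mul_pow, hm1 g₁ g₁.2, hm2 g₂ g₂.2, mul_one]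
        rw [← h1, ← h2]
        exact Subgroup.zpow_mem _ (Subgroup.pow_mem _ (Subgroup.mem_zpowers c) m) i
      · intro b hb
        obtain ⟨i, hi⟩ := Subgroup.mem_zpowers_iff.mp (hg₂ ⟨b, hb⟩)
        have h1 : (g₂ : L) ^ i = b := by
          have := congrArg Subtype.val hi
          simpa using this
        have h2 : c ^ m' = g₂ := by
          rw [hc, hc12.mul_pow, hm2' g₁ g₁.2, hm1' g₂ g₂.2, one_mul]
        rw [← h1, ← h2]
        exact Subgroup.zpow_mem _ (Subgroup.pow_mem _ (Subgroup.mem_zpowers c) m') i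
    · rw [Subgroup.zpowers_le]
      exact Subgroup.mul_mem _ (Subgroup.mem_sup_left g₁.2) (Subgroup.mem_sup_right g₂.2)
  have hWcomm : ∀ u ∈ W₁ ⊔ W₂, ∀ v ∈ W₁ ⊔ W₂, u * v = v * u := by
    intro u hu v hv
    rw [hW] at hu hv
    obtain ⟨i, rfl⟩ := Subgroup.mem_zpowers_iff.mp hu
    obtain ⟨j, rfl⟩ := Subgroup.mem_zpowers_iff.mp hv
    rw [← zpow_add, ← zpow_add, add_comm]
  have hdec : ∀ u ∈ W₁ ⊔ W₂, ∃ a ∈ W₁, ∃ b ∈ W₂, u = a * b := by
    intro u hu
    rw [hW] at hu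
    obtain ⟨i, rfl⟩ := Subgroup.mem_zpowers_iff.mp hu
    exact ⟨(g₁ : L) ^ i, Subgroup.zpow_mem _ g₁.2 i, (g₂ : L) ^ i, Subgroup.zpow_mem _ g₂.2 i,
      by rw [hc, hc12.mul_zpow]⟩
  have hpowm : ∀ a ∈ W₁, ∀ b ∈ W₂, (a * b) ^ m = a := by
    intro a ha b hb
    have : Commute a b := hcomm a ha b hb
    rw [this.mul_pow, hm1 a ha, hm2 b hb, mul_one]
  refine ⟨hW₁, hW₂, hdisj, hcomm, ?_, ?_⟩
  · rw [hW]; infer_instance
  intro X hX hXne
  apply le_antisymm
  · intro g hg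
    rw [Subgroup.mem_set_normalizer_iff] at hg
    obtain ⟨x, hx⟩ := hXne
    have hxT := hX hx
    have hx'T := hX ((hg x).mp hx)
    obtain ⟨a, ha, b, hb, rfl⟩ := hdec x hxT.1
    obtain ⟨a', ha', b', hb', hab'⟩ := hdec _ hx'T.1
    have ha1 : a ≠ 1 := by
      rintro rfl
      apply hxT.2
      right
      simpa using hb
    have h1 : g * a * g⁻¹ = a' := by
      rw [← hpowm a ha b hb, ← conj_pow, hab', hpowm a' ha' b' hb']
    have hgmem : g ∈ (K : Set L) * (W₁ : Set L) := by rw [hmul]; trivial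
    obtain ⟨k, hk, u, hu, rfl⟩ := Set.mem_mul.mp hgmem
    have hua : u * a * u⁻¹ = a := by
      rw [hWcomm u (Subgroup.mem_sup_left hu) a (Subgroup.mem_sup_left ha)]
      group
    have h2 : k * a * k⁻¹ = a' := by
      rw [← h1]
      calc k * a * k⁻¹ = k * (u * a * u⁻¹) * k⁻¹ := by rw [hua]
        _ = k * u * a * (k * u)⁻¹ := by group
    have h3 : a' * a⁻¹ ∈ K ⊓ W₁ := by
      refine Subgroup.mem_inf.mpr ⟨?_, W₁.mul_mem ha' (W₁.inv_mem ha)⟩
      rw [← h2]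
      have : k * a * k⁻¹ * a⁻¹ = k * (a * k⁻¹ * a⁻¹) := by group
      rw [this]
      exact K.mul_mem hk (hK.conj_mem _ (K.inv_mem hk) a)
    rw [hKW₁, Subgroup.mem_bot] at h3
    have h4 : a' = a := by
      calc a' = a' * a⁻¹ * a := by group
        _ = a := by rw [h3, one_mul]
    have hkW : k ∈ W₂ := by
      rw [← hC a ha ha1]
      refine Subgroup.mem_inf.mpr ⟨hk, ?_⟩
      rw [Subgroup.mem_centralizer_singleton_iff]
      calc k * a = k * a * k⁻¹ * k := by group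
        _ = a * k := by rw [h2, h4]
    exact Subgroup.mul_mem _ (Subgroup.mem_sup_right hkW) (Subgroup.mem_sup_left hu)
  · intro w hw
    rw [Subgroup.mem_set_normalizer_iff]
    intro h
    constructor
    · intro hh
      have : w * h * w⁻¹ = h := by
        rw [hWcomm w hw h (hX hh).1]; group
      rw [this]; exact hh
    · intro hh
      have h1 := (hX hh).1
      have h2 : h ∈ W₁ ⊔ W₂ := by
        have : h = w⁻¹ * (w * h * w⁻¹) * w := by group
        rw [this]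
        exact Subgroup.mul_mem _ (Subgroup.mul_mem _ (Subgroup.inv_mem _ hw) h1) hw
      have : w * h * w⁻¹ = h := by
        rw [hWcomm w hw h h2]; group
      rw [this] at hh; exact hh

end Cfsg.Agent.S1510
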