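import Cfsg.Statements.S1512
import Mathlib
import Cfsg.Agent.Lib.Helper1_Coprime


set_option autoImplicit false
open Cfsg

namespace Cfsg.Agent.S1512

open Cfsg.Agent.Lib.Helper1_Coprime

theorem exists_fixed {M : Type*} [Group M] [Finite M] (H : Subgroup M) [hN : H.Normal] (x : M)
    (hcop : (orderOf x).Coprime (Nat.card H)) (h : H)
    (hconj : IsConj h ((MulAut.conjNormal x : MulAut H) h)) :
    ∃ u : H, IsConj h u ∧ x * (u : M) * x⁻¹ = u := by
  classical
  letI : MulAction M H := MulAction.compHom H (MulAut.conjNormal : M →* MulAut H)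
  have claim1 : ∀ k : ℕ, IsConj h (MulAut.conjNormal (x ^ k) h) := by
    intro k
    induction k with
    | zero =>
      rw [pow_zero, map_one, MulAut.one_apply]
    | succ k ih =>
      rw [pow_succ, map_mul, MulAut.mul_apply]
      exact ih.trans ((MulAut.conjNormal (x ^ k) : H ≃* H).toMonoidHom.map_isConj hconj)
  have claim2 : ∀ a : M, IsConj h (MulAut.conjNormal a h) → ∀ y : H, IsConj h y →
      IsConj h (a • y) := by
    intro a ha y hy
    exact ha.trans ((MulAut.conjNormal a : H ≃* H).toMonoidHom.map_isConj hy)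
  have hAK : Subgroup.zpowers x ≤ Subgroup.normalizer (H : Set M) := by
    intro s _
    rw [Subgroup.mem_normalizer_iff]
    intro k
    constructor
    · intro hk; exact hN.conj_mem k hk s
    · intro hk
      have := hN.conj_mem _ hk s⁻¹
      have e : s⁻¹ * (s * k * s⁻¹) * s⁻¹⁻¹ = k := by group
      rwa [e] at this
  have hcop' : (Nat.card (Subgroup.zpowers x)).Coprime (Nat.card H) := by
    rw [Nat.card_zpowers]
    exact hcop
  have hsolv : Group.IsSolvable (Subgroup.zpowers x) := inferInstance
  obtain ⟨⟨u, huY, hu⟩, -⟩ := glauberman (G := M) (X := H) (A := Subgroup.zpowers x) (K := H)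
    hAK hcop' (Or.inl hsolv) {y | IsConj h y} ⟨h, IsConj.refl h⟩
    (by
      intro a ha y hy
      obtain ⟨k, rfl⟩ := (mem_powers_iff_mem_zpowers.mpr ha)
      exact claim2 _ (claim1 k) y hy)
    (by
      intro k hk y hy
      exact IsConj.trans hy (isConj_iff.mpr ⟨⟨k, hk⟩, Subtype.ext rfl⟩))
    (by
      intro y hy z hz
      obtain ⟨c, hc⟩ := isConj_iff.mp ((IsConj.symm hy).trans hz)
      exact ⟨c, c.2, by rw [← hc]; exact Subtype.ext rfl⟩)
  exact ⟨u, huY, congrArg Subtype.val (hu x (Subgroup.mem_zpowers x))⟩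

/-- Let K be a normal subgroup of the finite group L and x a non-identity element whose order is coprime to the order of K, such that K ⊓ C_L(y) = W₂ for every non-identity element y of the cyclic group generated by x. Then the number of conjugacy classes of K mapped to themselves by conjugation by x is at most Nat.card W₂. -/
theorem result {L : Type*} [Group L] [Finite L] (K W₂ : Subgroup L) [hK : K.Normal] (x : L) (hx1 : x ≠ 1) (hx : Nat.Coprime (orderOf x) (Nat.card K)) (hC : ∀ y ∈ Subgroup.zpowers x, y ≠ 1 → K ⊓ Subgroup.centralizer ({y} : Set L) = W₂) : Nat.card {C : ConjClasses K // ConjClasses.map (MulEquiv.toMonoidHom ((MulAut.conjNormal x : MulAut K))) C = C} ≤ Nat.card W₂ := by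
  classical
  have hW : K ⊓ Subgroup.centralizer ({x} : Set L) = W₂ := hC x (Subgroup.mem_zpowers x) hx1
  have hW2K : W₂ ≤ K := hW ▸ inf_le_left
  let g : W₂ → ConjClasses K := fun w => ConjClasses.mk ⟨w, hW2K w.2⟩
  have key : ∀ C : {C : ConjClasses K // ConjClasses.map
      (MulEquiv.toMonoidHom ((MulAut.conjNormal x : MulAut K))) C = C}, ∃ w : W₂, g w = C.1 := by
    rintro ⟨C, hCfix⟩
    obtain ⟨h, rfl⟩ := ConjClasses.exists_rep C
    have hconj : IsConj h ((MulAut.conjNormal x : MulAut K) h) := by
      have h1 : ConjClasses.mk ((MulAut.conjNormal x : MulAut K) h) = ConjClasses.mk h := hCfix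
      exact (ConjClasses.mk_eq_mk_iff_isConj.mp h1).symm
    obtain ⟨u, hu1, hu2⟩ := exists_fixed K x hx h hconj
    have huW : (u : L) ∈ W₂ := by
      rw [← hW]
      refine Subgroup.mem_inf.mpr ⟨u.2, ?_⟩
      rw [Subgroup.mem_centralizer_singleton_iff]
      calc (u : L) * x = x * u * x⁻¹ * x := by rw [hu2]
        _ = x * u := by group
    refine ⟨⟨u, huW⟩, ?_⟩
    exact (ConjClasses.mk_eq_mk_iff_isConj.mpr hu1).symm
  choose f hf using key
  refine Nat.card_le_card_of_injective f ?_
  intro C C' h
  apply Subtype.ext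
  rw [← hf C, ← hf C', h]

end Cfsg.Agent.S1512
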