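import Cfsg.Statements.S1514
import Mathlib
import Cfsg.Agent.Lib.Helper3_CharGen
import Cfsg.Agent.S1509

set_option autoImplicit false
open Cfsg

namespace Cfsg.Agent.S1514

open Cfsg.Agent.Lib.CharBasic Cfsg.Agent.Lib.CharOrtho Cfsg.Agent.Lib.CharMore Cfsg.Agent.Lib.CharGen Cfsg.Agent.Lib.Helper3_CharGen
open scoped ComplexConjugate

theorem conjFun_conjFun {X : Type*} (χ : X → ℂ) : Cfsg.conjFun (Cfsg.conjFun χ) = χ := by
  ext x; simp [Cfsg.conjFun]


/-- Let S be a nonempty set of irreducible characters of the finite group L, closed under complex conjugation and containing no real-valued member, and τ a linear isometry on the integer combinations of S vanishing at 1, with values virtual characters of G vanishing at 1. Then there is a choice R making (S, τ, R) a coherence system. -/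
theorem result {L : Type*} [Group L] [Fintype L] {G : Type*} [Group G] [Fintype G] (S : Set (L → ℂ)) (hS : S.Nonempty) (hirr : ∀ χ ∈ S, Cfsg.IsIrrCharacter L χ) (hconj : ∀ χ ∈ S, Cfsg.conjFun χ ∈ S ∧ Cfsg.conjFun χ ≠ χ) (τ : (L → ℂ) → (G → ℂ)) (hτ : Cfsg.IsLinearIsometryOn (Cfsg.zspanOn S {1}ᶜ) τ) (hτ1 : ∀ α ∈ Cfsg.zspanOn S {1}ᶜ, τ α 1 = 0) : ∃ R : (L → ℂ) → Finset (G → ℂ), Cfsg.IsCoherenceSystem S τ R := by
  classical
  have hτ' := hτ
  obtain ⟨hadd, hsmul, hiso, hgen⟩ := hτ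
  have hmem : ∀ χ ∈ S, χ ∈ Cfsg.zspan S := fun χ hχ => Submodule.subset_span hχ
  have hdiff : ∀ χ ∈ S, χ - Cfsg.conjFun χ ∈ Cfsg.zspanOn S {1}ᶜ := by
    intro χ hχ
    refine ⟨Submodule.sub_mem _ (hmem χ hχ) (hmem _ (hconj χ hχ).1), ?_⟩
    intro x hx
    have hx1 : x = 1 := by simpa using hx
    subst hx1
    obtain ⟨a, _, ha, _⟩ := irr_degree (hirr χ hχ)
    simp [Cfsg.conjFun, ha]
  have hnorm : ∀ χ ∈ S, ∀ φ ∈ S, Cfsg.classInner (φ - Cfsg.conjFun φ) (χ - Cfsg.conjFun χ) =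
      (if φ = χ then 1 else 0) - (if φ = Cfsg.conjFun χ then 1 else 0) - (if Cfsg.conjFun φ = χ then 1 else 0)
        + (if Cfsg.conjFun φ = Cfsg.conjFun χ then 1 else 0) := by
    intro χ hχ φ hφ
    rw [classInner_sub_left, classInner_sub_right, classInner_sub_right,
      classInner_irr (hirr φ hφ) (hirr χ hχ), classInner_irr (hirr φ hφ) (hirr _ (hconj χ hχ).1),
      classInner_irr (hirr _ (hconj φ hφ).1) (hirr χ hχ),
      classInner_irr (hirr _ (hconj φ hφ).1) (hirr _ (hconj χ hχ).1)]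
    ring
  have hex : ∀ χ : L → ℂ, ∃ p : IrrCharacter G × IrrCharacter G,
      χ ∈ S → p.1 ≠ p.2 ∧ τ (χ - Cfsg.conjFun χ) = (p.1 : G → ℂ) - (p.2 : G → ℂ) := by
    intro χ
    by_cases hχ : χ ∈ S
    · obtain ⟨α, β, hne, he⟩ := eq_sub_of_norm_two (hgen _ (hdiff χ hχ))
        (by
          rw [hiso _ (hdiff χ hχ) _ (hdiff χ hχ), hnorm χ hχ χ hχ, if_pos rfl, if_pos rfl,
            if_neg (hconj χ hχ).2, if_neg (fun h => (hconj χ hχ).2 h.symm)]
          norm_num) (hτ1 _ (hdiff χ hχ))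
      exact ⟨(α, β), fun _ => ⟨hne, he⟩⟩
    · exact ⟨(⟨1, isIrr_one⟩, ⟨1, isIrr_one⟩), fun h => absurd h hχ⟩
  choose p hp using hex
  have hne' : ∀ χ, ((p χ).1 : G → ℂ) ≠ -((p χ).2 : G → ℂ) := by
    intro χ h
    obtain ⟨c, hc0, hc, _⟩ := irr_degree (p χ).1.2
    obtain ⟨d, hd0, hd, _⟩ := irr_degree (p χ).2.2
    have := congrFun h 1
    rw [Pi.neg_apply, hc, hd] at this
    have h4 : (c : ℤ) = -d := by exact_mod_cast this
    omega
  refine ⟨fun χ => {((p χ).1 : G → ℂ), -((p χ).2 : G → ℂ)}, ?_⟩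
  refine ⟨hS, fun χ hχ => isCharacter_of_isIrr (hirr χ hχ), fun χ hχ => (hconj χ hχ).1,
    fun χ hχ => (hconj χ hχ).2, hτ', hτ1, fun χ hχ φ hφ h => classInner_irr_ne (hirr χ hχ) (hirr φ hφ) h,
    ?_, ?_, ?_, ?_⟩
  · -- orthonormal
    intro χ hχ α hα β hβ
    obtain ⟨hne, -⟩ := hp χ hχ
    have hne2 : ((p χ).1 : G → ℂ) ≠ ((p χ).2 : G → ℂ) := fun h => hne (Subtype.ext h)
    have e12 : Cfsg.classInner ((p χ).1 : G → ℂ) ((p χ).2 : G → ℂ) = 0 :=
      classInner_irr_ne (p χ).1.2 (p χ).2.2 hne2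
    have e21 : Cfsg.classInner ((p χ).2 : G → ℂ) ((p χ).1 : G → ℂ) = 0 :=
      classInner_irr_ne (p χ).2.2 (p χ).1.2 hne2.symm
    have neg_l : ∀ a b : G → ℂ, Cfsg.classInner (-a) b = - Cfsg.classInner a b := by
      intro a b
      have := classInner_smul_left (-1) a b
      simpa using this
    have neg_r : ∀ a b : G → ℂ, Cfsg.classInner a (-b) = - Cfsg.classInner a b := by
      intro a b
      have := classInner_smul_right (-1) a b
      simpa using this
    simp only [Finset.mem_insert, Finset.mem_singleton] at hα hβ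
    rcases hα with rfl | rfl <;> rcases hβ with rfl | rfl
    · rw [if_pos rfl, classInner_irr_self (p χ).1.2]
    · rw [if_neg (hne' χ), neg_r, e12, neg_zero]
    · rw [if_neg (fun h => hne' χ h.symm), neg_l, e21, neg_zero]
    · rw [if_pos rfl, neg_l, neg_r, classInner_irr_self (p χ).2.2, neg_neg]
  · -- virtual
    intro χ hχ α hα
    simp only [Finset.mem_insert, Finset.mem_singleton] at hα
    rcases hα with rfl | rfl
    · exact isGen_of_isCharacter (isCharacter_of_isIrr (p χ).1.2)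
    · exact isGen_neg (isGen_of_isCharacter (isCharacter_of_isIrr (p χ).2.2))
  · -- sum
    intro χ hχ
    rw [Finset.sum_pair (hne' χ), (hp χ hχ).2, sub_eq_add_neg]
  · -- disjoint
    intro χ hχ φ hφ h1 h2 α hα β hβ
    have n1 : φ ≠ χ := by
      intro h; rw [h, classInner_irr_self (hirr χ hχ)] at h1; exact one_ne_zero h1
    have n2 : φ ≠ Cfsg.conjFun χ := by
      intro h; rw [h, classInner_irr_self (hirr _ (hconj χ hχ).1)] at h2; exact one_ne_zero h2
    have n3 : Cfsg.conjFun φ ≠ χ := by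
      intro h; apply n2; rw [← h, conjFun_conjFun]
    have n4 : Cfsg.conjFun φ ≠ Cfsg.conjFun χ := by
      intro h; apply n1
      have := congrArg Cfsg.conjFun h
      rwa [conjFun_conjFun, conjFun_conjFun] at this
    have hz := hnorm χ hχ φ hφ
    rw [if_neg n1, if_neg n2, if_neg n3, if_neg n4, ← hiso _ (hdiff φ hφ) _ (hdiff χ hχ),
      (hp φ hφ).2, (hp χ hχ).2] at hz
    have d1 : ((p φ).1 : G → ℂ) 1 = ((p φ).2 : G → ℂ) 1 := by
      have := hτ1 _ (hdiff φ hφ)
      rw [(hp φ hφ).2, Pi.sub_apply] at this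
      exact sub_eq_zero.mp this
    have d2 : ((p χ).1 : G → ℂ) 1 = ((p χ).2 : G → ℂ) 1 := by
      have := hτ1 _ (hdiff χ hχ)
      rw [(hp χ hχ).2, Pi.sub_apply] at this
      exact sub_eq_zero.mp this
    have hneφ : ((p φ).1 : G → ℂ) ≠ ((p φ).2 : G → ℂ) := fun h => (hp φ hφ).1 (Subtype.ext h)
    have hneχ : ((p χ).1 : G → ℂ) ≠ ((p χ).2 : G → ℂ) := fun h => (hp χ hχ).1 (Subtype.ext h)
    obtain ⟨r1, r2, r3, r4⟩ := Cfsg.Agent.S1509.result ((p φ).1 : G → ℂ) ((p φ).2 : G → ℂ)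
      ((p χ).1 : G → ℂ) ((p χ).2 : G → ℂ) (Or.inl (p φ).1.2) (Or.inl (p φ).2.2) (Or.inl (p χ).1.2)
      (Or.inl (p χ).2.2) 1 1 one_ne_zero one_ne_zero
      (classInner_irr_ne (p φ).1.2 (p φ).2.2 hneφ) (classInner_irr_ne (p χ).1.2 (p χ).2.2 hneχ)
      (by simpa using hz) d1 (by simpa using d2)
    have neg_l : ∀ a b : G → ℂ, Cfsg.classInner (-a) b = - Cfsg.classInner a b := by
      intro a b
      have := classInner_smul_left (-1) a b
      simpa using this
    have neg_r : ∀ a b : G → ℂ, Cfsg.classInner a (-b) = - Cfsg.classInner a b := by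
      intro a b
      have := classInner_smul_right (-1) a b
      simpa using this
    simp only [Finset.mem_insert, Finset.mem_singleton] at hα hβ
    rcases hα with rfl | rfl <;> rcases hβ with rfl | rfl
    · exact r1
    · rw [neg_r, r2, neg_zero]
    · rw [neg_l, r3, neg_zero]
    · rw [neg_l, neg_r, r4, neg_zero, neg_zero]

end Cfsg.Agent.S1514
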