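import Cfsg.Statements.S1515
import Mathlib
import Cfsg.Agent.Lib.Helper3_CharGen

set_option autoImplicit false
open Cfsg

namespace Cfsg.Agent.S1515

open Cfsg.Agent.Lib.CharBasic Cfsg.Agent.Lib.CharOrtho Cfsg.Agent.Lib.CharMore Cfsg.Agent.Lib.CharGen Cfsg.Agent.Lib.Helper3_CharGen
open scoped ComplexConjugate

theorem classInner_gen_int {G : Type*} [Group G] [Fintype G] {a b : G → ℂ}
    (ha : Cfsg.IsGeneralizedCharacter G a) (hb : Cfsg.IsGeneralizedCharacter G b) :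
    ∃ z : ℤ, Cfsg.classInner a b = z := by
  obtain ⟨a1, a2, h1, h2, rfl⟩ := ha
  obtain ⟨b1, b2, h3, h4, rfl⟩ := hb
  obtain ⟨n1, e1⟩ := classInner_char_nat h1 h3
  obtain ⟨n2, e2⟩ := classInner_char_nat h1 h4
  obtain ⟨n3, e3⟩ := classInner_char_nat h2 h3
  obtain ⟨n4, e4⟩ := classInner_char_nat h2 h4
  refine ⟨(n1 : ℤ) - n2 - (n3 - n4), ?_⟩
  rw [classInner_sub_left, classInner_sub_right, classInner_sub_right, e1, e2, e3, e4]
  push_cast; ring


/-- Let (S, τ, R) be a coherence system from L to G, χ ∈ S, and ψ an integer combination of S with ⟨χ, ψ⟩ = ⟨conj χ, ψ⟩ = 0. Let τ₁ be a linear isometry on the integer combinations of χ − ψ and χ − conj χ, with virtual-character values, agreeing with τ on integer multiples of χ − conj χ. Then the sum over α ∈ R χ of the squared absolute values of ⟨τ₁(χ − ψ), α⟩ is at least ⟨χ, χ⟩; and if ⟨τ₁(χ − ψ), τ₁(χ − ψ)⟩ minus that sum is at least ⟨ψ, ψ⟩, then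 the sum equals ⟨χ, χ⟩ and every ⟨τ₁(χ − ψ), α⟩ with α ∈ R χ is 0 or 1. -/
theorem result {L : Type*} [Group L] [Fintype L] {G : Type*} [Group G] [Fintype G] (S : Set (L → ℂ)) (τ : (L → ℂ) → (G → ℂ)) (R : (L → ℂ) → Finset (G → ℂ)) (hS : Cfsg.IsCoherenceSystem S τ R) (χ : L → ℂ) (hχ : χ ∈ S) (ψ : L → ℂ) (hψ : ψ ∈ Cfsg.zspan S) (h1 : Cfsg.classInner χ ψ = 0) (h2 : Cfsg.classInner (Cfsg.conjFun χ) ψ = 0) (τ₁ : (L → ℂ) → (G → ℂ)) (hτ₁ : Cfsg.IsLinearIsometryOn (Cfsg.zspan {χ - ψ, χ - Cfsg.conjFun χ}) τ₁) (hagree : ∀ n : ℤ, τ₁ (n • (χ - Cfsg.conjFun χ)) = τ (n • (χ - Cfsg.conjFun χ))) : (Cfsg.classInner χ χ).re ≤ ∑ α ∈ R χ, ‖Cfsg.classInner (τ₁ (χ - ψ)) α‖ ^ 2 ∧ ((Cfsg.classInner ψ ψ).re ≤ (Cfsg.classInner (τ₁ (χ - ψ)) (τ₁ (χ - ψ))).re - ∑ α ∈ R χ, ‖Cfsg.classInner (τ₁ (χ - ψ)) α‖ ^ 2 → (∑ α ∈ R χ, ‖Cfsg.classInner (τ₁ (χ - ψ)) α‖ ^ 2 = (Cfsg.classInner χ χ).re ∧ ∀ α ∈ R χ, Cfsg.classInner (τ₁ (χ - ψ))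 α = 0 ∨ Cfsg.classInner (τ₁ (χ - ψ)) α = 1)) := by
  classical
  obtain ⟨hadd, hsmul, hiso, hgen⟩ := hτ₁
  have m1 : χ - ψ ∈ Cfsg.zspan {χ - ψ, χ - Cfsg.conjFun χ} := Submodule.subset_span (by simp)
  have m2 : χ - Cfsg.conjFun χ ∈ Cfsg.zspan {χ - ψ, χ - Cfsg.conjFun χ} := Submodule.subset_span (by simp)
  set X := τ₁ (χ - ψ) with hX
  have hXgen : Cfsg.IsGeneralizedCharacter G X := hgen _ m1
  have hint : ∀ α ∈ R χ, ∃ z : ℤ, Cfsg.classInner X α = z := fun α hα =>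
    classInner_gen_int hXgen (hS.virtual χ hχ α hα)
  have hag1 : τ₁ (χ - Cfsg.conjFun χ) = τ (χ - Cfsg.conjFun χ) := by
    have := hagree 1
    simpa using this
  obtain ⟨n, hn⟩ := classInner_char_nat (hS.isCharacter χ hχ) (hS.isCharacter χ hχ)
  have h1' : Cfsg.classInner ψ χ = 0 := by rw [← classInner_conj_symm, h1, map_zero]
  have h2' : Cfsg.classInner ψ (Cfsg.conjFun χ) = 0 := by rw [← classInner_conj_symm, h2, map_zero]
  have horth : Cfsg.classInner χ (Cfsg.conjFun χ) = 0 :=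
    hS.orthogonal χ hχ _ (hS.conj_mem χ hχ) (fun h => hS.conj_ne χ hχ h.symm)
  have hsum : ∑ α ∈ R χ, Cfsg.classInner X α = n := by
    rw [← classInner_sum_right, ← hS.sum_eq χ hχ, ← hag1, hX, hiso _ m1 _ m2,
      classInner_sub_left, classInner_sub_right, classInner_sub_right, hn, horth, h1', h2']
    ring
  have hXX : Cfsg.classInner X X = n + Cfsg.classInner ψ ψ := by
    rw [hX, hiso _ m1 _ m1, classInner_sub_left, classInner_sub_right, classInner_sub_right, hn, h1, h1']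
    ring
  choose! z hz using hint
  have hsumz : ∑ α ∈ R χ, z α = n := by
    have : ((∑ α ∈ R χ, z α : ℤ) : ℂ) = ((n : ℤ) : ℂ) := by
      push_cast
      rw [← hsum]
      exact Finset.sum_congr rfl fun α hα => (hz α hα).symm
    exact_mod_cast this
  have hsq : ∑ α ∈ R χ, ‖Cfsg.classInner X α‖ ^ 2 = ((∑ α ∈ R χ, z α * z α : ℤ) : ℝ) := by
    push_cast
    refine Finset.sum_congr rfl fun α hα => ?_
    rw [hz α hα]
    simp [sq]
  have hge : ∀ α, z α ≤ z α * z α := by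
    intro α
    nlinarith [sq_nonneg (2 * z α - 1), sq_nonneg (z α), Int.emod_two_eq_zero_or_one (z α)]
  have hle : (n : ℤ) ≤ ∑ α ∈ R χ, z α * z α := by
    rw [← hsumz]; exact Finset.sum_le_sum fun α _ => hge α
  have hre : (Cfsg.classInner χ χ).re = n := by rw [hn]; simp
  refine ⟨?_, ?_⟩
  · rw [hsq, hre]; exact_mod_cast hle
  · intro hyp
    rw [hsq, hXX, hre] at *
    have h3 : ((∑ α ∈ R χ, z α * z α : ℤ) : ℝ) ≤ n := by
      simp only [Complex.add_re, Complex.natCast_re] at hyp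
      linarith
    have h4 : ∑ α ∈ R χ, z α * z α ≤ (n : ℤ) := by exact_mod_cast h3
    have h5 : ∑ α ∈ R χ, z α * z α = (n : ℤ) := le_antisymm h4 hle
    refine ⟨by exact_mod_cast h5, ?_⟩
    have h6 : ∑ α ∈ R χ, (z α * z α - z α) = 0 := by
      rw [Finset.sum_sub_distrib, h5, hsumz, sub_self]
    intro α hα
    have h7 := (Finset.sum_eq_zero_iff_of_nonneg (fun α _ => sub_nonneg.mpr (hge α))).mp h6 α hα
    have h8 : z α * (z α - 1) = 0 := by linarith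
    rw [hz α hα]
    rcases mul_eq_zero.mp h8 with h | h
    · left; rw [h]; simp
    · right
      have : z α = 1 := by linarith
      rw [this]; simp

end Cfsg.Agent.S1515
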