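import Cfsg.Statements.S1527
import Mathlib

set_option autoImplicit false
open Cfsg

namespace Cfsg.Agent.S1527

theorem card_ne {α : Type*} [Finite α] (a : α) : Nat.card {x : α // x ≠ a} = Nat.card α - 1 := by
  classical
  have := Fintype.ofFinite α
  rw [Nat.card_eq_fintype_card, Nat.card_eq_fintype_card]
  exact Set.card_ne_eq a


/-- Let G be a finite group and H i (i in a finite index type) subgroups of pairwise coprime orders, each of whose underlying sets is a TI-subset of G, such that every non-identity element of G is conjugate to an element of some H i. Then Nat.card G − 1 = Σ_i [G : N_G(H i)] · (Nat.card (H i) − 1). -/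
theorem result {G : Type*} [Group G] [Finite G] {ι : Type*} [Fintype ι] (H : ι → Subgroup G) (hcop : ∀ i j, i ≠ j → Nat.Coprime (Nat.card (H i)) (Nat.card (H j))) (hTI : ∀ i, Cfsg.IsTISubset (H i : Set G)) (hcover : ∀ g : G, g ≠ 1 → ∃ i, ∃ x : G, x * g * x⁻¹ ∈ H i) : Nat.card G - 1 = ∑ i, (Subgroup.normalizer (H i : Set G)).index * (Nat.card (H i) - 1) := by
  classical
  have hR : ∀ i, (Subgroup.normalizer (H i : Set G)).index * (Nat.card (H i) - 1) =
      Nat.card ((G ⧸ Subgroup.normalizer (H i : Set G)) × {h : H i // h ≠ 1}) := by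
    intro i
    rw [Nat.card_prod, card_ne]
    rfl
  rw [Finset.sum_congr rfl (fun i _ => hR i), ← Nat.card_sigma, ← card_ne (1 : G)]
  symm
  have hne : ∀ s : (Σ i, (G ⧸ Subgroup.normalizer (H i : Set G)) × {h : H i // h ≠ 1}),
      s.2.1.out * ((s.2.2.1 : H s.1) : G) * (s.2.1.out)⁻¹ ≠ 1 := by
    rintro ⟨i, c, h, hh⟩ h1
    rw [conj_eq_one_iff] at h1
    exact hh (Subtype.ext h1)
  refine Nat.card_congr (Equiv.ofBijective (fun s => ⟨_, hne s⟩) ⟨?_, ?_⟩)
  · rintro ⟨i, c, h, hh⟩ ⟨i', c', h', hh'⟩ heq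
    have e : c.out * (h : G) * c.out⁻¹ = c'.out * (h' : G) * c'.out⁻¹ := congrArg Subtype.val heq
    have ho : orderOf (h : G) = orderOf (h' : G) := by
      have h1 : orderOf (c.out * (h : G) * c.out⁻¹) = orderOf (h : G) := by
        rw [← MulAut.conj_apply, MulEquiv.orderOf_eq]
      have h2 : orderOf (c'.out * (h' : G) * c'.out⁻¹) = orderOf (h' : G) := by
        rw [← MulAut.conj_apply, MulEquiv.orderOf_eq]
      rw [← h1, ← h2, e]
    obtain rfl : i = i' := by
      by_contra hii
      have h1 : orderOf (h : G) ∣ Nat.card (H i) := by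
        rw [Subgroup.orderOf_coe]; exact orderOf_dvd_natCard h
      have h2 : orderOf (h : G) ∣ Nat.card (H i') := by
        rw [ho, Subgroup.orderOf_coe]; exact orderOf_dvd_natCard h'
      have h3 := Nat.dvd_gcd h1 h2
      rw [Nat.Coprime.gcd_eq_one (hcop i i' hii), Nat.dvd_one, orderOf_eq_one_iff] at h3
      exact hh (Subtype.ext h3)
    obtain rfl : c = c' := by
      have h1 : c'.out⁻¹ * c.out ∈ Subgroup.normalizer (H i : Set G) := by
        by_contra hnot
        have h2 := hTI i _ hnot (h : G) h.2 (by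
          have h3 : c'.out⁻¹ * c.out * (h : G) * (c'.out⁻¹ * c.out)⁻¹ = (h' : G) := by
            calc c'.out⁻¹ * c.out * (h : G) * (c'.out⁻¹ * c.out)⁻¹
                = c'.out⁻¹ * (c.out * (h : G) * c.out⁻¹) * c'.out := by group
              _ = c'.out⁻¹ * (c'.out * (h' : G) * c'.out⁻¹) * c'.out := by rw [e]
              _ = _ := by group
          rw [h3]; exact h'.2)
        exact hh (Subtype.ext h2)
      rw [← QuotientGroup.out_eq' c, ← QuotientGroup.out_eq' c']
      exact (QuotientGroup.eq.mpr h1).symm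
    obtain rfl : h = h' := by
      apply Subtype.ext
      exact mul_left_cancel (mul_right_cancel e)
    rfl
  · rintro ⟨g, hg⟩
    obtain ⟨i, x, hx⟩ := hcover g hg
    obtain ⟨n, hn⟩ := QuotientGroup.mk_out_eq_mul (Subgroup.normalizer (H i : Set G)) x⁻¹
    have hmem : ((x⁻¹ : G) : G ⧸ Subgroup.normalizer (H i : Set G)).out⁻¹ * g *
        ((x⁻¹ : G) : G ⧸ Subgroup.normalizer (H i : Set G)).out ∈ H i := by
      rw [hn]
      have h1 := (Subgroup.mem_normalizer_iff.mp
        ((Subgroup.normalizer (H i : Set G)).inv_mem n.2) (x * g * x⁻¹)).mp hx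
      have h2 : (x⁻¹ * (n : G))⁻¹ * g * (x⁻¹ * (n : G)) =
          (n : G)⁻¹ * (x * g * x⁻¹) * ((n : G)⁻¹)⁻¹ := by group
      rw [h2]; exact h1
    refine ⟨⟨i, ((x⁻¹ : G) : G ⧸ Subgroup.normalizer (H i : Set G)), ⟨⟨_, hmem⟩, ?_⟩⟩, ?_⟩
    · intro h1
      have h2 := congrArg Subtype.val h1
      simp only [Subgroup.coe_one] at h2
      apply hg
      have h3 : g = ((x⁻¹ : G) : G ⧸ Subgroup.normalizer (H i : Set G)).out *
          (((x⁻¹ : G) : G ⧸ Subgroup.normalizer (H i : Set G)).out⁻¹ * g *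
          ((x⁻¹ : G) : G ⧸ Subgroup.normalizer (H i : Set G)).out) *
          ((x⁻¹ : G) : G ⧸ Subgroup.normalizer (H i : Set G)).out⁻¹ := by group
      rw [h3, h2]; group
    · apply Subtype.ext
      show ((x⁻¹ : G) : G ⧸ Subgroup.normalizer (H i : Set G)).out *
          (((x⁻¹ : G) : G ⧸ Subgroup.normalizer (H i : Set G)).out⁻¹ * g *
          ((x⁻¹ : G) : G ⧸ Subgroup.normalizer (H i : Set G)).out) *
          ((x⁻¹ : G) : G ⧸ Subgroup.normalizer (H i : Set G)).out⁻¹ = g
      group

end Cfsg.Agent.S1527
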