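import Cfsg.Statements.S1529
import Mathlib
import Cfsg.Agent.Lib.Helper3_CharGen

set_option autoImplicit false
open Cfsg

namespace Cfsg.Agent.S1529

open Cfsg.Agent.Lib.CharOrtho Cfsg.Agent.Lib.CharMore Cfsg.Agent.Lib.CharGen Cfsg.Agent.Lib.Helper3_CharGen
open scoped ComplexConjugate


/-- Let N be a subgroup of the finite group G, S a set of irreducible characters of N with at least two members, and τ₁ a linear isometry on the integer combinations of S with virtual-character values such that τ₁ α vanishes at 1 whenever α ∈ ℤ[S] does. Then there is ε ∈ {1, −1} such that ε • τ₁ χ is an irreducible character of G for every χ ∈ S, and distinct members of S give distinct characters. -/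
theorem result {G : Type*} [Group G] [Fintype G] (N : Subgroup G) [Fintype N] (S : Set (N → ℂ)) (hirr : ∀ χ ∈ S, Cfsg.IsIrrCharacter N χ) (htwo : ∃ χ ∈ S, ∃ ψ ∈ S, χ ≠ ψ) (τ₁ : (N → ℂ) → (G → ℂ)) (hτ₁ : Cfsg.IsLinearIsometryOn (Cfsg.zspan S) τ₁) (h0 : ∀ α ∈ Cfsg.zspan S, α 1 = 0 → τ₁ α 1 = 0) : ∃ ε : ℂ, (ε = 1 ∨ ε = -1) ∧ (∀ χ ∈ S, Cfsg.IsIrrCharacter G (ε • τ₁ χ)) ∧ (∀ χ ∈ S, ∀ ψ ∈ S, τ₁ χ = τ₁ ψ → χ = ψ) := by
  classical
  obtain ⟨hadd, hsmul, hiso, hgen⟩ := hτ₁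
  have hmem : ∀ χ ∈ S, χ ∈ Cfsg.zspan S := fun χ hχ => Submodule.subset_span hχ
  have hpm : ∀ χ ∈ S, ∃ α : IrrCharacter G, τ₁ χ = (α : G → ℂ) ∨ τ₁ χ = -(α : G → ℂ) := by
    intro χ hχ
    apply pm_irr_of_norm_one (hgen χ (hmem χ hχ))
    rw [hiso χ (hmem χ hχ) χ (hmem χ hχ), classInner_irr_self (hirr χ hχ)]
  -- degree relation
  have hdeg : ∀ χ ∈ S, ∀ ψ ∈ S, ψ 1 * τ₁ χ 1 = χ 1 * τ₁ ψ 1 := by
    intro χ hχ ψ hψ
    obtain ⟨a, ha0, ha, _⟩ := irr_degree (hirr χ hχ)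
    obtain ⟨b, hb0, hb, _⟩ := irr_degree (hirr ψ hψ)
    have m1 : ((b : ℤ) • χ) ∈ Cfsg.zspan S := Submodule.smul_mem _ _ (hmem χ hχ)
    have m2 : ((-(a : ℤ)) • ψ) ∈ Cfsg.zspan S := Submodule.smul_mem _ _ (hmem ψ hψ)
    have m3 : ((b : ℤ) • χ + (-(a : ℤ)) • ψ) ∈ Cfsg.zspan S := Submodule.add_mem _ m1 m2
    have h1 := h0 _ m3 (by simp [ha, hb]; ring)
    rw [hadd _ m1 _ m2, hsmul χ (hmem χ hχ), hsmul ψ (hmem ψ hψ)] at h1
    simp at h1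
    rw [ha, hb]
    linear_combination h1
  obtain ⟨χ₀, hχ₀, -⟩ := htwo
  obtain ⟨α₀, hα₀⟩ := hpm χ₀ hχ₀
  have hinj : ∀ χ ∈ S, ∀ ψ ∈ S, τ₁ χ = τ₁ ψ → χ = ψ := by
    intro χ hχ ψ hψ h
    by_contra hne
    have h1 := hiso χ (hmem χ hχ) ψ (hmem ψ hψ)
    rw [classInner_irr_ne (hirr χ hχ) (hirr ψ hψ) hne, h, hiso ψ (hmem ψ hψ) ψ (hmem ψ hψ),
      classInner_irr_self (hirr ψ hψ)] at h1
    exact one_ne_zero h1
  -- no mixed signs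
  have hsign : ∀ χ ∈ S, ∀ ψ ∈ S, ∀ α β : IrrCharacter G, τ₁ χ = (α : G → ℂ) → τ₁ ψ = -(β : G → ℂ) → False := by
    intro χ hχ ψ hψ α β h1 h2
    have h3 := hdeg χ hχ ψ hψ
    obtain ⟨a, ha0, ha, _⟩ := irr_degree (hirr χ hχ)
    obtain ⟨b, hb0, hb, _⟩ := irr_degree (hirr ψ hψ)
    obtain ⟨c, hc0, hc, _⟩ := irr_degree α.2
    obtain ⟨d, hd0, hd, _⟩ := irr_degree β.2
    rw [h1, h2, ha, hb, Pi.neg_apply, hc, hd] at h3
    have h4 : (b : ℤ) * c = a * (-d) := by exact_mod_cast h3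
    have h5 : (0 : ℤ) < (b : ℤ) * c := by positivity
    have h6 : (0 : ℤ) < (a : ℤ) * d := by positivity
    linarith
  rcases hα₀ with h | h
  · refine ⟨1, Or.inl rfl, ?_, hinj⟩
    intro χ hχ
    obtain ⟨α, hα | hα⟩ := hpm χ hχ
    · rw [one_smul, hα]; exact α.2
    · exact (hsign χ₀ hχ₀ χ hχ α₀ α h hα).elim
  · refine ⟨-1, Or.inr rfl, ?_, hinj⟩
    intro χ hχ
    obtain ⟨α, hα | hα⟩ := hpm χ hχ
    · exact (hsign χ hχ χ₀ hχ₀ α α₀ hα h).elim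
    · rw [hα]; simpa using α.2

end Cfsg.Agent.S1529
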