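import Cfsg.Statements.S1536
import Mathlib
import Cfsg.Agent.Lib.CharPerm
import Cfsg.Agent.Lib.Helper1_Coprime


set_option autoImplicit false
open Cfsg

namespace Cfsg.Agent.S1536

open Cfsg.Agent.Lib.CharBasic Cfsg.Agent.Lib.CharOrtho Cfsg.Agent.Lib.CharPerm Cfsg.Agent.Lib.CharMore
  Cfsg.Agent.Lib.Helper1_Coprime

/-- Let H be a normal subgroup of the finite group M whose order is coprime to its index. For x ∈ M: some non-principal irreducible character of H is unchanged under h ↦ θ(x h x⁻¹) if and only if some non-identity element of H commutes with x. -/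
theorem result {M : Type*} [Group M] [Finite M] (H : Subgroup M) [hN : H.Normal] (hHall : Nat.Coprime (Nat.card H) H.index) (x : M) : (∃ θ : H → ℂ, Cfsg.IsIrrCharacter H θ ∧ θ ≠ (fun _ => 1) ∧ (fun h : H => θ ⟨x * h * x⁻¹, hN.conj_mem h h.2 x⟩) = θ) ↔ ∃ h ∈ H, h ≠ 1 ∧ x * h = h * x := by
  classical
  haveI : Fintype H := Fintype.ofFinite _
  let α : H ≃* H := MulAut.conjNormal x
  have hα : ∀ h : H, ((α h : H) : M) = x * h * x⁻¹ := fun h => rfl
  have hcard := card_fixed_classes_aut α
  have hnt : Nontrivial {C : ConjClasses H // ConjClasses.map α.toMonoidHom C = C} ↔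
      Nontrivial {χ : IrrCharacter H // (χ : H → ℂ) ∘ α = (χ : H → ℂ)} := by
    rw [← Finite.one_lt_card_iff_nontrivial, ← Finite.one_lt_card_iff_nontrivial, hcard]
  have hone : ConjClasses.map α.toMonoidHom (ConjClasses.mk (1 : H)) = ConjClasses.mk 1 := by
    show ConjClasses.mk (α 1) = ConjClasses.mk 1
    rw [map_one]
  constructor
  · rintro ⟨θ, hθ, hθ1, hfix⟩
    by_cases hz : x ^ H.index = 1
    · have hnt2 : Nontrivial {χ : IrrCharacter H // (χ : H → ℂ) ∘ α = (χ : H → ℂ)} :=
        ⟨⟨⟨⟨θ, hθ⟩, hfix⟩, ⟨⟨1, isIrr_one⟩, rfl⟩, fun h =>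
          hθ1 (congrArg (fun z => (z.1 : H → ℂ)) h)⟩⟩
      haveI := hnt.mpr hnt2
      obtain ⟨⟨C, hC⟩, hne⟩ := exists_ne
        (⟨ConjClasses.mk 1, hone⟩ : {C : ConjClasses H // ConjClasses.map α.toMonoidHom C = C})
      obtain ⟨h, rfl⟩ := ConjClasses.exists_rep C
      have hh1 : h ≠ 1 := by
        rintro rfl
        exact hne rfl
      have hconj : IsConj h (α h) := by
        have h1 : ConjClasses.mk (α h) = ConjClasses.mk h := hC
        exact (ConjClasses.mk_eq_mk_iff_isConj.mp h1).symm
      letI : MulAction M H := MulAction.compHom H (MulAut.conjNormal : M →* MulAut H)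
      have hsm : ∀ (a : M) (y : H), a • y = MulAut.conjNormal a y := fun a y => rfl
      have claim1 : ∀ k : ℕ, IsConj h (MulAut.conjNormal (x ^ k) h) := by
        intro k
        induction k with
        | zero =>
          rw [pow_zero, map_one, MulAut.one_apply]
        | succ k ih =>
          rw [pow_succ, map_mul, MulAut.mul_apply]
          exact ih.trans ((MulAut.conjNormal (x ^ k) : H ≃* H).toMonoidHom.map_isConj hconj)
      have claim2 : ∀ a : M, IsConj h (MulAut.conjNormal a h) → ∀ y : H, IsConj h y →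
          IsConj h (a • y) := by
        intro a ha y hy
        exact ha.trans ((MulAut.conjNormal a : H ≃* H).toMonoidHom.map_isConj hy)
      have hAK : Subgroup.zpowers x ≤ Subgroup.normalizer (H : Set M) := by
        intro s _
        rw [Subgroup.mem_normalizer_iff]
        intro k
        constructor
        · intro hk; exact hN.conj_mem k hk s
        · intro hk
          have := hN.conj_mem _ hk s⁻¹
          have e : s⁻¹ * (s * k * s⁻¹) * s⁻¹⁻¹ = k := by group
          rwa [e] at this
      have hcop : (Nat.card (Subgroup.zpowers x)).Coprime (Nat.card H) := by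
        rw [Nat.card_zpowers]
        exact (Nat.Coprime.coprime_dvd_right (orderOf_dvd_of_pow_eq_one hz) hHall).symm
      have hsolv : Group.IsSolvable (Subgroup.zpowers x) := inferInstance
      obtain ⟨⟨u, huY, hu⟩, -⟩ := glauberman (G := M) (X := H) (A := Subgroup.zpowers x) (K := H)
        hAK hcop (Or.inl hsolv) {y | IsConj h y} ⟨h, IsConj.refl h⟩
        (by
          intro a ha y hy
          obtain ⟨k, rfl⟩ := (mem_powers_iff_mem_zpowers.mpr ha)
          exact claim2 _ (claim1 k) y hy)
        (by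
          intro k hk y hy
          exact IsConj.trans hy (isConj_iff.mpr ⟨⟨k, hk⟩, Subtype.ext rfl⟩))
        (by
          intro y hy z hz
          obtain ⟨c, hc⟩ := isConj_iff.mp ((IsConj.symm hy).trans hz)
          exact ⟨c, c.2, by rw [← hc]; exact Subtype.ext rfl⟩)
      refine ⟨u, u.2, ?_, ?_⟩
      · intro h1
        have h2 : u = 1 := Subtype.ext h1
        rw [h2] at huY
        exact hh1 (isConj_one_right.mp (IsConj.symm huY)).symm.symm
      · have h1 := hu x (Subgroup.mem_zpowers x)
        have h2 : x * (u : M) * x⁻¹ = u := congrArg Subtype.val h1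
        calc x * (u : M) = x * u * x⁻¹ * x := by group
          _ = u * x := by rw [h2]
    · refine ⟨x ^ H.index, Subgroup.pow_index_mem H x, hz, ?_⟩
      rw [← pow_succ', ← pow_succ]
  · rintro ⟨h, hh, hh1, hcomm⟩
    have hfixh : ConjClasses.map α.toMonoidHom (ConjClasses.mk (⟨h, hh⟩ : H)) =
        ConjClasses.mk ⟨h, hh⟩ := by
      show ConjClasses.mk (α ⟨h, hh⟩) = ConjClasses.mk ⟨h, hh⟩
      congr 1
      apply Subtype.ext
      rw [hα]
      show x * h * x⁻¹ = h
      rw [hcomm]; group
    have hnt1 : Nontrivial {C : ConjClasses H // ConjClasses.map α.toMonoidHom C = C} :=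
      ⟨⟨⟨_, hfixh⟩, ⟨_, hone⟩, fun e => by
        have e1 : ConjClasses.mk (⟨h, hh⟩ : H) = ConjClasses.mk 1 := congrArg Subtype.val e
        rw [ConjClasses.mk_eq_mk_iff_isConj] at e1
        have e2 := isConj_one_left.mp e1
        exact hh1 (congrArg Subtype.val e2)⟩⟩
    haveI := hnt.mp hnt1
    obtain ⟨⟨χ, hχ⟩, hne⟩ := exists_ne
      (⟨⟨1, isIrr_one⟩, rfl⟩ : {χ : IrrCharacter H // (χ : H → ℂ) ∘ α = (χ : H → ℂ)})
    refine ⟨χ, χ.2, ?_, hχ⟩
    intro h1
    exact hne (Subtype.ext (Subtype.ext h1))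

end Cfsg.Agent.S1536
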