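import Cfsg.Statements.S1546
import Mathlib

set_option autoImplicit false
open Cfsg

namespace Cfsg.Agent.S1546

theorem cast_sum_of_dvd (p q r : ℕ) (hp : 1 ≤ p) (hr : r ∣ p - 1) :
    ((∑ i ∈ Finset.range q, p ^ i : ℕ) : ZMod r) = (q : ZMod r) := by
  have h1 : (p : ZMod r) = 1 := by
    have h2 : ((p - 1 : ℕ) : ZMod r) = 0 := (ZMod.natCast_eq_zero_iff _ _).mpr hr
    have h3 : p = (p - 1) + 1 := by omega
    rw [h3]
    push_cast
    rw [h2, zero_add]
  push_cast
  rw [h1]
  simp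

theorem mod_one_of_dvd (a q : ℕ) (ha : 1 ≤ a) (hq : 1 < q) (h : q ∣ a - 1) : a % q = 1 := by
  obtain ⟨c, hc⟩ := h
  have h3 : a = q * c + 1 := by omega
  rw [h3, Nat.mul_add_mod, Nat.mod_eq_of_lt hq]


/-- Let p and q be odd primes and N = (p ^ q − 1) / (p − 1) = 1 + p + ⋯ + p^(q−1). Then N is odd; if p ≡ 1 (mod q) then q ∣ N; and if p is not ≡ 1 (mod q) then N is coprime to p − 1 and every divisor of N is ≡ 1 (mod q). -/
theorem result (p q : ℕ) (hp : p.Prime) (hq : q.Prime) (hp2 : p ≠ 2) (hq2 : q ≠ 2) : Odd ((p ^ q - 1) / (p - 1)) ∧ (p % q = 1 → q ∣ (p ^ q - 1) / (p - 1)) ∧ (p % q ≠ 1 → Nat.Coprime ((p ^ q - 1) / (p - 1)) (p - 1) ∧ ∀ x : ℕ, x ∣ (p ^ q - 1) / (p - 1) → x % q = 1) := by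
  have hp1 : 2 ≤ p := hp.two_le
  have hq1 : 1 < q := hq.one_lt
  rw [← Nat.geomSum_eq hp1 q]
  set N := ∑ i ∈ Finset.range q, p ^ i with hN
  have hodd : Odd N := by
    rw [← ZMod.natCast_eq_one_iff_odd]
    have h1 : 2 ∣ p - 1 := by
      obtain ⟨c, hc⟩ := hp.odd_of_ne_two hp2
      exact ⟨c, by omega⟩
    rw [hN, cast_sum_of_dvd p q 2 (by omega) h1, ZMod.natCast_eq_one_iff_odd]
    exact hq.odd_of_ne_two hq2
  have hNpos : 0 < N := hodd.pos
  refine ⟨hodd, ?_, ?_⟩
  · intro h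
    have h1 : q ∣ p - 1 := (Nat.modEq_iff_dvd' (by omega)).mp (by
      show 1 % q = p % q
      rw [h, Nat.mod_eq_of_lt hq1])
    rw [← ZMod.natCast_eq_zero_iff, hN, cast_sum_of_dvd p q q (by omega) h1]
    simp
  · intro h
    have hcop : Nat.Coprime N (p - 1) := by
      refine Nat.coprime_of_dvd ?_
      intro r hr h1 h2
      have h3 : ((N : ℕ) : ZMod r) = 0 := (ZMod.natCast_eq_zero_iff _ _).mpr h1
      rw [hN, cast_sum_of_dvd p q r (by omega) h2, ZMod.natCast_eq_zero_iff] at h3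
      have h4 : r = q := (Nat.prime_dvd_prime_iff_eq hr hq).mp h3
      rw [h4] at h2
      exact h (mod_one_of_dvd p q (by omega) hq1 h2)
    refine ⟨hcop, ?_⟩
    intro x
    induction x using Nat.recOnMul with
    | zero =>
      intro h0
      rw [zero_dvd_iff] at h0
      omega
    | one => intro _; exact Nat.mod_eq_of_lt hq1
    | prime r hr =>
      intro hrN
      have : Fact r.Prime := ⟨hr⟩
      have h1 : ((N : ℕ) : ZMod r) = 0 := (ZMod.natCast_eq_zero_iff _ _).mpr hrN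
      have h2 : (p : ZMod r) ^ q = 1 := by
        have h3 := geom_sum_mul (p : ZMod r) q
        have h4 : ∑ i ∈ Finset.range q, (p : ZMod r) ^ i = 0 := by
          rw [← h1, hN]; push_cast; rfl
        rw [h4, zero_mul] at h3
        exact (sub_eq_zero.mp h3.symm)
      have h5 : orderOf (p : ZMod r) ∣ q := orderOf_dvd_of_pow_eq_one h2
      have hne0 : (p : ZMod r) ≠ 0 := by
        intro h0
        rw [h0, zero_pow hq.ne_zero] at h2
        exact zero_ne_one h2
      rcases (Nat.dvd_prime hq).mp h5 with h6 | h6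
      · exfalso
        rw [orderOf_eq_one_iff] at h6
        have h7 : r ∣ p - 1 := by
          rw [← ZMod.natCast_eq_zero_iff, Nat.cast_sub (by omega), h6]
          simp
        have h8 := Nat.dvd_gcd hrN h7
        rw [Nat.Coprime.gcd_eq_one hcop, Nat.dvd_one] at h8
        exact hr.one_lt.ne' h8
      · have h7 : q ∣ r - 1 := by
          rw [← h6]
          exact orderOf_dvd_of_pow_eq_one (ZMod.pow_card_sub_one_eq_one hne0)
        exact mod_one_of_dvd r q hr.one_lt.le hq1 h7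
    | mul a b iha ihb =>
      intro hab
      have ha := iha (dvd_trans (Dvd.intro _ rfl) hab)
      have hb := ihb (dvd_trans (Dvd.intro_left _ rfl) hab)
      rw [Nat.mul_mod, ha, hb, Nat.mod_eq_of_lt hq1]

end Cfsg.Agent.S1546
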