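import Cfsg.Statements.S1552
import Cfsg.Agent.Lib.Helper3_Bfs2

set_option autoImplicit false
open scoped Pointwise
open Cfsg

namespace Cfsg.Agent.S1552

/-- A sextet stabiliser has four orbits on the 1771 sextets, of sizes 1, 90, 240, 1440; and the stabiliser is a maximal proper subgroup. -/
def gens : List ℕ := [689730463470616958177692653115282125, 426484765170459393181018695807706767]

def Y0 : List ℕ := [147496, 268544, 1082880, 2621632, 4268048, 8388615]

def C0 : List ℕ := []

def p0 : ℕ := 64

def Y1 : List ℕ := [43, 297984, 1053440, 2162768, 4726912, 8536068]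

def C1 : List ℕ := [3, 15, 119, 4093, 1441743, 3038470111, 2199397005557, 1216757836]

def p1 : ℕ := 1049

def Y2 : List ℕ := [15, 5264, 622848, 3416064, 4196928, 8536096]

def C2 : List ℕ := [3, 15, 255, 65279, 804257663, 17732648652652031, 9512684785098965865970917311, 841560464566242940098303060293400338, 713170213695943908998139365190]

def p2 : ℕ := 7207

def Y3 : List ℕ := [27, 5252, 57856, 2162784, 4587776, 9963520]

def C3 : List ℕ := [3, 15, 255, 65535, 4294967295, 18446744073709551615, 295088574251225138604585574370425960447, 436533297518863386933483323873821659937000914848561417272264727130275839, 610698765446271086137193101004343258467238929661154068523167042600621866535177788439001449312167131657609115635499235475431, 164047622128417498611592958359704906710117187196276834550073378447716994995342237617386797208296918417516371745513042326509345939943739757173832086817230980634141910754092627346115640787, 43607366544297046500672661848557298522292086566339858934237438256643540254076595060873181843344805760164993959562390354054693603676689623226768507993745504774709048962172802844326550343534546102520603437596953556638,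 422267388418792837642243221171161700977516926046219221591905718256246033723334307692576385590645798699596247748606369798822569860100641864094733665419920, 524320]

def p3 : ℕ := 259423

open Cfsg.Agent.Lib.Helper3_Sext Cfsg.Agent.Lib.Helper3_Orb Cfsg.Agent.Lib.Helper3_Orb2
open Cfsg.Agent.Lib.Helper3_Bfs Cfsg.Agent.Lib.Helper3_Bfs2

def YL : Fin 4 → List ℕ := ![Y0, Y1, Y2, Y3]
def nL : Fin 4 → ℕ := ![1, 90, 240, 1440]

theorem c0 : chkS (inStS S0L) gens Y0 C0 4 p0 1 = true := by decide +kernel
theorem c1 : chkS (inStS S0L) gens Y1 C1 4 p1 90 = true := by decide +kernel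
theorem c2 : chkS (inStS S0L) gens Y2 C2 4 p2 240 = true := by decide +kernel
theorem c3 : chkS (inStS S0L) gens Y3 C3 4 p3 1440 = true := by decide +kernel
theorem hsx : ∀ i : Fin 4, isSext (YL i) = true := by decide +kernel
theorem hvl : ∀ i : Fin 4, validL (YL i) = true := by decide +kernel
theorem hinj : Function.Injective fun i => cInvL (fun k => k * k) S0L (YL i) := by decide +kernel

theorem hle : ∀ i, nL i ≤ (MulAction.orbit (MulAction.stabilizer M24 (decS S0L)) (decS (YL i))).ncard := by
  intro i
  fin_cases i
  · exact chkS_le (sound_inStS S0L) c0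
  · exact chkS_le (sound_inStS S0L) c1
  · exact chkS_le (sound_inStS S0L) c2
  · exact chkS_le (sound_inStS S0L) c3

theorem dec0 : OrbDec M24 (decS S0L) sextets nL := by
  obtain ⟨h1, h2⟩ := orbDec_sys' (decS S0L) S0L (by decide +kernel) (fun g hg => hg)
    sextets (fun g z hz => smul_mem_sextets g.2 hz) YL nL (fun k => k * k)
    (fun i => decS_mem_sextets (hsx i)) hvl hle hinj (by rw [ncard_sextets]; decide +kernel)
  exact ⟨fun i => decS (YL i), fun i => decS_mem_sextets (hsx i), h1, h2⟩

theorem result (S : Finset (Finset Cfsg.GolayPt)) (hS : S ∈ Cfsg.sextets) : ∃ X₁ ∈ Cfsg.sextets, ∃ X₂ ∈ Cfsg.sextets, ∃ X₃ ∈ Cfsg.sextets, (MulAction.orbit ↥(MulAction.stabilizer Cfsg.M24 S) X₁).ncard = 90 ∧ (MulAction.orbit ↥(MulAction.stabilizer Cfsg.M24 S) X₂).ncard = 240 ∧ (MulAction.orbit ↥(MulAction.stabilizer Cfsg.M24 S) X₃).ncard = 1440 ∧ Cfsg.sextets = {S} ∪ MulAction.orbit ↥(MulAction.stabilizer Cfsg.M24 S) X₁ ∪ MulAction.orbit ↥(MulAction.stabilizer Cfsg.M24 S) X₂ ∪ MulAction.orbit ↥(MulAction.stabilizer Cfsg.M24 S) X₃ ∧ IsCoatom (MulAction.stabilizer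 Cfsg.M24 S) := by
  obtain ⟨g, hg, rfl⟩ := trans_sextets S0_mem hS
  have hB : ∀ g : M24, ∀ z ∈ sextets, g • z ∈ sextets := fun g z hz => smul_mem_sextets g.2 hz
  have h1 : OrbDec M24 (g • decS S0L) sextets nL := dec0.smul hB ⟨g, hg⟩
  have hco : IsCoatom (MulAction.stabilizer Cfsg.M24 (g • decS S0L)) := by
    apply isCoatom_of_orbDec (n := nL)
    · rw [orbit_sextets hS]; exact h1
    · decide +kernel
    · decide +kernel
    · norm_num
    · rw [orbit_sextets hS, ncard_sextets]; decide +kernel
  obtain ⟨y, hy, hn, hU⟩ := h1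
  have hs := orbit_eq_singleton hn hU hS 0 (by decide +kernel)
  refine ⟨y 1, hy 1, y 2, hy 2, y 3, hy 3, hn 1, hn 2, hn 3, ?_, hco⟩
  rw [← hs, hU, iUnion_fin4]

end Cfsg.Agent.S1552
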