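import Cfsg.Statements.S1553
import Cfsg.Agent.Lib.Helper3_Oct8

set_option autoImplicit false
open scoped Pointwise
open Cfsg

namespace Cfsg.Agent.S1553

/-- The stabiliser of an octad in the group of the length-24 code induces on the octad exactly its alternating group. -/
theorem result (o : Finset Cfsg.GolayPt) (ho : o ∈ Cfsg.octads) : {e : Equiv.Perm ↥o | ∃ g : Equiv.Perm Cfsg.GolayPt, g ∈ Cfsg.M24 ∧ ∃ h : (∀ x, g x ∈ o ↔ x ∈ o), g.subtypePerm h = e} = (alternatingGroup ↥o : Set (Equiv.Perm ↥o)) := by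
  rw [← Cfsg.Agent.Lib.Helper3_Oct8.range_res_octad ho]
  ext e
  simp only [Set.mem_ofPred_eq, SetLike.mem_coe, MonoidHom.mem_range]
  constructor
  · rintro ⟨g, hg, h, rfl⟩
    have hst : (⟨g, hg⟩ : Cfsg.M24) ∈ MulAction.stabilizer Cfsg.M24 o := by
      rw [MulAction.mem_stabilizer_iff]
      change g • o = o
      ext y
      rw [← Finset.inv_smul_mem_iff, Equiv.Perm.smul_def, ← h (g⁻¹ y)]
      simp
    refine ⟨⟨⟨g, hg⟩, hst⟩, ?_⟩
    ext x
    rfl
  · rintro ⟨⟨⟨g, hg⟩, hst⟩, rfl⟩
    have hgo : g • o = o := hst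
    refine ⟨g, hg, ?_, ?_⟩
    · intro x
      constructor
      · intro hx
        have h2 : g • x ∈ g • o := by rw [hgo]; exact hx
        exact (Finset.smul_mem_smul_finset_iff g).mp h2
      · intro hx
        have := Finset.smul_mem_smul_finset (a := g) hx
        rwa [hgo] at this
    · ext x
      rfl

end Cfsg.Agent.S1553
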