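import Cfsg.Statements.S1554
import Cfsg.Agent.Lib.Helper3_Oct8b

set_option autoImplicit false
open scoped Pointwise
open Cfsg

namespace Cfsg.Agent.S1554

/-- An octad stabiliser is a split extension: the joint stabiliser of the octad and a point outside it is a complement to the pointwise stabiliser of the octad, and is isomorphic to the alternating group of degree 8. -/
theorem result (o : Finset Cfsg.GolayPt) (ho : o ∈ Cfsg.octads) (p : Cfsg.GolayPt) (hp : p ∉ o) : (Cfsg.M24 ⊓ fixingSubgroup (Equiv.Perm Cfsg.GolayPt) (o : Set Cfsg.GolayPt)) ⊓ (Cfsg.M24 ⊓ MulAction.stabilizer (Equiv.Perm Cfsg.GolayPt) o ⊓ MulAction.stabilizer (Equiv.Perm Cfsg.GolayPt) p) = ⊥ ∧ (Cfsg.M24 ⊓ fixingSubgroup (Equiv.Perm Cfsg.GolayPt) (o : Set Cfsg.GolayPt)) ⊔ (Cfsg.M24 ⊓ MulAction.stabilizer (Equiv.Perm Cfsg.GolayPt) o ⊓ MulAction.stabilizer (Equiv.Perm Cfsg.GolayPt) p) = (Cfsg.M24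 ⊓ MulAction.stabilizer (Equiv.Perm Cfsg.GolayPt) o) ∧ Nonempty (↥(Cfsg.M24 ⊓ MulAction.stabilizer (Equiv.Perm Cfsg.GolayPt) o ⊓ MulAction.stabilizer (Equiv.Perm Cfsg.GolayPt) p) ≃* alternatingGroup (Fin 8)) := by
  have hHmem : ∀ g : Equiv.Perm Cfsg.GolayPt, g ∈ (Cfsg.M24 ⊓ MulAction.stabilizer (Equiv.Perm Cfsg.GolayPt) o ⊓ MulAction.stabilizer (Equiv.Perm Cfsg.GolayPt) p) ↔ g ∈ Cfsg.M24 ∧ g • o = o ∧ g p = p := by
    intro g
    rw [Subgroup.mem_inf, Subgroup.mem_inf, MulAction.mem_stabilizer_iff,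
      MulAction.mem_stabilizer_iff, and_assoc]
    rfl
  have hSmem : ∀ g : Equiv.Perm Cfsg.GolayPt, g ∈ (Cfsg.M24 ⊓ MulAction.stabilizer (Equiv.Perm Cfsg.GolayPt) o) ↔ g ∈ Cfsg.M24 ∧ g • o = o := by
    intro g
    rw [Subgroup.mem_inf]
    exact Iff.rfl
  have h1 : (Cfsg.M24 ⊓ fixingSubgroup (Equiv.Perm Cfsg.GolayPt) (o : Set Cfsg.GolayPt)) ⊓ (Cfsg.M24 ⊓ MulAction.stabilizer (Equiv.Perm Cfsg.GolayPt) o ⊓ MulAction.stabilizer (Equiv.Perm Cfsg.GolayPt) p) = ⊥ := by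
    rw [eq_bot_iff]
    intro g hg
    obtain ⟨hgT, hgH⟩ := Subgroup.mem_inf.mp hg
    rw [Cfsg.Agent.Lib.Helper3_Oct8b.mem_T_iff] at hgT
    rw [hHmem] at hgH
    exact Subgroup.mem_bot.mpr
      (Cfsg.Agent.Lib.Helper3_Oct8b.eq_one_of_fix9 ho hp hgT.1 hgT.2 hgH.2.2)
  have hdec : ∀ g ∈ (Cfsg.M24 ⊓ MulAction.stabilizer (Equiv.Perm Cfsg.GolayPt) o),
      ∃ t ∈ (Cfsg.M24 ⊓ fixingSubgroup (Equiv.Perm Cfsg.GolayPt) (o : Set Cfsg.GolayPt)),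
      ∃ h ∈ (Cfsg.M24 ⊓ MulAction.stabilizer (Equiv.Perm Cfsg.GolayPt) o ⊓ MulAction.stabilizer (Equiv.Perm Cfsg.GolayPt) p), g = t * h := by
    intro g hg
    rw [hSmem] at hg
    have hq : g p ∉ o := by
      intro h
      have h2 : g • p ∈ g • o := by rw [hg.2]; exact h
      exact hp ((Finset.smul_mem_smul_finset_iff g).mp h2)
    obtain ⟨t, ht, htp⟩ := Cfsg.Agent.Lib.Helper3_Oct8b.exists_T_map ho hp hq
    have ht' := Cfsg.Agent.Lib.Helper3_Oct8b.mem_T_iff.mp ht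
    refine ⟨t, ht, t⁻¹ * g, ?_, by group⟩
    rw [hHmem]
    refine ⟨Cfsg.M24.mul_mem (Cfsg.M24.inv_mem ht'.1) hg.1, ?_, ?_⟩
    · rw [mul_smul, hg.2, inv_smul_eq_iff,
        Cfsg.Agent.Lib.Helper3_Oct8.smul_eq_of_fix ht'.2]
    · rw [Equiv.Perm.mul_apply, ← htp]
      simp
  have h2 : (Cfsg.M24 ⊓ fixingSubgroup (Equiv.Perm Cfsg.GolayPt) (o : Set Cfsg.GolayPt)) ⊔ (Cfsg.M24 ⊓ MulAction.stabilizer (Equiv.Perm Cfsg.GolayPt) o ⊓ MulAction.stabilizer (Equiv.Perm Cfsg.GolayPt) p) = (Cfsg.M24 ⊓ MulAction.stabilizer (Equiv.Perm Cfsg.GolayPt) o) := by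
    apply le_antisymm
    · apply sup_le
      · intro t ht
        have ht' := Cfsg.Agent.Lib.Helper3_Oct8b.mem_T_iff.mp ht
        rw [hSmem]
        exact ⟨ht'.1, Cfsg.Agent.Lib.Helper3_Oct8.smul_eq_of_fix ht'.2⟩
      · exact inf_le_left
    · intro g hg
      obtain ⟨t, ht, h, hh, rfl⟩ := hdec g hg
      exact Subgroup.mul_mem_sup ht hh
  refine ⟨h1, h2, ?_⟩
  have hK : ∀ g ∈ (Cfsg.M24 ⊓ MulAction.stabilizer (Equiv.Perm Cfsg.GolayPt) o ⊓ MulAction.stabilizer (Equiv.Perm Cfsg.GolayPt) p), g • o = o := fun g hg => ((hHmem g).mp hg).2.1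
  have hinj : Function.Injective (Cfsg.Agent.Lib.Helper3_M24j.resHom _ o hK) := by
    rw [← MonoidHom.ker_eq_bot_iff, eq_bot_iff]
    intro g hg
    rw [Cfsg.Agent.Lib.Helper3_M24j.mem_ker_resHom] at hg
    have hg2 := (hHmem g.1).mp g.2
    exact Subgroup.mem_bot.mpr (Subtype.ext
      (Cfsg.Agent.Lib.Helper3_Oct8b.eq_one_of_fix9 ho hp hg2.1 hg hg2.2.2))
  have hrange : (Cfsg.Agent.Lib.Helper3_M24j.resHom _ o hK).range = alternatingGroup o := by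
    rw [← Cfsg.Agent.Lib.Helper3_Oct8.range_res_octad ho]
    ext e
    constructor
    · rintro ⟨g, rfl⟩
      have hg2 := (hHmem g.1).mp g.2
      exact ⟨⟨⟨g.1, hg2.1⟩, hg2.2.1⟩, rfl⟩
    · rintro ⟨⟨⟨g, hg⟩, hst⟩, rfl⟩
      have hgo : g • o = o := hst
      obtain ⟨t, ht, h, hh, rfl⟩ := hdec g ((hSmem g).mpr ⟨hg, hgo⟩)
      refine ⟨⟨h, hh⟩, ?_⟩
      apply Equiv.ext
      intro x
      apply Subtype.ext
      have ht' := Cfsg.Agent.Lib.Helper3_Oct8b.mem_T_iff.mp ht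
      have hx : h x.1 ∈ o := Cfsg.Agent.Lib.Helper3_M24j.smul_mem_of_smul_eq (hK h hh) x.2
      exact (ht'.2 _ hx).symm
  have e8 : o ≃ Fin 8 := Fintype.equivFinOfCardEq (by rw [Fintype.card_coe, ho.2])
  exact ⟨((MonoidHom.ofInjective hinj).trans (MulEquiv.subgroupCongr hrange)).trans
    (Equiv.altCongrHom e8)⟩

end Cfsg.Agent.S1554
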