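import Cfsg.Statements.S1559
import Cfsg.Agent.Lib.Helper3_Orb3

set_option autoImplicit false
open scoped Pointwise
open Cfsg

namespace Cfsg.Agent.S1559


open Cfsg.Agent.Lib.Helper3_Sext Cfsg.Agent.Lib.Helper3_Orb Cfsg.Agent.Lib.Helper3_Orb2
open Cfsg.Agent.Lib.Helper3_Bfs Cfsg.Agent.Lib.Helper3_Bfs2 Cfsg.Agent.Lib.Helper3_Orb3
open Cfsg.Agent.Lib.Helper3_Golay2 Cfsg.Agent.Lib.Helper3_Golay3 Cfsg.Agent.Lib.Helper3_M24a
open Cfsg.Agent.Lib.Helper3_M24d

def Tgens : List ℕ := [96895742070312837714328004976622321, 458318012775438930768177878210854153]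

def TY0 : List ℕ := [1351424, 6889680, 8536111]

def TC0 : List ℕ := []

def Tp0 : ℕ := 64

def TY1 : List ℕ := [52005, 6889680, 9835530]

def TC1 : List ℕ := [3, 15, 127, 16190, 1837979, 2101584, 8]

def Tp1 : ℕ := 283

def TY2 : List ℕ := [52005, 3421328, 13303882]

def TC2 : List ℕ := [3, 15, 123, 1998, 53663, 438502, 155931, 805, 3]

def Tp2 : ℕ := 661

def TY3 : List ℕ := [5279, 4038912, 12733024]

def TC3 : List ℕ := [2, 3, 7, 63, 3966, 520159, 17045519351, 1116608620188917551, 157208627325670521353943375230, 90584924523213678942788087911060608756789279711, 381298722972724468629411032009568789843333656020466040466690598815896828919, 3367998094537078678868234288867327383344027279772544607956527496348425680660859497601630233008526826852537275, 44781383240012644301917785772435702244438059913352372398852599801849525905040077449562421297418991793083442129346462752349841756, 931893550410239238474230696025344469372886425850250278625936921001067841789865675524334499265945258299700, 785403964716604003672513592393550878429189742777019172928, 65536]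

def Tp3 : ℕ := 127531

def TY4 : List ℕ := [5279, 1009728, 15762208]

def TC4 : List ℕ := [3, 15, 127, 16254, 16248799, 2181709036535, 4685436682112686088127, 82380809477145516769078237012999143294, 610586042216625516083289573668406626421034567111520224804335583, 528639972576839272532439336034663699568023732679633062423151548703469481722218521538260829707557815, 218398065940293063465421856373470922644709108245404909758572422700992889312004436211783335623428199992183895174712333677385396441069064172471010154472650831807, 790120169241749581334957082263800355967885795687932294050747543426265810835910830826814662130739035464939256567538067983062400225718658243804635909636833460848014286548524514259659052784460985443936528420983242138541999126780060876134973041214, 649822003022172569065164552293870678940120171906743574144675423749902658644609545473141548008964938152463350020104580117219924589378645190776966666708286797177270946552451436139928731881478768974068161662930873945007038578533176256677387077927014990184597444114007569500538956129606672845808431205856718050312002783, 58292156540186017630478717035457667660382911151554490733430169074415375005683406604632467083315322290661372617938083748395607344854749786114140419980283485633577375040218717823981988772924573975735187978299298679072800607509641173799537073224314293158365746766097960448475815714305447153964484172402197388636845125282952366635271,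 1631617667419906115964854536479441622041532556125527012382084994915995938780155707655966658425730322231812367338007350352597307267670469481349301128826114921058833895370547125457006931939492084317261741910202816504677941431501056, 411376139330488948123740873638955255154804592745429468872441860]

def Tp4 : ℕ := 903265

def TYL : Fin 5 → List ℕ := ![TY0, TY1, TY2, TY3, TY4]

def TnL : Fin 5 → ℕ := ![1, 42, 56, 1008, 2688]

theorem Tc0 : chkS (inStS T0L) Tgens TY0 TC0 4 Tp0 1 = true := by decide +kernel

theorem Tc1 : chkS (inStS T0L) Tgens TY1 TC1 4 Tp1 42 = true := by decide +kernel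

theorem Tc2 : chkS (inStS T0L) Tgens TY2 TC2 4 Tp2 56 = true := by decide +kernel

theorem Tc3 : chkS (inStS T0L) Tgens TY3 TC3 4 Tp3 1008 = true := by decide +kernel

theorem Tc4 : chkS (inStS T0L) Tgens TY4 TC4 4 Tp4 2688 = true := by decide +kernel

theorem Thm : ∀ i : Fin 5, isTrio (TYL i) = true := by decide +kernel

theorem Thvl : ∀ i : Fin 5, validL (TYL i) = true := by decide +kernel

theorem Thinj : Function.Injective fun i => cInvL (fun k => k * k) T0L (TYL i) := by decide +kernel

theorem Thle : ∀ i, TnL i ≤ (MulAction.orbit (MulAction.stabilizer M24 (decS T0L)) (decS (TYL i))).ncard := by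
  intro i
  fin_cases i
  · exact chkS_le (sound_inStS T0L) Tc0
  · exact chkS_le (sound_inStS T0L) Tc1
  · exact chkS_le (sound_inStS T0L) Tc2
  · exact chkS_le (sound_inStS T0L) Tc3
  · exact chkS_le (sound_inStS T0L) Tc4

theorem Tdec0 : OrbDec M24 (decS T0L) trios TnL := by
  obtain ⟨h1, h2⟩ := orbDec_sys' (decS T0L) T0L (by decide +kernel) (fun g hg => hg)
    trios (fun g z hz => smul_mem_trios g.2 hz) TYL TnL (fun k => k * k)
    (fun i => decS_mem_trios (Thm i)) Thvl Thle Thinj (by rw [ncard_trios]; decide +kernel)
  exact ⟨fun i => decS (TYL i), fun i => decS_mem_trios (Thm i), h1, h2⟩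

/-- A trio stabiliser has five orbits on the 3795 trios, of sizes 1, 42, 56, 1008, 2688; and the stabiliser is a maximal proper subgroup. -/
theorem result (T : Finset (Finset Cfsg.GolayPt)) (hT : T ∈ Cfsg.trios) : ∃ X₁ ∈ Cfsg.trios, ∃ X₂ ∈ Cfsg.trios, ∃ X₃ ∈ Cfsg.trios, ∃ X₄ ∈ Cfsg.trios, (MulAction.orbit ↥(MulAction.stabilizer Cfsg.M24 T) X₁).ncard = 42 ∧ (MulAction.orbit ↥(MulAction.stabilizer Cfsg.M24 T) X₂).ncard = 56 ∧ (MulAction.orbit ↥(MulAction.stabilizer Cfsg.M24 T) X₃).ncard = 1008 ∧ (MulAction.orbit ↥(MulAction.stabilizer Cfsg.M24 T) X₄).ncard = 2688 ∧ Cfsg.trios = {T} ∪ MulAction.orbit ↥(MulAction.stabilizer Cfsg.M24 T) X₁ ∪ MulAction.orbit ↥(MulAction.stabilizer Cfsg.M24 T) X₂ ∪ MulAction.orbit ↥(MulAction.stabilizer Cfsg.M24 T) X₃ ∪ MulAction.orbit ↥(MulAction.stabilizer Cfsg.M24 T) X₄ ∧ IsCoatom (MulAction.stabilizer Cfsg.M24 T) := by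
  obtain ⟨g, hg, rfl⟩ := trans_trios T0_mem hT
  have hB : ∀ g : M24, ∀ z ∈ trios, g • z ∈ trios := fun g z hz => smul_mem_trios g.2 hz
  have h1 : OrbDec M24 (g • decS T0L) trios TnL := Tdec0.smul hB ⟨g, hg⟩
  have hco : IsCoatom (MulAction.stabilizer Cfsg.M24 (g • decS T0L)) := by
    apply isCoatom_of_orbDec (n := TnL)
    · rw [orbit_trios hT]; exact h1
    · decide +kernel
    · decide +kernel
    · norm_num
    · rw [orbit_trios hT, ncard_trios]; decide +kernel
  obtain ⟨y, hy, hn, hU⟩ := h1
  have hs := orbit_eq_singleton hn hU hT 0 (by decide +kernel)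
  refine ⟨y 1, hy 1, y 2, hy 2, y 3, hy 3, y 4, hy 4, hn 1, hn 2, hn 3, hn 4, ?_, hco⟩
  rw [← hs, hU, iUnion_fin5]

end Cfsg.Agent.S1559
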