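import Cfsg.Statements.S1562
import Cfsg.Agent.Lib.Helper3_M24i

set_option autoImplicit false
open scoped Pointwise
open Cfsg

namespace Cfsg.Agent.S1562

/-- Orbits of a triad stabiliser on the triads disjoint from it: the 210 triads inside a common octad with it form one orbit and the remaining 1120 another. -/
theorem result (T : Finset Cfsg.GolayPt) (hT : T.card = 3) : {U : Finset Cfsg.GolayPt | U.card = 3 ∧ Disjoint T U ∧ (∃ o ∈ Cfsg.octads, T ∪ U ⊆ o)}.ncard = 210 ∧ {U : Finset Cfsg.GolayPt | U.card = 3 ∧ Disjoint T U ∧ ¬ (∃ o ∈ Cfsg.octads, T ∪ U ⊆ o)}.ncard = 1120 ∧ ∀ U U' : Finset Cfsg.GolayPt, U.card = 3 → U'.card = 3 → Disjoint T U → Disjoint T U' → ((∃ o ∈ Cfsg.octads, T ∪ U ⊆ o) ↔ (∃ o ∈ Cfsg.octads, T ∪ U' ⊆ o)) → ∃ g : Equiv.Perm Cfsg.GolayPt, g ∈ Cfsg.M24 ∧ g • T = T ∧ g • U = U' := by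
  have hl : Cfsg.Agent.Lib.Helper3_Steiner.lam 24 8 5 3 = 21 := by decide
  refine ⟨?_, ?_, ?_⟩
  · have := Cfsg.Agent.Lib.Helper3_M24i.count_ext T 3 (by omega) (by omega)
    rw [this, hT, hl]; rfl
  · have := Cfsg.Agent.Lib.Helper3_M24i.count_nonext T 3 (by omega) (by omega)
    rw [hT, hl] at this
    have e1 : Nat.choose (8 - 3) 3 = 10 := by decide
    have e2 : Nat.choose (24 - 3) 3 = 1330 := by decide
    rw [e1, e2] at this
    omega
  · intro U U' hU hU' hd hd' hiff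
    have h0 : ∀ V : Finset Cfsg.GolayPt, Disjoint T V → (T ∩ V).card = 0 := by
      intro V hV
      rw [Finset.disjoint_iff_inter_eq_empty.mp hV]; rfl
    exact Cfsg.Agent.Lib.Helper3_M24i.pair_equiv (by omega) (by rw [h0 U hd, h0 U' hd'])
      (by rw [Finset.card_union_of_disjoint hd]; omega) (fun _ => hiff)

end Cfsg.Agent.S1562
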