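import Cfsg.Statements.S1563
import Cfsg.Agent.Lib.Helper3_M24i

set_option autoImplicit false
open scoped Pointwise
open Cfsg

namespace Cfsg.Agent.S1563

/-- The stabiliser of a pair of points (setwise) is a maximal proper subgroup of the group of the length-24 code. -/
theorem result (s : Finset Cfsg.GolayPt) (hs : s.card = 2) : IsCoatom (MulAction.stabilizer Cfsg.M24 s) := by
  classical
  have horb : MulAction.orbit Cfsg.M24 s = {x : Finset Cfsg.GolayPt | x.card = 2} := by
    ext x
    constructor
    · rintro ⟨g, rfl⟩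
      show ((g : Equiv.Perm Cfsg.GolayPt) • s).card = 2
      rw [Finset.card_smul_finset, hs]
    · intro hx
      obtain ⟨g, hg, _, h2⟩ := Cfsg.Agent.Lib.Helper3_M24i.pair_equiv (s := ∅) (x := s) (y := x)
        (by rw [hs]; exact hx.symm) (by simp) (by simp [hs]) (by simp [hs])
      exact ⟨⟨g, hg⟩, h2⟩
  have hle : ∀ x : Finset Cfsg.GolayPt, (s ∩ x).card < 3 := by
    intro x
    have : (s ∩ x).card ≤ s.card := Finset.card_le_card Finset.inter_subset_left
    omega
  apply Cfsg.Agent.Lib.Helper3_Coatom.isCoatom_stabilizer_of_classes s (k := 3)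
    (fun x => ⟨(s ∩ x).card, hle x⟩) ![231, 44, 1]
  · intro i
    rw [horb]
    have := Cfsg.Agent.Lib.Helper3_M24i.ncard_inter s 2 i (by omega)
    rw [hs] at this
    have e : {x : Finset Cfsg.GolayPt | x ∈ {x : Finset Cfsg.GolayPt | x.card = 2} ∧
        (⟨(s ∩ x).card, hle x⟩ : Fin 3) = i} =
        {x : Finset Cfsg.GolayPt | x.card = 2 ∧ (s ∩ x).card = (i : ℕ)} := by
      ext x
      simp only [Set.mem_ofPred_eq, Fin.ext_iff]
    rw [e, this]
    fin_cases i <;> rfl
  · intro x hx y hy hxy
    rw [horb] at hx hy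
    simp only [Fin.ext_iff] at hxy
    have hx' : x.card = 2 := hx
    have hy' : y.card = 2 := hy
    obtain ⟨g, hg, h1, h2⟩ := Cfsg.Agent.Lib.Helper3_M24i.pair_equiv (s := s) (x := x) (y := y)
      (by omega) hxy
      (by have := Finset.card_union_le s x; omega)
      (by intro h; have := Finset.card_union_le s x; omega)
    exact ⟨⟨g, hg⟩, h1, h2⟩
  · decide +kernel
  · decide +kernel

end Cfsg.Agent.S1563
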