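import Cfsg.Statements.S1564
import Cfsg.Agent.Lib.Helper3_M24i

set_option autoImplicit false
open scoped Pointwise
open Cfsg

namespace Cfsg.Agent.S1564

/-- The stabiliser of a set of three points (setwise) is a maximal proper subgroup of the group of the length-24 code. -/
theorem result (s : Finset Cfsg.GolayPt) (hs : s.card = 3) : IsCoatom (MulAction.stabilizer Cfsg.M24 s) := by
  classical
  have horb : MulAction.orbit Cfsg.M24 s = {x : Finset Cfsg.GolayPt | x.card = 3} := by
    ext x
    constructor
    · rintro ⟨g, rfl⟩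
      show ((g : Equiv.Perm Cfsg.GolayPt) • s).card = 3
      rw [Finset.card_smul_finset, hs]
    · intro hx
      obtain ⟨g, hg, _, h2⟩ := Cfsg.Agent.Lib.Helper3_M24i.pair_equiv (s := ∅) (x := s) (y := x)
        (by rw [hs]; exact hx.symm) (by simp) (by simp [hs]) (by simp [hs])
      exact ⟨⟨g, hg⟩, h2⟩
  have hle : ∀ x : Finset Cfsg.GolayPt, (s ∩ x).card < 5 := by
    intro x
    have : (s ∩ x).card ≤ s.card := Finset.card_le_card Finset.inter_subset_left
    omega
  have hl : Cfsg.Agent.Lib.Helper3_Steiner.lam 24 8 5 3 = 21 := by decide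
  have hdj : ∀ x : Finset Cfsg.GolayPt, (s ∩ x).card = 0 ↔ Disjoint s x := by
    intro x
    rw [Finset.card_eq_zero, Finset.disjoint_iff_inter_eq_empty]
  apply Cfsg.Agent.Lib.Helper3_Coatom.isCoatom_stabilizer_of_classes s (k := 5)
    (fun x => if (s ∩ x).card = 0 ∧ ¬ (∃ o ∈ Cfsg.octads, s ∪ x ⊆ o) then 4
      else ⟨(s ∩ x).card, hle x⟩) ![210, 630, 63, 1, 1120]
  · intro i
    rw [horb]
    have hle3 : ∀ x : Finset Cfsg.GolayPt, (s ∩ x).card ≤ 3 := by
      intro x
      have : (s ∩ x).card ≤ s.card := Finset.card_le_card Finset.inter_subset_left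
      omega
    by_cases hi0 : i = 0
    · subst hi0
      have := Cfsg.Agent.Lib.Helper3_M24i.count_ext s 3 (by omega) (by omega)
      rw [hs, hl] at this
      have e : {x : Finset Cfsg.GolayPt | x ∈ {x : Finset Cfsg.GolayPt | x.card = 3} ∧
          (if (s ∩ x).card = 0 ∧ ¬ (∃ o ∈ Cfsg.octads, s ∪ x ⊆ o) then (4 : Fin 5)
            else ⟨(s ∩ x).card, hle x⟩) = 0} =
          {U : Finset Cfsg.GolayPt | U.card = 3 ∧ Disjoint s U ∧ ∃ o ∈ Cfsg.octads, s ∪ U ⊆ o} := by
        ext x
        simp only [Set.mem_ofPred_eq]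
        rw [← hdj]
        split_ifs with h
        · simp only [Fin.ext_iff]
          constructor
          · rintro ⟨_, h2⟩; exact absurd h2 (by decide)
          · rintro ⟨_, _, h2⟩; exact absurd h2 h.2
        · simp only [Fin.ext_iff]
          constructor
          · rintro ⟨h1, h2⟩
            refine ⟨h1, h2, ?_⟩
            by_contra hc
            exact h ⟨h2, hc⟩
          · rintro ⟨h1, h2, _⟩; exact ⟨h1, h2⟩
      rw [e, this]; rfl
    · by_cases hi4 : i = 4
      · subst hi4
        have := Cfsg.Agent.Lib.Helper3_M24i.count_nonext s 3 (by omega) (by omega)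
        rw [hs, hl] at this
        have e : {x : Finset Cfsg.GolayPt | x ∈ {x : Finset Cfsg.GolayPt | x.card = 3} ∧
            (if (s ∩ x).card = 0 ∧ ¬ (∃ o ∈ Cfsg.octads, s ∪ x ⊆ o) then (4 : Fin 5)
              else ⟨(s ∩ x).card, hle x⟩) = 4} =
            {U : Finset Cfsg.GolayPt | U.card = 3 ∧ Disjoint s U ∧
              ¬ ∃ o ∈ Cfsg.octads, s ∪ U ⊆ o} := by
          ext x
          simp only [Set.mem_ofPred_eq]
          rw [← hdj]
          split_ifs with h
          · constructor
            · rintro ⟨h1, _⟩; exact ⟨h1, h.1, h.2⟩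
            · rintro ⟨h1, _, _⟩; exact ⟨h1, rfl⟩
          · simp only [Fin.ext_iff]
            constructor
            · rintro ⟨_, h2⟩
              have := hle3 x
              have h3 : (s ∩ x).card = 4 := h2
              omega
            · rintro ⟨_, h2, h3⟩; exact absurd ⟨h2, h3⟩ h
        rw [e]
        have e1 : Nat.choose (8 - 3) 3 = 10 := by decide
        have e2 : Nat.choose (24 - 3) 3 = 1330 := by decide
        rw [e1, e2] at this
        show _ = 1120
        omega
      · have hi : (i : ℕ) ≠ 0 ∧ (i : ℕ) ≠ 4 := by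
          constructor
          · intro h; exact hi0 (Fin.ext h)
          · intro h; exact hi4 (Fin.ext h)
        have := Cfsg.Agent.Lib.Helper3_M24i.ncard_inter s 3 i (by omega)
        rw [hs] at this
        have e : {x : Finset Cfsg.GolayPt | x ∈ {x : Finset Cfsg.GolayPt | x.card = 3} ∧
            (if (s ∩ x).card = 0 ∧ ¬ (∃ o ∈ Cfsg.octads, s ∪ x ⊆ o) then (4 : Fin 5)
              else ⟨(s ∩ x).card, hle x⟩) = i} =
            {x : Finset Cfsg.GolayPt | x.card = 3 ∧ (s ∩ x).card = (i : ℕ)} := by
          ext x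
          simp only [Set.mem_ofPred_eq]
          split_ifs with h
          · constructor
            · rintro ⟨_, h2⟩; exact absurd h2.symm hi4
            · rintro ⟨_, h2⟩; exact absurd (h2 ▸ h.1).symm (fun hh => hi.1 hh.symm)
          · simp only [Fin.ext_iff]
        rw [e, this]
        fin_cases i
        · exact absurd rfl hi0
        · rfl
        · rfl
        · rfl
        · exact absurd rfl hi4
  · intro x hx y hy hxy
    rw [horb] at hx hy
    have hx' : x.card = 3 := hx
    have hy' : y.card = 3 := hy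
    have hle3 : ∀ x : Finset Cfsg.GolayPt, (s ∩ x).card ≤ 3 := by
      intro x
      have : (s ∩ x).card ≤ s.card := Finset.card_le_card Finset.inter_subset_left
      omega
    have hkey : (s ∩ x).card = (s ∩ y).card ∧ ((s ∩ x).card = 0 →
        ((∃ o ∈ Cfsg.octads, s ∪ x ⊆ o) ↔ (∃ o ∈ Cfsg.octads, s ∪ y ⊆ o))) := by
      have hxy := hxy
      split_ifs at hxy with h1 h2 h2
      · exact ⟨by rw [h1.1, h2.1], fun _ => iff_of_false h1.2 h2.2⟩
      · have h3 : 4 = (s ∩ y).card := congrArg Fin.val hxy
        have := hle3 y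
        omega
      · have h3 : (s ∩ x).card = 4 := congrArg Fin.val hxy
        have := hle3 x
        omega
      · have h3 : (s ∩ x).card = (s ∩ y).card := congrArg Fin.val hxy
        refine ⟨h3, fun h0 => ?_⟩
        have h0' : (s ∩ y).card = 0 := by omega
        have a1 : ∃ o ∈ Cfsg.octads, s ∪ x ⊆ o := by
          by_contra hc; exact h1 ⟨h0, hc⟩
        have a2 : ∃ o ∈ Cfsg.octads, s ∪ y ⊆ o := by
          by_contra hc; exact h2 ⟨h0', hc⟩
        exact iff_of_true a1 a2
    obtain ⟨g, hg, h1, h2⟩ := Cfsg.Agent.Lib.Helper3_M24i.pair_equiv (s := s) (x := x) (y := y)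
      (by omega) hkey.1
      (by have := Finset.card_union_le s x; omega)
      (by intro h
          apply hkey.2
          have := Finset.card_union_add_card_inter s x
          omega)
    exact ⟨⟨g, hg⟩, h1, h2⟩
  · decide +kernel
  · decide +kernel

end Cfsg.Agent.S1564
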