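import Cfsg.Statements.S1587

set_option autoImplicit false
open Matrix
open Cfsg

namespace Cfsg.Agent.S1587

/-- First step of the characterisation of the rank-24 lattice: in an even lattice without roots, norm-8 vectors congruent modulo 2 are equal, opposite or orthogonal. -/
theorem result (B : Matrix (Fin 24) (Fin 24) ℤ) (hsymm : B.IsSymm) (hpos : ∀ x : Fin 24 → ℤ, x ≠ 0 → 0 < x ⬝ᵥ (B *ᵥ x)) (heven : ∀ x : Fin 24 → ℤ, (2 : ℤ) ∣ x ⬝ᵥ (B *ᵥ x)) (h2 : ∀ x : Fin 24 → ℤ, x ⬝ᵥ (B *ᵥ x) ≠ 2) (x y : Fin 24 → ℤ) (hx : x ⬝ᵥ (B *ᵥ x) = 8) (hy : y ⬝ᵥ (B *ᵥ y) = 8) (hc : ∀ i, (2 : ℤ) ∣ (x - y) i) : y = x ∨ y = -x ∨ x ⬝ᵥ (B *ᵥ y) = 0 := by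
  choose z hz using hc
  have hxz : x = y + (2 : ℤ) • z := by
    funext i
    have := hz i
    simp only [Pi.sub_apply] at this
    simp only [Pi.add_apply, Pi.smul_apply, smul_eq_mul]
    linarith
  have hsym : z ⬝ᵥ (B *ᵥ y) = y ⬝ᵥ (B *ᵥ z) := by
    rw [Matrix.dotProduct_mulVec y B z, dotProduct_comm z]
    congr 1
    rw [← Matrix.vecMul_transpose, hsymm.eq]
  have e1 : x ⬝ᵥ (B *ᵥ x) = y ⬝ᵥ (B *ᵥ y) + 4 * (y ⬝ᵥ (B *ᵥ z)) + 4 * (z ⬝ᵥ (B *ᵥ z)) := by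
    rw [hxz]
    simp only [Matrix.mulVec_add, Matrix.mulVec_smul, dotProduct_add, add_dotProduct,
      smul_dotProduct, dotProduct_smul, smul_eq_mul, hsym]
    ring
  have e2 : x ⬝ᵥ (B *ᵥ y) = y ⬝ᵥ (B *ᵥ y) + 2 * (y ⬝ᵥ (B *ᵥ z)) := by
    rw [hxz]
    simp only [add_dotProduct, smul_dotProduct, smul_eq_mul, hsym]
  have e3 : (y + z) ⬝ᵥ (B *ᵥ (y + z)) = y ⬝ᵥ (B *ᵥ y) + 2 * (y ⬝ᵥ (B *ᵥ z)) + z ⬝ᵥ (B *ᵥ z) := by
    simp only [Matrix.mulVec_add, dotProduct_add, add_dotProduct, hsym]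
    ring
  have big : ∀ v : Fin 24 → ℤ, v ≠ 0 → 4 ≤ v ⬝ᵥ (B *ᵥ v) := by
    intro v hv
    have h1 := hpos v hv
    obtain ⟨c, hc⟩ := heven v
    have h3 := h2 v
    omega
  by_cases hz0 : z = 0
  · left
    rw [hxz, hz0]; simp
  by_cases hw0 : y + z = 0
  · right; left
    have : z = -y := by
      have := eq_neg_of_add_eq_zero_right hw0
      exact this
    rw [hxz, this]
    funext i
    simp only [Pi.add_apply, Pi.smul_apply, Pi.neg_apply, smul_eq_mul]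
    ring
  · right; right
    have b1 := big z hz0
    have b2 := big (y + z) hw0
    rw [e3] at b2
    rw [e2]
    rw [hx, hy] at e1
    rw [hy] at b2 ⊢
    linarith

end Cfsg.Agent.S1587
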