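import Cfsg.Statements.S1591

set_option autoImplicit false
open Cfsg

namespace Cfsg.Agent.S1591

/-- Any two words of the length-12 ternary code have dot product zero. -/
theorem result (x y : Cfsg.ArrayPt → ZMod 3) (hx : x ∈ Cfsg.ternaryGolayCode) (hy : y ∈ Cfsg.ternaryGolayCode) : ∑ p, x p * y p = 0 := by
  have key : ∀ z : Cfsg.ArrayPt → ZMod 3, z ∈ Cfsg.ternaryGolayCode → ∃ s : ZMod 3,
      (z (0,0) + z (0,1) + z (0,2) = -s) ∧ (z (1,0) + z (1,1) + z (1,2) = -s) ∧
      (z (2,0) + z (2,1) + z (2,2) = -s) ∧ (z (3,0) + z (3,1) + z (3,2) = -s) ∧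
      (z (0,0) + z (1,0) + z (2,0) + z (3,0) = s) ∧
      (z (0,1) + z (1,0) + z (2,1) + z (3,2) = s) ∧
      (z (0,0) + z (1,1) + z (2,1) + z (3,1) = s) := by
    intro z hz
    obtain ⟨s, h1, h2⟩ := hz
    have col : ∀ i : Fin 4, z (i,0) + z (i,1) + z (i,2) = -s := by
      intro i
      have := h1 i
      rw [show (Finset.univ : Finset (ZMod 3)) = {0, 1, 2} from by decide] at this
      rw [Finset.sum_insert (by decide), Finset.sum_insert (by decide), Finset.sum_singleton] at this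
      rw [← this]; ring
    refine ⟨s, col 0, col 1, col 2, col 3, ?_, ?_, ?_⟩
    · have := h2 0 (Submodule.zero_mem _)
      rw [Fin.sum_univ_four] at this
      exact this
    · have := h2 ![1, 0, 1, 2] (Submodule.subset_span (by simp))
      rw [Fin.sum_univ_four] at this
      exact this
    · have := h2 ![0, 1, 1, 1] (Submodule.subset_span (by simp))
      rw [Fin.sum_univ_four] at this
      exact this
  obtain ⟨s, hx_c0, hx_c1, hx_c2, hx_c3, hx_t00, hx_t01, hx_t10⟩ := key x hx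
  obtain ⟨s', hy_c0, hy_c1, hy_c2, hy_c3, hy_t00, hy_t01, hy_t10⟩ := key y hy
  have hsum : ∑ p, x p * y p = x (0,0) * y (0,0) + x (0,1) * y (0,1) + x (0,2) * y (0,2)
      + x (1,0) * y (1,0) + x (1,1) * y (1,1) + x (1,2) * y (1,2)
      + x (2,0) * y (2,0) + x (2,1) * y (2,1) + x (2,2) * y (2,2)
      + x (3,0) * y (3,0) + x (3,1) * y (3,1) + x (3,2) * y (3,2) := by
    rw [Fintype.sum_prod_type, Fin.sum_univ_four]
    rw [show (Finset.univ : Finset (ZMod 3)) = {0, 1, 2} from by decide]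
    simp only [Finset.sum_insert (show (0 : ZMod 3) ∉ ({1, 2} : Finset (ZMod 3)) from by decide),
      Finset.sum_insert (show (1 : ZMod 3) ∉ ({2} : Finset (ZMod 3)) from by decide),
      Finset.sum_singleton]
    ring
  rw [hsum]
  generalize x (0,0) = x0 at *
  generalize x (0,1) = x1 at *
  generalize x (0,2) = x2 at *
  generalize x (1,0) = x3 at *
  generalize x (1,1) = x4 at *
  generalize x (1,2) = x5 at *
  generalize x (2,0) = x6 at *
  generalize x (2,1) = x7 at *
  generalize x (2,2) = x8 at *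
  generalize x (3,0) = x9 at *
  generalize x (3,1) = x10 at *
  generalize x (3,2) = x11 at *
  generalize y (0,0) = y0 at *
  generalize y (0,1) = y1 at *
  generalize y (0,2) = y2 at *
  generalize y (1,0) = y3 at *
  generalize y (1,1) = y4 at *
  generalize y (1,2) = y5 at *
  generalize y (2,0) = y6 at *
  generalize y (2,1) = y7 at *
  generalize y (2,2) = y8 at *
  generalize y (3,0) = y9 at *
  generalize y (3,1) = y10 at *
  generalize y (3,2) = y11 at *
  linear_combination (norm := (ring_nf; reduce_mod_char)) (0 - y5 - y7 + y9 - y10 - y11) * hx_c0 + (0 + y5) * hx_c1 + (0 + y8) * hx_c2 + (0 + y7 - y8 - y10 - y11) * hx_c3 + (0 - y7 + y8 + y9 + y10 + y11) * hx_t00 + (0 - y7 + y8 + y10 - y11) * hx_t01 + (0 - y7 + y8 - y10 + y11) * hx_t10 + (0 + x2) * hy_c0 + (0 + x0 + x1 + x2 - x3 - x4) * hy_c1 + (0 + x0 - x1 + x3 - x4 + x6) * hy_c2 + (0 - x0 + x1 - x2 - x4 - x6) * hy_c3 + (0 - x0 + x1 - x3 + x4) * hy_t00 + (0 + x1 - x2) * hy_t01 + (0 - x0 - x1 - x2 + x3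 - x4) * hy_t10

end Cfsg.Agent.S1591
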