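import Cfsg.Statements.S1593
import Cfsg.Agent.Lib.Helper3_TG

set_option autoImplicit false
open Cfsg

namespace Cfsg.Agent.S1593

/-- The only sign changes preserving the length-12 ternary code are the identity and negation of all coordinates. -/
theorem result (c : Cfsg.ArrayPt → (ZMod 3)ˣ) (h : (∀ x ∈ Cfsg.ternaryGolayCode, Cfsg.monomialMap 1 c x ∈ Cfsg.ternaryGolayCode)) : (∀ p, c p = 1) ∨ (∀ p, c p = -1) := by
  have hu : ∀ u : (ZMod 3)ˣ, u = 1 ∨ u = -1 := by decide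
  have l1 : c (0,0) = c (0,1) := Cfsg.Agent.Helper3TG.link c h (Cfsg.Agent.Helper3TG.W 1 1 0 0 0 2 0 2 0 0 1 1) (Cfsg.Agent.Helper3TG.W 1 2 0 1 2 0 1 0 2 0 0 0) (Cfsg.Agent.Helper3TG.mem_of _ 1 (by decide) (by decide)) (Cfsg.Agent.Helper3TG.mem_of _ 0 (by decide) (by decide)) (0,0) (0,1) (by decide) (by decide) (by decide)
  have l2 : c (0,0) = c (0,2) := Cfsg.Agent.Helper3TG.link c h (Cfsg.Agent.Helper3TG.W 1 0 1 0 0 2 0 1 1 0 2 0) (Cfsg.Agent.Helper3TG.W 1 0 2 1 2 0 0 0 0 1 0 2) (Cfsg.Agent.Helper3TG.mem_of _ 1 (by decide) (by decide)) (Cfsg.Agent.Helper3TG.mem_of _ 0 (by decide) (by decide)) (0,0) (0,2) (by decide) (by decide) (by decide)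
  have l3 : c (0,0) = c (1,0) := Cfsg.Agent.Helper3TG.link c h (Cfsg.Agent.Helper3TG.W 1 0 0 1 0 0 0 2 2 0 2 2) (Cfsg.Agent.Helper3TG.W 1 0 0 2 1 1 1 0 0 1 0 0) (Cfsg.Agent.Helper3TG.mem_of _ 2 (by decide) (by decide)) (Cfsg.Agent.Helper3TG.mem_of _ 2 (by decide) (by decide)) (0,0) (1,0) (by decide) (by decide) (by decide)
  have l4 : c (0,0) = c (1,1) := Cfsg.Agent.Helper3TG.link c h (Cfsg.Agent.Helper3TG.W 1 0 0 0 1 0 0 1 0 1 2 1) (Cfsg.Agent.Helper3TG.W 1 0 2 0 2 1 2 0 1 0 0 0) (Cfsg.Agent.Helper3TG.mem_of _ 2 (by decide) (by decide)) (Cfsg.Agent.Helper3TG.mem_of _ 0 (by decide) (by decide)) (0,0) (1,1) (by decide) (by decide) (by decide)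
  have l5 : c (0,0) = c (1,2) := Cfsg.Agent.Helper3TG.link c h (Cfsg.Agent.Helper3TG.W 1 0 0 0 0 1 0 0 1 1 1 2) (Cfsg.Agent.Helper3TG.W 1 0 2 1 0 2 1 2 0 0 0 0) (Cfsg.Agent.Helper3TG.mem_of _ 2 (by decide) (by decide)) (Cfsg.Agent.Helper3TG.mem_of _ 0 (by decide) (by decide)) (0,0) (1,2) (by decide) (by decide) (by decide)
  have l6 : c (0,0) = c (2,0) := Cfsg.Agent.Helper3TG.link c h (Cfsg.Agent.Helper3TG.W 1 0 0 0 0 1 1 1 2 0 0 1) (Cfsg.Agent.Helper3TG.W 1 0 1 1 1 0 2 0 0 0 2 0) (Cfsg.Agent.Helper3TG.mem_of _ 2 (by decide) (by decide)) (Cfsg.Agent.Helper3TG.mem_of _ 1 (by decide) (by decide)) (0,0) (2,0) (by decide) (by decide) (by decide)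
  have l7 : c (0,0) = c (2,1) := Cfsg.Agent.Helper3TG.link c h (Cfsg.Agent.Helper3TG.W 1 0 0 0 0 1 1 1 2 0 0 1) (Cfsg.Agent.Helper3TG.W 1 0 1 2 0 0 0 2 0 1 1 0) (Cfsg.Agent.Helper3TG.mem_of _ 2 (by decide) (by decide)) (Cfsg.Agent.Helper3TG.mem_of _ 1 (by decide) (by decide)) (0,0) (2,1) (by decide) (by decide) (by decide)
  have l8 : c (0,0) = c (2,2) := Cfsg.Agent.Helper3TG.link c h (Cfsg.Agent.Helper3TG.W 1 0 0 0 0 1 0 0 1 1 1 2) (Cfsg.Agent.Helper3TG.W 1 0 2 2 1 0 0 1 2 0 0 0) (Cfsg.Agent.Helper3TG.mem_of _ 2 (by decide) (by decide)) (Cfsg.Agent.Helper3TG.mem_of _ 0 (by decide) (by decide)) (0,0) (2,2) (by decide) (by decide) (by decide)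
  have l9 : c (0,0) = c (3,0) := Cfsg.Agent.Helper3TG.link c h (Cfsg.Agent.Helper3TG.W 1 0 0 0 0 1 0 0 1 1 1 2) (Cfsg.Agent.Helper3TG.W 1 0 1 0 2 0 1 1 0 2 0 0) (Cfsg.Agent.Helper3TG.mem_of _ 2 (by decide) (by decide)) (Cfsg.Agent.Helper3TG.mem_of _ 1 (by decide) (by decide)) (0,0) (3,0) (by decide) (by decide) (by decide)
  have l10 : c (0,0) = c (3,1) := Cfsg.Agent.Helper3TG.link c h (Cfsg.Agent.Helper3TG.W 1 0 0 0 0 1 0 0 1 1 1 2) (Cfsg.Agent.Helper3TG.W 1 0 1 1 1 0 2 0 0 0 2 0) (Cfsg.Agent.Helper3TG.mem_of _ 2 (by decide) (by decide)) (Cfsg.Agent.Helper3TG.mem_of _ 1 (by decide) (by decide)) (0,0) (3,1) (by decide) (by decide) (by decide)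
  have l11 : c (0,0) = c (3,2) := Cfsg.Agent.Helper3TG.link c h (Cfsg.Agent.Helper3TG.W 1 0 0 0 0 1 0 0 1 1 1 2) (Cfsg.Agent.Helper3TG.W 1 0 0 2 2 0 2 2 0 0 0 1) (Cfsg.Agent.Helper3TG.mem_of _ 2 (by decide) (by decide)) (Cfsg.Agent.Helper3TG.mem_of _ 2 (by decide) (by decide)) (0,0) (3,2) (by decide) (by decide) (by decide)
  have hall : ∀ p : Cfsg.ArrayPt, c p = c (0,0) := by
    rintro ⟨i, r⟩
    fin_cases i <;> fin_cases r
    · rfl
    · exact l1.symm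
    · exact l2.symm
    · exact l3.symm
    · exact l4.symm
    · exact l5.symm
    · exact l6.symm
    · exact l7.symm
    · exact l8.symm
    · exact l9.symm
    · exact l10.symm
    · exact l11.symm
  rcases hu (c (0,0)) with h1 | h1
  · left; intro p; rw [hall p, h1]
  · right; intro p; rw [hall p, h1]

end Cfsg.Agent.S1593
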