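import Cfsg.Statements.S1595
import Mathlib
import Cfsg.Agent.Lib.Helper3_Steiner2

set_option autoImplicit false
open Cfsg

namespace Cfsg.Agent.S1595

open Cfsg.Agent.Lib.Helper3_Steiner Cfsg.Agent.Lib.Helper3_Steiner2 Finset

theorem card_inter_eq {α : Type*} [DecidableEq α] {s b c : Finset α} (hsb : s ⊆ b) (hsc : s ⊆ c) :
    (b ∩ c).card = s.card + ((b \ s) ∩ c).card := by
  rw [← card_union_of_disjoint]
  · congr 1
    ext x
    simp only [mem_inter, mem_union, mem_sdiff]
    constructor
    · rintro ⟨h1, h2⟩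
      by_cases hx : x ∈ s
      · exact Or.inl hx
      · exact Or.inr ⟨⟨h1, hx⟩, h2⟩
    · rintro (h | ⟨⟨h1, _⟩, h2⟩)
      · exact ⟨hsb h, hsc h⟩
      · exact ⟨h1, h2⟩
  · rw [disjoint_left]
    intro x hx hx2
    simp only [mem_inter, mem_sdiff] at hx2
    exact hx2.1.2 hx

theorem inter_eq_iff {α : Type*} [DecidableEq α] {s b c : Finset α} (hsb : s ⊆ b) (hsc : s ⊆ c) :
    b ∩ c = s ↔ ((b \ s) ∩ c).card = 0 := by
  constructor
  · intro h
    have := card_inter_eq hsb hsc
    rw [h] at this
    omega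
  · intro h
    have h1 := card_inter_eq hsb hsc
    rw [h, add_zero] at h1
    exact (eq_of_subset_of_card_le (subset_inter hsb hsc) h1.le).symm

theorem count_exact {α : Type*} [Fintype α] [DecidableEq α] {B : Set (Finset α)} (b s : Finset α) :
    {c : Finset α | c ∈ B ∧ b ∩ c = s}.ncard =
      (((blocks B).filter (s ⊆ ·)).filter (fun c => b ∩ c = s)).card := by
  rw [ncard_eq_card_filter, filter_filter]
  congr 1
  ext c
  simp only [mem_filter, mem_blocks]
  constructor
  · rintro ⟨h1, h2⟩; exact ⟨h1, h2 ▸ inter_subset_right, h2⟩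
  · rintro ⟨h1, _, h2⟩; exact ⟨h1, h2⟩


/-- Leech triangle of S(5, 6, 12): blocks meet in 0, 2, 3 or 4 points, and a block is met exactly in a given 2-, 3- or 4-subset by 3, 2, 3 blocks respectively. -/
theorem result {α : Type*} [Fintype α] [DecidableEq α] (hα : Fintype.card α = 12) {B : Set (Finset α)} (hB : Cfsg.IsSteinerSystem 5 6 B) (b : Finset α) (hb : b ∈ B) : (∀ c ∈ B, c ≠ b → (b ∩ c).card = 0 ∨ (b ∩ c).card = 2 ∨ (b ∩ c).card = 3 ∨ (b ∩ c).card = 4) ∧ ∀ s ⊆ b, (s.card = 2 → {c : Finset α | c ∈ B ∧ b ∩ c = s}.ncard = 3) ∧ (s.card = 3 → {c : Finset α | c ∈ B ∧ b ∩ c = s}.ncard = 2) ∧ (s.card = 4 → {c : Finset α | c ∈ B ∧ b ∩ c = s}.ncard = 3) := by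
  have hb8 : b.card = 6 := hB.1 b hb
  constructor
  · intro c hc hbc
    have e1 := sum_chooseZ' hB (by norm_num) b 1 (by norm_num)
    have e2 := sum_chooseZ' hB (by norm_num) b 2 (by norm_num)
    have e3 := sum_chooseZ' hB (by norm_num) b 3 (by norm_num)
    have e4 := sum_chooseZ' hB (by norm_num) b 4 (by norm_num)
    rw [hα, hb8] at e1 e2 e3 e4
    set g : Finset α → ℤ := fun c => 6 * (Nat.choose (b ∩ c).card 1 : ℤ) + 18 * (Nat.choose (b ∩ c).card 3 : ℤ)
      - 12 * (Nat.choose (b ∩ c).card 2 : ℤ) - 24 * (Nat.choose (b ∩ c).card 4 : ℤ) with hg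
    have hsum : ∑ c ∈ blocks B, g c = g b := by
      simp only [hg, sum_sub_distrib, sum_add_distrib, ← mul_sum, e1, e2, e3, e4, inter_self, hb8]
      decide +kernel
    have hz := all_zero_of_sum (blocks B) b (mem_blocks.mpr hb) g hsum (by
      intro c hc hcb
      have hlt := inter_card_lt hB hb (mem_blocks.mp hc) hcb.symm
      simp only [hg]
      interval_cases (b ∩ c).card <;> simp [Nat.choose]) c (mem_blocks.mpr hc) hbc
    have hlt := inter_card_lt hB hb hc hbc.symm
    simp only [hg] at hz
    interval_cases h : (b ∩ c).card <;> simp_all [Nat.choose]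
  · intro s hs
    have hdisj : Disjoint s (b \ s) := disjoint_sdiff
    have hbS : b ∈ (blocks B).filter (s ⊆ ·) := mem_filter.mpr ⟨mem_blocks.mpr hb, hs⟩
    have hDc : (b \ s).card = 6 - s.card := by rw [card_sdiff_of_subset hs, hb8]
    have hDb : (b \ s) ∩ b = b \ s := inter_eq_left.mpr sdiff_subset
    have hy : ∀ c ∈ (blocks B).filter (s ⊆ ·), c ≠ b → s.card + ((b \ s) ∩ c).card < 5 := by
      intro c hc hcb
      rw [mem_filter, mem_blocks] at hc
      rw [← card_inter_eq hs hc.2]
      exact inter_card_lt hB hb hc.1 hcb.symm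
    have hPb : s.card < 6 → ¬ (b ∩ b = s) := by
      intro h h2
      rw [inter_self] at h2
      rw [← h2, hb8] at h
      omega
    refine ⟨?_, ?_, ?_⟩
    · intro h2
      have e0 := sum_chooseZ hB (by norm_num) s (b \ s) hdisj 0 (by omega)
      have e1 := sum_chooseZ hB (by norm_num) s (b \ s) hdisj 1 (by omega)
      have e2 := sum_chooseZ hB (by norm_num) s (b \ s) hdisj 2 (by omega)
      rw [hα, hDc, h2] at e0 e1 e2
      set g : Finset α → ℤ := fun c => (Nat.choose ((b \ s) ∩ c).card 0 : ℤ) + (Nat.choose ((b \ s) ∩ c).card 2 : ℤ)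
        - (Nat.choose ((b \ s) ∩ c).card 1 : ℤ) with hg
      have hsum : ∑ c ∈ (blocks B).filter (s ⊆ ·), g c = 6 := by
        simp only [hg, sum_sub_distrib, sum_add_distrib, e0, e1, e2]
        decide +kernel
      have hgb : g b = 3 := by
        simp only [hg, hDb, hDc, h2]
        decide +kernel
      have h3 := sum_eq_add_card _ b hbS g (fun c => b ∩ c = s) 1 (by
        intro c hc hcb
        have hlt := hy c hc hcb
        rw [h2] at hlt
        have hlt' : ((b \ s) ∩ c).card < 3 := by omega
        simp only [hg, inter_eq_iff hs (mem_filter.mp hc).2]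
        interval_cases ((b \ s) ∩ c).card <;> simp [Nat.choose]) (hPb (by omega))
      rw [hsum, hgb] at h3
      rw [count_exact]
      clear e0 e1 e2 hsum hgb
      omega
    · intro h2
      have e0 := sum_chooseZ hB (by norm_num) s (b \ s) hdisj 0 (by omega)
      have e1 := sum_chooseZ hB (by norm_num) s (b \ s) hdisj 1 (by omega)
      rw [hα, hDc, h2] at e0 e1
      set g : Finset α → ℤ := fun c => (Nat.choose ((b \ s) ∩ c).card 0 : ℤ)
        - (Nat.choose ((b \ s) ∩ c).card 1 : ℤ) with hg
      have hsum : ∑ c ∈ (blocks B).filter (s ⊆ ·), g c = 0 := by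
        simp only [hg, sum_sub_distrib, sum_add_distrib, e0, e1]
        decide +kernel
      have hgb : g b = -2 := by
        simp only [hg, hDb, hDc, h2]
        decide +kernel
      have h3 := sum_eq_add_card _ b hbS g (fun c => b ∩ c = s) 1 (by
        intro c hc hcb
        have hlt := hy c hc hcb
        rw [h2] at hlt
        have hlt' : ((b \ s) ∩ c).card < 2 := by omega
        simp only [hg, inter_eq_iff hs (mem_filter.mp hc).2]
        interval_cases ((b \ s) ∩ c).card <;> simp [Nat.choose]) (hPb (by omega))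
      rw [hsum, hgb] at h3
      rw [count_exact]
      clear e0 e1 hsum hgb
      omega
    · intro h2
      have e0 := sum_chooseZ hB (by norm_num) s (b \ s) hdisj 0 (by omega)
      rw [hα, hDc, h2] at e0
      set g : Finset α → ℤ := fun c => (Nat.choose ((b \ s) ∩ c).card 0 : ℤ) with hg
      have hsum : ∑ c ∈ (blocks B).filter (s ⊆ ·), g c = 4 := by
        simp only [hg]
        rw [e0]
        decide +kernel
      have hgb : g b = 1 := by
        simp only [hg, hDb, hDc, h2]
        decide +kernel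
      have h3 := sum_eq_add_card _ b hbS g (fun c => b ∩ c = s) 1 (by
        intro c hc hcb
        have hlt := hy c hc hcb
        rw [h2] at hlt
        have hlt' : ((b \ s) ∩ c).card < 1 := by omega
        simp only [hg, inter_eq_iff hs (mem_filter.mp hc).2]
        interval_cases ((b \ s) ∩ c).card <;> simp [Nat.choose]) (hPb (by omega))
      rw [hsum, hgb] at h3
      rw [count_exact]
      clear e0 hsum hgb
      omega

end Cfsg.Agent.S1595
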