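import Cfsg.Statements.S1604
import Cfsg.Agent.Lib.Helper3_Cls

set_option autoImplicit false
open scoped Pointwise
open Cfsg

namespace Cfsg.Agent.S1604


open Cfsg.Agent.Lib.Helper3_Sext Cfsg.Agent.Lib.Helper3_Orb Cfsg.Agent.Lib.Helper3_Orb2
open Cfsg.Agent.Lib.Helper3_Bfs Cfsg.Agent.Lib.Helper3_Bfs2 Cfsg.Agent.Lib.Helper3_Orb3
open Cfsg.Agent.Lib.Helper3_Golay2 Cfsg.Agent.Lib.Helper3_Golay3 Cfsg.Agent.Lib.Helper3_M24a
open Cfsg.Agent.Lib.Helper3_M24d Cfsg.Agent.Lib.Helper3_Cls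

def gens : List ℕ := [965213902347060042962881391810352192, 960831876133254707681941323712072224]

def Y0 : ℕ := 8536111

def C0 : List ℕ := []

def Y1 : ℕ := 8499969

def C1 : List ℕ := [3, 15, 217, 49, 4]

def Y2 : ℕ := 337856

def C2 : List ℕ := [3, 15, 127, 13623, 2346, 80]

def Y3 : ℕ := 10558

def C3 : List ℕ := [3, 15, 255, 53243, 18077626, 630723399, 135681]

def Y4 : ℕ := 8391797

def C4 : List ℕ := [3, 15, 247, 7935, 16495324, 346606020, 9439369]

def Y5 : ℕ := 5279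

def C5 : List ℕ := [3, 15, 223, 4095, 11787006, 8161781990, 705461722376, 66]

def Y6 : ℕ := 8394986

def C6 : List ℕ := [3, 15, 255, 23803, 3087742, 150652892, 10511584835, 4229552, 2]

def Y7 : ℕ := 15777

def C7 : List ℕ := [3, 15, 255, 57083, 26804222, 209269503727, 2242850209307, 17850960906]

def Y8 : ℕ := 8401364

def C8 : List ℕ := [3, 15, 255, 30715, 15202222, 57694992023, 4023213238663, 136455200, 1024]

def Y9 : ℕ := 31554

def C9 : List ℕ := [3, 15, 255, 30719, 132087294, 59287640340414, 756147124470454935293, 3626465850065807906019423501, 7617163839316579007423573024808, 94615217564324099, 8272]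

def yL : Fin 10 → ℕ := ![Y0, Y1, Y2, Y3, Y4, Y5, Y6, Y7, Y8, Y9]

def nL : Fin 10 → ℕ := ![1, 16, 30, 60, 60, 80, 80, 96, 96, 240]

theorem c0 : chkM (inSt3 23 0 O0) gens Y0 C0 4 4096 1 = true := by decide +kernel

theorem c1 : chkM (inSt3 23 0 O0) gens Y1 C1 4 4096 16 = true := by decide +kernel

theorem c2 : chkM (inSt3 23 0 O0) gens Y2 C2 4 4096 30 = true := by decide +kernel

theorem c3 : chkM (inSt3 23 0 O0) gens Y3 C3 4 4096 60 = true := by decide +kernel

theorem c4 : chkM (inSt3 23 0 O0) gens Y4 C4 4 4096 60 = true := by decide +kernel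

theorem c5 : chkM (inSt3 23 0 O0) gens Y5 C5 4 4096 80 = true := by decide +kernel

theorem c6 : chkM (inSt3 23 0 O0) gens Y6 C6 4 4096 80 = true := by decide +kernel

theorem c7 : chkM (inSt3 23 0 O0) gens Y7 C7 4 4096 96 = true := by decide +kernel

theorem c8 : chkM (inSt3 23 0 O0) gens Y8 C8 4 4096 96 = true := by decide +kernel

theorem c9 : chkM (inSt3 23 0 O0) gens Y9 C9 4 4096 240 = true := by decide +kernel

theorem hy : ∀ t : Fin 10, isOct (yL t) = true := by decide +kernel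

theorem hle : ∀ t, nL t ≤ (MulAction.orbit (MulAction.stabilizer M24 ((pt 23, pt 0, dec O0) : A3)) (dec (yL t))).ncard := by
  intro t
  fin_cases t
  · exact chkM_le (sound_inSt3 (by norm_num) (by norm_num) O0) c0
  · exact chkM_le (sound_inSt3 (by norm_num) (by norm_num) O0) c1
  · exact chkM_le (sound_inSt3 (by norm_num) (by norm_num) O0) c2
  · exact chkM_le (sound_inSt3 (by norm_num) (by norm_num) O0) c3
  · exact chkM_le (sound_inSt3 (by norm_num) (by norm_num) O0) c4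
  · exact chkM_le (sound_inSt3 (by norm_num) (by norm_num) O0) c5
  · exact chkM_le (sound_inSt3 (by norm_num) (by norm_num) O0) c6
  · exact chkM_le (sound_inSt3 (by norm_num) (by norm_num) O0) c7
  · exact chkM_le (sound_inSt3 (by norm_num) (by norm_num) O0) c8
  · exact chkM_le (sound_inSt3 (by norm_num) (by norm_num) O0) c9

theorem hinj : Function.Injective fun t => cL 23 0 O0 (yL t) := by decide +kernel

theorem hsum : 759 = ∑ t, nL t := by decide +kernel

theorem vals : ∀ t : Fin 10, cL 23 0 O0 (yL t) = (![56, 50, 0, 4, 52, 20, 36, 18, 34, 2] : Fin 10 → ℕ) t := by decide +kernel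

/-- A hexad stabiliser in the two-point stabiliser has orbits of sizes 1, 16, 60 on the 77 hexads: the 16 hexads disjoint from it and the 60 meeting it in two points. -/
theorem result (p q : Cfsg.GolayPt) (hpq : p ≠ q) (o o' o'' : Finset Cfsg.GolayPt) (ho : o ∈ Cfsg.octads) (ho' : o' ∈ Cfsg.octads) (ho'' : o'' ∈ Cfsg.octads) (hp : p ∈ o ∧ p ∈ o' ∧ p ∈ o'') (hq : q ∈ o ∧ q ∈ o' ∧ q ∈ o'') (h : (o ∩ o').card = (o ∩ o'').card) : {x : Finset Cfsg.GolayPt | x ∈ Cfsg.octads ∧ p ∈ x ∧ q ∈ x ∧ (o ∩ x).card = 2}.ncard = 16 ∧ {x : Finset Cfsg.GolayPt | x ∈ Cfsg.octads ∧ p ∈ x ∧ q ∈ x ∧ (o ∩ x).card = 4}.ncard = 60 ∧ ∃ g : Equiv.Perm Cfsg.GolayPt, g ∈ Cfsg.M24 ∧ g p = p ∧ g q = q ∧ g • o = o ∧ g • o' = o'' := by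
  obtain ⟨g, hg, hgp, hgq, hgo⟩ := nf_in2 ho hp.1 hq.1 hpq
  have ha : g • ((pt 23, pt 0, dec O0) : A3) = (p, q, o) := by
    rw [Prod.smul_mk, Prod.smul_mk, hgo, Equiv.Perm.smul_def, Equiv.Perm.smul_def, hgp, hgq]
  obtain ⟨k1, k2⟩ := classes3 (by norm_num) (by norm_num) O0 yL nL hy hle hinj hsum g hg
  rw [ha] at k1 k2
  have hk : ∀ z : Finset GolayPt, (o ∩ z).card ≤ 8 := fun z => by
    rw [← ho.2]; exact Finset.card_le_card Finset.inter_subset_left
  have hset : ∀ m : ℕ, {x : Finset GolayPt | x ∈ octads ∧ p ∈ x ∧ q ∈ x ∧ (o ∩ x).card = m} =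
      {z | z ∈ octads ∧ cA (p, q, o) z = 48 + m} := by
    intro m
    ext z
    have := hk z
    simp only [Set.mem_ofPred_eq, cA]
    constructor
    · rintro ⟨h1, h2, h3, h4⟩
      exact ⟨h1, by simp only [h2, h3, if_true, h4]⟩
    · rintro ⟨h1, h2⟩
      split_ifs at h2 with h3 h4 h4
      · exact ⟨h1, h3, h4, by omega⟩
      · omega
      · omega
      · omega
  refine ⟨?_, ?_, ?_⟩
  · rw [hset 2]
    have := k1 1
    rw [vals] at this
    exact this
  · rw [hset 4]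
    have := k1 4
    rw [vals] at this
    exact this
  · obtain ⟨h', hh, h1, h2⟩ := k2 o' o'' ho' ho''
      (by simp only [cA, hp.2.1, hp.2.2, hq.2.1, hq.2.2, if_true, h])
    rw [Prod.smul_mk, Prod.smul_mk, Prod.mk.injEq, Prod.mk.injEq] at h1
    exact ⟨h', hh, h1.1, h1.2.1, h1.2.2, h2⟩

end Cfsg.Agent.S1604
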