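import Cfsg.Statements.S1605
import Cfsg.Agent.Lib.Helper3_Cls

set_option autoImplicit false
open scoped Pointwise
open Cfsg

namespace Cfsg.Agent.S1605


open Cfsg.Agent.Lib.Helper3_Sext Cfsg.Agent.Lib.Helper3_Orb Cfsg.Agent.Lib.Helper3_Orb2
open Cfsg.Agent.Lib.Helper3_Bfs Cfsg.Agent.Lib.Helper3_Bfs2 Cfsg.Agent.Lib.Helper3_Orb3
open Cfsg.Agent.Lib.Helper3_Golay2 Cfsg.Agent.Lib.Helper3_Golay3 Cfsg.Agent.Lib.Helper3_M24a
open Cfsg.Agent.Lib.Helper3_M24d Cfsg.Agent.Lib.Helper3_Cls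

def Agens : List ℕ := [983148310031844824215173744174958144, 963701645291108115591983300544153632]

def AY0 : ℕ := 8391797

def AC0 : List ℕ := [3, 15, 255, 64511, 133884143, 6803241853, 34360332412]

def AY1 : ℕ := 5279

def AC1 : List ℕ := [3, 15, 247, 15615, 8372095, 2198979214591, 4334712080362475682780, 79228633868432931811120159879, 9016000221807178]

def AY2 : ℕ := 8394986

def AC2 : List ℕ := [3, 15, 255, 64495, 133152763, 211089019009022, 4433387947767982169401237, 241805246237200495550104766, 163840]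

def AY3 : ℕ := 10558

def AC3 : List ℕ := [1, 3, 15, 255, 32639, 268435447, 13229323904024564, 4482608247166397160183823862, 711726694916301101272554755438860136072927, 29262068403434895900720753326814054947608656858, 2249248988700484976420982784]

def AyL : Fin 4 → ℕ := ![AY0, AY1, AY2, AY3]

def AnL : Fin 4 → ℕ := ![77, 176, 176, 330]

theorem Ac0 : chkM (inSt3 23 0 0) Agens AY0 AC0 4 4096 77 = true := by decide +kernel

theorem Ac1 : chkM (inSt3 23 0 0) Agens AY1 AC1 4 4096 176 = true := by decide +kernel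

theorem Ac2 : chkM (inSt3 23 0 0) Agens AY2 AC2 4 4096 176 = true := by decide +kernel

theorem Ac3 : chkM (inSt3 23 0 0) Agens AY3 AC3 4 4096 330 = true := by decide +kernel

theorem Ahy : ∀ t : Fin 4, isOct (AyL t) = true := by decide +kernel

theorem Ahle : ∀ t, AnL t ≤ (MulAction.orbit (MulAction.stabilizer M24 ((pt 23, pt 0, dec 0) : A3)) (dec (AyL t))).ncard := by
  intro t
  fin_cases t
  · exact chkM_le (sound_inSt3 (by norm_num) (by norm_num) 0) Ac0
  · exact chkM_le (sound_inSt3 (by norm_num) (by norm_num) 0) Ac1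
  · exact chkM_le (sound_inSt3 (by norm_num) (by norm_num) 0) Ac2
  · exact chkM_le (sound_inSt3 (by norm_num) (by norm_num) 0) Ac3

theorem Ahinj : Function.Injective fun t => cL 23 0 0 (AyL t) := by decide +kernel

theorem Ahsum : 759 = ∑ t, AnL t := by decide +kernel

theorem Avals : ∀ t : Fin 4, cL 23 0 0 (AyL t) = (![48, 16, 32, 0] : Fin 4 → ℕ) t := by decide +kernel

def Bgens : List ℕ := [975409346868505348762276848824582181, 976420125579822797764169418084975793]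

def BY0 : ℕ := 8536111

def BC0 : List ℕ := []

def BY1 : ℕ := 337856

def BC1 : List ℕ := [3, 15, 118, 5, 1]

def BY2 : ℕ := 628112

def BC2 : List ℕ := [3, 15, 236, 161]

def BY3 : ℕ := 5279

def BC3 : List ℕ := [3, 15, 250, 1734, 2986, 6752, 34, 6]

def BY4 : ℕ := 8391797

def BC4 : List ℕ := [2, 2, 3, 15, 254, 16285, 592233]

def BY5 : ℕ := 8401364

def BC5 : List ℕ := [3, 15, 254, 14262, 538209, 51390, 8]

def BY6 : ℕ := 8490656

def BC6 : List ℕ := [3, 15, 254, 12223, 10583015, 633250522, 95428994, 4612]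

def BY7 : ℕ := 18147

def BC7 : List ℕ := [3, 15, 254, 16319, 58458095, 26475721754622, 71126643550734, 2253389835, 8]

def BY8 : ℕ := 8394986

def BC8 : List ℕ := [3, 15, 254, 16319, 58423271, 422756478462, 2005277292337198, 4432410641408]

def BY9 : ℕ := 39257

def BC9 : List ℕ := [3, 15, 254, 8127, 8126447, 1062920501110, 619841484451200101, 7705834104849, 8396960]

def BY10 : ℕ := 15777

def BC10 : List ℕ := [3, 15, 254, 16319, 65798127, 65057945796542, 482390617416544481951, 11506971125397980686516459, 9453986097287181789786, 143521241718276, 160]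

def ByL : Fin 11 → ℕ := ![BY0, BY1, BY2, BY3, BY4, BY5, BY6, BY7, BY8, BY9, BY10]

def BnL : Fin 11 → ℕ := ![1, 15, 15, 35, 35, 42, 70, 105, 105, 126, 210]

theorem Bc0 : chkM (inSt3 23 4 O0) Bgens BY0 BC0 4 4096 1 = true := by decide +kernel

theorem Bc1 : chkM (inSt3 23 4 O0) Bgens BY1 BC1 4 4096 15 = true := by decide +kernel

theorem Bc2 : chkM (inSt3 23 4 O0) Bgens BY2 BC2 4 4096 15 = true := by decide +kernel

theorem Bc3 : chkM (inSt3 23 4 O0) Bgens BY3 BC3 4 4096 35 = true := by decide +kernel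

theorem Bc4 : chkM (inSt3 23 4 O0) Bgens BY4 BC4 4 4096 35 = true := by decide +kernel

theorem Bc5 : chkM (inSt3 23 4 O0) Bgens BY5 BC5 4 4096 42 = true := by decide +kernel

theorem Bc6 : chkM (inSt3 23 4 O0) Bgens BY6 BC6 4 4096 70 = true := by decide +kernel

theorem Bc7 : chkM (inSt3 23 4 O0) Bgens BY7 BC7 4 4096 105 = true := by decide +kernel

theorem Bc8 : chkM (inSt3 23 4 O0) Bgens BY8 BC8 4 4096 105 = true := by decide +kernel

theorem Bc9 : chkM (inSt3 23 4 O0) Bgens BY9 BC9 4 4096 126 = true := by decide +kernel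

theorem Bc10 : chkM (inSt3 23 4 O0) Bgens BY10 BC10 4 4096 210 = true := by decide +kernel

theorem Bhy : ∀ t : Fin 11, isOct (ByL t) = true := by decide +kernel

theorem Bhle : ∀ t, BnL t ≤ (MulAction.orbit (MulAction.stabilizer M24 ((pt 23, pt 4, dec O0) : A3)) (dec (ByL t))).ncard := by
  intro t
  fin_cases t
  · exact chkM_le (sound_inSt3 (by norm_num) (by norm_num) O0) Bc0
  · exact chkM_le (sound_inSt3 (by norm_num) (by norm_num) O0) Bc1
  · exact chkM_le (sound_inSt3 (by norm_num) (by norm_num) O0) Bc2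
  · exact chkM_le (sound_inSt3 (by norm_num) (by norm_num) O0) Bc3
  · exact chkM_le (sound_inSt3 (by norm_num) (by norm_num) O0) Bc4
  · exact chkM_le (sound_inSt3 (by norm_num) (by norm_num) O0) Bc5
  · exact chkM_le (sound_inSt3 (by norm_num) (by norm_num) O0) Bc6
  · exact chkM_le (sound_inSt3 (by norm_num) (by norm_num) O0) Bc7
  · exact chkM_le (sound_inSt3 (by norm_num) (by norm_num) O0) Bc8
  · exact chkM_le (sound_inSt3 (by norm_num) (by norm_num) O0) Bc9
  · exact chkM_le (sound_inSt3 (by norm_num) (by norm_num) O0) Bc10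

theorem Bhinj : Function.Injective fun t => cL 23 4 O0 (ByL t) := by decide +kernel

theorem Bhsum : 759 = ∑ t, BnL t := by decide +kernel

theorem Bvals : ∀ t : Fin 11, cL 23 4 O0 (ByL t) = (![40, 0, 16, 20, 52, 50, 34, 4, 36, 18, 2] : Fin 11 → ℕ) t := by decide +kernel

/-- The two-point stabiliser acts on the 176 octads through the first point avoiding the second with rank 3 and subdegrees 1, 70, 105 (intersections 8, 2, 4). -/
theorem result (p q : Cfsg.GolayPt) (hpq : p ≠ q) : {x : Finset Cfsg.GolayPt | (x ∈ Cfsg.octads ∧ p ∈ x ∧ q ∉ x)}.ncard = 176 ∧ (∀ o o' : Finset Cfsg.GolayPt, (o ∈ Cfsg.octads ∧ p ∈ o ∧ q ∉ o) → (o' ∈ Cfsg.octads ∧ p ∈ o' ∧ q ∉ o') → ∃ g : Equiv.Perm Cfsg.GolayPt, g ∈ Cfsg.M24 ∧ g p = p ∧ g q = q ∧ g • o = o') ∧ ∀ o : Finset Cfsg.GolayPt, (o ∈ Cfsg.octads ∧ p ∈ o ∧ q ∉ o) → {x : Finset Cfsg.GolayPt | (x ∈ Cfsg.octads ∧ p ∈ x ∧ q ∉ x) ∧ (o ∩ x).card = 2}.ncard = 70 ∧ {x : Finset Cfsg.GolayPt | (x ∈ Cfsg.octads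 ∧ p ∈ x ∧ q ∉ x) ∧ (o ∩ x).card = 4}.ncard = 105 ∧ ∀ o' o'' : Finset Cfsg.GolayPt, (o' ∈ Cfsg.octads ∧ p ∈ o' ∧ q ∉ o') → (o'' ∈ Cfsg.octads ∧ p ∈ o'' ∧ q ∉ o'') → (o ∩ o').card = (o ∩ o'').card → ∃ g : Equiv.Perm Cfsg.GolayPt, g ∈ Cfsg.M24 ∧ g p = p ∧ g q = q ∧ g • o = o ∧ g • o' = o'' := by
  have hpart1 : {x : Finset GolayPt | (x ∈ octads ∧ p ∈ x ∧ q ∉ x)}.ncard = 176 ∧
      (∀ o o' : Finset GolayPt, (o ∈ octads ∧ p ∈ o ∧ q ∉ o) → (o' ∈ octads ∧ p ∈ o' ∧ q ∉ o') →
        ∃ g : Equiv.Perm GolayPt, g ∈ M24 ∧ g p = p ∧ g q = q ∧ g • o = o') := by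
    obtain ⟨g, hg, hm⟩ := Cfsg.Agent.Lib.Helper3_M24h.list_equiv (xs := [pt 23, pt 0]) (ys := [p, q])
      rfl (by norm_num) (by decide +kernel) (by simp [hpq]) (by intro h; simp at h)
    simp only [List.map_cons, List.map_nil, List.cons.injEq, and_true] at hm
    have ha : g • ((pt 23, pt 0, dec 0) : A3) = (p, q, ∅) := by
      have h0 : dec 0 = ∅ := by decide +kernel
      rw [Prod.smul_mk, Prod.smul_mk, h0, Finset.smul_finset_empty, Equiv.Perm.smul_def,
        Equiv.Perm.smul_def, hm.1, hm.2]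
    obtain ⟨k1, k2⟩ := classes3 (by norm_num) (by norm_num) 0 AyL AnL Ahy Ahle Ahinj Ahsum g hg
    rw [ha] at k1 k2
    have hset : {x : Finset GolayPt | (x ∈ octads ∧ p ∈ x ∧ q ∉ x)} =
        {z | z ∈ octads ∧ cA (p, q, ∅) z = 32} := by
      ext z
      simp only [Set.mem_ofPred_eq, cA, Finset.empty_inter, Finset.card_empty]
      constructor
      · rintro ⟨h1, h2, h3⟩
        exact ⟨h1, by simp only [h2, h3, if_true, if_false]⟩
      · rintro ⟨h1, h2⟩
        split_ifs at h2 with h3 h4 h4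
        · omega
        · exact ⟨h1, h3, h4⟩
        · omega
        · omega
    constructor
    · rw [hset]
      have := k1 2
      rw [Avals] at this
      exact this
    · rintro o o' ⟨ho, hp1, hq1⟩ ⟨ho', hp2, hq2⟩
      obtain ⟨h', hh, h1, h2⟩ := k2 o o' ho ho'
        (by simp only [cA, hp1, hp2, hq1, hq2, if_true, if_false, Finset.empty_inter])
      rw [Prod.smul_mk, Prod.smul_mk, Prod.mk.injEq, Prod.mk.injEq] at h1
      exact ⟨h', hh, h1.1, h1.2.1, h2⟩
  refine ⟨hpart1.1, hpart1.2, ?_⟩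
  rintro o ⟨ho, hp, hq⟩
  obtain ⟨g, hg, hgp, hgq, hgo⟩ := nf_in_out ho hp hq
  have ha : g • ((pt 23, pt 4, dec O0) : A3) = (p, q, o) := by
    rw [Prod.smul_mk, Prod.smul_mk, hgo, Equiv.Perm.smul_def, Equiv.Perm.smul_def, hgp, hgq]
  obtain ⟨k1, k2⟩ := classes3 (by norm_num) (by norm_num) O0 ByL BnL Bhy Bhle Bhinj Bhsum g hg
  rw [ha] at k1 k2
  have hk : ∀ z : Finset GolayPt, (o ∩ z).card ≤ 8 := fun z => by
    rw [← ho.2]; exact Finset.card_le_card Finset.inter_subset_left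
  have hset : ∀ m : ℕ, m ≤ 8 → {x : Finset GolayPt | (x ∈ octads ∧ p ∈ x ∧ q ∉ x) ∧ (o ∩ x).card = m} =
      {z | z ∈ octads ∧ cA (p, q, o) z = 32 + m} := by
    intro m hm
    ext z
    have := hk z
    simp only [Set.mem_ofPred_eq, cA]
    constructor
    · rintro ⟨⟨h1, h2, h3⟩, h4⟩
      exact ⟨h1, by simp only [h2, h3, if_true, if_false, h4]⟩
    · rintro ⟨h1, h2⟩
      split_ifs at h2 with h3 h4 h4
      · omega
      · exact ⟨⟨h1, h3, h4⟩, by omega⟩
      · omega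
      · omega
  refine ⟨?_, ?_, ?_⟩
  · rw [hset 2 (by norm_num)]
    have := k1 6
    rw [Bvals] at this
    exact this
  · rw [hset 4 (by norm_num)]
    have := k1 8
    rw [Bvals] at this
    exact this
  · rintro o' o'' ⟨ho', hp1, hq1⟩ ⟨ho'', hp2, hq2⟩ hc
    obtain ⟨h', hh, h1, h2⟩ := k2 o' o'' ho' ho''
      (by simp only [cA, hp1, hp2, hq1, hq2, if_true, if_false, hc])
    rw [Prod.smul_mk, Prod.smul_mk, Prod.mk.injEq, Prod.mk.injEq] at h1
    exact ⟨h', hh, h1.1, h1.2.1, h1.2.2, h2⟩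

end Cfsg.Agent.S1605
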