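import Cfsg.Statements.S1607
import Cfsg.Agent.Lib.Helper3_Cls

set_option autoImplicit false
open scoped Pointwise
open Cfsg

namespace Cfsg.Agent.S1607


open Cfsg.Agent.Lib.Helper3_Sext Cfsg.Agent.Lib.Helper3_Orb Cfsg.Agent.Lib.Helper3_Orb2
open Cfsg.Agent.Lib.Helper3_Bfs Cfsg.Agent.Lib.Helper3_Bfs2 Cfsg.Agent.Lib.Helper3_Orb3
open Cfsg.Agent.Lib.Helper3_Golay2 Cfsg.Agent.Lib.Helper3_Golay3 Cfsg.Agent.Lib.Helper3_M24a
open Cfsg.Agent.Lib.Helper3_M24d Cfsg.Agent.Lib.Helper3_Cls

def gens : List ℕ := [968674186194411614812558560601342403, 964725726853390370158450411562896849]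

def Y0 : ℕ := 8536111

def C0 : List ℕ := []

def Y1 : ℕ := 337856

def C1 : List ℕ := [3, 7, 63, 2035, 131223, 516, 2]

def Y2 : ℕ := 8401364

def C2 : List ℕ := [3, 15, 255, 65015, 266266551, 1778575007455, 1890709902836463, 2216309031936]

def Y3 : ℕ := 5279

def C3 : List ℕ := [3, 15, 255, 65533, 803206527, 732100109487613, 13006629165237496743, 144748561569453349, 2099488]

def Y4 : ℕ := 8391797

def C4 : List ℕ := [3, 15, 255, 65503, 796917743, 15014546976013181, 549260595896270732376, 18518872193275805868, 2048]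

def Y5 : ℕ := 15777

def C5 : List ℕ := [3, 15, 255, 49151, 1006632959, 283691587790143487, 46585848824526329429542815390631, 2853507920736512580608750819662176339130743, 716183835858093298748686450651472650832326544, 81169252496477915702866957323265, 1]

def yL : Fin 6 → ℕ := ![Y0, Y1, Y2, Y3, Y4, Y5]

def nL : Fin 6 → ℕ := ![1, 30, 112, 140, 140, 336]

theorem c0 : chkM (inSt3 23 23 O0) gens Y0 C0 4 4096 1 = true := by decide +kernel

theorem c1 : chkM (inSt3 23 23 O0) gens Y1 C1 4 4096 30 = true := by decide +kernel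

theorem c2 : chkM (inSt3 23 23 O0) gens Y2 C2 4 4096 112 = true := by decide +kernel

theorem c3 : chkM (inSt3 23 23 O0) gens Y3 C3 4 4096 140 = true := by decide +kernel

theorem c4 : chkM (inSt3 23 23 O0) gens Y4 C4 4 4096 140 = true := by decide +kernel

theorem c5 : chkM (inSt3 23 23 O0) gens Y5 C5 4 4096 336 = true := by decide +kernel

theorem hy : ∀ t : Fin 6, isOct (yL t) = true := by decide +kernel

theorem hle : ∀ t, nL t ≤ (MulAction.orbit (MulAction.stabilizer M24 ((pt 23, pt 23, dec O0) : A3)) (dec (yL t))).ncard := by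
  intro t
  fin_cases t
  · exact chkM_le (sound_inSt3 (by norm_num) (by norm_num) O0) c0
  · exact chkM_le (sound_inSt3 (by norm_num) (by norm_num) O0) c1
  · exact chkM_le (sound_inSt3 (by norm_num) (by norm_num) O0) c2
  · exact chkM_le (sound_inSt3 (by norm_num) (by norm_num) O0) c3
  · exact chkM_le (sound_inSt3 (by norm_num) (by norm_num) O0) c4
  · exact chkM_le (sound_inSt3 (by norm_num) (by norm_num) O0) c5

theorem hinj : Function.Injective fun t => cL 23 23 O0 (yL t) := by decide +kernel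

theorem hsum : 759 = ∑ t, nL t := by decide +kernel

theorem vals : ∀ t : Fin 6, cL 23 23 O0 (yL t) = (![56, 0, 50, 4, 52, 2] : Fin 6 → ℕ) t := by decide +kernel

/-- The point stabiliser acts on the 253 heptads of its S(4, 7, 23) with rank 3 and subdegrees 1, 112, 140 (intersections 8, 2, 4). -/
theorem result (x : Cfsg.GolayPt) (o : Finset Cfsg.GolayPt) (ho : o ∈ Cfsg.octads) (hx : x ∈ o) : {o' : Finset Cfsg.GolayPt | o' ∈ Cfsg.octads ∧ x ∈ o' ∧ (o ∩ o').card = 2}.ncard = 112 ∧ {o' : Finset Cfsg.GolayPt | o' ∈ Cfsg.octads ∧ x ∈ o' ∧ (o ∩ o').card = 4}.ncard = 140 ∧ ∀ o' o'' : Finset Cfsg.GolayPt, o' ∈ Cfsg.octads → o'' ∈ Cfsg.octads → x ∈ o' → x ∈ o'' → (o ∩ o').card = (o ∩ o'').card → ∃ g : Equiv.Perm Cfsg.GolayPt, g ∈ Cfsg.M24 ∧ g x = x ∧ g • o = o ∧ g • o' = o'' := by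
  obtain ⟨g, hg, hgx, hgo⟩ := nf_in ho hx
  have ha : g • ((pt 23, pt 23, dec O0) : A3) = (x, x, o) := by
    rw [Prod.smul_mk, Prod.smul_mk, hgo, Equiv.Perm.smul_def, hgx]
  obtain ⟨k1, k2⟩ := classes3 (by norm_num) (by norm_num) O0 yL nL hy hle hinj hsum g hg
  rw [ha] at k1 k2
  have hk : ∀ z : Finset GolayPt, (o ∩ z).card ≤ 8 := fun z => by
    rw [← ho.2]; exact Finset.card_le_card Finset.inter_subset_left
  have hset : ∀ m : ℕ, {o' : Finset GolayPt | o' ∈ octads ∧ x ∈ o' ∧ (o ∩ o').card = m} =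
      {z | z ∈ octads ∧ cA (x, x, o) z = 48 + m} := by
    intro m
    ext z
    have := hk z
    simp only [Set.mem_ofPred_eq, cA]
    constructor
    · rintro ⟨h1, h2, h3⟩
      exact ⟨h1, by simp only [h2, if_true, h3]⟩
    · rintro ⟨h1, h2⟩
      split_ifs at h2 with h3
      · exact ⟨h1, h3, by omega⟩
      · omega
  refine ⟨?_, ?_, ?_⟩
  · rw [hset 2]
    have := k1 2
    rw [vals] at this
    exact this
  · rw [hset 4]
    have := k1 4
    rw [vals] at this
    exact this
  · intro o' o'' ho' ho'' hx' hx'' hc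
    obtain ⟨h, hh, h1, h2⟩ := k2 o' o'' ho' ho'' (by simp only [cA, hx', hx'', if_true, hc])
    rw [Prod.smul_mk, Prod.smul_mk, Prod.mk.injEq, Prod.mk.injEq] at h1
    exact ⟨h, hh, h1.1, h1.2.2, h2⟩

end Cfsg.Agent.S1607
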