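import Cfsg.Statements.S1608
import Cfsg.Agent.Lib.Helper3_Cls

set_option autoImplicit false
open scoped Pointwise
open Cfsg

namespace Cfsg.Agent.S1608


open Cfsg.Agent.Lib.Helper3_Sext Cfsg.Agent.Lib.Helper3_Orb Cfsg.Agent.Lib.Helper3_Orb2
open Cfsg.Agent.Lib.Helper3_Bfs Cfsg.Agent.Lib.Helper3_Bfs2 Cfsg.Agent.Lib.Helper3_Orb3
open Cfsg.Agent.Lib.Helper3_Golay2 Cfsg.Agent.Lib.Helper3_Golay3 Cfsg.Agent.Lib.Helper3_M24a
open Cfsg.Agent.Lib.Helper3_M24d Cfsg.Agent.Lib.Helper3_Cls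

def gens : List ℕ := [969925517148325144306158729804495392, 26233098332056397984472824833170529]

def Y0 : ℕ := 8536111

def C0 : List ℕ := []

def Y1 : ℕ := 337856

def C1 : List ℕ := [3, 13, 11, 15, 4, 1]

def Y2 : ℕ := 628112

def C2 : List ℕ := [3, 15, 118, 33, 1]

def Y3 : ℕ := 5279

def C3 : List ℕ := [3, 15, 254, 15295, 10682110, 1010786070, 69013144768]

def Y4 : ℕ := 39257

def C4 : List ℕ := [3, 15, 255, 65535, 2146295550, 4393641132355510, 3923851722940852974491, 160276515063480420717, 11296382800961536, 2560]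

def Y5 : ℕ := 18147

def C5 : List ℕ := [3, 15, 239, 16255, 33292158, 16354429627359, 3866775861996763608559, 398671144241255283203182981927, 157162903498100117569701044, 3355451456]

def Y6 : ℕ := 15777

def C6 : List ℕ := [3, 15, 255, 65535, 4292870142, 247693028481824767, 2480625841929656354252137625436, 1789228009353969419305760714776796404955, 5566143896760932866105230985896822833, 105555264995328]

def yL : Fin 7 → ℕ := ![Y0, Y1, Y2, Y3, Y4, Y5, Y6]

def nL : Fin 7 → ℕ := ![1, 15, 15, 70, 168, 210, 280]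

theorem c0 : chkM (inSt3 4 4 O0) gens Y0 C0 4 4096 1 = true := by decide +kernel

theorem c1 : chkM (inSt3 4 4 O0) gens Y1 C1 4 4096 15 = true := by decide +kernel

theorem c2 : chkM (inSt3 4 4 O0) gens Y2 C2 4 4096 15 = true := by decide +kernel

theorem c3 : chkM (inSt3 4 4 O0) gens Y3 C3 4 4096 70 = true := by decide +kernel

theorem c4 : chkM (inSt3 4 4 O0) gens Y4 C4 4 4096 168 = true := by decide +kernel

theorem c5 : chkM (inSt3 4 4 O0) gens Y5 C5 4 4096 210 = true := by decide +kernel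

theorem c6 : chkM (inSt3 4 4 O0) gens Y6 C6 4 4096 280 = true := by decide +kernel

theorem hy : ∀ t : Fin 7, isOct (yL t) = true := by decide +kernel

theorem hle : ∀ t, nL t ≤ (MulAction.orbit (MulAction.stabilizer M24 ((pt 4, pt 4, dec O0) : A3)) (dec (yL t))).ncard := by
  intro t
  fin_cases t
  · exact chkM_le (sound_inSt3 (by norm_num) (by norm_num) O0) c0
  · exact chkM_le (sound_inSt3 (by norm_num) (by norm_num) O0) c1
  · exact chkM_le (sound_inSt3 (by norm_num) (by norm_num) O0) c2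
  · exact chkM_le (sound_inSt3 (by norm_num) (by norm_num) O0) c3
  · exact chkM_le (sound_inSt3 (by norm_num) (by norm_num) O0) c4
  · exact chkM_le (sound_inSt3 (by norm_num) (by norm_num) O0) c5
  · exact chkM_le (sound_inSt3 (by norm_num) (by norm_num) O0) c6

theorem hinj : Function.Injective fun t => cL 4 4 O0 (yL t) := by decide +kernel

theorem hsum : 759 = ∑ t, nL t := by decide +kernel

theorem vals : ∀ t : Fin 7, cL 4 4 O0 (yL t) = (![8, 0, 48, 52, 50, 4, 2] : Fin 7 → ℕ) t := by decide +kernel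

/-- The point stabiliser acts on the 506 octads avoiding the point with rank 4 and subdegrees 1, 15, 210, 280, the suborbits being given by intersection size with the fixed octad. -/
theorem result (x : Cfsg.GolayPt) (o : Finset Cfsg.GolayPt) (ho : o ∈ Cfsg.octads) (hx : x ∉ o) : {o' : Finset Cfsg.GolayPt | o' ∈ Cfsg.octads ∧ x ∉ o' ∧ (o ∩ o').card = 0}.ncard = 15 ∧ {o' : Finset Cfsg.GolayPt | o' ∈ Cfsg.octads ∧ x ∉ o' ∧ (o ∩ o').card = 4}.ncard = 210 ∧ {o' : Finset Cfsg.GolayPt | o' ∈ Cfsg.octads ∧ x ∉ o' ∧ (o ∩ o').card = 2}.ncard = 280 ∧ ∀ o' o'' : Finset Cfsg.GolayPt, o' ∈ Cfsg.octads → o'' ∈ Cfsg.octads → x ∉ o' → x ∉ o'' → (o ∩ o').card = (o ∩ o'').card → ∃ g : Equiv.Perm Cfsg.GolayPt, g ∈ Cfsg.M24 ∧ g x = x ∧ g • o = o ∧ g • o' = o'' := by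
  obtain ⟨p, hp⟩ : o.Nonempty := by rw [← Finset.card_pos, ho.2]; norm_num
  obtain ⟨g, hg, _, hgx, hgo⟩ := nf_in_out ho hp hx
  have ha : g • ((pt 4, pt 4, dec O0) : A3) = (x, x, o) := by
    rw [Prod.smul_mk, Prod.smul_mk, hgo, Equiv.Perm.smul_def, hgx]
  obtain ⟨k1, k2⟩ := classes3 (by norm_num) (by norm_num) O0 yL nL hy hle hinj hsum g hg
  rw [ha] at k1 k2
  have hk : ∀ z : Finset GolayPt, (o ∩ z).card ≤ 8 := fun z => by
    rw [← ho.2]; exact Finset.card_le_card Finset.inter_subset_left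
  have hset : ∀ m : ℕ, m ≤ 8 → {o' : Finset GolayPt | o' ∈ octads ∧ x ∉ o' ∧ (o ∩ o').card = m} =
      {z | z ∈ octads ∧ cA (x, x, o) z = m} := by
    intro m hm
    ext z
    have := hk z
    simp only [Set.mem_ofPred_eq, cA]
    constructor
    · rintro ⟨h1, h2, h3⟩
      exact ⟨h1, by simp only [h2, if_false, h3]; omega⟩
    · rintro ⟨h1, h2⟩
      split_ifs at h2 with h3
      · omega
      · exact ⟨h1, h3, by omega⟩
  refine ⟨?_, ?_, ?_, ?_⟩
  · rw [hset 0 (by norm_num)]
    have := k1 1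
    rw [vals] at this
    exact this
  · rw [hset 4 (by norm_num)]
    have := k1 5
    rw [vals] at this
    exact this
  · rw [hset 2 (by norm_num)]
    have := k1 6
    rw [vals] at this
    exact this
  · intro o' o'' ho' ho'' hx' hx'' hc
    obtain ⟨h, hh, h1, h2⟩ := k2 o' o'' ho' ho'' (by simp only [cA, hx', hx'', if_false, hc])
    rw [Prod.smul_mk, Prod.smul_mk, Prod.mk.injEq, Prod.mk.injEq] at h1
    exact ⟨h, hh, h1.1, h1.2.2, h2⟩

end Cfsg.Agent.S1608
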