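import Cfsg.Statements.S1638
import Cfsg.Agent.Lib.Helper3_M24i

set_option autoImplicit false
open scoped Pointwise
open Cfsg

namespace Cfsg.Agent.S1638

/-- Fix two points p ≠ q and a pair s of two further points. Among the pairs avoiding p, q and disjoint from s, exactly 30 lie in an octad together with p, q and s and exactly 160 do not; and any two pairs other than s that meet s in equally many points and agree on that octad property are carried to one another by an element of the group of the length-24 code fixing p, q and s. -/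
theorem result (p q : Cfsg.GolayPt) (hpq : p ≠ q) (s : Finset Cfsg.GolayPt) (hs : (s.card = 2 ∧ p ∉ s ∧ q ∉ s)) : {t : Finset Cfsg.GolayPt | (t.card = 2 ∧ p ∉ t ∧ q ∉ t) ∧ Disjoint s t ∧ (∃ o ∈ Cfsg.octads, p ∈ o ∧ q ∈ o ∧ s ∪ t ⊆ o)}.ncard = 30 ∧ {t : Finset Cfsg.GolayPt | (t.card = 2 ∧ p ∉ t ∧ q ∉ t) ∧ Disjoint s t ∧ ¬ (∃ o ∈ Cfsg.octads, p ∈ o ∧ q ∈ o ∧ s ∪ t ⊆ o)}.ncard = 160 ∧ ∀ t t' : Finset Cfsg.GolayPt, (t.card = 2 ∧ p ∉ t ∧ q ∉ t) → (t'.card = 2 ∧ p ∉ t' ∧ q ∉ t') → t ≠ s → t' ≠ s → (s ∩ t).card = (s ∩ t').card → ((∃ o ∈ Cfsg.octads, p ∈ o ∧ q ∈ o ∧ s ∪ t ⊆ o) ↔ (∃ o ∈ Cfsg.octads, p ∈ o ∧ q ∈ o ∧ s ∪ t' ⊆ o)) → ∃ g : Equiv.Perm Cfsg.GolayPt, g ∈ Cfsg.M24 ∧ g p = p ∧ g q = q ∧ g • s = s ∧ g • t = t' := by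
  classical
  obtain ⟨hs2, hps, hqs⟩ := hs
  have hl : Cfsg.Agent.Lib.Helper3_Steiner.lam 24 8 5 4 = 5 := by decide
  have hIc : (({p, q} : Finset Cfsg.GolayPt) ∪ s).card = 4 := by
    rw [Finset.card_union_of_disjoint, Finset.card_pair hpq, hs2]
    rw [Finset.disjoint_left]
    intro x hx hxs
    rcases Finset.mem_insert.mp hx with h | h
    · exact hps (h ▸ hxs)
    · exact hqs ((Finset.mem_singleton.mp h) ▸ hxs)
  have hdj : ∀ t : Finset Cfsg.GolayPt, Disjoint (({p, q} : Finset Cfsg.GolayPt) ∪ s) t ↔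
      (p ∉ t ∧ q ∉ t ∧ Disjoint s t) := by
    intro t
    rw [Finset.disjoint_union_left, Finset.disjoint_insert_left, Finset.disjoint_singleton_left]
    tauto
  have hsb : ∀ t o : Finset Cfsg.GolayPt, (({p, q} : Finset Cfsg.GolayPt) ∪ s) ∪ t ⊆ o ↔
      (p ∈ o ∧ q ∈ o ∧ s ∪ t ⊆ o) := by
    intro t o
    rw [Finset.union_assoc, Finset.union_subset_iff, Finset.insert_subset_iff,
      Finset.singleton_subset_iff]
    tauto
  refine ⟨?_, ?_, ?_⟩
  · have := Cfsg.Agent.Lib.Helper3_M24i.count_ext (({p, q} : Finset Cfsg.GolayPt) ∪ s) 2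
      (by omega) (by omega)
    rw [hIc, hl] at this
    have e : {t : Finset Cfsg.GolayPt | (t.card = 2 ∧ p ∉ t ∧ q ∉ t) ∧ Disjoint s t ∧ (∃ o ∈ Cfsg.octads, p ∈ o ∧ q ∈ o ∧ s ∪ t ⊆ o)} = {U : Finset Cfsg.GolayPt | U.card = 2 ∧ Disjoint (({p, q} : Finset Cfsg.GolayPt) ∪ s) U ∧ ∃ o ∈ Cfsg.octads, (({p, q} : Finset Cfsg.GolayPt) ∪ s) ∪ U ⊆ o} := by
      ext t
      simp only [Set.mem_ofPred_eq, hdj, hsb]
      tauto
    rw [e, this]; rfl
  · have := Cfsg.Agent.Lib.Helper3_M24i.count_nonext (({p, q} : Finset Cfsg.GolayPt) ∪ s) 2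
      (by omega) (by omega)
    rw [hIc, hl] at this
    have e : {t : Finset Cfsg.GolayPt | (t.card = 2 ∧ p ∉ t ∧ q ∉ t) ∧ Disjoint s t ∧ ¬ (∃ o ∈ Cfsg.octads, p ∈ o ∧ q ∈ o ∧ s ∪ t ⊆ o)} = {U : Finset Cfsg.GolayPt | U.card = 2 ∧ Disjoint (({p, q} : Finset Cfsg.GolayPt) ∪ s) U ∧ ¬ ∃ o ∈ Cfsg.octads, (({p, q} : Finset Cfsg.GolayPt) ∪ s) ∪ U ⊆ o} := by
      ext t
      simp only [Set.mem_ofPred_eq, hdj, hsb]
      tauto
    rw [e]
    have e1 : Nat.choose (8 - 4) 2 = 6 := by decide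
    have e2 : Nat.choose (24 - 4) 2 = 190 := by decide
    rw [e1, e2] at this
    omega
  · rintro t t' ⟨ht2, hpt, hqt⟩ ⟨ht2', hpt', hqt'⟩ hts hts' hc hiff
    have e1 : ∀ z : Finset Cfsg.GolayPt, (s \ z).card + (s ∩ z).card = s.card :=
      fun z => Finset.card_sdiff_add_card_inter s z
    have e2 : ∀ z : Finset Cfsg.GolayPt, (z \ s).card + (s ∩ z).card = z.card := by
      intro z; rw [Finset.inter_comm]; exact Finset.card_sdiff_add_card_inter z s
    have hdis : ∀ z : Finset Cfsg.GolayPt, p ∉ z → q ∉ z →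
        [{p}, {q}, s ∩ z, s \ z, z \ s].Pairwise (fun A B => Disjoint A B) := by
      intro z hpz hqz
      simp only [List.pairwise_cons, List.mem_cons, List.not_mem_nil, or_false, forall_eq_or_imp,
        forall_eq, IsEmpty.forall_iff, implies_true, List.Pairwise.nil, and_true]
      refine ⟨⟨?_, ?_, ?_, ?_⟩, ⟨?_, ?_, ?_⟩, ⟨?_, ?_⟩, ?_⟩ <;> rw [Finset.disjoint_left] <;>
        intro x h1 h2 <;>
        simp only [Finset.mem_inter, Finset.mem_sdiff, Finset.mem_singleton] at h1 h2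
      · exact hpq (h1 ▸ h2)
      · exact hps (h1 ▸ h2.1)
      · exact hps (h1 ▸ h2.1)
      · exact hpz (h1 ▸ h2.1)
      · exact hqs (h1 ▸ h2.1)
      · exact hqs (h1 ▸ h2.1)
      · exact hqz (h1 ▸ h2.1)
      · tauto
      · tauto
      · tauto
    have hsub : ∀ (z o : Finset Cfsg.GolayPt), (∀ A ∈ [{p}, {q}, s ∩ z, s \ z, z \ s], A ⊆ o) ↔
        (p ∈ o ∧ q ∈ o ∧ s ∪ z ⊆ o) := by
      intro z o
      simp only [List.mem_cons, List.not_mem_nil, or_false, forall_eq_or_imp, forall_eq,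
        Finset.singleton_subset_iff]
      constructor
      · rintro ⟨h4, h5, h1, h2, h3⟩
        refine ⟨h4, h5, ?_⟩
        intro x hx
        by_cases hxs : x ∈ s <;> by_cases hxz : x ∈ z
        · exact h1 (Finset.mem_inter.mpr ⟨hxs, hxz⟩)
        · exact h2 (Finset.mem_sdiff.mpr ⟨hxs, hxz⟩)
        · exact h3 (Finset.mem_sdiff.mpr ⟨hxz, hxs⟩)
        · rcases Finset.mem_union.mp hx with h | h <;> contradiction
      · rintro ⟨h4, h5, h⟩
        refine ⟨h4, h5, ?_, ?_, ?_⟩ <;> intro x hx <;> apply h <;>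
          simp only [Finset.mem_inter, Finset.mem_sdiff, Finset.mem_union] at hx ⊢ <;> tauto
    obtain ⟨g, hg, hF⟩ := Cfsg.Agent.Lib.Helper3_M24h.exists_blocks
      [{p}, {q}, s ∩ t, s \ t, t \ s] [{p}, {q}, s ∩ t', s \ t', t' \ s]
      (by
        refine List.Forall₂.cons rfl (List.Forall₂.cons rfl (List.Forall₂.cons hc
          (List.Forall₂.cons ?_ (List.Forall₂.cons ?_ List.Forall₂.nil))))
        · have := e1 t; have := e1 t'; omega
        · have := e2 t; have := e2 t'; omega)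
      (hdis t hpt hqt) (hdis t' hpt' hqt')
      (by simp only [List.map_cons, List.map_nil, List.sum_cons, List.sum_nil,
            Finset.card_singleton]
          have := e1 t; have := e2 t; omega)
      (by
        intro _
        simp only [hsub]
        exact hiff)
    simp only [List.forall₂_cons, List.forall₂_nil_right_iff, and_true] at hF
    obtain ⟨h4, h5, h1, h2, h3⟩ := hF
    have hfix : ∀ x : Cfsg.GolayPt, g • ({x} : Finset Cfsg.GolayPt) = {x} → g x = x := by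
      intro x hx
      rw [Finset.smul_finset_singleton] at hx
      exact Finset.singleton_injective hx
    refine ⟨g, hg, hfix p h4, hfix q h5, ?_, ?_⟩
    · have : ∀ z : Finset Cfsg.GolayPt, s = (s ∩ z) ∪ (s \ z) := by
        intro z; ext x; simp only [Finset.mem_union, Finset.mem_inter, Finset.mem_sdiff]; tauto
      conv_lhs => rw [this t]
      rw [Finset.smul_finset_union, h1, h2, ← this t']
    · have : ∀ z : Finset Cfsg.GolayPt, z = (s ∩ z) ∪ (z \ s) := by
        intro z; ext x; simp only [Finset.mem_union, Finset.mem_inter, Finset.mem_sdiff]; tauto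
      conv_lhs => rw [this t]
      rw [Finset.smul_finset_union, h1, h3, ← this t']

end Cfsg.Agent.S1638
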