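import Mathlib
import Cfsg.Agent.Lib.helper6_Extra
import Cfsg.Statements.S1756

set_option autoImplicit false
open Cfsg

namespace Cfsg.Agent.S1756

open Subgroup

/-- Let Q be an extraspecial 2-subgroup of the finite group G (special with centre of order 2) and t an involution of G normalizing Q such that the centralizer of t in Q has index at most 2 in Q. Then t lies in the product of Q with the centralizer of Q. -/
theorem result {G : Type*} [Group G] [Finite G] (Q : Subgroup G)
    (hQ : Cfsg.IsExtraspecial 2 ↥Q) (t : G) (ht : orderOf t = 2) (htN : t ∈ Subgroup.normalizer (Q : Set G))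
    (hi : (Subgroup.centralizer ({t} : Set G) ⊓ Q).relIndex Q ≤ 2) :
    t ∈ Q ⊔ Subgroup.centralizer (Q : Set G) := by
  set φ : MulAut Q := Q.normalizerMonoidHom ⟨t, htN⟩ with hφdef
  have hφ : ∀ y : Q, ((φ y : Q) : G) = t * y * t⁻¹ := fun y => rfl
  have ht2 : t * t = 1 := by rw [← pow_two, ← ht, pow_orderOf_eq_one]
  have htinv : t⁻¹ = t := inv_eq_of_mul_eq_one_left ht2
  have hφ2 : ∀ y, φ (φ y) = y := by
    intro y
    ext
    rw [hφ, hφ, htinv]
    calc t * (t * y * t) * t = (t * t) * y * (t * t) := by group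
      _ = y := by rw [ht2]; simp
  set D : Subgroup Q := (centralizer ({t} : Set G) ⊓ Q).subgroupOf Q with hDdef
  have hD : ∀ y, y ∈ D ↔ φ y = y := by
    intro y
    rw [hDdef, mem_subgroupOf, mem_inf, mem_centralizer_iff]
    constructor
    · rintro ⟨h1, -⟩
      ext
      rw [hφ, h1 t rfl]; group
    · intro h
      refine ⟨?_, y.2⟩
      intro s hs
      rw [Set.mem_singleton_iff.1 hs]
      have h1 : t * (y : G) * t⁻¹ = y := by rw [← hφ, h]
      have := congrArg (fun w => w * t) h1
      simpa using this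
  have hDi : D.index ≤ 2 := hi
  have hD0 : D.index ≠ 0 := index_ne_zero_of_finite
  have key : ∀ y : Q, φ y * y⁻¹ ∈ center Q := by
    by_cases h1 : D.index = 1
    · intro y
      have : y ∈ D := by rw [index_eq_one.1 h1]; trivial
      rw [(hD y).1 this, mul_inv_cancel]; exact one_mem _
    · exact Cfsg.Agent.Lib.helper6_Extra.central_of_index_two φ hφ2 D hD (by omega)
  obtain ⟨g, hg⟩ := Cfsg.Agent.Lib.helper6_Extra.inner_of_extraspecial hQ φ key
  have h1 : (g : G)⁻¹ * t ∈ centralizer (Q : Set G) := by
    rw [mem_centralizer_iff]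
    intro y hy
    have h2 : t * y * t⁻¹ = g * y * (g : G)⁻¹ := by
      have := congrArg Subtype.val (hg ⟨y, hy⟩)
      rw [hφ] at this
      simpa using this
    calc y * ((g : G)⁻¹ * t) = (g : G)⁻¹ * (g * y * (g : G)⁻¹) * t := by group
      _ = (g : G)⁻¹ * (t * y * t⁻¹) * t := by rw [h2]
      _ = _ := by group
  have h2 : t = g * ((g : G)⁻¹ * t) := by group
  rw [h2]
  exact mul_mem_sup g.2 h1

end Cfsg.Agent.S1756
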