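import Cfsg.Statements.S1757
import Cfsg.Agent.Lib.Helper2_EA
import Cfsg.Agent.Lib.Helper1_Comm

set_option autoImplicit false
open Cfsg

namespace Cfsg.Agent.S1757


/-- Let p be a prime and A, B p-subgroups of the finite group G, each of which meets every conjugate of itself other than itself trivially. Suppose the order of A is at most that of B, A and B intersect trivially, and B normalizes A. Then A and B commute elementwise. -/
theorem result {G : Type*} [Group G] [Finite G] (p : ℕ) [Fact p.Prime] (A B : Subgroup G)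
    (hA : IsPGroup p ↥A) (hB : IsPGroup p ↥B)
    (hAti : ∀ g : G, A.map (MulAut.conj g).toMonoidHom = A ∨ A.map (MulAut.conj g).toMonoidHom ⊓ A = ⊥)
    (hBti : ∀ g : G, B.map (MulAut.conj g).toMonoidHom = B ∨ B.map (MulAut.conj g).toMonoidHom ⊓ B = ⊥)
    (hle : Nat.card ↥A ≤ Nat.card ↥B) (hAB : A ⊓ B = ⊥) (hN : B ≤ Subgroup.normalizer (A : Set G)) : ⁅A, B⁆ = ⊥ := by
  have hcard : Nat.card ↥(B ⊔ A) = Nat.card B * Nat.card A := by
    have := Cfsg.Agent.Lib.Helper2_EA.card_sup_mul_card_inf B A hN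
    rw [inf_comm, hAB] at this
    simpa using this
  have key : ∀ a ∈ A, B.map (MulAut.conj a).toMonoidHom = B := by
    intro a ha
    rcases hBti a with h | h
    · exact h
    let f : B × B → ↥(B ⊔ A) := fun x =>
      ⟨x.1 * (a * x.2 * a⁻¹), by
        have h1 : (x.1 : G) ∈ B ⊔ A := Subgroup.mem_sup_left x.1.2
        have h2 : (x.2 : G) ∈ B ⊔ A := Subgroup.mem_sup_left x.2.2
        have h3 : a ∈ B ⊔ A := Subgroup.mem_sup_right ha
        exact mul_mem h1 (mul_mem (mul_mem h3 h2) (inv_mem h3))⟩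
    have hinj : Function.Injective f := by
      rintro ⟨⟨x1, hx1⟩, ⟨x2, hx2⟩⟩ ⟨⟨y1, hy1⟩, ⟨y2, hy2⟩⟩ hxy
      have hxy' : (x1 : G) * (a * x2 * a⁻¹) = y1 * (a * y2 * a⁻¹) := congrArg Subtype.val hxy
      have e1 : (y1 : G)⁻¹ * x1 = a * (y2 * x2⁻¹) * a⁻¹ := by
        have : (x1 : G) = y1 * (a * y2 * a⁻¹) * (a * x2 * a⁻¹)⁻¹ := by
          rw [← hxy']; group
        rw [this]; group
      have m1 : (y1 : G)⁻¹ * x1 ∈ B.map (MulAut.conj a).toMonoidHom ⊓ B := by
        refine Subgroup.mem_inf.mpr ⟨?_, B.mul_mem (B.inv_mem hy1) hx1⟩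
        rw [e1]
        exact ⟨y2 * x2⁻¹, B.mul_mem hy2 (B.inv_mem hx2), by simp⟩
      rw [h, Subgroup.mem_bot] at m1
      have e2 : (x1 : G) = y1 := by
        have := inv_mul_eq_one.mp m1
        exact this.symm
      have e3 : (x2 : G) = y2 := by
        rw [m1] at e1
        have : (y2 : G) * x2⁻¹ = 1 := by
          have : (y2 : G) * x2⁻¹ = a⁻¹ * (a * (y2 * x2⁻¹) * a⁻¹) * a := by group
          rw [this, ← e1]; group
        exact (mul_inv_eq_one.mp this).symm
      subst e2 e3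
      rfl
    have hbij : Function.Bijective f := by
      apply hinj.bijective_of_nat_card_le
      rw [hcard, Nat.card_prod]
      exact Nat.mul_le_mul_left _ hle
    obtain ⟨⟨⟨b1, hb1⟩, ⟨b2, hb2⟩⟩, hb⟩ := hbij.2 ⟨a⁻¹, inv_mem (Subgroup.mem_sup_right ha)⟩
    have hb' : (b1 : G) * (a * b2 * a⁻¹) = a⁻¹ := congrArg Subtype.val hb
    have ea : a = (b1 : G)⁻¹ * (b2 : G)⁻¹ := by
      have : (b1 : G) * a * b2 = 1 := by
        have : (b1 : G) * a * b2 = (b1 * (a * b2 * a⁻¹)) * a := by group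
        rw [this, hb']; group
      have h2 : a = (b1 : G)⁻¹ * ((b1 : G) * a * b2) * (b2 : G)⁻¹ := by group
      rw [h2, this]; group
    have haB : a ∈ B := by
      rw [ea]; exact mul_mem (inv_mem hb1) (inv_mem hb2)
    have ha1 : a ∈ A ⊓ B := ⟨ha, haB⟩
    rw [hAB, Subgroup.mem_bot] at ha1
    subst ha1
    ext x; simp
  have hN2 : A ≤ Subgroup.normalizer (B : Set G) := by
    intro a ha
    rw [Subgroup.mem_normalizer_iff]
    intro x
    have h1 := key a ha
    constructor
    · intro hx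
      rw [← h1]
      exact ⟨x, hx, by simp⟩
    · intro hx
      rw [← h1] at hx
      obtain ⟨y, hy, hyx⟩ := hx
      have : y = x := by
        simpa using hyx
      exact this ▸ hy
  have h1 : ⁅A, B⁆ ≤ A := Cfsg.Agent.Lib.Helper1_Comm.commutator_le_left hN
  have h2 : ⁅A, B⁆ ≤ B := by
    rw [Subgroup.commutator_comm]
    exact Cfsg.Agent.Lib.Helper1_Comm.commutator_le_left hN2
  exact le_bot_iff.mp (hAB ▸ le_inf h1 h2)

end Cfsg.Agent.S1757
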