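import Cfsg.Statements.S1780
import Mathlib

set_option autoImplicit false
open Cfsg

namespace Cfsg.Agent.S1780

theorem sub1 {M : Type*} [AddCommGroup M] (f : M →+ M) (hyp : ∀ a, f (f a) = a → f a = a)
    (y : M) (hy : f (f y) = -y) (h4 : (4:ℤ) • y = 0) : (2:ℤ) • y = 0 := by
  have h1 : f ((2:ℤ) • y) = (2:ℤ) • y := by
    apply hyp
    rw [map_zsmul, map_zsmul, hy]
    linear_combination (norm := module) -h4
  rw [map_zsmul] at h1
  have h2 : f (f y - y) = f y - y := by
    apply hyp
    rw [map_sub, map_sub, hy, map_neg]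
    linear_combination (norm := module) -h1
  rw [map_sub, hy] at h2
  linear_combination (norm := module) -h2 - h1

theorem sub2 {M : Type*} [AddCommGroup M] (f : M →+ M) (hyp : ∀ a, f (f a) = a → f a = a)
    (n : ℕ) : ∀ (y : M) (hy : f (f y) = -y) (h4 : (2:ℤ)^n • y = 0), (2:ℤ) • y = 0 := by
  induction n with
  | zero => intro y hy h; simp at h; simp [h]
  | succ n ih =>
    intro y hy h
    apply sub1 f hyp y hy
    have := ih ((2:ℤ) • y) (by rw [map_zsmul, map_zsmul, hy]; module) (by rw [← h]; module)
    rw [← this]; module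

theorem key {M : Type*} [AddCommGroup M] (f : M →+ M) (hyp : ∀ a, f (f a) = a → f a = a)
    (h2 : ∀ x : M, ∃ n : ℕ, (2:ℤ)^n • x = 0) (d : M) (hd : f (f (f (f d))) = d) : f (f d) = d := by
  set x := f (f d) - d with hx
  have hx1 : f (f x) = -x := by
    rw [hx, map_sub, map_sub, hd]; abel
  obtain ⟨n, hn⟩ := h2 x
  have hx2 : (2:ℤ) • x = 0 := sub2 f hyp n x hx1 hn
  have hx3 : f x = x := by
    apply hyp
    rw [hx1]
    linear_combination (norm := module) -hx2
  have hv : f (f d - d) = f d - d := by
    apply hyp
    have e : f (f d) = x + d := by rw [hx]; abel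
    rw [map_sub, map_sub, e, map_add, hx3]
    abel
  have hd2 : f ((2:ℤ) • d) = (2:ℤ) • d := by
    apply hyp
    have e : f (f d) = x + d := by rw [hx]; abel
    rw [map_zsmul, map_zsmul, e]
    linear_combination (norm := module) hx2
  rw [map_zsmul] at hd2
  rw [map_sub] at hv
  have : x = 0 := by
    rw [hx]
    linear_combination (norm := module) hv + hd2
  rw [hx] at this
  exact sub_eq_zero.mp this


/-- Let A be a finite abelian 2-group and t an automorphism of A whose order is a power of 2. If every element of A fixed by t² is fixed by t, then t fixes every element of A. -/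
theorem result {A : Type*} [CommGroup A] [Finite A]
    (hA : IsPGroup 2 A) (t : MulAut A) (ht : ∃ k : ℕ, orderOf t = 2 ^ k) (hC : ∀ a : A, t (t a) = a → t a = a) :
    ∀ a : A, t a = a := by
  obtain ⟨k, hk⟩ := ht
  have hpow : t ^ (2 ^ k) = 1 := by rw [← hk]; exact pow_orderOf_eq_one t
  have h2 : ∀ x : Additive A, ∃ n : ℕ, (2:ℤ)^n • x = 0 := by
    intro x
    obtain ⟨n, hn⟩ := hA (Additive.toMul x)
    refine ⟨n, ?_⟩
    have : (2^n : ℕ) • x = 0 := by
      exact congrArg Additive.ofMul hn
    rw [← this]
    norm_cast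
  have main : ∀ (k : ℕ) (t : MulAut A), t ^ (2 ^ k) = 1 → (∀ a : A, t (t a) = a → t a = a) →
      ∀ a : A, t a = a := by
    intro k
    induction k with
    | zero => intro t h _ a; simp at h; simp [h]
    | succ k ih =>
      intro t h hC a
      apply hC
      have := ih (t ^ 2) (by rw [← pow_mul, ← pow_succ']; exact h) (by
        intro d hd
        have hd' : t (t (t (t d))) = d := by simpa [pow_two] using hd
        have := key (MonoidHom.toAdditive t.toMonoidHom) (fun a ha => hC a ha) h2 (Additive.ofMul d) hd'
        simpa [pow_two] using this) a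
      simpa [pow_two] using this
  exact main k t hpow hC

end Cfsg.Agent.S1780
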