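import Cfsg.Statements.S1781
import Mathlib
import Cfsg.Agent.S1757
import Cfsg.Agent.S1780
import Cfsg.Agent.Lib.Helper2_EA

set_option autoImplicit false
open Cfsg

namespace Cfsg.Agent.S1781


/-- Let A be an abelian 2-subgroup of the finite group G such that every conjugate of A equals A or meets A trivially, and let g ∈ G with g A g⁻¹ ≠ A. Then either the subgroup of those elements of A that normalize g A g⁻¹ is an elementary abelian 2-group, or A and g A g⁻¹ commute elementwise. -/
theorem result {G : Type*} [Group G] [Finite G] (A : Subgroup G)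
    (hA2 : IsPGroup 2 ↥A) (hAa : IsMulCommutative ↥A)
    (hti : ∀ h : G, A.map (MulAut.conj h).toMonoidHom = A ∨ A.map (MulAut.conj h).toMonoidHom ⊓ A = ⊥)
    (g : G) (hg : A.map (MulAut.conj g).toMonoidHom ≠ A) :
    Cfsg.IsElementaryAbelian 2 (A ⊓ Subgroup.normalizer ((A.map (MulAut.conj g).toMonoidHom : Subgroup G) : Set G)) ∨
      ⁅A, A.map (MulAut.conj g).toMonoidHom⁆ = ⊥ := by
  have hcomm : ∀ x ∈ A, ∀ y ∈ A, x * y = y * x := isMulCommutative_iff_of_setLike.mp hAa
  set B := A.map (MulAut.conj g).toMonoidHom with hB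
  have hBA : B ⊓ A = ⊥ := (hti g).resolve_left hg
  have hBcomm : ∀ x ∈ B, ∀ y ∈ B, x * y = y * x := by
    rintro _ ⟨x, hx, rfl⟩ _ ⟨y, hy, rfl⟩
    rw [← map_mul, ← map_mul, hcomm x hx y hy]
  have hB2 : IsPGroup 2 ↥B := hA2.map _
  have hcard : Nat.card B = Nat.card A :=
    Nat.card_congr (A.equivMapOfInjective _ (MulEquiv.injective _)).toEquiv.symm
  -- TI for B
  have hBti : ∀ h : G, B.map (MulAut.conj h).toMonoidHom = B ∨ B.map (MulAut.conj h).toMonoidHom ⊓ B = ⊥ := by
    intro h
    have e : B.map (MulAut.conj h).toMonoidHom =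
        (A.map (MulAut.conj (g⁻¹ * h * g)).toMonoidHom).map (MulAut.conj g).toMonoidHom := by
      rw [hB, Subgroup.map_map, Subgroup.map_map]
      congr 1
      ext x
      simp [mul_assoc]
    rcases hti (g⁻¹ * h * g) with h1 | h1
    · left; rw [e, h1]
    · right
      rw [e, hB, ← Subgroup.map_inf _ _ _ (MulEquiv.injective _), h1, Subgroup.map_bot]
  -- if b fixes a nontrivial element of A by conjugation-membership then b normalizes A
  have hnorm : ∀ b : G, ∀ a ∈ A, a ≠ 1 → b * a = a * b → A.map (MulAut.conj b).toMonoidHom = A := by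
    intro b a ha ha1 hba
    refine (hti b).resolve_right ?_
    intro h
    have : a ∈ A.map (MulAut.conj b).toMonoidHom ⊓ A := by
      refine Subgroup.mem_inf.mpr ⟨⟨a, ha, ?_⟩, ha⟩
      simp [hba]
    rw [h, Subgroup.mem_bot] at this
    exact ha1 this
  by_cases hEA : ∀ a ∈ A ⊓ Subgroup.normalizer (B : Set G), a ^ 2 = 1
  · left
    exact Cfsg.Agent.Lib.Helper2_EA.ea_of (fun x hx y hy => hcomm x hx.1 y hy.1) hEA
  right
  push Not at hEA
  obtain ⟨a, ⟨haA, haN⟩, ha2⟩ := hEA
  letI : CommGroup ↥B := { (inferInstance : Group ↥B) with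
    mul_comm := fun x y => Subtype.ext (hBcomm x x.2 y y.2) }
  let t : MulAut ↥B := B.normalizerMonoidHom ⟨a, haN⟩
  have ht : ∀ b : ↥B, ((t b : ↥B) : G) = a * b * a⁻¹ := fun b => rfl
  have hord : ∃ k : ℕ, orderOf t = 2 ^ k := by
    obtain ⟨m, hm⟩ := hA2 ⟨a, haA⟩
    have hm' : a ^ (2 ^ m) = 1 := by simpa using congrArg Subtype.val hm
    have : t ^ (2 ^ m) = 1 := by
      rw [← map_pow]
      have : (⟨a, haN⟩ : ↥(Subgroup.normalizer (B : Set G))) ^ (2 ^ m) = 1 := by
        apply Subtype.ext; simpa using hm'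
      rw [this, map_one]
    obtain ⟨k, _, hk⟩ := (Nat.dvd_prime_pow Nat.prime_two).1 (orderOf_dvd_of_pow_eq_one this)
    exact ⟨k, hk⟩
  have hC : ∀ b : ↥B, t (t b) = b → t b = b := by
    intro b hb
    have hb' : a * (a * b * a⁻¹) * a⁻¹ = (b : G) := by
      have := congrArg Subtype.val hb
      rwa [ht, ht] at this
    have hc : (b : G) * a ^ 2 = a ^ 2 * b := by
      conv_lhs => rw [← hb']
      simp [pow_two, mul_assoc]
    have hn := hnorm b (a ^ 2) (pow_mem haA 2) ha2 hc
    have m1 : a * b * a⁻¹ * (b : G)⁻¹ ∈ B := B.mul_mem (t b).2 (B.inv_mem b.2)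
    have m2 : a * b * a⁻¹ * (b : G)⁻¹ ∈ A := by
      have : (b : G) * a⁻¹ * (b : G)⁻¹ ∈ A := by
        rw [← hn]
        exact ⟨a⁻¹, A.inv_mem haA, by simp⟩
      have h3 := A.mul_mem haA this
      convert h3 using 1
      group
    have m3 : a * b * a⁻¹ * (b : G)⁻¹ ∈ B ⊓ A := Subgroup.mem_inf.mpr ⟨m1, m2⟩
    rw [hBA, Subgroup.mem_bot] at m3
    apply Subtype.ext
    rw [ht]
    exact mul_inv_eq_one.mp m3
  have hfix := Cfsg.Agent.S1780.result hB2 t hord hC
  have ha1 : a ≠ 1 := by
    rintro rfl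
    simp at ha2
  have hN : B ≤ Subgroup.normalizer (A : Set G) := by
    intro b hb
    have h1 : a * b * a⁻¹ = b := by
      have := congrArg Subtype.val (hfix ⟨b, hb⟩)
      rwa [ht] at this
    have h2 : b * a = a * b := by
      conv_lhs => rw [← h1]
      group
    have hn := hnorm b a haA ha1 h2
    rw [Subgroup.mem_normalizer_iff]
    intro x
    constructor
    · intro hx
      rw [← hn]
      exact ⟨x, hx, by simp⟩
    · intro hx
      rw [← hn] at hx
      obtain ⟨y, hy, hyx⟩ := hx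
      have : y = x := by
        simpa using hyx
      exact this ▸ hy
  haveI : Fact (Nat.Prime 2) := ⟨Nat.prime_two⟩
  exact Cfsg.Agent.S1757.result 2 A B hA2 hB2 hti hBti hcard.ge (by rw [inf_comm]; exact hBA) hN

end Cfsg.Agent.S1781
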