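import Cfsg.Statements.S1850
import Cfsg.Agent.Lib.Helper3_CharP

set_option autoImplicit false
open Cfsg

namespace Cfsg.Agent.S1850


/-- Let G be a non-abelian finite simple QTKE-group and T a Sylow 2-subgroup of G. If U is a nontrivial 2-subgroup of G with U ∩ Z(T) ≠ 1, then F*(N_G(U)) = O₂(N_G(U)). -/
theorem result {G : Type*} [Group G] [Finite G] [IsSimpleGroup G]
    (hG : ¬ IsMulCommutative G) (hQ : Cfsg.IsQTKE G) (T : Sylow 2 G) (U : Subgroup G)
    (hU : IsPGroup 2 ↥U) (hZ : U ⊓ ((T : Subgroup G) ⊓ Subgroup.centralizer ((T : Subgroup G) : Set G)) ≠ ⊥) :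
    Subgroup.normalizer (U : Set G) ∈ Cfsg.calHe G := by
  haveI : Fact (Nat.Prime 2) := ⟨Nat.prime_two⟩
  set V := U ⊓ ((T : Subgroup G) ⊓ Subgroup.centralizer ((T : Subgroup G) : Set G)) with hV
  have hVp : IsPGroup 2 V := hU.to_le inf_le_left
  have hTV : (T : Subgroup G) ≤ Subgroup.normalizer (V : Set G) := by
    refine le_trans ?_ (Subgroup.centralizer_le_normalizer _)
    rw [Subgroup.le_centralizer_iff]
    exact inf_le_right.trans inf_le_right
  have h1 := hQ.2.2 (Subgroup.normalizer (V : Set G)) ⟨V, hVp, hZ, rfl⟩ ⟨T, hTV⟩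
  have h2 := Cfsg.Agent.Lib.Helper3_CharP.centralizer_pCore_le_iff.mp h1
  exact Cfsg.Agent.Lib.Helper3_CharP.charP_normalizer_of_le hU inf_le_left h2

end Cfsg.Agent.S1850
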