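import Cfsg.Statements.S1959
import Cfsg.Agent.Lib.Helper4_Control4

set_option autoImplicit false

open Cfsg

namespace Cfsg.Agent.S1959

open scoped Pointwise
open Cfsg.Agent.Lib.Helper4_Syl Cfsg.Agent.Lib.Helper4_Alperin Cfsg.Agent.Lib.Helper4_Control
  Cfsg.Agent.Lib.Helper4_Control2 Cfsg.Agent.Lib.Helper4_Control3 Cfsg.Agent.Lib.Helper4_Control4

theorem result {G : Type*} [Group G] [Finite G] {p : ℕ} [Fact p.Prime] (S : Sylow p G) (𝓦 : Set (Subgroup G → Subgroup G)) (h𝓦 : ∀ W ∈ 𝓦, Cfsg.IsConjugacyFunctor p W) (hloc : ∀ T : Subgroup G, T ≤ (S : Subgroup G) → T ≠ ⊥ → ¬ p ∣ ((S : Subgroup G) ⊓ Subgroup.normalizer ((T : Subgroup G) : Set G)).relIndex (Subgroup.normalizer ((T : Subgroup G) : Set G)) → Cfsg.FamilyControlsStrongFusionIn p 𝓦 (Subgroup.normalizer ((T : Subgroup G) : Set G))) : Cfsg.FamilyControlsStrongFusionIn p 𝓦 ⊤ := by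
  have hS := IsSylIn.of_sylow_top S
  have hP := real_fusPred (stF_inv 𝓦 ⊤ (S : Subgroup G)) (S : Subgroup G) (S : Subgroup G)
  have key := control_family hS 𝓦 h𝓦 (Real (StF 𝓦 ⊤ (S : Subgroup G)) (S : Subgroup G)) hP
    (fun W hW y hy A hA hyA => ⟨y, LChain.single hA
      ⟨W, hW, Subgroup.mem_inf.2 ⟨Subgroup.mem_top y, hy⟩⟩ hyA, Agree.refl A y⟩)
    (by
      intro T hTS hTne hFN hprem y hy A hA hyA
      have h1 := (familyControlsStrongFusionIn_iff h𝓦 _).1
        (hloc T hTS hTne ((fn_iff_relIndex S.2).1 hFN)) _ hFN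
      obtain ⟨c', hc', hag⟩ := h1 A hA y hy hyA
      refine Real.congr ?_ hag
      clear hag
      induction hc' with
      | nil h => exact ⟨1, LChain.nil (h.trans inf_le_left), Agree.refl A 1⟩
      | @snoc c z hc hz hle ih =>
        obtain ⟨W, hW, hz'⟩ := hz
        have h2 := hprem W hW z hz' (lc c A) hc.lc_le (by rw [← lc_mul]; exact hle)
        exact hP.trans A c z (hA.trans inf_le_left) (hc.lc_le.trans inf_le_left)
          (hle.trans inf_le_left) ih h2)
  rw [familyControlsStrongFusionIn_iff h𝓦]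
  intro T hT
  obtain ⟨m, -, rfl⟩ := hS.conj hT
  apply FCS.transport h𝓦 S.2 (Subgroup.mem_top m)
  intro A hA h _ hhA
  exact key A h hA hhA

end Cfsg.Agent.S1959
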