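import Cfsg.Statements.S1960
import Cfsg.Agent.Lib.Helper4_Transfer

set_option autoImplicit false

open Cfsg

namespace Cfsg.Agent.S1960

open scoped Pointwise
open Cfsg.Agent.Lib.Helper4_Syl Cfsg.Agent.Lib.Helper4_Alperin Cfsg.Agent.Lib.Helper4_Control
  Cfsg.Agent.Lib.Helper4_Control2 Cfsg.Agent.Lib.Helper4_Control3 Cfsg.Agent.Lib.Helper4_Transfer

theorem result {G : Type*} [Group G] [Finite G] {p : ℕ} [Fact p.Prime] (S : Sylow p G) (𝓦 : Set (Subgroup G → Subgroup G)) (h𝓦 : ∀ W ∈ 𝓦, Cfsg.IsConjugacyFunctor p W) (hloc : ∀ T : Subgroup G, T ≤ (S : Subgroup G) → T ≠ ⊥ → ¬ p ∣ ((S : Subgroup G) ⊓ Subgroup.normalizer ((T : Subgroup G) : Set G)).relIndex (Subgroup.normalizer ((T : Subgroup G) : Set G)) → Cfsg.FamilyControlsTransferIn p 𝓦 (Subgroup.normalizer ((T : Subgroup G) : Set G))) : Cfsg.FamilyControlsTransferIn p 𝓦 ⊤ := by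
  have hS := IsSylIn.of_sylow_top S
  set F : Subgroup G := ⨆ W ∈ 𝓦, (S : Subgroup G) ⊓
    ⁅⊤ ⊓ Subgroup.normalizer ((W (S : Subgroup G) : Subgroup G) : Set G),
      ⊤ ⊓ Subgroup.normalizer ((W (S : Subgroup G) : Subgroup G) : Set G)⁆ with hF
  have key := control_family hS 𝓦 h𝓦 (Foc F) (foc_fusPred F _)
    (by
      intro W hW y hy A hA hyA
      exact foc_of_inf_commutator_le
        (L := ⊤ ⊓ Subgroup.normalizer ((W (S : Subgroup G) : Subgroup G) : Set G))
        (le_inf le_top (le_normalizer_functor (h𝓦 W hW) S.2))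
        (le_iSup₂_of_le W hW le_rfl) (Subgroup.mem_inf.2 ⟨Subgroup.mem_top y, hy⟩) hA hyA)
    (by
      intro T hTS hTne hFN hprem y hy A hA hyA
      have h1 : FCT 𝓦 _ _ := (familyControlsTransferIn_iff h𝓦 _).1
        (hloc T hTS hTne ((fn_iff_relIndex S.2).1 hFN)) _ hFN
      refine foc_of_inf_commutator_le (L := Subgroup.normalizer (T : Set G)) inf_le_right ?_ hy hA hyA
      rw [h1]
      refine iSup₂_le fun W hW => ?_
      have hRp : IsPGroup p ↥((S : Subgroup G) ⊓ Subgroup.normalizer (T : Set G)) :=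
        S.2.to_le inf_le_left
      exact inf_commutator_le_of_foc
        (IsSylIn.mono hFN (le_inf inf_le_right (le_normalizer_functor (h𝓦 W hW) hRp)) inf_le_left)
        (fun l hl A hA hlA => hprem W hW l hl A hA hlA))
  rw [familyControlsTransferIn_iff h𝓦]
  intro T hT
  obtain ⟨m, -, rfl⟩ := hS.conj hT
  apply FCT.transport h𝓦 S.2 (Subgroup.mem_top m)
  apply le_antisymm
  · exact inf_commutator_le_of_foc hS (fun l _ A hA hlA => key A l hA hlA)
  · exact iSup₂_le fun W _ => inf_le_inf_left _ (Subgroup.commutator_mono inf_le_left inf_le_left)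

end Cfsg.Agent.S1960
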