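import Cfsg.Statements.S1961
import Cfsg.Agent.Lib.Helper4_Control3

set_option autoImplicit false

open Cfsg

namespace Cfsg.Agent.S1961

open scoped Pointwise
open Cfsg.Agent.Lib.Helper4_Syl Cfsg.Agent.Lib.Helper4_Alperin Cfsg.Agent.Lib.Helper4_Control
  Cfsg.Agent.Lib.Helper4_Control2 Cfsg.Agent.Lib.Helper4_Control3

theorem result {G : Type*} [Group G] [Finite G] {p : ℕ} [Fact p.Prime] (S : Sylow p G) (W : Subgroup G → Subgroup G) (hW : Cfsg.IsConjugacyFunctor p W) (hloc : ∀ T : Subgroup G, T ≠ ⊥ → Cfsg.IsWellPlaced p W (S : Subgroup G) T → Cfsg.ControlsStrongFusionIn p W (Subgroup.normalizer ((T : Subgroup G) : Set G))) : Cfsg.ControlsStrongFusionIn p W ⊤ := by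
  have hS := IsSylIn.of_sylow_top S
  have key := control_wellPlaced hS W hW
    (Ind (Subgroup.normalizer ((W (S : Subgroup G) : Subgroup G) : Set G))) (ind_fusPred _ _)
    (fun y hy A _ _ => ⟨y, hy, Agree.refl A y⟩)
    (by
      intro T hTne hT hprem y hy A hA hyA
      have h1 := (controlsStrongFusionIn_iff hW _).1 (hloc T hTne hT) _
        (((wellPlaced_iff S.2).1 hT).2 0)
      obtain ⟨x, hx, hag⟩ := h1 A hA y hy hyA
      exact (hprem x hx A hA (by rw [hag.lc_eq]; exact hyA)).congr hag)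
  rw [controlsStrongFusionIn_iff hW]
  intro T hT
  obtain ⟨m, -, rfl⟩ := hS.conj hT
  apply CS.transport hW S.2 (Subgroup.mem_top m)
  intro A hA h _ hhA
  obtain ⟨x, hx, hag⟩ := key A h hA hhA
  exact ⟨x, Subgroup.mem_inf.2 ⟨Subgroup.mem_top x, hx⟩, hag⟩

end Cfsg.Agent.S1961
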