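import Cfsg.Statements.S1962
import Cfsg.Agent.Lib.Helper4_Transfer

set_option autoImplicit false

open Cfsg

namespace Cfsg.Agent.S1962

open scoped Pointwise
open Cfsg.Agent.Lib.Helper4_Syl Cfsg.Agent.Lib.Helper4_Alperin Cfsg.Agent.Lib.Helper4_Control
  Cfsg.Agent.Lib.Helper4_Control2 Cfsg.Agent.Lib.Helper4_Control3 Cfsg.Agent.Lib.Helper4_Transfer

theorem result {G : Type*} [Group G] [Finite G] {p : ℕ} [Fact p.Prime] (S : Sylow p G) (W : Subgroup G → Subgroup G) (hW : Cfsg.IsConjugacyFunctor p W) (hloc : ∀ T : Subgroup G, T ≠ ⊥ → Cfsg.IsWellPlaced p W (S : Subgroup G) T → Cfsg.ControlsTransferIn p W (Subgroup.normalizer ((T : Subgroup G) : Set G))) : Cfsg.ControlsTransferIn p W ⊤ := by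
  have hS := IsSylIn.of_sylow_top S
  set F : Subgroup G := (S : Subgroup G) ⊓
    ⁅⊤ ⊓ Subgroup.normalizer ((W (S : Subgroup G) : Subgroup G) : Set G),
      ⊤ ⊓ Subgroup.normalizer ((W (S : Subgroup G) : Subgroup G) : Set G)⁆ with hF
  have key := control_wellPlaced hS W hW (Foc F) (foc_fusPred F _)
    (by
      intro y hy A hA hyA
      exact foc_of_inf_commutator_le
        (L := ⊤ ⊓ Subgroup.normalizer ((W (S : Subgroup G) : Subgroup G) : Set G))
        (le_inf le_top (le_normalizer_functor hW S.2))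
        le_rfl (Subgroup.mem_inf.2 ⟨Subgroup.mem_top y, hy⟩) hA hyA)
    (by
      intro T hTne hT hprem y hy A hA hyA
      have hFN := ((wellPlaced_iff S.2).1 hT).2 0
      have h1 : CT W _ _ := (controlsTransferIn_iff hW _).1 (hloc T hTne hT) _ hFN
      refine foc_of_inf_commutator_le (L := Subgroup.normalizer (T : Set G)) inf_le_right ?_ hy hA hyA
      have h1' : (S : Subgroup G) ⊓ Subgroup.normalizer (T : Set G) ⊓
        ⁅Subgroup.normalizer (T : Set G), Subgroup.normalizer (T : Set G)⁆ = _ := h1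
      rw [h1']
      have hRp : IsPGroup p ↥((S : Subgroup G) ⊓ Subgroup.normalizer (T : Set G)) :=
        S.2.to_le inf_le_left
      exact inf_commutator_le_of_foc
        (IsSylIn.mono hFN (le_inf inf_le_right (le_normalizer_functor hW hRp)) inf_le_left)
        (fun l hl A hA hlA => hprem l hl A hA hlA))
  rw [controlsTransferIn_iff hW]
  intro T hT
  obtain ⟨m, -, rfl⟩ := hS.conj hT
  apply CT.transport hW S.2 (Subgroup.mem_top m)
  apply le_antisymm
  · exact inf_commutator_le_of_foc hS (fun l _ A hA hlA => key A l hA hlA)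
  · exact inf_le_inf_left _ (Subgroup.commutator_mono inf_le_left inf_le_left)

end Cfsg.Agent.S1962
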