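import Cfsg.Statements.S1963
import Cfsg.Agent.Lib.Helper4_Control

set_option autoImplicit false

open Cfsg

namespace Cfsg.Agent.S1963

open scoped Pointwise
open Cfsg.Agent.Lib.Helper4_Syl Cfsg.Agent.Lib.Helper4_Alperin Cfsg.Agent.Lib.Helper4_Control

theorem result {G : Type*} [Group G] [Finite G] {p : ℕ} [Fact p.Prime] (S : Sylow p G) (W : Subgroup G → Subgroup G) (hW : Cfsg.IsConjugacyFunctor p W) (T : Subgroup G) (hT : T ≤ (S : Subgroup G)) : ∃ g : G, Cfsg.IsWellPlaced p W (S : Subgroup G) (T.map (MulAut.conj g).toMonoidHom) :=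
  exists_wellPlaced hW (IsSylIn.of_sylow_top S) (S.2.to_le hT)

end Cfsg.Agent.S1963
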