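import Cfsg.Statements.S1964
import Cfsg.Agent.Lib.Helper4_Control

set_option autoImplicit false

open Cfsg

namespace Cfsg.Agent.S1964

open scoped Pointwise
open Cfsg.Agent.Lib.Helper4_Syl Cfsg.Agent.Lib.Helper4_Alperin Cfsg.Agent.Lib.Helper4_Control

theorem result {G : Type*} [Group G] [Finite G] {p : ℕ} [Fact p.Prime] (S : Sylow p G) (W : Subgroup G → Subgroup G) (hW : Cfsg.IsConjugacyFunctor p W) : Cfsg.IsConjugationFamily {T : Subgroup G | Cfsg.IsWellPlaced p W (S : Subgroup G) T} (S : Subgroup G) := by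
  apply isConjugationFamily_of_fus (fun T hT => hT.1)
  apply fus_of_family S.2
  intro T hT
  obtain ⟨c, hc⟩ := exists_wellPlaced hW (IsSylIn.of_sylow_top S) (S.2.to_le hT)
  exact ⟨_, hc, hc.1, ⟨c⁻¹, by rw [cj_eq_lc, inv_inv]⟩, ((wellPlaced_iff S.2).1 hc).2 0⟩

end Cfsg.Agent.S1964
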