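import Cfsg.Statements.S1965
import Cfsg.Agent.Lib.Helper4_Alperin

set_option autoImplicit false

open Cfsg

namespace Cfsg.Agent.S1965

open scoped Pointwise
open Cfsg.Agent.Lib.Helper4_Syl Cfsg.Agent.Lib.Helper4_Alperin

theorem result {G : Type*} [Group G] [Finite G] {p : ℕ} [Fact p.Prime] (S : Sylow p G) (𝓕 : Set (Subgroup G)) (h𝓕 : ∀ U ∈ 𝓕, U ≤ (S : Subgroup G)) (h : ∀ T : Subgroup G, T ≤ (S : Subgroup G) → ∃ U ∈ 𝓕, (∃ g : G, T.map (MulAut.conj g).toMonoidHom = U) ∧ ¬ p ∣ ((S : Subgroup G) ⊓ Subgroup.normalizer ((U : Subgroup G) : Set G)).relIndex (Subgroup.normalizer ((U : Subgroup G) : Set G))) : Cfsg.IsConjugationFamily 𝓕 (S : Subgroup G) := by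
  apply isConjugationFamily_of_fus h𝓕
  apply fus_of_family S.2
  intro T hT
  obtain ⟨U, hU, ⟨g, hg⟩, hFN⟩ := h T hT
  refine ⟨U, hU, h𝓕 U hU, ⟨g⁻¹, ?_⟩, (fn_iff_relIndex S.2).2 hFN⟩
  rw [← hg, map_conj_eq_cj]

end Cfsg.Agent.S1965
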