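import Cfsg.Statements.S1966
import Cfsg.Agent.Lib.Helper4_Core

set_option autoImplicit false

open Cfsg

namespace Cfsg.Agent.S1966

open Cfsg.Agent.Lib.Helper4_Core

theorem pCore_normal' (p : ℕ) (G : Type*) [Group G] : (pCore p G).Normal :=
  Subgroup.sSup_normal _ (fun _ h => h.1)

theorem result {G : Type*} [Group G] [Finite G] {p : ℕ} [Fact p.Prime] (S : Sylow p G) (𝓕 : Set (Subgroup G)) (h : Cfsg.IsConjugationFamily 𝓕 (S : Subgroup G)) : Cfsg.IsConjugationFamily {T : Subgroup G | T ∈ 𝓕 ∧ Cfsg.pCore p G ≤ T} (S : Subgroup G) := by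
  have hn := pCore_normal' p G
  have hle : pCore p G ≤ S := pCore_le_sylow S
  refine ⟨fun T hT => h.1 T hT.1, fun A g hne hAS hAg => ?_⟩
  obtain ⟨n, T, x, hprod, hT, hx, h0, hstep⟩ := h.2 (A ∪ (pCore p G : Set G)) g
    (hne.mono Set.subset_union_left) (Set.union_subset hAS hle) (by
      rintro _ ⟨a, ha | ha, rfl⟩
      · exact hAg ⟨a, ha, rfl⟩
      · apply hle
        have := hn.conj_mem a ha g⁻¹
        simpa using this)
  refine ⟨n, T, x, hprod, ?_, hx, fun hn' => Set.subset_union_left.trans (h0 hn'), ?_⟩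
  · rintro ⟨i, hi⟩
    refine ⟨hT _, ?_⟩
    cases i with
    | zero => exact Set.subset_union_right.trans (h0 hi)
    | succ j =>
      intro a ha
      have h1 := hstep ⟨j, by omega⟩ hi
      apply h1
      set c := ((List.ofFn x).take (j + 1)).prod with hc
      refine ⟨c * a * c⁻¹, Or.inr (hn.conj_mem a ha c), ?_⟩
      simp only
      group
  · intro i hi
    exact (Set.image_mono Set.subset_union_left).trans (hstep i hi)

end Cfsg.Agent.S1966
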