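import Cfsg.Statements.S1967
import Cfsg.Agent.Lib.Helper4_Control3

set_option autoImplicit false

open Cfsg

namespace Cfsg.Agent.S1967

open scoped Pointwise
open Cfsg.Agent.Lib.Helper4_Syl Cfsg.Agent.Lib.Helper4_Alperin Cfsg.Agent.Lib.Helper4_Control
  Cfsg.Agent.Lib.Helper4_Control2 Cfsg.Agent.Lib.Helper4_Control3

theorem result {G : Type*} [Group G] [Finite G] {p : ℕ} [Fact p.Prime] (S : Sylow p G) (W : Subgroup G → Subgroup G) (hW : Cfsg.IsConjugacyFunctor p W) : Cfsg.ControlsStrongFusionIn p W ⊤ ↔ ∀ (T : Subgroup G) (g : G), T ≤ (S : Subgroup G) → T.map (MulAut.conj g).toMonoidHom ≤ (S : Subgroup G) → ∃ n ∈ Subgroup.normalizer ((W (S : Subgroup G) : Subgroup G) : Set G), ∃ c ∈ Subgroup.centralizer (T : Set G), g = n * c := by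
  have hS := IsSylIn.of_sylow_top S
  rw [controlsStrongFusionIn_iff hW]
  constructor
  · intro h T g hT hgT
    obtain ⟨x, hx, hag⟩ := h S hS T hT g (Subgroup.mem_top g) hgT
    refine ⟨x, (Subgroup.mem_inf.1 hx).2, x⁻¹ * g, ?_, by group⟩
    rw [Subgroup.mem_centralizer_iff]
    intro t ht
    have h1 := hag t ht
    calc t * (x⁻¹ * g) = x⁻¹ * (x * t * x⁻¹) * g := by group
      _ = x⁻¹ * g * t := by rw [h1]; group
  · intro h T hT
    obtain ⟨m, -, rfl⟩ := hS.conj hT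
    apply CS.transport hW S.2 (Subgroup.mem_top m)
    intro A hA g _ hgA
    obtain ⟨n, hn, c, hc, rfl⟩ := h A g hA hgA
    refine ⟨n, Subgroup.mem_inf.2 ⟨Subgroup.mem_top n, hn⟩, fun a ha => ?_⟩
    have h1 := (Subgroup.mem_centralizer_iff.1 hc) a ha
    calc n * a * n⁻¹ = n * (a * c) * c⁻¹ * n⁻¹ := by group
      _ = n * c * a * (n * c)⁻¹ := by rw [h1]; group

end Cfsg.Agent.S1967
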