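import Cfsg.Statements.S1975
import Cfsg.Agent.Lib.Helper4_KInf

set_option autoImplicit false
open Cfsg

namespace Cfsg.Agent.S1975

theorem result {P : Type*} [Group P] [Finite P] {p : ℕ} [Fact p.Prime] (hP : IsPGroup p P) (n : ℕ) : Cfsg.kSeqOdd P (n + 1) ≤ Cfsg.kSeqOdd P n ∧ Cfsg.kSeqEven P n ≤ Cfsg.kSeqEven P (n + 1) :=
  ⟨Cfsg.Agent.Lib.Helper4_KInf.odd_succ_le n, Cfsg.Agent.Lib.Helper4_KInf.even_le_succ n⟩

end Cfsg.Agent.S1975
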