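import Cfsg.Statements.S1976
import Cfsg.Agent.Lib.Helper4_KInf

set_option autoImplicit false
open Cfsg

namespace Cfsg.Agent.S1976

open Cfsg.Agent.Lib.Helper4_KInf in
theorem result {P : Type*} [Group P] [Finite P] {p : ℕ} [Fact p.Prime] (hP : IsPGroup p P) : ∃ n : ℕ, ∀ m : ℕ, n ≤ m → Cfsg.kSeqEven P m = Cfsg.kInfLower P ∧ Cfsg.kSeqOdd P m = Cfsg.kInfUpper P := by
  have : Finite (Subgroup P) := inferInstance
  obtain ⟨n₁, h₁⟩ := WellFoundedGT.monotone_chain_condition (⟨kSeqEven P, even_monotone⟩ : ℕ →o Subgroup P)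
  obtain ⟨n₂, h₂⟩ := WellFoundedLT.antitone_chain_condition (odd_antitone (P := P))
  refine ⟨max n₁ n₂, fun m hm => ⟨?_, ?_⟩⟩
  · have hm1 : n₁ ≤ m := le_trans (le_max_left _ _) hm
    apply le_antisymm (le_iSup (kSeqEven P) m)
    apply iSup_le
    intro k
    rcases le_total k m with hk | hk
    · exact even_monotone hk
    · have e1 : kSeqEven P n₁ = kSeqEven P m := h₁ m hm1
      have e2 : kSeqEven P n₁ = kSeqEven P k := h₁ k (hm1.trans hk)
      rw [← e2, e1]
  · have hm2 : n₂ ≤ m := le_trans (le_max_right _ _) hm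
    apply le_antisymm _ (iInf_le (kSeqOdd P) m)
    apply le_iInf
    intro k
    rcases le_total k m with hk | hk
    · exact odd_antitone hk
    · have e1 : kSeqOdd P n₂ = kSeqOdd P m := h₂ m hm2
      have e2 : kSeqOdd P n₂ = kSeqOdd P k := h₂ k (hm2.trans hk)
      rw [← e2, e1]

end Cfsg.Agent.S1976
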