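import Cfsg.Statements.S1977
import Cfsg.Agent.Lib.Helper4_Nilp

set_option autoImplicit false
open Cfsg

namespace Cfsg.Agent.S1977

open scoped commutatorElement
open Cfsg.Agent.Lib.Helper4_Nilp

variable {P : Type*} [Group P]

/-- The extension step. -/
theorem extend [Group.IsNilpotent P] {B Q : Subgroup P} (hB : B ∈ classTwoSubgroups P)
    (hQ : Q ≤ Subgroup.normalizer (B : Set P)) (hC : ¬ Subgroup.centralizer (B : Set P) ≤ B) :
    ∃ B' : Subgroup P, B ≤ B' ∧ B' ≠ B ∧ B' ∈ classTwoSubgroups P ∧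
      Q ≤ Subgroup.normalizer (B' : Set P) ∧
      B ⊓ Subgroup.centralizer (B : Set P) ≤ B' ⊓ Subgroup.centralizer (B' : Set P) ∧
      ∀ A : Subgroup P, A ≤ Q → ⁅B, A⁆ ≤ B ⊓ Subgroup.centralizer (B : Set P) →
        ⁅B', A⁆ ≤ B ⊓ Subgroup.centralizer (B : Set P) := by
  have hQC : Q ≤ Subgroup.normalizer ((Subgroup.centralizer (B : Set P) : Subgroup P) : Set P) := by
    intro q hq
    have hqB := hQ hq
    rw [Subgroup.mem_normalizer_iff] at hqB ⊢
    have key : ∀ r : P, (∀ h, h ∈ B ↔ r * h * r⁻¹ ∈ B) → ∀ c ∈ Subgroup.centralizer (B : Set P),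
        r * c * r⁻¹ ∈ Subgroup.centralizer (B : Set P) := by
      intro r hr c hc
      rw [Subgroup.mem_centralizer_iff] at hc ⊢
      intro b hb
      have hb' : r⁻¹ * b * r ∈ B := by
        rw [hr]; simpa [mul_assoc] using hb
      have := hc _ hb'
      have h2 : r * (r⁻¹ * b * r * c) * r⁻¹ = r * (c * (r⁻¹ * b * r)) * r⁻¹ := by rw [this]
      simpa [mul_assoc] using h2
    intro c
    constructor
    · exact key q hqB c
    · intro hc
      have hq' : ∀ h, h ∈ B ↔ q⁻¹ * h * q⁻¹⁻¹ ∈ B := by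
        intro h
        rw [hqB (q⁻¹ * h * q⁻¹⁻¹)]
        simp [mul_assoc]
      have := key q⁻¹ hq' _ hc
      simpa [mul_assoc] using this
  obtain ⟨x, hxC, hxB, hx⟩ := exists_comm_mem B Q (Subgroup.centralizer (B : Set P)) hQC hC
  have hxc : ∀ b ∈ B, b * x = x * b := Subgroup.mem_centralizer_iff.1 hxC
  set Z := B ⊓ Subgroup.centralizer (B : Set P) with hZ
  have hxZ : ∀ q ∈ Q, ⁅x, q⁆ ∈ Z := by
    intro q hq
    refine ⟨hx q hq, ?_⟩
    have := Subgroup.le_normalizer_iff_commutator_le_left.1 hQC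
    exact this (Subgroup.commutator_mem_commutator hxC hq)
  set B' := B ⊔ Subgroup.zpowers x with hB'
  have e : B' = Subgroup.closure ((B : Set P) ∪ {x}) := by
    rw [hB', Subgroup.closure_union, Subgroup.closure_eq, Subgroup.zpowers_eq_closure]
  have hxB' : x ∈ B' := (le_sup_right : Subgroup.zpowers x ≤ B') (Subgroup.mem_zpowers x)
  have hBB' : B ≤ B' := le_sup_left
  -- elements of Z commute with B'
  have hZc : ∀ w ∈ Z, ∀ g ∈ B', g * w = w * g := by
    intro w hw g hg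
    rw [e] at hg
    induction hg using Subgroup.closure_induction with
    | mem u hu =>
      rcases hu with hu | hu
      · exact Subgroup.mem_centralizer_iff.1 hw.2 u hu
      · rw [Set.mem_singleton_iff] at hu; subst hu; exact (hxc w hw.1).symm
    | one => simp
    | mul a b _ _ iha ihb => rw [mul_assoc, ihb, ← mul_assoc, iha, mul_assoc]
    | inv a _ iha =>
      rw [inv_mul_eq_iff_eq_mul, ← mul_assoc, iha, mul_assoc, mul_inv_cancel, mul_one]
  have hZB' : Z ≤ B' ⊓ Subgroup.centralizer (B' : Set P) := by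
    intro w hw
    refine Subgroup.mem_inf.2 ⟨hBB' hw.1, ?_⟩
    rw [Subgroup.mem_centralizer_iff]
    intro g hg
    exact hZc w hw g hg
  have hBBZ : ⁅B, B⁆ ≤ Z := le_inf (Subgroup.commutator_le_self B) hB
  have hcl : ⁅B', B'⁆ ≤ Z := by
    rw [e]
    apply commutator_closure_le (W := Z) (by rw [← e]; exact hZc)
    rintro u (hu | hu) v (hv | hv)
    · exact hBBZ (Subgroup.commutator_mem_commutator hu hv)
    · rw [Set.mem_singleton_iff] at hv; subst hv
      rw [commutatorElement_eq_one_iff_mul_comm.2 (hxc u hu)]; exact Z.one_mem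
    · rw [Set.mem_singleton_iff] at hu; subst hu
      rw [commutatorElement_eq_one_iff_mul_comm.2 (hxc v hv).symm]; exact Z.one_mem
    · rw [Set.mem_singleton_iff] at hu hv; subst hu; subst hv; simp
  -- general induction principle for ⁅B', a⁆
  have ind : ∀ (T : Subgroup P) (a : P), (∀ t ∈ T, ∀ g ∈ B', g * t * g⁻¹ ∈ T) →
      (∀ b ∈ B, ⁅b, a⁆ ∈ T) → ⁅x, a⁆ ∈ T → ∀ g ∈ B', ⁅g, a⁆ ∈ T := by
    intro T a hT h1 h2 g hg
    have hg' := hg
    rw [e] at hg'
    induction hg' using Subgroup.closure_induction with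
    | mem u hu =>
      rcases hu with hu | hu
      · exact h1 u hu
      · rw [Set.mem_singleton_iff] at hu; subst hu; exact h2
    | one => simp
    | mul c d hc hd ihc ihd =>
      rw [← e] at hc hd
      rw [commutatorElement_mul_left_eq_conj_mul]
      exact T.mul_mem (hT _ (ihd hd) c hc) (ihc hc)
    | inv c hc ihc =>
      rw [← e] at hc
      have e2 : ⁅c⁻¹, a⁆ = c⁻¹ * ⁅c, a⁆⁻¹ * c⁻¹⁻¹ := by
        simp only [commutatorElement_def]; group
      rw [e2]
      exact hT _ (T.inv_mem (ihc hc)) c⁻¹ (B'.inv_mem hc)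
  refine ⟨B', hBB', ?_, ?_, ?_, hZB', ?_⟩
  · intro h
    exact hxB (h ▸ hxB')
  · exact hcl.trans (hZB'.trans inf_le_right)
  · rw [Subgroup.le_normalizer_iff_commutator_le_left, Subgroup.commutator_le]
    intro g hg q hq
    apply ind B' q (fun t ht g hg => B'.mul_mem (B'.mul_mem hg ht) (B'.inv_mem hg)) _ _ g hg
    · intro b hb
      exact hBB' (Subgroup.le_normalizer_iff_commutator_le_left.1 hQ
        (Subgroup.commutator_mem_commutator hb hq))
    · exact hBB' (hxZ q hq).1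
  · intro A hAQ hBA
    rw [Subgroup.commutator_le]
    intro g hg a ha
    apply ind Z a _ _ (hxZ a (hAQ ha)) g hg
    · intro t ht g hg
      rw [hZc t ht g hg, mul_inv_cancel_right]; exact ht
    · intro b hb
      exact hBA (Subgroup.commutator_mem_commutator hb ha)

theorem result {P : Type*} [Group P] [Finite P] {p : ℕ} [Fact p.Prime] (hP : IsPGroup p P) (B : Subgroup P) (𝒦 : Set (Subgroup P)) (h𝒦 : 𝒦 = Cfsg.classTwoSubgroups P ∨ (∃ n, 𝒦 = Cfsg.kLowerStarFamily (Cfsg.kSeqOdd P n)) ∨ ∃ n, 𝒦 = Cfsg.kUpperStarFamily (Cfsg.kSeqEven P n)) (hB : B ∈ 𝒦) (hmax : ∀ C ∈ 𝒦, B ≤ C → C = B) : Subgroup.centralizer (B : Set P) ≤ B := by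
  have : Group.IsNilpotent P := hP.isNilpotent
  by_contra hC
  rcases h𝒦 with rfl | ⟨n, rfl⟩ | ⟨n, rfl⟩
  · obtain ⟨B', h1, h2, h3, -⟩ := extend (Q := ⊥) hB bot_le hC
    exact h2 (hmax B' h3 h1)
  · obtain ⟨B', h1, h2, h3, h4, h5, h6⟩ := extend (Q := kSeqOdd P n) hB.1 hB.2.1 hC
    apply h2
    apply hmax B' _ h1
    refine ⟨h3, h4, ?_⟩
    intro A hA hAQ hBA hc1 hc2
    refine (h6 A hAQ ?_).trans h5
    apply hB.2.2 A hA hAQ (h1.trans hBA)
    · rw [eq_bot_iff, ← hc1]; exact Subgroup.commutator_mono h1 le_rfl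
    · rw [eq_bot_iff, ← hc2]
      exact Subgroup.commutator_mono (Subgroup.commutator_mono h5 le_rfl) le_rfl
  · have hQ : kSeqEven P n ≤ Subgroup.normalizer (B : Set P) := by
      rw [Subgroup.le_normalizer_iff_commutator_le_left]
      exact hB.2.trans inf_le_left
    obtain ⟨B', h1, h2, h3, h4, h5, h6⟩ := extend (Q := kSeqEven P n) hB.1 hQ hC
    apply h2
    apply hmax B' _ h1
    exact ⟨h3, (h6 _ le_rfl hB.2).trans h5⟩

end Cfsg.Agent.S1977
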