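import Cfsg.Statements.S1978
import Cfsg.Agent.Lib.Helper4_KInf
import Cfsg.Agent.Lib.Helper4_Nilp

set_option autoImplicit false
open Cfsg

namespace Cfsg.Agent.S1978

open Cfsg.Agent.Lib.Helper4_KInf Cfsg.Agent.Lib.Helper4_Nilp

theorem result {P : Type*} [Group P] [Finite P] {p : ℕ} [Fact p.Prime] (hP : IsPGroup p P) : Subgroup.centralizer (Cfsg.kInfLower P : Set P) ≤ Cfsg.kInfLower P ∧ Subgroup.center P ≤ Subgroup.centralizer (Cfsg.kInfLower P : Set P) ∧ Subgroup.centralizer (Cfsg.kInfUpper P : Set P) ≤ Cfsg.kInfUpper P ∧ Subgroup.center P ≤ Subgroup.centralizer (Cfsg.kInfUpper P : Set P) := by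
  haveI : Group.IsNilpotent P := hP.isNilpotent
  obtain ⟨A, -, hAn, hAc, hmax⟩ := exists_max_normal_abelian (⊥ : Subgroup P) inferInstance
    ⟨⟨fun a b => Subsingleton.elim _ _⟩⟩
  haveI := hAn
  have hCA := centralizer_le_of_max_normal_abelian A hAc hmax
  refine ⟨?_, Subgroup.center_le_centralizer _, ?_, Subgroup.center_le_centralizer _⟩
  · exact (Subgroup.centralizer_le (normal_abelian_le_infLower A hAc)).trans
      (hCA.trans (normal_abelian_le_infLower A hAc))
  · exact (Subgroup.centralizer_le (normal_abelian_le_infUpper A hAc)).trans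
      (hCA.trans (normal_abelian_le_infUpper A hAc))

end Cfsg.Agent.S1978
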