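import Cfsg.Statements.S2007
import Cfsg.Agent.Lib.Helper4_Frobenius
import Cfsg.Agent.Lib.Helper4_Omega

set_option autoImplicit false
open Cfsg

namespace Cfsg.Agent.S2007

open Cfsg.Agent.Lib.Helper4_Syl Cfsg.Agent.Lib.Helper4_Control Cfsg.Agent.Lib.Helper4_Frobenius
  Cfsg.Agent.Lib.Helper4_Omega
open scoped commutatorElement

/-- Let p be a prime, G a finite group with Sylow p-subgroup S, and T a normal subgroup of S containing C_S(T). If N_G(T)/C_G(T) is a p-group (every element of N_G(T) of order prime to p centralizes T), then N_G(T) has a normal p-complement. -/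
theorem result {G : Type*} [Group G] [Finite G] {p : ℕ} [Fact p.Prime] (S : Sylow p G) (T : Subgroup G) (hTS : T ≤ (S : Subgroup G)) (hTn : (S : Subgroup G) ≤ Subgroup.normalizer ((T : Subgroup G) : Set G)) (hC : (S : Subgroup G) ⊓ Subgroup.centralizer ((T : Subgroup G) : Set G) ≤ T) (hN : ∀ g ∈ Subgroup.normalizer ((T : Subgroup G) : Set G), (orderOf g).Coprime p → g ∈ Subgroup.centralizer ((T : Subgroup G) : Set G)) : Cfsg.HasNormalPComplement p ↥(Subgroup.normalizer ((T : Subgroup G) : Set G)) := by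
  set N := Subgroup.normalizer ((T : Subgroup G) : Set G) with hNdef
  set C := Subgroup.centralizer ((T : Subgroup G) : Set G) with hCdef
  have hNC : N ≤ Subgroup.normalizer (C : Set G) :=
    Cfsg.Agent.Lib.Helper3_Local.le_normalizer_centralizer le_rfl
  have hS : IsSylIn p (S : Subgroup G) N := (IsSylIn.of_sylow_top S).mono hTn le_top
  have key : ∀ D : Subgroup G, D ≤ N → IsPGroup p D → D ⊓ C ≤ T := by
    intro D hD hDp x hx
    obtain ⟨S', hS', hle⟩ := exists_isSylIn_ge hD hDp
    obtain ⟨n, hn, hnS⟩ := hS.conj hS'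
    have h1 : n⁻¹ * x * n ∈ (S : Subgroup G) := by
      rw [← mem_conj_smul, hnS]; exact hle hx.1
    have h2 : n⁻¹ * x * n ∈ C := by
      have := conj_mem_of_mem_normalizer (hNC (N.inv_mem hn)) hx.2
      rwa [inv_inv] at this
    have h3 := hC ⟨h1, h2⟩
    have h4 := conj_mem_of_mem_normalizer hn h3
    have h5 : n * (n⁻¹ * x * n) * n⁻¹ = x := by group
    rwa [h5] at h4
  apply pnil_iff_hasNormalPComplement.1
  apply frobenius_pnil
  intro Q hQ g hg hgc
  set D := Q.map N.subtype with hD
  have hDN : D ≤ N := Subgroup.map_subtype_le _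
  have hDp : IsPGroup p D := hQ.map _
  have hgc' : (orderOf (g : G)).Coprime p := by rwa [Subgroup.orderOf_coe]
  have hgC : (g : G) ∈ C := hN g g.2 hgc'
  have hgD : (g : G) ∈ Subgroup.normalizer (D : Set G) := by
    rw [Cfsg.Agent.Lib.Helper3_Local.mem_normalizer_iff_conj_le]
    rintro _ ⟨q, hq, rfl⟩
    exact ⟨g * q * g⁻¹, conj_mem_of_mem_normalizer hg hq, rfl⟩
  have h1 : (g : G) ∈ Subgroup.centralizer (D : Set G) := by
    apply two_step hDp hgc' hgD hgC
    intro x hx
    apply key D hDN hDp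
    refine ⟨?_, ?_⟩
    · rw [commutatorElement_def]
      exact D.mul_mem (conj_mem_of_mem_normalizer hgD hx) (D.inv_mem hx)
    · have h2 : ⁅(g : G), x⁆ = g * (x * (g : G)⁻¹ * x⁻¹) := by
        rw [commutatorElement_def]; group
      rw [h2]
      exact C.mul_mem hgC (conj_mem_of_mem_normalizer (hNC (hDN hx)) (C.inv_mem hgC))
  rw [Subgroup.mem_centralizer_iff]
  intro q hq
  apply Subtype.ext
  exact Subgroup.mem_centralizer_iff.1 h1 q ⟨q, hq, rfl⟩

end Cfsg.Agent.S2007
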