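import Cfsg.Statements.S2298
import Cfsg.Agent.Lib.Helper5_GL2Val

set_option autoImplicit false

open Cfsg

namespace Cfsg.Agent.S2298

open Cfsg.Agent.Lib.Helper5_GL2Char Cfsg.Agent.Lib.Helper5_GL2Class Cfsg.Agent.Lib.Helper5_GL2Val
  Cfsg.Agent.Lib.CharBasic Cfsg.Agent.Lib.CharComplete

theorem degrees {F : Type*} [Field F] [Fintype F] (χ : Matrix.GeneralLinearGroup (Fin 2) F → ℂ)
    (hχ : Cfsg.IsIrrCharacter (Matrix.GeneralLinearGroup (Fin 2) F) χ) :
      χ 1 = 1 ∨ χ 1 = (Fintype.card F : ℂ) - 1 ∨ χ 1 = (Fintype.card F : ℂ) ∨ χ 1 = (Fintype.card F : ℂ) + 1 := by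
  classical
  rcases classify χ hχ with ⟨α, rfl⟩ | ⟨α, rfl⟩ | ⟨α, β, -, rfl⟩ | ⟨h1, h2, h3⟩
  · left; exact detChar_one α
  · right; right; left; exact st_one α
  · right; right; right; exact ps_one α β
  · right; left; exact h1

theorem sum_split {I : Type*} [Fintype I] (d : I → ℂ) (a b c e : ℂ) (hab : a ≠ b) (hac : a ≠ c) (hae : a ≠ e)
    (hbc : b ≠ c) (hbe : b ≠ e) (hce : c ≠ e) (h : ∀ i, d i = a ∨ d i = b ∨ d i = c ∨ d i = e) (f : ℂ → ℂ) :
    ∑ i, f (d i) = (Nat.card {i // d i = a} : ℂ) * f a + (Nat.card {i // d i = b} : ℂ) * f b +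
      (Nat.card {i // d i = c} : ℂ) * f c + (Nat.card {i // d i = e} : ℂ) * f e := by
  classical
  have h1 : ∀ i, f (d i) = (if d i = a then f a else 0) + (if d i = b then f b else 0) +
      (if d i = c then f c else 0) + (if d i = e then f e else 0) := by
    intro i
    rcases h i with h | h | h | h <;> rw [h] <;>
      simp [hab, hac, hae, hbc, hbe, hce, hab.symm, hac.symm, hae.symm, hbc.symm, hbe.symm, hce.symm]
  have h2 : ∀ x : ℂ, ∑ i, (if d i = x then f x else 0) = (Nat.card {i // d i = x} : ℂ) * f x := by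
    intro x
    rw [← Finset.sum_filter, Finset.sum_const, nsmul_eq_mul, Nat.card_eq_fintype_card, Fintype.card_subtype]
  rw [Finset.sum_congr rfl fun i _ => h1 i, Finset.sum_add_distrib, Finset.sum_add_distrib,
    Finset.sum_add_distrib, h2, h2, h2, h2]

theorem result {F : Type*} [Field F] [Fintype F] :
    (∀ χ : Matrix.GeneralLinearGroup (Fin 2) F → ℂ, Cfsg.IsIrrCharacter (Matrix.GeneralLinearGroup (Fin 2) F) χ →
      χ 1 = 1 ∨ χ 1 = (Fintype.card F : ℂ) - 1 ∨ χ 1 = (Fintype.card F : ℂ) ∨ χ 1 = (Fintype.card F : ℂ) + 1) ∧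
    (3 ≤ Fintype.card F →
      Nat.card {χ : Cfsg.IrrCharacter (Matrix.GeneralLinearGroup (Fin 2) F) // (χ : Matrix.GeneralLinearGroup (Fin 2) F → ℂ) 1 = 1} = Fintype.card F - 1 ∧
      Nat.card {χ : Cfsg.IrrCharacter (Matrix.GeneralLinearGroup (Fin 2) F) // (χ : Matrix.GeneralLinearGroup (Fin 2) F → ℂ) 1 = (Fintype.card F : ℂ)} = Fintype.card F - 1 ∧
      Nat.card {χ : Cfsg.IrrCharacter (Matrix.GeneralLinearGroup (Fin 2) F) // (χ : Matrix.GeneralLinearGroup (Fin 2) F → ℂ) 1 = (Fintype.card F : ℂ) + 1} = (Fintype.card F - 1) * (Fintype.card F - 2) / 2 ∧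
      Nat.card {χ : Cfsg.IrrCharacter (Matrix.GeneralLinearGroup (Fin 2) F) // (χ : Matrix.GeneralLinearGroup (Fin 2) F → ℂ) 1 = (Fintype.card F : ℂ) - 1} = Fintype.card F * (Fintype.card F - 1) / 2) := by
  classical
  refine ⟨degrees, fun hq => ?_⟩
  have hq' : (3 : ℝ) ≤ (Fintype.card F : ℝ) := by exact_mod_cast hq
  have key : ∀ x y : ℝ, ((Fintype.card F : ℂ) + (x : ℂ) = (y : ℂ)) → (Fintype.card F : ℝ) + x = y := by
    intro x y h
    exact_mod_cast h
  have n1 : Nat.card {χ : Cfsg.IrrCharacter (Matrix.GeneralLinearGroup (Fin 2) F) // (χ : Matrix.GeneralLinearGroup (Fin 2) F → ℂ) 1 = 1} = Fintype.card F - 1 := by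
    rw [← card_mulChar, ← Nat.card_eq_fintype_card]
    symm
    apply Nat.card_congr
    refine Equiv.ofBijective (fun α => ⟨⟨detChar α, detChar_isIrr α⟩, detChar_one α⟩) ⟨?_, ?_⟩
    · intro α β h
      exact detChar_injective (congrArg (fun x => x.1.1) h)
    · rintro ⟨⟨χ, hχ⟩, h⟩
      simp only at h
      rcases classify χ hχ with ⟨α, rfl⟩ | ⟨α, rfl⟩ | ⟨α, β, -, rfl⟩ | ⟨h1, h2, h3⟩
      · exact ⟨α, rfl⟩
      · rw [st_one] at h
        have := key 0 1 (by push_cast; first | linear_combination h | linear_combination -h)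
        linarith
      · rw [ps_one] at h
        have := key 1 1 (by push_cast; first | linear_combination h | linear_combination -h)
        linarith
      · rw [h1] at h
        have := key (-1) 1 (by push_cast; first | linear_combination h | linear_combination -h)
        linarith
  have nq : Nat.card {χ : Cfsg.IrrCharacter (Matrix.GeneralLinearGroup (Fin 2) F) // (χ : Matrix.GeneralLinearGroup (Fin 2) F → ℂ) 1 = (Fintype.card F : ℂ)} = Fintype.card F - 1 := by
    rw [← card_mulChar, ← Nat.card_eq_fintype_card (α := MulChar F ℂ)]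
    symm
    apply Nat.card_congr
    refine Equiv.ofBijective (fun α => ⟨⟨st α, st_isIrr α⟩, st_one α⟩) ⟨?_, ?_⟩
    · intro α β h
      exact st_injective (congrArg (fun x => x.1.1) h)
    · rintro ⟨⟨χ, hχ⟩, h⟩
      simp only at h
      rcases classify χ hχ with ⟨α, rfl⟩ | ⟨α, rfl⟩ | ⟨α, β, -, rfl⟩ | ⟨h1, h2, h3⟩
      · rw [detChar_one] at h
        have := key 0 1 (by push_cast; first | linear_combination h | linear_combination -h)
        linarith
      · exact ⟨α, rfl⟩
      · rw [ps_one] at h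
        have := key 1 (Fintype.card F) (by push_cast; first | linear_combination h | linear_combination -h)
        linarith
      · rw [h1] at h
        have := key (-1) (Fintype.card F) (by push_cast; first | linear_combination h | linear_combination -h)
        linarith
  have hsplit := sum_split (fun χ : Cfsg.IrrCharacter (Matrix.GeneralLinearGroup (Fin 2) F) => (χ : Matrix.GeneralLinearGroup (Fin 2) F → ℂ) 1)
    1 ((Fintype.card F : ℂ) - 1) (Fintype.card F : ℂ) ((Fintype.card F : ℂ) + 1)
    (fun h => by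
      have := key (-1) 1 (by push_cast; first | linear_combination h | linear_combination -h)
      linarith)
    (fun h => by
      have := key 0 1 (by push_cast; first | linear_combination h | linear_combination -h)
      linarith)
    (fun h => by
      have := key 1 1 (by push_cast; first | linear_combination h | linear_combination -h)
      linarith)
    (fun h => by
      have := key (-1) (Fintype.card F) (by push_cast; first | linear_combination h | linear_combination -h)
      linarith)
    (fun h => by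
      have := key (-1) (Fintype.card F + 1) (by push_cast; first | linear_combination h | linear_combination -h)
      linarith)
    (fun h => by
      have := key 0 (Fintype.card F + 1) (by push_cast; first | linear_combination h | linear_combination -h)
      linarith)
    (fun χ => degrees χ.1 χ.2)
  have e1 := hsplit (fun _ => 1)
  have e2 := hsplit (fun x => x ^ 2)
  rw [sum_sq_degree, card_GL2, n1, nq] at e2
  rw [Finset.sum_const, Finset.card_univ, card_irr, n1, nq] at e1
  set P := Nat.card {χ : Cfsg.IrrCharacter (Matrix.GeneralLinearGroup (Fin 2) F) // (χ : Matrix.GeneralLinearGroup (Fin 2) F → ℂ) 1 = (Fintype.card F : ℂ) + 1} with hP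
  set M := Nat.card {χ : Cfsg.IrrCharacter (Matrix.GeneralLinearGroup (Fin 2) F) // (χ : Matrix.GeneralLinearGroup (Fin 2) F → ℂ) 1 = (Fintype.card F : ℂ) - 1} with hM
  obtain ⟨k, hk⟩ : ∃ k, Fintype.card F = k + 3 := ⟨Fintype.card F - 3, by omega⟩
  rw [hk] at e1 e2 ⊢
  have hk1 : k + 3 - 1 = k + 2 := by omega
  have hk2 : k + 3 - 2 = k + 1 := by omega
  have hk3 : (k + 3) ^ 2 - 1 = (k + 2) * (k + 4) := by
    have : (k + 3) ^ 2 = (k + 2) * (k + 4) + 1 := by ring
    omega
  have hk4 : (k + 3) ^ 2 - (k + 3) = (k + 2) * (k + 3) := by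
    have : (k + 3) ^ 2 = (k + 2) * (k + 3) + (k + 3) := by ring
    omega
  rw [hk1, hk3] at e1
  rw [hk1, hk3, hk4] at e2
  simp only [nsmul_eq_mul, mul_one] at e1
  push_cast at e1 e2
  rw [hk1, hk2]
  have hkne : ((k : ℂ) + 3) ≠ 0 := by
    have : ((k + 3 : ℕ) : ℂ) ≠ 0 := by exact_mod_cast (by omega : k + 3 ≠ 0)
    simpa using this
  have eP : (P : ℂ) * 2 = ((k : ℂ) + 2) * (k + 1) := by
    apply mul_left_cancel₀ hkne
    apply mul_left_cancel₀ (two_ne_zero (α := ℂ))
    linear_combination (-1) * e2 + ((k : ℂ) + 2) ^ 2 * e1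
  have eM : (M : ℂ) * 2 = ((k : ℂ) + 3) * (k + 2) := by
    linear_combination (-2) * e1 - eP
  have eP' : P * 2 = (k + 2) * (k + 1) := by exact_mod_cast eP
  have eM' : M * 2 = (k + 3) * (k + 2) := by exact_mod_cast eM
  rw [hk, hk1] at n1 nq
  refine ⟨n1, nq, ?_, ?_⟩
  · rw [← eP']; simp
  · rw [← eM']; simp

end Cfsg.Agent.S2298
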