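import Cfsg.Statements.S2325
import Cfsg.Agent.Lib.Helper5_SL2Odd

set_option autoImplicit false
open Cfsg

namespace Cfsg.Agent.S2325

open Cfsg.Agent.Lib.Helper5_GL2 Matrix Cfsg.Agent.Lib.Helper5_SL2Odd Cfsg.Agent.Lib.Helper5_SL2Cliff
  Cfsg.Agent.Lib.Helper5_SL2Res Cfsg.Agent.Lib.Helper5_GL2Class

variable {F : Type*} [Field F] [Fintype F] [DecidableEq F]

def sgn (σ : Bool) : F := if σ then 1 else -1

theorem sgn_sq (σ : Bool) : (sgn σ : F) ^ 2 = 1 := by
  cases σ <;> simp [sgn]

def sS (σ : Bool) : Matrix.SpecialLinearGroup (Fin 2) F :=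
  ⟨(sgn σ : F) • (1 : Matrix (Fin 2) (Fin 2) F), by
    rw [Matrix.det_smul, Matrix.det_one, Fintype.card_fin, mul_one, sgn_sq]⟩

noncomputable def repr (x₀ : GL (Fin 2) F) : F ⊕ (Bool × Bool) → Matrix.SpecialLinearGroup (Fin 2) F
  | Sum.inl τ => compSL τ
  | Sum.inr (σ, true) => sS σ
  | Sum.inr (σ, false) => cj x₀ (compSL (2 * sgn σ))

theorem trace_cj (x : GL (Fin 2) F) (s : Matrix.SpecialLinearGroup (Fin 2) F) :
    (cj x s : Matrix (Fin 2) (Fin 2) F).trace = (s : Matrix (Fin 2) (Fin 2) F).trace := by
  have := trace_conj (Matrix.SpecialLinearGroup.toGL s) x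
  rw [← toGL_cj] at this
  exact this

theorem scalar_cj (x : GL (Fin 2) F) (s : Matrix.SpecialLinearGroup (Fin 2) F) (c : F)
    (h : (cj x s : Matrix (Fin 2) (Fin 2) F) = c • (1 : Matrix (Fin 2) (Fin 2) F)) :
    (s : Matrix (Fin 2) (Fin 2) F) = c • (1 : Matrix (Fin 2) (Fin 2) F) := by
  have h1 : IsConj (Matrix.SpecialLinearGroup.toGL (cj x s)) (Matrix.SpecialLinearGroup.toGL s) := by
    rw [toGL_cj, isConj_comm, isConj_iff]
    exact ⟨x, rfl⟩
  exact isConj_scalar h1 c h

theorem sgn_inj (hodd : Odd (Fintype.card F)) {σ σ' : Bool} (h : (2 : F) * sgn σ = 2 * sgn σ') : σ = σ' := by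
  have h2 := two_ne hodd
  have h3 := mul_left_cancel₀ h2 h
  cases σ <;> cases σ' <;> simp [sgn] at h3 ⊢
  · exact h2 (by linear_combination -h3)
  · exact h2 (by linear_combination h3)

theorem four_sq (σ : Bool) : ((2 : F) * sgn σ) ^ 2 = 4 := by
  rw [mul_pow, sgn_sq]; norm_num

theorem repr_bijective (hodd : Odd (Fintype.card F)) (x₀ : GL (Fin 2) F)
    (hx₀ : ¬ IsSquare (x₀ : Matrix (Fin 2) (Fin 2) F).det) :
    Function.Bijective (fun z : F ⊕ (Bool × Bool) => ConjClasses.mk (repr x₀ z)) := by
  have h2 := two_ne hodd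
  constructor
  · intro z z' h
    simp only [ConjClasses.mk_eq_mk_iff_isConj] at h
    have htr := sl_isConj_trace h
    rcases z with τ | ⟨σ, _ | _⟩ <;> rcases z' with τ' | ⟨σ', _ | _⟩
    · simp only [repr, compSL_val, comp_trace] at htr
      rw [htr]
    · exfalso
      simp only [repr, compSL_val, comp_trace, trace_cj] at htr
      simp only [repr] at h
      rw [htr] at h
      exact not_conj_comp hodd _ (four_sq σ') x₀ hx₀ h
    · exfalso
      simp only [repr] at h
      exact comp_not_scalar τ 1 ⟨_, sl_isConj_scalar h.symm (sgn σ') rfl⟩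
    · exfalso
      simp only [repr, compSL_val, comp_trace, trace_cj] at htr
      simp only [repr] at h
      rw [← htr] at h
      exact not_conj_comp hodd _ (four_sq σ) x₀ hx₀ h.symm
    · simp only [repr, compSL_val, comp_trace, trace_cj] at htr
      rw [sgn_inj hodd htr]
    · exfalso
      simp only [repr] at h
      exact comp_not_scalar _ 1 ⟨_, scalar_cj x₀ _ _ (sl_isConj_scalar h.symm (sgn σ') rfl)⟩
    · exfalso
      simp only [repr] at h
      exact comp_not_scalar τ' 1 ⟨_, sl_isConj_scalar h (sgn σ) rfl⟩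
    · exfalso
      simp only [repr] at h
      exact comp_not_scalar _ 1 ⟨_, scalar_cj x₀ _ _ (sl_isConj_scalar h (sgn σ) rfl)⟩
    · have : (2 : F) * sgn σ = 2 * sgn σ' := by
        simp only [repr, sS, Matrix.trace_smul, Matrix.trace_one, Fintype.card_fin, smul_eq_mul] at htr
        push_cast at htr
        linear_combination htr
      rw [sgn_inj hodd this]
  · intro C
    obtain ⟨g, rfl⟩ := ConjClasses.mk_surjective C
    by_cases hg : ∃ c : F, (g : Matrix (Fin 2) (Fin 2) F) = c • (1 : Matrix (Fin 2) (Fin 2) F)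
    · obtain ⟨c, hc⟩ := hg
      have hdet := g.2
      rw [hc, Matrix.det_smul, Matrix.det_one, Fintype.card_fin, mul_one] at hdet
      rcases (sq_eq_one_iff.1 hdet) with h | h
      · refine ⟨Sum.inr (true, true), ?_⟩
        simp only [repr]
        congr 1
        apply Subtype.ext
        rw [hc, h]
        simp [sS, sgn]
      · refine ⟨Sum.inr (false, true), ?_⟩
        simp only [repr]
        congr 1
        apply Subtype.ext
        rw [hc, h]
        simp [sS, sgn]
    · have h1 := gl_conj_comp (Matrix.SpecialLinearGroup.toGL g) hg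
      have h2' : Matrix.GeneralLinearGroup.det (Matrix.SpecialLinearGroup.toGL g) = 1 := by
        apply Units.ext
        simp
      rw [h2', ← toGL_compSL, isConj_iff] at h1
      obtain ⟨w, hw⟩ := h1
      rw [← toGL_cj] at hw
      have hw' := toGL_injective hw
      rw [toGL_val] at hw'
      set τ := (g : Matrix (Fin 2) (Fin 2) F).trace with hτ
      by_cases hdisc : τ ^ 2 = 4
      · by_cases hsq : IsSquare (w : Matrix (Fin 2) (Fin 2) F).det
        · refine ⟨Sum.inl τ, ?_⟩
          simp only [repr, ConjClasses.mk_eq_mk_iff_isConj]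
          rw [← hw']
          exact cj_isConj_of_sq w hsq _
        · have hτ2 : τ = 2 ∨ τ = -2 := by
            have : (τ - 2) * (τ + 2) = 0 := by linear_combination hdisc
            rcases mul_eq_zero.1 this with h | h
            · left; linear_combination h
            · right; linear_combination h
          rcases hτ2 with h | h
          · refine ⟨Sum.inr (true, false), ?_⟩
            simp only [repr, ConjClasses.mk_eq_mk_iff_isConj]
            rw [← hw', h]
            simp only [sgn, if_true, mul_one]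
            exact cj_isConj_of_nonsq w x₀ hsq hx₀ _
          · refine ⟨Sum.inr (false, false), ?_⟩
            simp only [repr, ConjClasses.mk_eq_mk_iff_isConj]
            rw [← hw', h]
            have : (2 : F) * sgn false = -2 := by simp [sgn]
            rw [this]
            exact cj_isConj_of_nonsq w x₀ hsq hx₀ _
      · refine ⟨Sum.inl τ, ?_⟩
        simp only [repr, ConjClasses.mk_eq_mk_iff_isConj]
        rw [← hw']
        apply cj_conj_of_disc hodd
        rw [compSL_val, comp_trace]
        exact hdisc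

theorem result {F : Type*} [Field F] [Fintype F] (hodd : Odd (Fintype.card F)) :
    Nat.card (ConjClasses (Matrix.SpecialLinearGroup (Fin 2) F)) = Fintype.card F + 4 := by
  classical
  obtain ⟨ε, hε⟩ := FiniteField.exists_nonsquare (ringChar_ne_two hodd)
  have hε0 : ε ≠ 0 := by rintro rfl; exact hε IsSquare.zero
  have hx₀ : ¬ IsSquare (dgHom (Units.mk0 ε hε0) : Matrix (Fin 2) (Fin 2) F).det := by
    rw [dgHom_val, Matrix.det_fin_two_of]
    simpa using hε
  rw [← Nat.card_congr (Equiv.ofBijective _ (repr_bijective hodd _ hx₀)), Nat.card_eq_fintype_card, Fintype.card_sum,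
    Fintype.card_prod, Fintype.card_bool]

end Cfsg.Agent.S2325
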