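import Cfsg.Statements.S2299
import Cfsg.Agent.Lib.Helper5_SL2Odd2
import Cfsg.Agent.Lib.Helper5_SumSplit
import Cfsg.Agent.S2325

set_option autoImplicit false
open Cfsg

namespace Cfsg.Agent.S2299

open Cfsg.Agent.Lib.Helper5_SL2Odd2 Cfsg.Agent.Lib.Helper5_SL2Class Cfsg.Agent.Lib.Helper5_SL2Res
  Cfsg.Agent.Lib.Helper5_SL2Cliff Cfsg.Agent.Lib.Helper5_SumSplit Cfsg.Agent.Lib.CharBasic
  Cfsg.Agent.Lib.CharComplete Cfsg.Agent.Lib.CharMore Cfsg.Agent.Lib.CharOrtho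

variable {F : Type*} [Field F] [Fintype F]

local notation "SL2" => Matrix.SpecialLinearGroup (Fin 2) F

/-- number of irreducible characters of a given degree -/
noncomputable def NN (d : ℕ) : ℕ := Nat.card {χ : Cfsg.IrrCharacter SL2 // (χ : SL2 → ℂ) 1 = (d : ℂ)}

theorem cast_two_mul {ψ : SL2 → ℂ} {d2 d : ℕ} (hd : 2 * ψ 1 = (d2 : ℂ)) (h : ψ 1 = (d : ℂ)) : d2 = 2 * d := by
  have : ((2 * d : ℕ) : ℂ) = (d2 : ℂ) := by rw [← hd, h]; push_cast; ring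
  exact_mod_cast this.symm

theorem deg_of_two_mul {ψ : SL2 → ℂ} {d2 d : ℕ} (hd : 2 * ψ 1 = (d2 : ℂ)) (h : d2 = 2 * d) : ψ 1 = (d : ℂ) := by
  rw [h] at hd
  push_cast at hd
  linear_combination hd / 2

theorem degs [DecidableEq F] (k : ℕ) (hk : Fintype.card F = 2 * k + 1) (ψ : SL2 → ℂ) (hψ : IsIrrCharacter SL2 ψ) :
    ψ 1 = ((1 : ℕ) : ℂ) ∨ ψ 1 = ((2 * k + 1 : ℕ) : ℂ) ∨ ψ 1 = ((2 * k + 2 : ℕ) : ℂ) ∨ ψ 1 = ((2 * k : ℕ) : ℂ) ∨
      ψ 1 = ((k + 1 : ℕ) : ℂ) ∨ ψ 1 = ((k : ℕ) : ℂ) := by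
  obtain ⟨d2, hd, hcase⟩ := classifySL' ψ hψ
  rcases hcase with ⟨h1, -⟩ | ⟨h1, -⟩ | ⟨h1, -⟩ | ⟨h1, -⟩ | ⟨h1, -⟩ | ⟨h1, -⟩
  · exact Or.inl (deg_of_two_mul hd (by omega))
  · exact Or.inr (Or.inl (deg_of_two_mul hd (by omega)))
  · exact Or.inr (Or.inr (Or.inl (deg_of_two_mul hd (by omega))))
  · exact Or.inr (Or.inr (Or.inr (Or.inr (Or.inl (deg_of_two_mul hd (by omega))))))
  · exact Or.inr (Or.inr (Or.inr (Or.inl (deg_of_two_mul hd (by omega)))))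
  · exact Or.inr (Or.inr (Or.inr (Or.inr (Or.inr (deg_of_two_mul hd (by omega))))))

theorem sum_deg_sumU [DecidableEq F] :
    ∑ ψ : IrrCharacter SL2, (ψ : SL2 → ℂ) 1 * sumU (ψ : SL2 → ℂ) = (Nat.card SL2 : ℂ) := by
  unfold sumU
  simp only [Finset.mul_sum]
  rw [Finset.sum_comm]
  have h1 : ∀ c : F, ∑ ψ : IrrCharacter SL2, (ψ : SL2 → ℂ) 1 * (ψ : SL2 → ℂ) (uS c) =
      if c = 0 then (Nat.card SL2 : ℂ) else 0 := by
    intro c
    have h2 := congrFun (regular_expansion (G := SL2)) (uS c)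
    rw [regular_char, Finset.sum_apply] at h2
    simp only [Pi.smul_apply, smul_eq_mul] at h2
    rw [← h2]
    congr 1
    rw [eq_iff_iff]
    constructor
    · intro h
      have := congrArg (fun g : SL2 => (g : Matrix (Fin 2) (Fin 2) F) 0 1) h
      simpa [uS_val] using this
    · rintro rfl
      apply Subtype.ext
      rw [uS_val]
      ext i j
      fin_cases i <;> fin_cases j <;> simp
  rw [Finset.sum_congr rfl fun c _ => h1 c]
  simp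

theorem counts [DecidableEq F] (k : ℕ) (hk : Fintype.card F = 2 * k + 1) (hk2 : 2 ≤ k) :
    NN (F := F) 1 = 1 ∧ NN (F := F) (2 * k + 1) = 1 ∧ NN (F := F) (2 * k + 2) = k - 1 ∧ NN (F := F) (2 * k) = k ∧
      NN (F := F) (k + 1) = 2 ∧ NN (F := F) k = 2 := by
  have hodd : Odd (Fintype.card F) := ⟨k, hk⟩
  have n1 : NN (F := F) 1 = 1 := by
    unfold NN
    rw [Nat.card_eq_one_iff_unique]
    refine ⟨⟨?_⟩, ⟨⟨⟨1, isIrr_one⟩, by simp⟩⟩⟩
    have hh : ∀ a : {χ : Cfsg.IrrCharacter SL2 // (χ : SL2 → ℂ) 1 = ((1 : ℕ) : ℂ)}, a.1.1 = fun _ => 1 := by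
      rintro ⟨⟨χ, hχ⟩, h⟩
      simp only at h ⊢
      obtain ⟨d2, hd, hcase⟩ := classifySL' χ hχ
      have := cast_two_mul hd h
      rcases hcase with ⟨h1, h2⟩ | ⟨h1, -⟩ | ⟨h1, -⟩ | ⟨h1, -⟩ | ⟨h1, -⟩ | ⟨h1, -⟩
      · exact h2
      all_goals omega
    intro a b
    exact Subtype.ext (Subtype.ext ((hh a).trans (hh b).symm))
  have nq : NN (F := F) (2 * k + 1) = 1 := by
    unfold NN
    rw [Nat.card_eq_one_iff_unique]
    refine ⟨⟨?_⟩, ⟨⟨⟨StS, StS_isIrr⟩, by show StS 1 = _; rw [StS_one, hk]⟩⟩⟩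
    have hh : ∀ a : {χ : Cfsg.IrrCharacter SL2 // (χ : SL2 → ℂ) 1 = ((2 * k + 1 : ℕ) : ℂ)}, a.1.1 = StS := by
      rintro ⟨⟨χ, hχ⟩, h⟩
      simp only at h ⊢
      obtain ⟨d2, hd, hcase⟩ := classifySL' χ hχ
      have := cast_two_mul hd h
      rcases hcase with ⟨h1, -⟩ | ⟨h1, h2⟩ | ⟨h1, -⟩ | ⟨h1, -⟩ | ⟨h1, -⟩ | ⟨h1, -⟩
      · omega
      · exact h2
      all_goals omega
    intro a b
    exact Subtype.ext (Subtype.ext ((hh a).trans (hh b).symm))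
  have nh : NN (F := F) (k + 1) = 2 := by
    unfold NN
    obtain ⟨ψ, x, hψ, hne, hsum⟩ := II_eta_split (F := F) hodd
    have hψ' := cj_isIrr ψ hψ x
    have hdeg : ψ 1 = ((k + 1 : ℕ) : ℂ) := by
      have h1 := two_mul_half ψ _ x hsum
      rw [II_one, hk] at h1
      push_cast at h1 ⊢
      linear_combination h1 / 2
    rw [Nat.card_eq_two_iff]
    refine ⟨⟨⟨ψ, hψ⟩, hdeg⟩, ⟨⟨ψ ∘ cj x, hψ'⟩, by simp only [Function.comp, map_one]; exact hdeg⟩, ?_, ?_⟩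
    · intro h
      exact hne (congrArg (fun a => a.1.1) h).symm
    · rw [Set.eq_univ_iff_forall]
      rintro ⟨⟨χ, hχ⟩, h⟩
      simp only at h
      obtain ⟨d2, hd, hcase⟩ := classifySL' χ hχ
      have := cast_two_mul hd h
      rcases hcase with ⟨h1, -⟩ | ⟨h1, -⟩ | ⟨h1, -⟩ | ⟨h1, μ, y, hμ1, hμ2, hy, hy2⟩ | ⟨h1, -⟩ | ⟨h1, -⟩
      · omega
      · omega
      · omega
      · rw [eq_eta hodd μ hμ1 hμ2, hsum] at hy2
        have h3 : classInner (ψ + ψ ∘ cj x) χ ≠ 0 := by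
          rw [hy2, classInner_add_left, classInner_irr_self hχ, classInner_irr_ne (cj_isIrr χ hχ y) hχ hy]
          norm_num
        rw [classInner_add_left] at h3
        by_cases h4 : ψ = χ
        · left
          exact Subtype.ext (Subtype.ext h4.symm)
        · right
          rw [classInner_irr_ne hψ hχ h4, zero_add] at h3
          have h5 : ψ ∘ cj x = χ := by
            by_contra h6
            exact h3 (classInner_irr_ne hψ' hχ h6)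
          exact Subtype.ext (Subtype.ext h5.symm)
      · omega
      · omega
  let w : Fin 6 → ℕ := ![1, 2 * k + 1, 2 * k + 2, 2 * k, k + 1, k]
  have hinj : Function.Injective (fun i : Fin 6 => ((w i : ℕ) : ℂ)) := by
    intro i j hij
    have hij' : w i = w j := by
      simp only at hij
      exact_mod_cast hij
    fin_cases i <;> fin_cases j <;> simp [w] at hij' ⊢ <;> omega
  have hex : ∀ χ : IrrCharacter SL2, ∃ i : Fin 6, (χ : SL2 → ℂ) 1 = ((w i : ℕ) : ℂ) := by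
    intro χ
    rcases degs k hk χ.1 χ.2 with h | h | h | h | h | h
    · exact ⟨0, h⟩
    · exact ⟨1, h⟩
    · exact ⟨2, h⟩
    · exact ⟨3, h⟩
    · exact ⟨4, h⟩
    · exact ⟨5, h⟩
  have e1 := sum_split_gen (fun χ : IrrCharacter SL2 => (χ : SL2 → ℂ) 1) (fun i : Fin 6 => ((w i : ℕ) : ℂ)) hinj hex
    (fun _ => 1) (fun _ => 1) (fun _ _ _ => rfl)
  have e2 := sum_split_gen (fun χ : IrrCharacter SL2 => (χ : SL2 → ℂ) 1) (fun i : Fin 6 => ((w i : ℕ) : ℂ)) hinj hex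
    (fun χ => (χ : SL2 → ℂ) 1 ^ 2) (fun i => ((w i : ℕ) : ℂ) ^ 2) (fun χ i h => by rw [h])
  have e3 := sum_split_gen (fun χ : IrrCharacter SL2 => (χ : SL2 → ℂ) 1) (fun i : Fin 6 => ((w i : ℕ) : ℂ)) hinj hex
    (fun χ => (χ : SL2 → ℂ) 1 * sumU (χ : SL2 → ℂ))
    (fun i => ((w i : ℕ) : ℂ) * ((![2 * k + 1, 2 * k + 1, 2 * (2 * k + 1), 0, 2 * k + 1, 0] : Fin 6 → ℕ) i : ℂ))
    (fun χ i h => by
      rw [h]
      congr 1
      obtain ⟨d2, hd, hcase⟩ := sumU_table χ.1 χ.2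
      have h5 := cast_two_mul hd h
      rw [hk] at hcase
      fin_cases i <;> simp [w] at h5 ⊢ <;>
        rcases hcase with ⟨h1, h2⟩ | ⟨h1, h2⟩ | ⟨h1, h2⟩ | ⟨h1, h2⟩ | ⟨h1, h2⟩ | ⟨h1, h2⟩ <;>
        first | (exfalso; omega) | (rw [h2]; push_cast; ring) | (rw [h2]; push_cast; done) | rw [h2])
  simp only [Fin.sum_univ_six] at e1 e2 e3
  simp only [w, Matrix.cons_val_zero, Matrix.cons_val_one, Matrix.cons_val] at e1 e2 e3
  rw [sum_sq_degree, Cfsg.Agent.Lib.Helper5_Card.card_SL2, hk] at e2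
  rw [sum_deg_sumU, Cfsg.Agent.Lib.Helper5_Card.card_SL2, hk] at e3
  rw [Finset.sum_const, Finset.card_univ, ← Nat.card_eq_fintype_card, card_irr_eq_card_conjClasses,
    Cfsg.Agent.S2325.result hodd, hk] at e1
  change _ = (NN (F := F) 1 : ℂ) * _ + (NN (F := F) (2 * k + 1) : ℂ) * _ + (NN (F := F) (2 * k + 2) : ℂ) * _ +
    (NN (F := F) (2 * k) : ℂ) * _ + (NN (F := F) (k + 1) : ℂ) * _ + (NN (F := F) k : ℂ) * _ at e1 e2 e3
  rw [n1, nq, nh] at e1 e2 e3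
  have hk3 : (2 * k + 1) ^ 2 - 1 = 4 * k * (k + 1) := by
    have : (2 * k + 1) ^ 2 = 4 * k * (k + 1) + 1 := by ring
    omega
  rw [hk3] at e2 e3
  simp only [nsmul_eq_mul, mul_one] at e1
  push_cast at e1 e2 e3
  obtain ⟨j, rfl⟩ : ∃ j, k = j + 2 := ⟨k - 2, by omega⟩
  set P := NN (F := F) (2 * (j + 2) + 2) with hP
  set M := NN (F := F) (2 * (j + 2)) with hM
  set H := NN (F := F) (j + 2) with hH
  push_cast at e1 e2 e3
  have c1 : ((j : ℂ) + 3) ≠ 0 := by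
    have : ((j + 3 : ℕ) : ℂ) ≠ 0 := by exact_mod_cast (by omega : j + 3 ≠ 0)
    simpa using this
  have c2 : (2 * ((j : ℂ) + 2) + 1) ≠ 0 := by
    have : ((2 * (j + 2) + 1 : ℕ) : ℂ) ≠ 0 := by exact_mod_cast (by omega : 2 * (j + 2) + 1 ≠ 0)
    simpa using this
  have c3 : ((j : ℂ) + 2) ≠ 0 := by
    have : ((j + 2 : ℕ) : ℂ) ≠ 0 := by exact_mod_cast (by omega : j + 2 ≠ 0)
    simpa using this
  have eP : (P : ℂ) = (j : ℂ) + 1 := by
    apply mul_left_cancel₀ c1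
    apply mul_left_cancel₀ c2
    linear_combination (-1 / 4) * e3
  have eM : (M : ℂ) = (j : ℂ) + 2 := by
    apply mul_left_cancel₀ c3
    apply mul_left_cancel₀ c3
    rw [eP] at e1 e2
    linear_combination (-1 / 3) * e2 + (1 / 3) * ((j : ℂ) + 2) ^ 2 * e1
  have eH : (H : ℂ) = 2 := by
    rw [eP, eM] at e1
    linear_combination (-1) * e1
  have eP' : P = j + 1 := by exact_mod_cast eP
  have eM' : M = j + 2 := by exact_mod_cast eM
  have eH' : H = 2 := by exact_mod_cast eH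
  refine ⟨n1, nq, ?_, eM', nh, eH'⟩
  rw [eP']
  omega

theorem result {F : Type*} [Field F] [Fintype F] (hodd : Odd (Fintype.card F)) :
    (∀ χ : Matrix.SpecialLinearGroup (Fin 2) F → ℂ, Cfsg.IsIrrCharacter (Matrix.SpecialLinearGroup (Fin 2) F) χ →
      χ 1 = 1 ∨ χ 1 = (Fintype.card F : ℂ) ∨ χ 1 = (Fintype.card F : ℂ) + 1 ∨ χ 1 = (Fintype.card F : ℂ) - 1 ∨
        χ 1 = (((Fintype.card F + 1) / 2 : ℕ) : ℂ) ∨ χ 1 = (((Fintype.card F - 1) / 2 : ℕ) : ℂ)) ∧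
    (5 ≤ Fintype.card F →
      Nat.card {χ : Cfsg.IrrCharacter (Matrix.SpecialLinearGroup (Fin 2) F) // (χ : Matrix.SpecialLinearGroup (Fin 2) F → ℂ) 1 = 1} = 1 ∧
      Nat.card {χ : Cfsg.IrrCharacter (Matrix.SpecialLinearGroup (Fin 2) F) // (χ : Matrix.SpecialLinearGroup (Fin 2) F → ℂ) 1 = (Fintype.card F : ℂ)} = 1 ∧
      Nat.card {χ : Cfsg.IrrCharacter (Matrix.SpecialLinearGroup (Fin 2) F) // (χ : Matrix.SpecialLinearGroup (Fin 2) F → ℂ) 1 = (Fintype.card F : ℂ) + 1} = (Fintype.card F - 3) / 2 ∧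
      Nat.card {χ : Cfsg.IrrCharacter (Matrix.SpecialLinearGroup (Fin 2) F) // (χ : Matrix.SpecialLinearGroup (Fin 2) F → ℂ) 1 = (Fintype.card F : ℂ) - 1} = (Fintype.card F - 1) / 2 ∧
      Nat.card {χ : Cfsg.IrrCharacter (Matrix.SpecialLinearGroup (Fin 2) F) // (χ : Matrix.SpecialLinearGroup (Fin 2) F → ℂ) 1 = (((Fintype.card F + 1) / 2 : ℕ) : ℂ)} = 2 ∧
      Nat.card {χ : Cfsg.IrrCharacter (Matrix.SpecialLinearGroup (Fin 2) F) // (χ : Matrix.SpecialLinearGroup (Fin 2) F → ℂ) 1 = (((Fintype.card F - 1) / 2 : ℕ) : ℂ)} = 2) := by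
  classical
  obtain ⟨k, hk⟩ := hodd
  have e1 : (Fintype.card F + 1) / 2 = k + 1 := by omega
  have e2 : (Fintype.card F - 1) / 2 = k := by omega
  have c1 : (1 : ℂ) = ((1 : ℕ) : ℂ) := by simp
  have c2 : (Fintype.card F : ℂ) + 1 = ((2 * k + 2 : ℕ) : ℂ) := by rw [hk]; push_cast; ring
  have c3 : (Fintype.card F : ℂ) - 1 = ((2 * k : ℕ) : ℂ) := by rw [hk]; push_cast; ring
  rw [e1, e2, c2, c3, c1]
  constructor
  · intro χ hχ
    rw [hk]
    rcases degs k hk χ hχ with h | h | h | h | h | h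
    · exact Or.inl h
    · exact Or.inr (Or.inl h)
    · exact Or.inr (Or.inr (Or.inl h))
    · exact Or.inr (Or.inr (Or.inr (Or.inl h)))
    · exact Or.inr (Or.inr (Or.inr (Or.inr (Or.inl h))))
    · exact Or.inr (Or.inr (Or.inr (Or.inr (Or.inr h))))
  · intro hq
    obtain ⟨h1, h2, h3, h4, h5, h6⟩ := counts k hk (by omega)
    have e3 : (Fintype.card F - 3) / 2 = k - 1 := by omega
    rw [e3, hk]
    exact ⟨h1, h2, h3, h4, h5, h6⟩

end Cfsg.Agent.S2299
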