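import Cfsg.Statements.S2331
import Cfsg.Agent.Lib.Helper5_GL2

set_option autoImplicit false
open Cfsg

namespace Cfsg.Agent.S2331

open Cfsg.Agent.Lib.Helper5_GL2 Matrix

variable {F : Type*} [Field F]

def param : F ⊕ Unit → ConjClasses (Matrix.SpecialLinearGroup (Fin 2) F)
  | Sum.inl τ => ConjClasses.mk (compSL τ)
  | Sum.inr _ => ConjClasses.mk 1

theorem one_scalar : ((1 : Matrix.SpecialLinearGroup (Fin 2) F) : Matrix (Fin 2) (Fin 2) F) = (1 : F) • (1 : Matrix (Fin 2) (Fin 2) F) := by
  simp

theorem scalar_val (c : Fˣ) : ((Matrix.GeneralLinearGroup.scalar (Fin 2) c : GL (Fin 2) F) : Matrix (Fin 2) (Fin 2) F) =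
    (c : F) • (1 : Matrix (Fin 2) (Fin 2) F) := by
  ext i j
  simp [Matrix.GeneralLinearGroup.scalar, Matrix.one_apply, Matrix.scalar_apply, Matrix.diagonal_apply]

theorem param_bijective [Fintype F] [CharP F 2] : Function.Bijective (param : F ⊕ Unit → ConjClasses (Matrix.SpecialLinearGroup (Fin 2) F)) := by
  constructor
  · rintro (τ | c) (τ' | c') h
    · simp only [param, ConjClasses.mk_eq_mk_iff_isConj] at h
      have h1 := sl_isConj_trace h
      simp only [compSL_val, comp_trace] at h1
      rw [h1]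
    · simp only [param, ConjClasses.mk_eq_mk_iff_isConj] at h
      exact absurd ⟨_, sl_isConj_scalar h.symm 1 one_scalar⟩ (comp_not_scalar τ 1)
    · simp only [param, ConjClasses.mk_eq_mk_iff_isConj] at h
      exact absurd ⟨_, sl_isConj_scalar h 1 one_scalar⟩ (comp_not_scalar τ' 1)
    · rfl
  · intro C
    obtain ⟨g, rfl⟩ := ConjClasses.mk_surjective C
    by_cases hg : ∃ c : F, (g : Matrix (Fin 2) (Fin 2) F) = c • (1 : Matrix (Fin 2) (Fin 2) F)
    · obtain ⟨c, hc⟩ := hg
      have hdet := g.2
      rw [hc, Matrix.det_smul, Matrix.det_one, Fintype.card_fin, mul_one] at hdet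
      have hc1 : c = 1 := by
        have h1 : (c + 1) ^ 2 = 0 := by
          rw [CharTwo.add_sq, hdet, one_pow, CharTwo.add_self_eq_zero]
        have h2 : c + 1 = 0 := pow_eq_zero_iff (two_ne_zero) |>.1 h1
        rw [← CharTwo.sub_eq_add] at h2
        exact sub_eq_zero.1 h2
      refine ⟨Sum.inr (), ?_⟩
      simp only [param]
      congr 1
      apply Subtype.ext
      rw [hc, hc1]; simp
    · refine ⟨Sum.inl (g : Matrix (Fin 2) (Fin 2) F).trace, ?_⟩
      simp only [param, ConjClasses.mk_eq_mk_iff_isConj]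
      have h1 := gl_conj_comp (Matrix.SpecialLinearGroup.toGL g) hg
      have h2 : Matrix.GeneralLinearGroup.det (Matrix.SpecialLinearGroup.toGL g) = 1 := by
        apply Units.ext
        simp
      rw [h2, ← toGL_compSL, isConj_iff] at h1
      obtain ⟨x, hx⟩ := h1
      have hx0 : (x : Matrix (Fin 2) (Fin 2) F).det ≠ 0 := Matrix.GeneralLinearGroup.det_ne_zero x
      obtain ⟨s, hs⟩ := FiniteField.isSquare_of_char_two
        (CharP.ringChar_of_prime_eq_zero Nat.prime_two (CharTwo.two_eq_zero (R := F))) ((x : Matrix (Fin 2) (Fin 2) F).det)⁻¹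
      have hs0 : s ≠ 0 := by
        rintro rfl
        rw [mul_zero] at hs
        exact inv_ne_zero hx0 hs
      apply sl_conj_of_gl_conj _ _ x (Matrix.GeneralLinearGroup.scalar (Fin 2) (Units.mk0 s hs0)) hx
      · apply Units.ext
        rw [Units.val_mul, Units.val_mul, scalar_val]
        simp
      · rw [scalar_val, Matrix.det_smul, Matrix.det_one, Fintype.card_fin, mul_one, Units.val_mk0, sq, ← hs,
          mul_inv_cancel₀ hx0]

theorem result {F : Type*} [Field F] [Fintype F] [CharP F 2] :
    Nat.card (ConjClasses (Matrix.SpecialLinearGroup (Fin 2) F)) = Fintype.card F + 1 := by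
  classical
  rw [← Nat.card_congr (Equiv.ofBijective _ (param_bijective (F := F))), Nat.card_eq_fintype_card, Fintype.card_sum,
    Fintype.card_unit]

end Cfsg.Agent.S2331
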