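import Cfsg.Statements.S2300
import Cfsg.Agent.Lib.Helper5_SL2Class
import Cfsg.Agent.Lib.Helper5_SumSplit
import Cfsg.Agent.S2331

set_option autoImplicit false

open Cfsg

namespace Cfsg.Agent.S2300

open Cfsg.Agent.Lib.Helper5_SL2Class Cfsg.Agent.Lib.Helper5_SL2Res Cfsg.Agent.Lib.CharBasic
  Cfsg.Agent.Lib.Helper5_GL2Val Cfsg.Agent.Lib.Helper5_GL2Class Cfsg.Agent.Lib.Helper5_GL2Char
  Cfsg.Agent.Lib.Helper5_SumSplit Cfsg.Agent.Lib.CharComplete Cfsg.Agent.Lib.CharMore

theorem no_quad {F : Type*} [Field F] [Fintype F] [CharP F 2] (γ : MulChar F ℂ) (h : γ ^ 2 = 1) : γ = 1 := by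
  have h1 : γ ^ (Fintype.card F - 1) = 1 := by
    rw [← card_mulChar]
    exact pow_card_eq_one
  have heven : Even (Fintype.card F) := by
    have := FiniteField.even_card_of_char_two (F := F) (CharP.ringChar_of_prime_eq_zero Nat.prime_two (CharP.cast_eq_zero F 2))
    exact Nat.even_iff.2 this
  obtain ⟨k, hk⟩ := heven
  have hq : 2 ≤ Fintype.card F := Fintype.one_lt_card
  have h2 : Fintype.card F - 1 = 2 * (k - 1) + 1 := by omega
  rw [h2, pow_succ, pow_mul, h, one_pow, one_mul] at h1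
  exact h1

/-- the four types in even characteristic -/
theorem types {F : Type*} [Field F] [Fintype F] [DecidableEq F] [CharP F 2] (ψ : Matrix.SpecialLinearGroup (Fin 2) F → ℂ)
    (hψ : Cfsg.IsIrrCharacter (Matrix.SpecialLinearGroup (Fin 2) F) ψ) :
    (ψ 1 = 1 ∧ ψ = fun _ => 1) ∨ (ψ 1 = (Fintype.card F : ℂ) - 1) ∨ (ψ 1 = (Fintype.card F : ℂ) ∧ ψ = StS) ∨
      ψ 1 = (Fintype.card F : ℂ) + 1 := by
  rcases classifySL ψ hψ with h | h | ⟨μ, h1, h⟩ | ⟨μ, x, h1, h2, h3, h⟩ | ⟨χ, h1, h⟩ | ⟨χ, x, h1, h2, h, γ, h3, h4⟩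
  · left; exact ⟨by rw [h], h⟩
  · right; right; left; exact ⟨by rw [h, StS_one], h⟩
  · right; right; right; rw [h, II_one]
  · exact absurd (no_quad μ h2) h1
  · right; left; rw [h, res_one, h1.2.1]
  · exact absurd (no_quad γ h4) h3

theorem result {F : Type*} [Field F] [Fintype F] [CharP F 2] :
    (∀ χ : Matrix.SpecialLinearGroup (Fin 2) F → ℂ, Cfsg.IsIrrCharacter (Matrix.SpecialLinearGroup (Fin 2) F) χ →
      χ 1 = 1 ∨ χ 1 = (Fintype.card F : ℂ) - 1 ∨ χ 1 = (Fintype.card F : ℂ) ∨ χ 1 = (Fintype.card F : ℂ) + 1) ∧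
    (4 ≤ Fintype.card F →
      Nat.card {χ : Cfsg.IrrCharacter (Matrix.SpecialLinearGroup (Fin 2) F) // (χ : Matrix.SpecialLinearGroup (Fin 2) F → ℂ) 1 = 1} = 1 ∧
      Nat.card {χ : Cfsg.IrrCharacter (Matrix.SpecialLinearGroup (Fin 2) F) // (χ : Matrix.SpecialLinearGroup (Fin 2) F → ℂ) 1 = (Fintype.card F : ℂ)} = 1 ∧
      Nat.card {χ : Cfsg.IrrCharacter (Matrix.SpecialLinearGroup (Fin 2) F) // (χ : Matrix.SpecialLinearGroup (Fin 2) F → ℂ) 1 = (Fintype.card F : ℂ) + 1} = (Fintype.card F - 2) / 2 ∧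
      Nat.card {χ : Cfsg.IrrCharacter (Matrix.SpecialLinearGroup (Fin 2) F) // (χ : Matrix.SpecialLinearGroup (Fin 2) F → ℂ) 1 = (Fintype.card F : ℂ) - 1} = Fintype.card F / 2) := by
  classical
  have hdeg : ∀ χ : Matrix.SpecialLinearGroup (Fin 2) F → ℂ, Cfsg.IsIrrCharacter (Matrix.SpecialLinearGroup (Fin 2) F) χ →
      χ 1 = 1 ∨ χ 1 = (Fintype.card F : ℂ) - 1 ∨ χ 1 = (Fintype.card F : ℂ) ∨ χ 1 = (Fintype.card F : ℂ) + 1 := by
    intro χ hχ
    rcases types χ hχ with h | h | h | h
    · exact Or.inl h.1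
    · exact Or.inr (Or.inl h)
    · exact Or.inr (Or.inr (Or.inl h.1))
    · exact Or.inr (Or.inr (Or.inr h))
  refine ⟨hdeg, fun hq => ?_⟩
  have hq' : (4 : ℝ) ≤ (Fintype.card F : ℝ) := by exact_mod_cast hq
  have key : ∀ x y : ℝ, ((Fintype.card F : ℂ) + (x : ℂ) = (y : ℂ)) → (Fintype.card F : ℝ) + x = y := by
    intro x y h
    exact_mod_cast h
  have n1 : Nat.card {χ : Cfsg.IrrCharacter (Matrix.SpecialLinearGroup (Fin 2) F) // (χ : Matrix.SpecialLinearGroup (Fin 2) F → ℂ) 1 = 1} = 1 := by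
    rw [Nat.card_eq_one_iff_unique]
    refine ⟨⟨?_⟩, ⟨⟨⟨1, isIrr_one⟩, rfl⟩⟩⟩
    have hh : ∀ a : {χ : Cfsg.IrrCharacter (Matrix.SpecialLinearGroup (Fin 2) F) // (χ : Matrix.SpecialLinearGroup (Fin 2) F → ℂ) 1 = 1}, a.1.1 = fun _ => 1 := by
      rintro ⟨⟨χ, hχ⟩, h⟩
      simp only at h ⊢
      rcases types χ hχ with h1 | h1 | h1 | h1
      · exact h1.2
      · rw [h1] at h
        have := key (-1) 1 (by push_cast; first | linear_combination h | linear_combination -h)
        linarith
      · rw [h1.1] at h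
        have := key 0 1 (by push_cast; first | linear_combination h | linear_combination -h)
        linarith
      · rw [h1] at h
        have := key 1 1 (by push_cast; first | linear_combination h | linear_combination -h)
        linarith
    intro a b
    exact Subtype.ext (Subtype.ext ((hh a).trans (hh b).symm))
  have nq : Nat.card {χ : Cfsg.IrrCharacter (Matrix.SpecialLinearGroup (Fin 2) F) // (χ : Matrix.SpecialLinearGroup (Fin 2) F → ℂ) 1 = (Fintype.card F : ℂ)} = 1 := by
    rw [Nat.card_eq_one_iff_unique]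
    refine ⟨⟨?_⟩, ⟨⟨⟨StS, StS_isIrr⟩, StS_one⟩⟩⟩
    have hh : ∀ a : {χ : Cfsg.IrrCharacter (Matrix.SpecialLinearGroup (Fin 2) F) // (χ : Matrix.SpecialLinearGroup (Fin 2) F → ℂ) 1 = (Fintype.card F : ℂ)}, a.1.1 = StS := by
      rintro ⟨⟨χ, hχ⟩, h⟩
      simp only at h ⊢
      rcases types χ hχ with h1 | h1 | h1 | h1
      · rw [h1.1] at h
        have := key 0 1 (by push_cast; first | linear_combination h | linear_combination -h)
        linarith
      · rw [h1] at h
        have := key (-1) (Fintype.card F) (by push_cast; first | linear_combination h | linear_combination -h)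
        linarith
      · exact h1.2
      · rw [h1] at h
        have := key 1 (Fintype.card F) (by push_cast; first | linear_combination h | linear_combination -h)
        linarith
    intro a b
    exact Subtype.ext (Subtype.ext ((hh a).trans (hh b).symm))
  have hinj : Function.Injective (![1, (Fintype.card F : ℂ) - 1, (Fintype.card F : ℂ), (Fintype.card F : ℂ) + 1] : Fin 4 → ℂ) := by
    have e1 : (1 : ℂ) ≠ (Fintype.card F : ℂ) - 1 := fun h => by
      have := key (-1) 1 (by push_cast; first | linear_combination h | linear_combination -h)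
      linarith
    have e2 : (1 : ℂ) ≠ (Fintype.card F : ℂ) := fun h => by
      have := key 0 1 (by push_cast; first | linear_combination h | linear_combination -h)
      linarith
    have e3 : (1 : ℂ) ≠ (Fintype.card F : ℂ) + 1 := fun h => by
      have := key 1 1 (by push_cast; first | linear_combination h | linear_combination -h)
      linarith
    have e4 : (Fintype.card F : ℂ) - 1 ≠ (Fintype.card F : ℂ) := fun h => by
      have := key (-1) (Fintype.card F) (by push_cast; first | linear_combination h | linear_combination -h)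
      linarith
    have e5 : (Fintype.card F : ℂ) - 1 ≠ (Fintype.card F : ℂ) + 1 := fun h => by
      have := key (-1) (Fintype.card F + 1) (by push_cast; first | linear_combination h | linear_combination -h)
      linarith
    have e6 : (Fintype.card F : ℂ) ≠ (Fintype.card F : ℂ) + 1 := fun h => by
      have := key 0 (Fintype.card F + 1) (by push_cast; first | linear_combination h | linear_combination -h)
      linarith
    intro i j hij
    fin_cases i <;> fin_cases j <;>
      first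
        | rfl | exact absurd hij e1 | exact absurd hij e2 | exact absurd hij e3 | exact absurd hij e4
        | exact absurd hij e5 | exact absurd hij e6 | exact absurd hij.symm e1 | exact absurd hij.symm e2
        | exact absurd hij.symm e3 | exact absurd hij.symm e4 | exact absurd hij.symm e5 | exact absurd hij.symm e6
  have hsplit := fun (f : ℂ → ℂ) => sum_split_gen
    (fun χ : Cfsg.IrrCharacter (Matrix.SpecialLinearGroup (Fin 2) F) => (χ : Matrix.SpecialLinearGroup (Fin 2) F → ℂ) 1)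
    ![1, (Fintype.card F : ℂ) - 1, (Fintype.card F : ℂ), (Fintype.card F : ℂ) + 1] hinj
    (fun χ => by
      rcases hdeg χ.1 χ.2 with h | h | h | h
      · exact ⟨0, h⟩
      · exact ⟨1, h⟩
      · exact ⟨2, h⟩
      · exact ⟨3, h⟩)
    (fun χ => f ((χ : Matrix.SpecialLinearGroup (Fin 2) F → ℂ) 1))
    (fun k => f ((![1, (Fintype.card F : ℂ) - 1, (Fintype.card F : ℂ), (Fintype.card F : ℂ) + 1] : Fin 4 → ℂ) k))
    (fun χ k h => by rw [h])
  have e1 := hsplit (fun _ => 1)
  have e2 := hsplit (fun x => x ^ 2)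
  simp only [Fin.sum_univ_four, Matrix.cons_val_zero, Matrix.cons_val_one, Matrix.cons_val] at e1 e2
  rw [sum_sq_degree, Cfsg.Agent.Lib.Helper5_Card.card_SL2, n1, nq] at e2
  rw [Finset.sum_const, Finset.card_univ, ← Nat.card_eq_fintype_card, card_irr_eq_card_conjClasses,
    Cfsg.Agent.S2331.result, n1, nq] at e1
  set P := Nat.card {χ : Cfsg.IrrCharacter (Matrix.SpecialLinearGroup (Fin 2) F) // (χ : Matrix.SpecialLinearGroup (Fin 2) F → ℂ) 1 = (Fintype.card F : ℂ) + 1} with hP
  set M := Nat.card {χ : Cfsg.IrrCharacter (Matrix.SpecialLinearGroup (Fin 2) F) // (χ : Matrix.SpecialLinearGroup (Fin 2) F → ℂ) 1 = (Fintype.card F : ℂ) - 1} with hM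
  obtain ⟨k, hk⟩ : ∃ k, Fintype.card F = k + 4 := ⟨Fintype.card F - 4, by omega⟩
  rw [hk] at e1 e2 ⊢
  have hk3 : (k + 4) ^ 2 - 1 = (k + 3) * (k + 5) := by
    have : (k + 4) ^ 2 = (k + 3) * (k + 5) + 1 := by ring
    omega
  rw [hk3] at e2
  simp only [nsmul_eq_mul, mul_one] at e1
  push_cast at e1 e2
  have hkne : ((k : ℂ) + 4) ≠ 0 := by
    have : ((k + 4 : ℕ) : ℂ) ≠ 0 := by exact_mod_cast (by omega : k + 4 ≠ 0)
    simpa using this
  have eP : (P : ℂ) * 2 = ((k : ℂ) + 2) := by
    apply mul_left_cancel₀ hkne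
    apply mul_left_cancel₀ (two_ne_zero (α := ℂ))
    linear_combination (-1) * e2 + ((k : ℂ) + 3) ^ 2 * e1
  have eM : (M : ℂ) * 2 = ((k : ℂ) + 4) := by
    linear_combination (-2) * e1 - eP
  have eP' : P * 2 = (k + 2) := by exact_mod_cast eP
  have eM' : M * 2 = (k + 4) := by exact_mod_cast eM
  rw [hk] at nq
  refine ⟨n1, nq, ?_, ?_⟩
  · omega
  · omega

end Cfsg.Agent.S2300
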