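import Cfsg.Statements.S2302
import Cfsg.Agent.Lib.Helper5_SqZeroCent
import Cfsg.Agent.Lib.Helper5_Card

set_option autoImplicit false
open Cfsg

namespace Cfsg.Agent.S2302

open Cfsg.Agent.Lib.Helper5_SqZero Cfsg.Agent.Lib.Helper5_SqZeroCent Cfsg.Agent.Lib.Helper5_Card

theorem eq_zero_of_rank {F : Type*} [Field F] {n : ℕ} (A : Matrix (Fin n) (Fin n) F) (h : A.rank = 0) : A = 0 := by
  have h1 : LinearMap.range A.mulVecLin = ⊥ := Submodule.finrank_eq_zero.1 h
  rw [LinearMap.range_eq_bot] at h1
  apply Matrix.mulVec_injective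
  funext v
  have := congrArg (fun L : (Fin n → F) →ₗ[F] (Fin n → F) => L v) h1
  simpa using this

theorem sq_zero {F : Type*} [Field F] [CharP F 2] {n : ℕ} (a : Matrix.SpecialLinearGroup (Fin n) F) (ha : orderOf a = 2) :
    ((a : Matrix (Fin n) (Fin n) F) - 1) * ((a : Matrix (Fin n) (Fin n) F) - 1) = 0 := by
  have h1 : a ^ 2 = 1 := by rw [← ha, pow_orderOf_eq_one]
  have h2 : (a : Matrix (Fin n) (Fin n) F) * (a : Matrix (Fin n) (Fin n) F) = 1 := by
    have := congrArg (fun x : Matrix.SpecialLinearGroup (Fin n) F => (x : Matrix (Fin n) (Fin n) F)) h1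
    simpa [sq] using this
  have h3 : ((a : Matrix (Fin n) (Fin n) F) - 1) * ((a : Matrix (Fin n) (Fin n) F) - 1) =
      (2 : F) • (1 - (a : Matrix (Fin n) (Fin n) F)) := by
    rw [sub_mul, mul_sub, mul_sub, h2, two_smul]
    simp only [mul_one, one_mul]
    abel
  rw [h3, CharTwo.two_eq_zero, zero_smul]

theorem rank_one {F : Type*} [Field F] [CharP F 2] (a : Matrix.SpecialLinearGroup (Fin 2) F) (ha : orderOf a = 2) :
    ((a : Matrix (Fin 2) (Fin 2) F) - 1).rank = 1 := by
  have h2 := sq_zero a ha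
  have h3 := two_mul_rank_le ((a : Matrix (Fin 2) (Fin 2) F) - 1).mulVecLin (sqzero_apply _ h2)
  have h4 : Module.finrank F (Fin 2 → F) = 2 := by simp
  rw [h4] at h3
  have h5 : ((a : Matrix (Fin 2) (Fin 2) F) - 1).rank ≠ 0 := by
    intro h0
    have h6 := eq_zero_of_rank _ h0
    have h7 : a = 1 := by
      apply Subtype.ext
      rw [Matrix.SpecialLinearGroup.coe_one]
      exact sub_eq_zero.1 h6
    rw [h7, orderOf_one] at ha
    omega
  have h8 : ((a : Matrix (Fin 2) (Fin 2) F) - 1).rank = Module.finrank F (LinearMap.range ((a : Matrix (Fin 2) (Fin 2) F) - 1).mulVecLin) := rfl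
  omega

theorem orderOf_conj {G : Type*} [Group G] {x y : G} (h : IsConj x y) : orderOf x = orderOf y := by
  rw [isConj_iff] at h
  obtain ⟨c, rfl⟩ := h
  have := MulEquiv.orderOf_eq (MulAut.conj c) x
  rw [MulAut.conj_apply] at this
  exact this.symm

theorem conj_all {F : Type*} [Field F] [Fintype F] [CharP F 2] (g h : Matrix.SpecialLinearGroup (Fin 2) F) (hg : orderOf g = 2) (hh : orderOf h = 2) :
    IsConj g h := by
  apply sl_conj g h (sq_zero g hg) (sq_zero h hh) (by rw [rank_one g hg, rank_one h hh])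
  right
  exact ⟨fun δ => FiniteField.isSquare_of_char_two (CharP.ringChar_of_prime_eq_zero Nat.prime_two (CharTwo.two_eq_zero)) δ,
    by rw [rank_one g hg]⟩

theorem result {F : Type*} [Field F] [Fintype F] [CharP F 2] (g h : Matrix.SpecialLinearGroup (Fin 2) F) (hg : orderOf g = 2) (hh : orderOf h = 2) :
    IsConj g h ∧ Nat.card (ConjClasses.mk g).carrier = Fintype.card F ^ 2 - 1 := by
  refine ⟨conj_all g h hg hh, ?_⟩
  -- compare with the class in GL
  have h1 : Nat.card (ConjClasses.mk g).carrier = Nat.card (ConjClasses.mk (Matrix.SpecialLinearGroup.toGL g)).carrier := by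
    refine Nat.card_congr (Equiv.ofBijective (fun x => ⟨Matrix.SpecialLinearGroup.toGL x.1, ?_⟩) ⟨?_, ?_⟩)
    · have hx := x.2
      rw [ConjClasses.mem_carrier_iff_mk_eq, ConjClasses.mk_eq_mk_iff_isConj] at hx ⊢
      exact Matrix.SpecialLinearGroup.toGL.map_isConj hx
    · intro x y hxy
      apply Subtype.ext
      exact Matrix.SpecialLinearGroup.toGL_injective (congrArg Subtype.val hxy)
    · rintro ⟨y, hy⟩
      rw [ConjClasses.mem_carrier_iff_mk_eq, ConjClasses.mk_eq_mk_iff_isConj] at hy
      have hdet : (y : Matrix (Fin 2) (Fin 2) F).det = 1 := by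
        rw [isConj_iff] at hy
        obtain ⟨c, hc⟩ := hy
        have h2 : y = c⁻¹ * Matrix.SpecialLinearGroup.toGL g * c := by rw [← hc]; group
        have h3 := congrArg Matrix.GeneralLinearGroup.det h2
        rw [map_mul, map_mul, map_inv, mul_comm, ← mul_assoc, mul_inv_cancel, one_mul] at h3
        have h4 := congrArg Units.val h3
        simpa using h4
      let y' : Matrix.SpecialLinearGroup (Fin 2) F := ⟨y, hdet⟩
      have hy' : Matrix.SpecialLinearGroup.toGL y' = y := Units.ext rfl
      have hord : orderOf y' = 2 := by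
        rw [← orderOf_injective _ Matrix.SpecialLinearGroup.toGL_injective, hy', orderOf_conj hy,
          orderOf_injective _ Matrix.SpecialLinearGroup.toGL_injective, hg]
      refine ⟨⟨y', ?_⟩, Subtype.ext hy'⟩
      rw [ConjClasses.mem_carrier_iff_mk_eq, ConjClasses.mk_eq_mk_iff_isConj]
      exact conj_all y' g hord hg
  rw [h1]
  have h2 := card_class_mul_card_centralizer (Matrix.SpecialLinearGroup.toGL g)
  rw [card_centralizer_sqzero 2 (Matrix.SpecialLinearGroup.toGL g) (sq_zero g hg) 1 0 (rank_one g hg) (by norm_num),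
    card_GL2, Matrix.card_GL_field, Matrix.card_GL_field] at h2
  simp only [Finset.univ_unique, Fin.default_eq_zero, Fin.isValue, Fin.val_eq_zero, pow_zero, Finset.prod_const,
    Finset.card_singleton, pow_one, Finset.univ_eq_empty, Finset.prod_empty, one_mul, mul_zero, add_zero, mul_one] at h2
  have hq : 2 ≤ Fintype.card F := Fintype.one_lt_card
  have h3 : Fintype.card F ^ 2 - Fintype.card F = (Fintype.card F - 1) * Fintype.card F := by
    rw [Nat.sub_mul, one_mul, sq]
  rw [h3] at h2
  have h4 : 0 < (Fintype.card F - 1) * Fintype.card F := by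
    apply Nat.mul_pos <;> omega
  exact Nat.eq_of_mul_eq_mul_right h4 h2

end Cfsg.Agent.S2302
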