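import Cfsg.Statements.S2303
import Cfsg.Agent.Lib.Helper5_IrrCent

set_option autoImplicit false
open Cfsg

namespace Cfsg.Agent.S2303

open Cfsg.Agent.Lib.Helper5_IrrCent Module
open scoped Matrix

theorem irr_of_no_eigen {F : Type*} [Field F] (X : Matrix (Fin 2) (Fin 2) F)
    (h : ∀ (c : F) (v : Fin 2 → F), v ≠ 0 → X.mulVec v ≠ c • v) : Irr X := by
  intro W hW
  have hfr : finrank F (Fin 2 → F) = 2 := by simp
  have h3 : finrank F W ≤ 2 := by
    have := Submodule.finrank_le W
    rwa [hfr] at this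
  by_cases h0 : finrank F W = 0
  · exact Or.inl (Submodule.finrank_eq_zero.1 h0)
  by_cases h1 : finrank F W = 1
  · exfalso
    obtain ⟨v, hv0, hv⟩ := finrank_eq_one_iff'.1 h1
    obtain ⟨c, hc⟩ := hv ⟨X *ᵥ v.1, hW v.1 v.2⟩
    have hc' : c • v.1 = X *ᵥ v.1 := congrArg Subtype.val hc
    exact h c v.1 (fun h0 => hv0 (Subtype.ext h0)) hc'.symm
  · right
    exact Submodule.eq_top_of_finrank_eq (by rw [hfr]; omega)

theorem result {F : Type*} [Field F] [Fintype F] (g : Matrix.GeneralLinearGroup (Fin 2) F) :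
    ((g : Matrix (Fin 2) (Fin 2) F) 0 1 = 0 → (g : Matrix (Fin 2) (Fin 2) F) 1 0 = 0 → (g : Matrix (Fin 2) (Fin 2) F) 0 0 ≠ (g : Matrix (Fin 2) (Fin 2) F) 1 1 →
      Nat.card (Subgroup.centralizer ({g} : Set (Matrix.GeneralLinearGroup (Fin 2) F))) = (Fintype.card F - 1) ^ 2) ∧
    ((∀ (c : F) (v : Fin 2 → F), v ≠ 0 → (g : Matrix (Fin 2) (Fin 2) F).mulVec v ≠ c • v) →
      Nat.card (Subgroup.centralizer ({g} : Set (Matrix.GeneralLinearGroup (Fin 2) F))) = Fintype.card F ^ 2 - 1) := by
  classical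
  constructor
  · intro h01 h10 hne
    have hg : (g : Matrix (Fin 2) (Fin 2) F) = Matrix.diagonal ![(g : Matrix (Fin 2) (Fin 2) F) 0 0, (g : Matrix (Fin 2) (Fin 2) F) 1 1] := by
      ext i j
      fin_cases i <;> fin_cases j <;> simp [h01, h10]
    have h1 : Nat.card (Fˣ × Fˣ) = Nat.card (Subgroup.centralizer ({g} : Set (Matrix.GeneralLinearGroup (Fin 2) F))) := by
      refine Nat.card_congr (Equiv.ofBijective (fun st => ⟨Matrix.GeneralLinearGroup.mkOfDetNeZero
        (Matrix.diagonal ![(st.1 : F), (st.2 : F)]) (by simp [Matrix.det_fin_two]), ?_⟩) ⟨?_, ?_⟩)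
      · rw [Subgroup.mem_centralizer_singleton_iff]
        apply Units.ext
        rw [Units.val_mul, Units.val_mul, hg]
        show Matrix.diagonal _ * Matrix.diagonal _ = Matrix.diagonal _ * Matrix.diagonal _
        rw [Matrix.diagonal_mul_diagonal, Matrix.diagonal_mul_diagonal]
        congr 1
        funext i
        exact mul_comm _ _
      · rintro ⟨s, t⟩ ⟨s', t'⟩ h
        have h2 : Matrix.diagonal ![(s : F), (t : F)] = Matrix.diagonal ![(s' : F), (t' : F)] :=
          congrArg (fun u : Subgroup.centralizer ({g} : Set (Matrix.GeneralLinearGroup (Fin 2) F)) => ((u.1 : GL (Fin 2) F) : Matrix (Fin 2) (Fin 2) F)) h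
        have h3 := congrFun (congrFun h2 0) 0
        have h4 := congrFun (congrFun h2 1) 1
        simp at h3 h4
        rw [Prod.mk.injEq]
        exact ⟨Units.ext h3, Units.ext h4⟩
      · rintro ⟨u, hu⟩
        have hc := commute_of_mem g u hu
        have hc' : (u : Matrix (Fin 2) (Fin 2) F) * (g : Matrix (Fin 2) (Fin 2) F) = (g : Matrix (Fin 2) (Fin 2) F) * (u : Matrix (Fin 2) (Fin 2) F) := hc
        have e01 := congrFun (congrFun hc' 0) 1
        have e10 := congrFun (congrFun hc' 1) 0
        simp only [Matrix.mul_apply, Fin.sum_univ_two, h01, h10, mul_zero, zero_mul, add_zero, zero_add] at e01 e10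
        have u01 : (u : Matrix (Fin 2) (Fin 2) F) 0 1 = 0 := by
          have : (u : Matrix (Fin 2) (Fin 2) F) 0 1 * ((g : Matrix (Fin 2) (Fin 2) F) 0 0 - (g : Matrix (Fin 2) (Fin 2) F) 1 1) = 0 := by
            linear_combination -e01
          rcases mul_eq_zero.1 this with h | h
          · exact h
          · exact absurd (sub_eq_zero.1 h) hne
        have u10 : (u : Matrix (Fin 2) (Fin 2) F) 1 0 = 0 := by
          have : (u : Matrix (Fin 2) (Fin 2) F) 1 0 * ((g : Matrix (Fin 2) (Fin 2) F) 0 0 - (g : Matrix (Fin 2) (Fin 2) F) 1 1) = 0 := by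
            linear_combination e10
          rcases mul_eq_zero.1 this with h | h
          · exact h
          · exact absurd (sub_eq_zero.1 h) hne
        have hdet := Matrix.GeneralLinearGroup.det_ne_zero u
        rw [Matrix.det_fin_two, u01, u10, mul_zero, sub_zero] at hdet
        have h00 : (u : Matrix (Fin 2) (Fin 2) F) 0 0 ≠ 0 := left_ne_zero_of_mul hdet
        have h11 : (u : Matrix (Fin 2) (Fin 2) F) 1 1 ≠ 0 := right_ne_zero_of_mul hdet
        refine ⟨(Units.mk0 _ h00, Units.mk0 _ h11), ?_⟩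
        apply Subtype.ext
        apply Units.ext
        show Matrix.diagonal _ = (u : Matrix (Fin 2) (Fin 2) F)
        ext i j
        fin_cases i <;> fin_cases j <;> simp [u01, u10]
    rw [← h1, Nat.card_prod, Nat.card_eq_fintype_card, Fintype.card_units, sq]
  · intro h
    exact card_centralizer (by norm_num) g (irr_of_no_eigen _ h)

end Cfsg.Agent.S2303
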