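import Cfsg.Statements.S2305
import Cfsg.Agent.Lib.Helper5_GL2Char

set_option autoImplicit false

open Cfsg

namespace Cfsg.Agent.S2305

open Cfsg.Agent.Lib.Helper5_GL2Char Cfsg.Agent.Lib.CharOrtho
open scoped ComplexConjugate

theorem eq_zero_of_classInner_self {G : Type*} [Group G] [Fintype G] (f : G → ℂ) (h : classInner f f = 0) : f = 0 := by
  unfold classInner at h
  have hG : (Nat.card G : ℂ)⁻¹ ≠ 0 := inv_ne_zero (by exact_mod_cast Nat.card_pos.ne')
  have h1 : ∑ g : G, f g * conj (f g) = 0 := (mul_eq_zero.1 h).resolve_left hG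
  have h2 : ∀ g : G, f g * conj (f g) = ((Complex.normSq (f g) : ℝ) : ℂ) := fun g => Complex.mul_conj (f g)
  rw [Finset.sum_congr rfl fun g _ => h2 g, ← Complex.ofReal_sum] at h1
  have h3 : ∑ g : G, Complex.normSq (f g) = 0 := by exact_mod_cast h1
  funext g
  have h4 := (Finset.sum_eq_zero_iff_of_nonneg (fun g _ => Complex.normSq_nonneg (f g))).1 h3 g (Finset.mem_univ g)
  exact Complex.normSq_eq_zero.1 h4

theorem ps_swap {F : Type*} [Field F] [Fintype F] [DecidableEq F] (α β : MulChar F ℂ) : ps α β = ps β α := by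
  classical
  have : ps α β - ps β α = 0 := by
    apply eq_zero_of_classInner_self
    rw [classInner_sub_left, classInner_sub_right, classInner_sub_right, inner_ps, inner_ps, inner_ps, inner_ps]
    by_cases h : α = β
    · simp [h]
    · have h' : β ≠ α := fun h' => h h'.symm
      simp [h, h']
  exact sub_eq_zero.1 this

theorem result {F : Type*} [Field F] [Fintype F] [DecidableEq F] (α β α' β' : MulChar F ℂ) :
    Cfsg.indFun (Cfsg.upperTriangularGL 2 F) (fun b => α (((b : Matrix.GeneralLinearGroup (Fin 2) F) : Matrix (Fin 2) (Fin 2) F) 0 0) * β (((b : Matrix.GeneralLinearGroup (Fin 2) F) : Matrix (Fin 2) (Fin 2) F) 1 1)) = Cfsg.indFun (Cfsg.upperTriangularGL 2 F) (fun b => α' (((b : Matrix.GeneralLinearGroup (Fin 2) F) : Matrix (Fin 2) (Fin 2) F) 0 0) * β' (((b : Matrix.GeneralLinearGroup (Fin 2) F) : Matrix (Fin 2) (Fin 2) F) 1 1)) ↔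
      (α = α' ∧ β = β') ∨ (α = β' ∧ β = α') := by
  classical
  show ps α β = ps α' β' ↔ _
  constructor
  · intro h
    have h1 := inner_ps α β α' β'
    rw [← h, inner_ps] at h1
    by_contra hcon
    push Not at hcon
    have h2 : ¬ (α = α' ∧ β = β') := fun h => hcon.1 h.1 h.2
    have h3 : ¬ (α = β' ∧ β = α') := fun h => hcon.2 h.1 h.2
    rw [if_neg h2, if_neg h3] at h1
    simp only [and_self, if_true, add_zero] at h1
    split_ifs at h1 <;> norm_num at h1
  · rintro (⟨rfl, rfl⟩ | ⟨rfl, rfl⟩)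
    · rfl
    · exact ps_swap _ _

end Cfsg.Agent.S2305
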