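import Cfsg.Statements.S2306
import Cfsg.Agent.Lib.Helper5_SL2Res

set_option autoImplicit false

open Cfsg

namespace Cfsg.Agent.S2306

open Cfsg.Agent.Lib.Helper5_SL2Res Cfsg.Agent.Lib.Helper5_GL2Char Cfsg.Agent.Lib.CharBasic Cfsg.Agent.Lib.CharOrtho
  Cfsg.Agent.Lib.CharComplete Cfsg.Agent.Lib.CharMore

theorem result {F : Type*} [Field F] [Fintype F] [DecidableEq F] (α : MulChar F ℂ) :
    Cfsg.IsIrrCharacter (Matrix.SpecialLinearGroup (Fin 2) F) (Cfsg.indFun ((Cfsg.upperTriangularGL 2 F).comap Matrix.SpecialLinearGroup.toGL) (fun b => α (((b : Matrix.SpecialLinearGroup (Fin 2) F) : Matrix (Fin 2) (Fin 2) F) 0 0))) ↔ α ^ 2 ≠ 1 := by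
  classical
  change IsIrrCharacter _ (II α) ↔ _
  have h1 := inner_II α α
  have h2 : α = α⁻¹ ↔ α ^ 2 = 1 := by
    rw [sq, mul_eq_one_iff_eq_inv]
  constructor
  · intro h h3
    rw [classInner_irr_self h, if_pos rfl, if_pos (h2.2 h3)] at h1
    norm_num at h1
  · intro h
    apply isIrr_of_norm_one
    · rw [II_eq_res]
      exact isCharacter_comp Matrix.SpecialLinearGroup.toGL (ps_isCharacter α 1)
    · rw [h1, if_pos rfl, if_neg (fun h3 => h (h2.1 h3)), add_zero]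

end Cfsg.Agent.S2306
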