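import Cfsg.Statements.S2307
import Cfsg.Agent.Lib.Helper5_SL2Odd2

set_option autoImplicit false
open Cfsg

namespace Cfsg.Agent.S2307

open Cfsg.Agent.Lib.Helper5_SL2Odd Cfsg.Agent.Lib.Helper5_SL2Odd2 Cfsg.Agent.Lib.Helper5_SL2Cliff
  Cfsg.Agent.Lib.Helper5_SL2Res Cfsg.Agent.Lib.Helper5_SL2Class

theorem result {F : Type*} [Field F] [Fintype F] [DecidableEq F] (hodd : Odd (Fintype.card F)) (α : MulChar F ℂ)
    (hα : α ^ 2 = 1) (hα1 : α ≠ 1) :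
    ∃ χ₁ χ₂ : Matrix.SpecialLinearGroup (Fin 2) F → ℂ, Cfsg.IsIrrCharacter (Matrix.SpecialLinearGroup (Fin 2) F) χ₁ ∧ Cfsg.IsIrrCharacter (Matrix.SpecialLinearGroup (Fin 2) F) χ₂ ∧ χ₁ ≠ χ₂ ∧
      Cfsg.indFun ((Cfsg.upperTriangularGL 2 F).comap Matrix.SpecialLinearGroup.toGL) (fun b => α (((b : Matrix.SpecialLinearGroup (Fin 2) F) : Matrix (Fin 2) (Fin 2) F) 0 0)) = χ₁ + χ₂ ∧
      χ₁ 1 = (((Fintype.card F + 1) / 2 : ℕ) : ℂ) ∧ χ₂ 1 = (((Fintype.card F + 1) / 2 : ℕ) : ℂ) ∧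
      ∃ x : Matrix.GeneralLinearGroup (Fin 2) F, ∀ g h : Matrix.SpecialLinearGroup (Fin 2) F,
        Matrix.SpecialLinearGroup.toGL h = x * Matrix.SpecialLinearGroup.toGL g * x⁻¹ → χ₂ h = χ₁ g := by
  have hαe := eq_eta hodd α hα1 hα
  subst hαe
  obtain ⟨ψ, x, hψ, hne, hsum⟩ := II_eta_split (F := F) hodd
  have hdeg : ψ 1 = (((Fintype.card F + 1) / 2 : ℕ) : ℂ) := by
    have h1 := two_mul_half ψ _ x hsum
    rw [II_one] at h1
    obtain ⟨k, hk⟩ := hodd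
    have h2 : (Fintype.card F + 1) / 2 = k + 1 := by omega
    rw [h2]
    rw [hk] at h1
    push_cast at h1 ⊢
    linear_combination h1 / 2
  refine ⟨ψ, ψ ∘ cj x, hψ, cj_isIrr ψ hψ x, hne.symm, hsum, hdeg, ?_, x⁻¹, ?_⟩
  · rw [Function.comp, map_one, hdeg]
  · intro g h hgh
    rw [Function.comp]
    congr 1
    apply toGL_injective
    rw [toGL_cj, hgh]
    group

end Cfsg.Agent.S2307
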