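import Cfsg.Statements.S2308
import Cfsg.Agent.Lib.Helper5_GL2Val
import Cfsg.Agent.Lib.CharPermChar

set_option autoImplicit false

open Cfsg

namespace Cfsg.Agent.S2308

open Cfsg.Agent.Lib.Helper5_GL2Char Cfsg.Agent.Lib.Helper5_GL2Class Cfsg.Agent.Lib.Helper5_GL2Val
  Cfsg.Agent.Lib.CharBasic Cfsg.Agent.Lib.CharPermChar Cfsg.Agent.Lib.CharInd

theorem fpc_eq {F : Type*} [Field F] [Fintype F] [DecidableEq F] :
    Cfsg.fixedPointCharacter (Cfsg.upperTriangularGL 2 F) = ps (1 : MulChar F ℂ) 1 := by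
  have h1 := permChar_eq_indFun (G := Matrix.GeneralLinearGroup (Fin 2) F)
    (Matrix.GeneralLinearGroup (Fin 2) F ⧸ Cfsg.upperTriangularGL 2 F)
    ((1 : Matrix.GeneralLinearGroup (Fin 2) F) : Matrix.GeneralLinearGroup (Fin 2) F ⧸ Cfsg.upperTriangularGL 2 F)
  have h2 : MulAction.stabilizer (Matrix.GeneralLinearGroup (Fin 2) F)
      ((1 : Matrix.GeneralLinearGroup (Fin 2) F) : Matrix.GeneralLinearGroup (Fin 2) F ⧸ Cfsg.upperTriangularGL 2 F)
      = Cfsg.upperTriangularGL 2 F := MulAction.stabilizer_quotient _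
  have h3 : Cfsg.fixedPointCharacter (Cfsg.upperTriangularGL 2 F) =
      permChar (G := Matrix.GeneralLinearGroup (Fin 2) F)
        (Matrix.GeneralLinearGroup (Fin 2) F ⧸ Cfsg.upperTriangularGL 2 F) := rfl
  rw [h3, h1, h2]
  unfold ps
  congr 1
  funext b
  unfold lam
  rw [MulChar.one_apply (BB_diag_ne b).1.isUnit, MulChar.one_apply (BB_diag_ne b).2.isUnit, mul_one]

theorem result {F : Type*} [Field F] [Fintype F] (g : Matrix.GeneralLinearGroup (Fin 2) F) :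
    ((∃ a : F, (g : Matrix (Fin 2) (Fin 2) F) = a • (1 : Matrix (Fin 2) (Fin 2) F)) → Cfsg.fixedPointCharacter (Cfsg.upperTriangularGL 2 F) g = Fintype.card F + 1) ∧
    ((g : Matrix (Fin 2) (Fin 2) F) 0 1 = 0 → (g : Matrix (Fin 2) (Fin 2) F) 1 0 = 0 → (g : Matrix (Fin 2) (Fin 2) F) 0 0 ≠ (g : Matrix (Fin 2) (Fin 2) F) 1 1 →
      Cfsg.fixedPointCharacter (Cfsg.upperTriangularGL 2 F) g = 2) ∧
    ((∀ (c : F) (v : Fin 2 → F), v ≠ 0 → (g : Matrix (Fin 2) (Fin 2) F).mulVec v ≠ c • v) → Cfsg.fixedPointCharacter (Cfsg.upperTriangularGL 2 F) g = 0) ∧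
    ((g : Matrix (Fin 2) (Fin 2) F) 1 0 = 0 → (g : Matrix (Fin 2) (Fin 2) F) 0 0 = (g : Matrix (Fin 2) (Fin 2) F) 1 1 → (g : Matrix (Fin 2) (Fin 2) F) 0 1 ≠ 0 →
      Cfsg.fixedPointCharacter (Cfsg.upperTriangularGL 2 F) g = 1) := by
  classical
  rw [fpc_eq]
  have hd := det_ne_zero g
  refine ⟨?_, fun h01 h10 hne => ?_, fun hg => ps_elliptic _ _ g hg, fun h10 heq h01 => ?_⟩
  · rintro ⟨a, ha⟩
    rw [ha] at hd
    have ha0 : a ≠ 0 := by
      intro h
      simp [h] at hd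
    rw [ps_apply, ha]
    simp [MulChar.one_apply ha0.isUnit]
    ring
  · rw [ps_diag _ _ g h01 h10 hne]
    rw [h01, h10] at hd
    have ha : (g : Matrix (Fin 2) (Fin 2) F) 0 0 ≠ 0 := by
      intro h; rw [h] at hd; simp at hd
    have hd' : (g : Matrix (Fin 2) (Fin 2) F) 1 1 ≠ 0 := by
      intro h; rw [h] at hd; simp at hd
    rw [MulChar.one_apply ha.isUnit, MulChar.one_apply hd'.isUnit]
    norm_num
  · rw [ps_apply, h10, heq]
    rw [h10, heq] at hd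
    have hd' : (g : Matrix (Fin 2) (Fin 2) F) 1 1 ≠ 0 := by
      intro h; rw [h] at hd; simp at hd
    simp [MulChar.one_apply hd'.isUnit, h01]

end Cfsg.Agent.S2308
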