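import Cfsg.Statements.S2309
import Cfsg.Agent.Lib.Helper5_GL2Val

set_option autoImplicit false

open Cfsg

namespace Cfsg.Agent.S2309

open Cfsg.Agent.Lib.Helper5_GL2Char Cfsg.Agent.Lib.Helper5_GL2Class Cfsg.Agent.Lib.Helper5_GL2Val
  Cfsg.Agent.Lib.CharBasic

theorem result {F : Type*} [Field F] [Fintype F] (χ : Matrix.GeneralLinearGroup (Fin 2) F → ℂ) (hχ : Cfsg.IsIrrCharacter (Matrix.GeneralLinearGroup (Fin 2) F) χ) (g : Matrix.GeneralLinearGroup (Fin 2) F) :
    (χ 1 = (Fintype.card F : ℂ) - 1 → (g : Matrix (Fin 2) (Fin 2) F) 0 1 = 0 → (g : Matrix (Fin 2) (Fin 2) F) 1 0 = 0 → (g : Matrix (Fin 2) (Fin 2) F) 0 0 ≠ (g : Matrix (Fin 2) (Fin 2) F) 1 1 → χ g = 0) ∧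
    (χ 1 = (Fintype.card F : ℂ) + 1 → (∀ (c : F) (v : Fin 2 → F), v ≠ 0 → (g : Matrix (Fin 2) (Fin 2) F).mulVec v ≠ c • v) → χ g = 0) := by
  classical
  have hq : 2 ≤ Fintype.card F := Fintype.one_lt_card
  have hq' : (2 : ℝ) ≤ (Fintype.card F : ℝ) := by exact_mod_cast hq
  have key : ∀ x y : ℝ, ((Fintype.card F : ℂ) + (x : ℂ) = (y : ℂ)) → (Fintype.card F : ℝ) + x = y := by
    intro x y h
    exact_mod_cast h
  rcases classify χ hχ with ⟨α, rfl⟩ | ⟨α, rfl⟩ | ⟨α, β, -, rfl⟩ | ⟨h1, h2, h3⟩
  · rw [detChar_one]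
    refine ⟨fun h h01 h10 hne => ?_, fun h => ?_⟩
    · exfalso
      have h2 := key (-1) 1 (by push_cast; first | linear_combination h | linear_combination -h)
      have h3 : Fintype.card F = 2 := by
        have : (Fintype.card F : ℝ) = 2 := by linarith
        exact_mod_cast this
      have hd := det_ne_zero g
      rw [h01, h10] at hd
      have ha : (g : Matrix (Fin 2) (Fin 2) F) 0 0 ≠ 0 := by
        intro h; rw [h] at hd; simp at hd
      have hd' : (g : Matrix (Fin 2) (Fin 2) F) 1 1 ≠ 0 := by
        intro h; rw [h] at hd; simp at hd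
      have h4 : Fintype.card Fˣ = 1 := by rw [Fintype.card_units, h3]
      have h5 : Subsingleton Fˣ := Fintype.card_le_one_iff_subsingleton.1 h4.le
      exact hne (congrArg Units.val (Subsingleton.elim (Units.mk0 _ ha) (Units.mk0 _ hd')))
    · have := key 1 1 (by push_cast; first | linear_combination h | linear_combination -h)
      linarith
  · rw [st_one]
    refine ⟨fun h => ?_, fun h => ?_⟩
    · have := key 0 (Fintype.card F - 1) (by push_cast; first | linear_combination h | linear_combination -h)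
      linarith
    · have := key 0 (Fintype.card F + 1) (by push_cast; first | linear_combination h | linear_combination -h)
      linarith
  · rw [ps_one]
    refine ⟨fun h => ?_, fun _ hg => ps_elliptic α β g hg⟩
    · have := key 1 (Fintype.card F - 1) (by push_cast; first | linear_combination h | linear_combination -h)
      linarith
  · rw [h1]
    refine ⟨fun _ h01 h10 hne => cusp_diag χ (isClassFunction_of_isCharacter (isCharacter_of_isIrr hχ)) h3 g h01 h10 hne, fun h => ?_⟩
    · have := key (-1) (Fintype.card F + 1) (by push_cast; first | linear_combination h | linear_combination -h)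
      linarith

end Cfsg.Agent.S2309
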