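import Cfsg.Statements.S2310
import Cfsg.Agent.Lib.Helper5_GL2Val

set_option autoImplicit false

open Cfsg

namespace Cfsg.Agent.S2310

open Cfsg.Agent.Lib.Helper5_GL2Char Cfsg.Agent.Lib.Helper5_GL2Class Cfsg.Agent.Lib.Helper5_GL2Val

theorem result {F : Type*} [Field F] [Fintype F] (hq : 3 ≤ Fintype.card F) (χ : Matrix.GeneralLinearGroup (Fin 2) F → ℂ) (hχ : Cfsg.IsIrrCharacter (Matrix.GeneralLinearGroup (Fin 2) F) χ)
    (u : Matrix.GeneralLinearGroup (Fin 2) F) (hu : (u : Matrix (Fin 2) (Fin 2) F) = !![1, 1; 0, 1]) :
    (χ 1 = 1 → χ u = 1) ∧ (χ 1 = (Fintype.card F : ℂ) + 1 → χ u = 1) ∧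
    (χ 1 = (Fintype.card F : ℂ) - 1 → χ u = -1) ∧ (χ 1 = (Fintype.card F : ℂ) → χ u = 0) := by
  classical
  have hu' : u = uu 1 := Units.ext (by rw [hu, uu_val])
  have hq' : (3 : ℝ) ≤ (Fintype.card F : ℝ) := by exact_mod_cast hq
  have key : ∀ x y : ℝ, ((Fintype.card F : ℂ) + (x : ℂ) = (y : ℂ)) → (Fintype.card F : ℝ) + x = y := by
    intro x y h
    exact_mod_cast h
  subst hu'
  rcases classify χ hχ with ⟨α, rfl⟩ | ⟨α, rfl⟩ | ⟨α, β, -, rfl⟩ | ⟨h1, h2, -⟩
  · rw [detChar_one, detChar_uu]
    refine ⟨fun _ => rfl, fun _ => rfl, fun h => ?_, fun h => ?_⟩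
    · have := key (-1) 1 (by push_cast; first | linear_combination h | linear_combination -h)
      linarith
    · have := key 0 1 (by push_cast; first | linear_combination h | linear_combination -h)
      linarith
  · rw [st_one, st_uu]
    refine ⟨fun h => ?_, fun h => ?_, fun h => ?_, fun _ => rfl⟩
    · have := key 0 1 (by push_cast; first | linear_combination h | linear_combination -h)
      linarith
    · have := key 0 (Fintype.card F + 1) (by push_cast; first | linear_combination h | linear_combination -h)
      linarith
    · have := key 0 (Fintype.card F - 1) (by push_cast; first | linear_combination h | linear_combination -h)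
      linarith
  · rw [ps_one, ps_uu]
    refine ⟨fun _ => rfl, fun _ => rfl, fun h => ?_, fun h => ?_⟩
    · have := key 1 (Fintype.card F - 1) (by push_cast; first | linear_combination h | linear_combination -h)
      linarith
    · have := key 1 (Fintype.card F) (by push_cast; first | linear_combination h | linear_combination -h)
      linarith
  · rw [h1, h2]
    refine ⟨fun h => ?_, fun h => ?_, fun _ => rfl, fun h => ?_⟩
    · have := key (-1) 1 (by push_cast; first | linear_combination h | linear_combination -h)
      linarith
    · have := key (-1) (Fintype.card F + 1) (by push_cast; first | linear_combination h | linear_combination -h)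
      linarith
    · have := key (-1) (Fintype.card F) (by push_cast; first | linear_combination h | linear_combination -h)
      linarith

end Cfsg.Agent.S2310
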