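import Cfsg.Statements.S2320
import Cfsg.Agent.Lib.Helper5_GL2Val

set_option autoImplicit false

open Cfsg

namespace Cfsg.Agent.S2320

open Cfsg.Agent.Lib.Helper5_GL2Char Cfsg.Agent.Lib.Helper5_GL2Class Cfsg.Agent.Lib.Helper5_GL2Val
  Cfsg.Agent.Lib.CharBasic

theorem result {F : Type*} [Field F] [Fintype F] (χ : Matrix.GeneralLinearGroup (Fin 2) F → ℂ) (hχ : Cfsg.IsIrrCharacter (Matrix.GeneralLinearGroup (Fin 2) F) χ) (hdeg : χ 1 = (Fintype.card F : ℂ)) (g : Matrix.GeneralLinearGroup (Fin 2) F) :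
    ((g : Matrix (Fin 2) (Fin 2) F) 0 1 = 0 → (g : Matrix (Fin 2) (Fin 2) F) 1 0 = 0 → (g : Matrix (Fin 2) (Fin 2) F) 0 0 ≠ (g : Matrix (Fin 2) (Fin 2) F) 1 1 → ‖χ g‖ = 1) ∧
    ((∀ (c : F) (v : Fin 2 → F), v ≠ 0 → (g : Matrix (Fin 2) (Fin 2) F).mulVec v ≠ c • v) → ‖χ g‖ = 1) := by
  classical
  have hq : 2 ≤ Fintype.card F := Fintype.one_lt_card
  have hq' : (2 : ℝ) ≤ (Fintype.card F : ℝ) := by exact_mod_cast hq
  have key : ∀ x y : ℝ, ((Fintype.card F : ℂ) + (x : ℂ) = (y : ℂ)) → (Fintype.card F : ℝ) + x = y := by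
    intro x y h
    exact_mod_cast h
  rcases classify χ hχ with ⟨α, rfl⟩ | ⟨α, rfl⟩ | ⟨α, β, -, rfl⟩ | ⟨h1, h2, h3⟩
  · rw [detChar_one] at hdeg
    have := key 0 1 (by push_cast; first | linear_combination hdeg | linear_combination -hdeg)
    linarith
  · refine ⟨fun h01 h10 hne => ?_, fun hg => ?_⟩
    · rw [st_diag α g h01 h10 hne, norm_detChar]
    · rw [st_elliptic α g hg, norm_neg, norm_detChar]
  · rw [ps_one] at hdeg
    have := key 1 (Fintype.card F) (by push_cast; first | linear_combination hdeg | linear_combination -hdeg)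
    linarith
  · rw [h1] at hdeg
    have := key (-1) (Fintype.card F) (by push_cast; first | linear_combination hdeg | linear_combination -hdeg)
    linarith

end Cfsg.Agent.S2320
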