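import Cfsg.Statements.S2321
import Cfsg.Agent.Lib.Helper5_SL2Class

set_option autoImplicit false

open Cfsg

namespace Cfsg.Agent.S2321

open Cfsg.Agent.Lib.Helper5_SL2Class Cfsg.Agent.Lib.Helper5_SL2Res Cfsg.Agent.Lib.CharBasic
  Cfsg.Agent.Lib.Helper5_GL2Val Cfsg.Agent.Lib.Helper5_GL2Class Cfsg.Agent.Lib.Helper5_GL2Char

theorem result {F : Type*} [Field F] [Fintype F] (χ : Matrix.SpecialLinearGroup (Fin 2) F → ℂ) (hχ : Cfsg.IsIrrCharacter (Matrix.SpecialLinearGroup (Fin 2) F) χ) (hdeg : χ 1 = (Fintype.card F : ℂ)) (g : Matrix.SpecialLinearGroup (Fin 2) F) :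
    ((g : Matrix (Fin 2) (Fin 2) F) 0 1 = 0 → (g : Matrix (Fin 2) (Fin 2) F) 1 0 = 0 → (g : Matrix (Fin 2) (Fin 2) F) 0 0 ^ 2 ≠ 1 → χ g = 1) ∧
    ((∀ (c : F) (v : Fin 2 → F), v ≠ 0 → (g : Matrix (Fin 2) (Fin 2) F).mulVec v ≠ c • v) → χ g = -1) ∧
    ((g : Matrix (Fin 2) (Fin 2) F) 1 0 = 0 → (g : Matrix (Fin 2) (Fin 2) F) 0 0 = (g : Matrix (Fin 2) (Fin 2) F) 1 1 → (g : Matrix (Fin 2) (Fin 2) F) 0 1 ≠ 0 → χ g = 0) := by
  classical
  have hq : 2 ≤ Fintype.card F := Fintype.one_lt_card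
  obtain ⟨d2, hd, hcase⟩ := classifySL' χ hχ
  rw [hdeg] at hd
  have hd' : d2 = 2 * Fintype.card F := by
    have : ((2 * Fintype.card F : ℕ) : ℂ) = (d2 : ℂ) := by rw [← hd]; push_cast; ring
    exact_mod_cast this.symm
  have hst : χ = StS := by
    rcases hcase with ⟨h1, -⟩ | ⟨h1, h2⟩ | ⟨h1, -⟩ | ⟨h1, -⟩ | ⟨h1, -⟩ | ⟨h1, -⟩
    · omega
    · exact h2
    · omega
    · omega
    · omega
    · omega
  subst hst
  have hdet := g.2
  rw [Matrix.det_fin_two] at hdet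
  have hdc : detChar (1 : MulChar F ℂ) (Matrix.SpecialLinearGroup.toGL g) = 1 := by
    unfold detChar
    rw [toGL_val, g.2, map_one]
  unfold StS res
  refine ⟨fun h01 h10 hne => ?_, fun hg => ?_, fun h10 heq h01 => ?_⟩
  · rw [st_diag _ _ h01 h10 (by
      intro h
      apply hne
      rw [toGL_val] at h
      rw [h01, zero_mul, sub_zero] at hdet
      rw [sq]
      nth_rewrite 2 [h]
      exact hdet), hdc]
  · rw [st_elliptic _ _ hg, hdc]
  · unfold st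
    rw [Pi.sub_apply, hdc, ps_apply, toGL_val, h10, ← heq]
    rw [h10, mul_zero, sub_zero] at hdet
    have ha : (g : Matrix (Fin 2) (Fin 2) F) 0 0 ≠ 0 := by
      intro h; rw [h] at hdet; simp at hdet
    simp [MulChar.one_apply ha.isUnit, h01]

end Cfsg.Agent.S2321
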