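import Cfsg.Statements.S2322
import Cfsg.Agent.Lib.Helper5_SL2Delta

set_option autoImplicit false
open Cfsg

namespace Cfsg.Agent.S2322

open Cfsg.Agent.Lib.Helper5_SL2Odd Cfsg.Agent.Lib.Helper5_SL2Odd2 Cfsg.Agent.Lib.Helper5_SL2Class Cfsg.Agent.Lib.Helper5_SL2Res
  Cfsg.Agent.Lib.Helper5_SL2Cliff Cfsg.Agent.Lib.CharBasic Cfsg.Agent.Lib.Helper5_SL2Delta
  Cfsg.Agent.Lib.Helper5_GL2Val Cfsg.Agent.Lib.Helper5_GL2Class Cfsg.Agent.Lib.Helper5_GL2Char
  Cfsg.Agent.Lib.CharComplete Cfsg.Agent.Lib.CharMore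

variable {F : Type*} [Field F] [Fintype F] [DecidableEq F]

local notation "SL2" => Matrix.SpecialLinearGroup (Fin 2) F

theorem disc_of_elliptic (g : SL2)
    (hg : ∀ (c : F) (v : Fin 2 → F), v ≠ 0 → (g : Matrix (Fin 2) (Fin 2) F).mulVec v ≠ c • v) :
    (g : Matrix (Fin 2) (Fin 2) F).trace ^ 2 ≠ 4 := by
  intro hdisc
  have hdet := g.2
  rw [Matrix.det_fin_two] at hdet
  rw [Matrix.trace_fin_two] at hdisc
  have h2 : ((g : Matrix (Fin 2) (Fin 2) F) 0 0 + (g : Matrix (Fin 2) (Fin 2) F) 1 1 - 2) *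
      ((g : Matrix (Fin 2) (Fin 2) F) 0 0 + (g : Matrix (Fin 2) (Fin 2) F) 1 1 + 2) = 0 := by
    linear_combination hdisc
  obtain ⟨s, hs, hs2⟩ : ∃ s : F, s ^ 2 = 1 ∧
      (g : Matrix (Fin 2) (Fin 2) F) 0 0 + (g : Matrix (Fin 2) (Fin 2) F) 1 1 = 2 * s := by
    rcases mul_eq_zero.1 h2 with h | h
    · exact ⟨1, by norm_num, by linear_combination h⟩
    · exact ⟨-1, by norm_num, by linear_combination h⟩
  by_cases hv : (g : Matrix (Fin 2) (Fin 2) F) 1 0 = 0 ∧ (g : Matrix (Fin 2) (Fin 2) F) 0 0 = s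
  · apply hg s ![1, 0] (by simp)
    ext i
    fin_cases i <;> simp [Matrix.mulVec, dotProduct, Fin.sum_univ_two, hv.1, hv.2]
  · apply hg s ![(g : Matrix (Fin 2) (Fin 2) F) 0 0 - s, (g : Matrix (Fin 2) (Fin 2) F) 1 0]
    · intro h0
      apply hv
      have e0 := congrFun h0 0
      have e1 := congrFun h0 1
      simp at e0 e1
      exact ⟨e1, by linear_combination e0⟩
    · ext i
      fin_cases i
      · simp [Matrix.mulVec, dotProduct, Fin.sum_univ_two]
        linear_combination (g : Matrix (Fin 2) (Fin 2) F) 0 0 * hs2 - hdet + hs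
      · simp [Matrix.mulVec, dotProduct, Fin.sum_univ_two]
        linear_combination (g : Matrix (Fin 2) (Fin 2) F) 1 0 * hs2

theorem elliptic_not_scalar (g : SL2)
    (hg : ∀ (c : F) (v : Fin 2 → F), v ≠ 0 → (g : Matrix (Fin 2) (Fin 2) F).mulVec v ≠ c • v) :
    ¬ ∃ c : F, (g : Matrix (Fin 2) (Fin 2) F) = c • (1 : Matrix (Fin 2) (Fin 2) F) := by
  rintro ⟨c, hc⟩
  apply hg c ![1, 0] (by simp)
  rw [hc]
  simp

theorem zS_ne_one (hodd : Odd (Fintype.card F)) : (zS : SL2) ≠ 1 := by
  intro h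
  have := congrArg (fun g : SL2 => (g : Matrix (Fin 2) (Fin 2) F) 0 0) h
  simp only [Matrix.SpecialLinearGroup.coe_one, Matrix.one_apply_eq] at this
  have h2 : (-1 : F) = 1 := this
  exact two_ne hodd (by linear_combination -h2)

theorem zS_sq : (zS : SL2) * zS = 1 := by
  apply Subtype.ext
  rw [zS_mul_val]
  show - !![(-1 : F), 0; 0, -1] = 1
  ext i j
  fin_cases i <;> fin_cases j <;> simp

/-- the weight of a character in the count of even characters -/
theorem exists_weight (ψ : SL2 → ℂ) (hψ : IsIrrCharacter SL2 ψ) :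
    ∃ m : ℕ, ψ 1 * (ψ 1 + ψ zS) = (m : ℂ) := by
  obtain ⟨ω, -, h1⟩ := central_mul ψ hψ zS zS_mem_center
  obtain ⟨n, -, hn, -⟩ := irr_degree hψ
  have e1 := h1 1
  have e2 := h1 zS
  rw [mul_one] at e1
  rw [zS_sq, e1] at e2
  have h0 := irr_degree_ne_zero hψ
  have h3 : ω ^ 2 = 1 := by
    apply mul_right_cancel₀ h0
    linear_combination -e2
  rcases sq_eq_one_iff.1 h3 with h | h
  · refine ⟨2 * n ^ 2, ?_⟩
    rw [e1, h, hn]
    push_cast
    ring
  · refine ⟨0, ?_⟩
    rw [e1, h]
    simp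

theorem q3_contra (hq : Fintype.card F = 3) (ψ : SL2 → ℂ) (hψ : IsIrrCharacter SL2 ψ) (h1 : ψ 1 = 2)
    (h2 : ψ zS = 2) : False := by
  classical
  have hodd : Odd (Fintype.card F) := by rw [hq]; decide
  choose m hm using fun χ : IrrCharacter SL2 => exists_weight χ.1 χ.2
  have hsum : ∑ χ : IrrCharacter SL2, (m χ : ℂ) = 24 := by
    simp only [← hm, mul_add]
    rw [Finset.sum_add_distrib]
    have e1 := sum_sq_degree (G := SL2)
    simp only [sq] at e1
    rw [e1, Cfsg.Agent.Lib.Helper5_Card.card_SL2, hq]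
    have e2 := congrFun (regular_expansion (G := SL2)) zS
    rw [regular_char, if_neg (zS_ne_one hodd), Finset.sum_apply] at e2
    simp only [Pi.smul_apply, smul_eq_mul] at e2
    rw [← e2]
    norm_num
  have hsum' : ∑ χ : IrrCharacter SL2, m χ = 24 := by exact_mod_cast hsum
  let a : IrrCharacter SL2 := ⟨1, isIrr_one⟩
  let b : IrrCharacter SL2 := ⟨StS, StS_isIrr⟩
  let c : IrrCharacter SL2 := ⟨ψ, hψ⟩
  have hStz : (StS : SL2 → ℂ) zS = 3 := by
    unfold StS res st
    rw [Pi.sub_apply, ps_apply, toGL_val]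
    unfold detChar
    rw [toGL_val, zS.2, map_one]
    have h1 : (-1 : F) ≠ 0 := by simp
    show _ = _
    simp [zS_val, MulChar.one_apply h1.isUnit, hq]
  have ma : m a = 2 := by
    have := hm a
    simp only [a, Pi.one_apply] at this
    have h3 : ((2 : ℕ) : ℂ) = (m ⟨1, isIrr_one⟩ : ℂ) := by rw [← this]; norm_num
    exact_mod_cast h3.symm
  have mb : m b = 18 := by
    have := hm b
    simp only [b] at this
    rw [StS_one, hStz, hq] at this
    have h3 : ((18 : ℕ) : ℂ) = (m ⟨StS, StS_isIrr⟩ : ℂ) := by rw [← this]; norm_num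
    exact_mod_cast h3.symm
  have mc : m c = 8 := by
    have := hm c
    simp only [c] at this
    rw [h1, h2] at this
    have h3 : ((8 : ℕ) : ℂ) = (m ⟨ψ, hψ⟩ : ℂ) := by rw [← this]; norm_num
    exact_mod_cast h3.symm
  have hab : a ≠ b := by
    intro h
    have := congrArg (fun χ : IrrCharacter SL2 => (χ : SL2 → ℂ) 1) h
    simp only [a, b, Pi.one_apply] at this
    rw [StS_one, hq] at this
    norm_num at this
  have hac : a ≠ c := by
    intro h
    have := congrArg (fun χ : IrrCharacter SL2 => (χ : SL2 → ℂ) 1) h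
    simp only [a, c, Pi.one_apply] at this
    rw [h1] at this
    norm_num at this
  have hbc : b ≠ c := by
    intro h
    have := congrArg (fun χ : IrrCharacter SL2 => (χ : SL2 → ℂ) 1) h
    simp only [b, c] at this
    rw [StS_one, hq, h1] at this
    norm_num at this
  have hle : ∑ χ ∈ ({a, b, c} : Finset (IrrCharacter SL2)), m χ ≤ ∑ χ : IrrCharacter SL2, m χ :=
    Finset.sum_le_sum_of_subset (Finset.subset_univ _)
  rw [Finset.sum_insert (by simp [hab, hac]), Finset.sum_insert (by simp [hbc]), Finset.sum_singleton,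
    ma, mb, mc, hsum'] at hle
  omega

theorem result {F : Type*} [Field F] [Fintype F] (hodd : Odd (Fintype.card F)) (χ : Matrix.SpecialLinearGroup (Fin 2) F → ℂ) (hχ : Cfsg.IsIrrCharacter (Matrix.SpecialLinearGroup (Fin 2) F) χ) (g : Matrix.SpecialLinearGroup (Fin 2) F) :
    ((χ 1 = (Fintype.card F : ℂ) - 1 ∨ χ 1 = (((Fintype.card F - 1) / 2 : ℕ) : ℂ)) →
      (g : Matrix (Fin 2) (Fin 2) F) 0 1 = 0 → (g : Matrix (Fin 2) (Fin 2) F) 1 0 = 0 → (g : Matrix (Fin 2) (Fin 2) F) 0 0 ^ 2 ≠ 1 → χ g = 0) ∧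
    ((χ 1 = (Fintype.card F : ℂ) + 1 ∨ χ 1 = (((Fintype.card F + 1) / 2 : ℕ) : ℂ)) →
      (∀ (c : F) (v : Fin 2 → F), v ≠ 0 → (g : Matrix (Fin 2) (Fin 2) F).mulVec v ≠ c • v) → χ g = 0) := by
  classical
  have hodd' := hodd
  obtain ⟨k, hk⟩ := hodd
  have e1 : (Fintype.card F + 1) / 2 = k + 1 := by omega
  have e2 : (Fintype.card F - 1) / 2 = k := by omega
  have hq2 : 2 ≤ Fintype.card F := Fintype.one_lt_card
  rw [e1, e2]
  have hcl := isClassFunction_of_isCharacter (isCharacter_of_isIrr hχ)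
  obtain ⟨d2, hd, hcase⟩ := classifySL' χ hχ
  have hdet := g.2
  rw [Matrix.det_fin_two] at hdet
  constructor
  · intro hdeg h01 h10 hne
    rw [h01, zero_mul, sub_zero] at hdet
    have ha : (g : Matrix (Fin 2) (Fin 2) F) 0 0 ≠ 0 := by
      intro h; rw [h] at hdet; simp at hdet
    have hk2 : 2 ≤ k := by
      by_contra hlt
      have hk1 : k = 1 := by omega
      apply hne
      have := FiniteField.pow_card_sub_one_eq_one _ ha
      rwa [hk, hk1] at this
    have hne' : (g : Matrix (Fin 2) (Fin 2) F) 0 0 ≠ (g : Matrix (Fin 2) (Fin 2) F) 1 1 := by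
      intro h
      apply hne
      rw [sq]
      nth_rewrite 2 [h]
      exact hdet
    have hd' : d2 + 2 = 2 * Fintype.card F ∨ d2 + 1 = Fintype.card F := by
      rcases hdeg with h | h
      · left
        have : ((d2 + 2 : ℕ) : ℂ) = ((2 * Fintype.card F : ℕ) : ℂ) := by push_cast; rw [← hd, h]; ring
        exact_mod_cast this
      · right
        have : ((d2 + 1 : ℕ) : ℂ) = ((Fintype.card F : ℕ) : ℂ) := by rw [hk]; push_cast; rw [← hd, h]
        exact_mod_cast this
    rcases hcase with ⟨h1, -⟩ | ⟨h1, -⟩ | ⟨h1, -⟩ | ⟨h1, -⟩ | ⟨h1, χ', hc, h2⟩ | ⟨h1, χ', x, hc, hx, h2, -⟩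
    · omega
    · omega
    · omega
    · omega
    · rw [h2]
      exact cusp_diag χ' (isClassFunction_of_isCharacter (isCharacter_of_isIrr hc.1)) hc.2.2.2 _ h01 h10 hne'
    · have h3 := congrFun h2 g
      have h4 : res χ' g = 0 :=
        cusp_diag χ' (isClassFunction_of_isCharacter (isCharacter_of_isIrr hc.1)) hc.2.2.2 _ h01 h10 hne'
      have hx0 : (x : Matrix (Fin 2) (Fin 2) F).det ≠ 0 := Matrix.GeneralLinearGroup.det_ne_zero x
      rw [h4, comp_cj_eq_dg χ hcl x hx (Units.mk0 _ hx0) (det_nonsq_of_ne χ hcl x hx), Pi.add_apply,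
        Function.comp] at h3
      have h5 : cj (dgHom (Units.mk0 _ hx0)) g = g := by
        apply toGL_injective
        rw [toGL_cj, mul_inv_eq_iff_eq_mul]
        apply Units.ext
        rw [Units.val_mul, Units.val_mul, dgHom_val, toGL_val]
        conv_lhs => rw [eta (g : Matrix (Fin 2) (Fin 2) F), h01, h10]
        conv_rhs => rw [eta (g : Matrix (Fin 2) (Fin 2) F), h01, h10]
        ext i j
        fin_cases i <;> fin_cases j <;> simp [Matrix.mul_apply, Fin.sum_univ_two, mul_comm]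
      rw [h5] at h3
      linear_combination (-1 / 2) * h3
  · intro hdeg hg
    have hdisc := disc_of_elliptic g hg
    have hd' : d2 = 2 * Fintype.card F + 2 ∨ d2 = Fintype.card F + 1 := by
      rcases hdeg with h | h
      · left
        have : ((2 * Fintype.card F + 2 : ℕ) : ℂ) = (d2 : ℂ) := by rw [← hd, h]; push_cast; ring
        exact_mod_cast this.symm
      · right
        have : ((Fintype.card F + 1 : ℕ) : ℂ) = (d2 : ℂ) := by rw [← hd, h, hk]; push_cast; ring
        exact_mod_cast this.symm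
    rcases hcase with ⟨h1, -⟩ | ⟨h1, -⟩ | ⟨h1, μ, -, h2⟩ | ⟨h1, μ, x, -, -, hx, h2⟩ | ⟨h1, χ', hc, h2⟩ | ⟨h1, -⟩
    · omega
    · omega
    · rw [h2, II_eq_res]
      exact ps_elliptic _ _ _ hg
    · have h3 := congrFun h2 g
      have h4 : II μ g = 0 := by
        rw [II_eq_res]
        exact ps_elliptic _ _ _ hg
      rw [h4, Pi.add_apply, Function.comp, ← class_isConj χ hcl (cj_conj_of_disc hodd' g hdisc x)] at h3
      linear_combination (-1 / 2) * h3
    · -- only for q = 3
      have hq3 : Fintype.card F = 3 := by omega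
      have hdeg2 : χ 1 = 2 := by
        have : d2 = 4 := by omega
        rw [this] at hd
        push_cast at hd
        linear_combination hd / 2
      have h3F : (3 : F) = 0 := by
        have := Nat.cast_card_eq_zero F
        rw [hq3] at this
        exact_mod_cast this
      have htr : (g : Matrix (Fin 2) (Fin 2) F).trace = 0 := by
        have h5 := FiniteField.pow_card (g : Matrix (Fin 2) (Fin 2) F).trace
        rw [hq3] at h5
        by_contra h0
        apply hdisc
        have h6 : (g : Matrix (Fin 2) (Fin 2) F).trace ^ 2 = 1 := by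
          apply mul_left_cancel₀ h0
          linear_combination h5
        rw [h6]
        linear_combination -h3F
      obtain ⟨w, hw⟩ := exists_cj_of_trace (zS * g) g (neg_not_scalar g (elliptic_not_scalar g hg))
        (elliptic_not_scalar g hg) (by rw [zS_mul_val, Matrix.trace_neg, htr, neg_zero])
      have h7 : χ (zS * g) = χ g := by
        rw [hw, ← class_isConj χ hcl (cj_conj_of_disc hodd' g hdisc w)]
      obtain ⟨ω, -, h8⟩ := central_mul χ hχ zS zS_mem_center
      by_contra hne0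
      have h9 : ω = 1 := by
        apply mul_right_cancel₀ hne0
        rw [← h8, h7, one_mul]
      have h10 := h8 1
      rw [mul_one, h9, one_mul, hdeg2] at h10
      exact q3_contra hq3 χ hχ hdeg2 h10
    · omega

end Cfsg.Agent.S2322
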