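import Cfsg.Statements.S2323
import Cfsg.Agent.Lib.Helper5_SL2Class

set_option autoImplicit false

open Cfsg

namespace Cfsg.Agent.S2323

open Cfsg.Agent.Lib.Helper5_SL2Class Cfsg.Agent.Lib.Helper5_SL2Res Cfsg.Agent.Lib.CharBasic

theorem result {F : Type*} [Field F] [Fintype F] (hq : 4 ≤ Fintype.card F) (χ : Matrix.SpecialLinearGroup (Fin 2) F → ℂ) (hχ : Cfsg.IsIrrCharacter (Matrix.SpecialLinearGroup (Fin 2) F) χ)
    (u : Matrix.SpecialLinearGroup (Fin 2) F) (hu : (u : Matrix (Fin 2) (Fin 2) F) = !![1, 1; 0, 1]) :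
    (χ 1 = (Fintype.card F : ℂ) + 1 → χ u = 1) ∧ (χ 1 = (Fintype.card F : ℂ) - 1 → χ u = -1) := by
  classical
  have hu' : u = uS 1 := Subtype.ext hu
  subst hu'
  obtain ⟨d2, hd, hcase⟩ := classifySL' χ hχ
  constructor
  · intro h
    rw [h] at hd
    have hd' : d2 = 2 * Fintype.card F + 2 := by
      have : ((2 * Fintype.card F + 2 : ℕ) : ℂ) = (d2 : ℂ) := by rw [← hd]; push_cast; ring
      exact_mod_cast this.symm
    rcases hcase with ⟨h1, -⟩ | ⟨h1, -⟩ | ⟨h1, μ, -, h2⟩ | ⟨h1, -⟩ | ⟨h1, -⟩ | ⟨h1, -⟩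
    · omega
    · omega
    · rw [h2, II_uS μ 1 one_ne_zero]
    · omega
    · omega
    · omega
  · intro h
    rw [h] at hd
    have hd' : d2 + 2 = 2 * Fintype.card F := by
      have : ((d2 + 2 : ℕ) : ℂ) = ((2 * Fintype.card F : ℕ) : ℂ) := by push_cast; rw [← hd]; ring
      exact_mod_cast this
    rcases hcase with ⟨h1, -⟩ | ⟨h1, -⟩ | ⟨h1, -⟩ | ⟨h1, -⟩ | ⟨h1, χ', hc, h2⟩ | ⟨h1, -⟩
    · omega
    · omega
    · omega
    · omega
    · rw [h2, res_uS _ (isClassFunction_of_isCharacter (isCharacter_of_isIrr hc.1)) 1 one_ne_zero, hc.2.2.1]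
    · omega

end Cfsg.Agent.S2323
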