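import Cfsg.Statements.S2324
import Cfsg.Agent.Lib.Helper5_SL2Delta
import Cfsg.Agent.S2299

set_option autoImplicit false
open Cfsg

namespace Cfsg.Agent.S2324

open Cfsg.Agent.Lib.Helper5_SL2Odd2 Cfsg.Agent.Lib.Helper5_SL2Class Cfsg.Agent.Lib.Helper5_SL2Res
  Cfsg.Agent.Lib.Helper5_SL2Cliff Cfsg.Agent.Lib.CharBasic Cfsg.Agent.Lib.Helper5_SL2Delta
  Cfsg.Agent.S2299

variable {F : Type*} [Field F] [Fintype F] [DecidableEq F]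

local notation "SL2" => Matrix.SpecialLinearGroup (Fin 2) F

/-- the plus type -/
theorem plus_type (k : ℕ) (hk : Fintype.card F = 2 * k + 1) (hk2 : 2 ≤ k) (χ : SL2 → ℂ) (hχ : IsIrrCharacter SL2 χ)
    (hdeg : χ 1 = ((k + 1 : ℕ) : ℂ)) :
    ∃ x : Matrix.GeneralLinearGroup (Fin 2) F, χ ∘ cj x ≠ χ ∧ χ (uS 1) + (χ ∘ cj x) (uS 1) = 1 := by
  obtain ⟨d2, hd, hcase⟩ := classifySL' χ hχ
  have := cast_two_mul hd hdeg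
  rcases hcase with ⟨h1, -⟩ | ⟨h1, -⟩ | ⟨h1, -⟩ | ⟨h1, μ, y, hμ1, hμ2, hy, hy2⟩ | ⟨h1, -⟩ | ⟨h1, -⟩
  · omega
  · omega
  · omega
  · refine ⟨y, hy, ?_⟩
    have := congrFun hy2 (uS 1)
    rw [II_uS μ 1 one_ne_zero, Pi.add_apply] at this
    exact this.symm
  · omega
  · omega

theorem minus_type (k : ℕ) (hk : Fintype.card F = 2 * k + 1) (hk2 : 2 ≤ k) (χ : SL2 → ℂ) (hχ : IsIrrCharacter SL2 χ)
    (hdeg : χ 1 = ((k : ℕ) : ℂ)) :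
    ∃ x : Matrix.GeneralLinearGroup (Fin 2) F, χ ∘ cj x ≠ χ ∧ χ (uS 1) + (χ ∘ cj x) (uS 1) = -1 := by
  obtain ⟨d2, hd, hcase⟩ := classifySL' χ hχ
  have := cast_two_mul hd hdeg
  rcases hcase with ⟨h1, -⟩ | ⟨h1, -⟩ | ⟨h1, -⟩ | ⟨h1, -⟩ | ⟨h1, -⟩ | ⟨h1, χ', y, hc, hy, hy2, -⟩
  · omega
  · omega
  · omega
  · omega
  · omega
  · refine ⟨y, hy, ?_⟩
    have := congrFun hy2 (uS 1)
    rw [res_uS _ (isClassFunction_of_isCharacter (isCharacter_of_isIrr hc.1)) 1 one_ne_zero, hc.2.2.1,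
      Pi.add_apply] at this
    exact this.symm

theorem eq_of_card_two (d : ℕ) (hN : NN (F := F) d = 2) (χ₁ χ₂ χ₃ : SL2 → ℂ) (h₁ : IsIrrCharacter SL2 χ₁)
    (h₂ : IsIrrCharacter SL2 χ₂) (h₃ : IsIrrCharacter SL2 χ₃) (d₁ : χ₁ 1 = (d : ℂ)) (d₂ : χ₂ 1 = (d : ℂ))
    (d₃ : χ₃ 1 = (d : ℂ)) (h12 : χ₂ ≠ χ₁) (h13 : χ₃ ≠ χ₁) : χ₂ = χ₃ := by
  unfold NN at hN
  obtain ⟨y, -, hy⟩ := (Nat.card_eq_two_iff' (⟨⟨χ₁, h₁⟩, d₁⟩ : {χ : Cfsg.IrrCharacter SL2 // (χ : SL2 → ℂ) 1 = (d : ℂ)})).1 hN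
  have e2 := hy ⟨⟨χ₂, h₂⟩, d₂⟩ (fun h => h12 (congrArg (fun a => a.1.1) h))
  have e3 := hy ⟨⟨χ₃, h₃⟩, d₃⟩ (fun h => h13 (congrArg (fun a => a.1.1) h))
  exact congrArg (fun a => a.1.1) (e2.trans e3.symm)

theorem result {F : Type*} [Field F] [Fintype F] (hodd : Odd (Fintype.card F)) (hq : 5 ≤ Fintype.card F)
    (u : Matrix.SpecialLinearGroup (Fin 2) F) (hu : (u : Matrix (Fin 2) (Fin 2) F) = !![1, 1; 0, 1]) :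
    (∀ χ : Matrix.SpecialLinearGroup (Fin 2) F → ℂ, Cfsg.IsIrrCharacter (Matrix.SpecialLinearGroup (Fin 2) F) χ → χ 1 = (((Fintype.card F + 1) / 2 : ℕ) : ℂ) → (2 * χ u - 1) ^ 2 = (-1 : ℂ) ^ ((Fintype.card F - 1) / 2) * (Fintype.card F : ℂ)) ∧
    (∀ χ : Matrix.SpecialLinearGroup (Fin 2) F → ℂ, Cfsg.IsIrrCharacter (Matrix.SpecialLinearGroup (Fin 2) F) χ → χ 1 = (((Fintype.card F - 1) / 2 : ℕ) : ℂ) → (2 * χ u + 1) ^ 2 = (-1 : ℂ) ^ ((Fintype.card F - 1) / 2) * (Fintype.card F : ℂ)) ∧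
    (∀ χ₁ χ₂ : Matrix.SpecialLinearGroup (Fin 2) F → ℂ, Cfsg.IsIrrCharacter (Matrix.SpecialLinearGroup (Fin 2) F) χ₁ → Cfsg.IsIrrCharacter (Matrix.SpecialLinearGroup (Fin 2) F) χ₂ → χ₁ ≠ χ₂ →
      χ₁ 1 = (((Fintype.card F + 1) / 2 : ℕ) : ℂ) → χ₂ 1 = (((Fintype.card F + 1) / 2 : ℕ) : ℂ) → χ₁ u + χ₂ u = 1) ∧
    (∀ χ₁ χ₂ : Matrix.SpecialLinearGroup (Fin 2) F → ℂ, Cfsg.IsIrrCharacter (Matrix.SpecialLinearGroup (Fin 2) F) χ₁ → Cfsg.IsIrrCharacter (Matrix.SpecialLinearGroup (Fin 2) F) χ₂ → χ₁ ≠ χ₂ →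
      χ₁ 1 = (((Fintype.card F - 1) / 2 : ℕ) : ℂ) → χ₂ 1 = (((Fintype.card F - 1) / 2 : ℕ) : ℂ) → χ₁ u + χ₂ u = -1) := by
  classical
  have hu' : u = uS 1 := Subtype.ext hu
  subst hu'
  have hodd' := hodd
  obtain ⟨k, hk⟩ := hodd
  have e1 : (Fintype.card F + 1) / 2 = k + 1 := by omega
  have e2 : (Fintype.card F - 1) / 2 = k := by omega
  have hk2 : 2 ≤ k := by omega
  obtain ⟨-, -, -, -, hN1, hN2⟩ := counts (F := F) k hk hk2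
  rw [e1]
  refine ⟨fun χ hχ hdeg => ?_, fun χ hχ hdeg => ?_, fun χ₁ χ₂ h₁ h₂ hne d₁ d₂ => ?_, fun χ₁ χ₂ h₁ h₂ hne d₁ d₂ => ?_⟩
  · obtain ⟨x, hx, hsum⟩ := plus_type k hk hk2 χ hχ hdeg
    have := dl_uS_sq hodd' χ hχ x hx
    rw [← this]
    unfold dl
    rw [Pi.sub_apply]
    congr 1
    linear_combination hsum
  · rw [e2] at hdeg
    obtain ⟨x, hx, hsum⟩ := minus_type k hk hk2 χ hχ hdeg
    have := dl_uS_sq hodd' χ hχ x hx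
    rw [← this]
    unfold dl
    rw [Pi.sub_apply]
    congr 1
    linear_combination hsum
  · obtain ⟨x, hx, hsum⟩ := plus_type k hk hk2 χ₁ h₁ d₁
    have := eq_of_card_two (k + 1) hN1 χ₁ χ₂ (χ₁ ∘ cj x) h₁ h₂ (cj_isIrr χ₁ h₁ x) d₁ d₂
      (by rw [Function.comp, map_one]; exact d₁) hne.symm hx
    rw [this]
    exact hsum
  · rw [e2] at d₁ d₂
    obtain ⟨x, hx, hsum⟩ := minus_type k hk hk2 χ₁ h₁ d₁
    have := eq_of_card_two k hN2 χ₁ χ₂ (χ₁ ∘ cj x) h₁ h₂ (cj_isIrr χ₁ h₁ x) d₁ d₂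
      (by rw [Function.comp, map_one]; exact d₁) hne.symm hx
    rw [this]
    exact hsum

end Cfsg.Agent.S2324
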