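import Cfsg.Statements.S2329
import Cfsg.Agent.Lib.Helper5_SqZero
import Cfsg.Agent.Lib.Helper5_Unip

set_option autoImplicit false
open Cfsg

namespace Cfsg.Agent.S2329

open Cfsg.Agent.Lib.Helper5_SqZero Cfsg.Agent.Lib.Helper5_Unip

theorem eq_zero_of_rank {F : Type*} [Field F] {n : ℕ} (A : Matrix (Fin n) (Fin n) F) (h : A.rank = 0) : A = 0 := by
  have h1 : LinearMap.range A.mulVecLin = ⊥ := Submodule.finrank_eq_zero.1 h
  rw [LinearMap.range_eq_bot] at h1
  apply Matrix.mulVec_injective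
  funext v
  have := congrArg (fun L : (Fin n → F) →ₗ[F] (Fin n → F) => L v) h1
  simpa using this

theorem facts {F : Type*} [Field F] (p : ℕ) [Fact p.Prime] [CharP F p] (g : Matrix.GeneralLinearGroup (Fin 2) F)
    (hg : orderOf g = p) :
    ((g : Matrix (Fin 2) (Fin 2) F) - 1) * ((g : Matrix (Fin 2) (Fin 2) F) - 1) = 0 ∧
      ((g : Matrix (Fin 2) (Fin 2) F) - 1).rank = 1 := by
  have hp : p.Prime := Fact.out
  have h1 : g ^ (p ^ 1) = 1 := by rw [pow_one, ← hg, pow_orderOf_eq_one]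
  rw [gl_pow_eq_one_iff] at h1
  have h2 := pow_card_eq_zero _ (⟨_, h1⟩ : IsNilpotent ((g : Matrix (Fin 2) (Fin 2) F) - 1))
  rw [Fintype.card_fin, sq] at h2
  refine ⟨h2, ?_⟩
  have h3 := two_mul_rank_le ((g : Matrix (Fin 2) (Fin 2) F) - 1).mulVecLin (sqzero_apply _ h2)
  have h4 : Module.finrank F (Fin 2 → F) = 2 := by simp
  rw [h4] at h3
  have h5 : ((g : Matrix (Fin 2) (Fin 2) F) - 1).rank ≠ 0 := by
    intro h0
    have h6 := eq_zero_of_rank _ h0
    have h7 : g = 1 := by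
      apply Units.ext
      rw [Units.val_one]
      exact sub_eq_zero.1 h6
    rw [h7, orderOf_one] at hg
    exact hp.one_lt.ne hg
  have h8 : ((g : Matrix (Fin 2) (Fin 2) F) - 1).rank = Module.finrank F (LinearMap.range ((g : Matrix (Fin 2) (Fin 2) F) - 1).mulVecLin) := rfl
  omega

theorem result {F : Type*} [Field F] [Fintype F] (p : ℕ) [Fact p.Prime] [CharP F p] (g h : Matrix.GeneralLinearGroup (Fin 2) F)
    (hg : orderOf g = p) (hh : orderOf h = p) : IsConj g h := by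
  obtain ⟨h1, h2⟩ := facts p g hg
  obtain ⟨h3, h4⟩ := facts p h hh
  exact gl_conj g h h1 h3 (by rw [h2, h4])

end Cfsg.Agent.S2329
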