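import Cfsg.Statements.S2368
import Cfsg.Agent.Lib.Helper5_Unip

set_option autoImplicit false
open Cfsg

namespace Cfsg.Agent.S2368

open Cfsg.Agent.Lib.Helper5_Unip

theorem result {F : Type*} [Field F] [Fintype F] (p : ℕ) [Fact p.Prime] [CharP F p] (m : ℕ) (hm : 1 ≤ m) :
    (∀ g : Matrix.GeneralLinearGroup (Fin m) F, (∃ j : ℕ, orderOf g = p ^ j) → orderOf g < p * m) ∧
      ∃ g : Matrix.GeneralLinearGroup (Fin m) F, (∃ j : ℕ, orderOf g = p ^ j) ∧ m ≤ orderOf g := by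
  have hp : p.Prime := Fact.out
  constructor
  · rintro g ⟨j, hj⟩
    have h1 : g ^ (p ^ j) = 1 := by rw [← hj, pow_orderOf_eq_one]
    rw [gl_pow_eq_one_iff] at h1
    have hnil : IsNilpotent ((g : Matrix (Fin m) (Fin m) F) - 1) := ⟨_, h1⟩
    obtain ⟨h2, -⟩ := orderOf_unip p m g hnil
    have h3 : orderOf g ≤ p ^ Nat.clog p m := Nat.le_of_dvd (pow_pos hp.pos _) h2
    refine lt_of_le_of_lt h3 ?_
    rcases Nat.lt_or_ge 1 m with h | h
    · have h4 := Nat.pow_pred_clog_lt_self hp.one_lt h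
      have h5 : 0 < Nat.clog p m := Nat.clog_pos hp.one_lt h
      obtain ⟨c, hc⟩ : ∃ c, Nat.clog p m = c + 1 := ⟨Nat.clog p m - 1, by omega⟩
      rw [hc] at h4 ⊢
      rw [Nat.pred_succ] at h4
      rw [pow_succ, mul_comm]
      exact Nat.mul_lt_mul_of_pos_left h4 hp.pos
    · have : m = 1 := le_antisymm h hm
      subst this
      simp [hp.one_lt]
  · have hN : IsNilpotent (shift F m) := ⟨m, shift_pow_self F m⟩
    have hunit : IsUnit (1 + shift F m) := by
      rw [add_comm]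
      exact hN.isUnit_add_one
    obtain ⟨g, hg⟩ := hunit
    have hg1 : (g : Matrix (Fin m) (Fin m) F) - 1 = shift F m := by rw [hg]; abel
    obtain ⟨-, h2⟩ := orderOf_unip p m g (by rw [hg1]; exact hN)
    have h3 := h2 (by rw [hg1]; exact shift_pow_pred_ne F m hm)
    exact ⟨g, ⟨_, h3⟩, by rw [h3]; exact Nat.le_pow_clog hp.one_lt m⟩

end Cfsg.Agent.S2368
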