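import Cfsg.Statements.S2388
import Cfsg.Agent.Lib.Helper5_SemisimpleSL

set_option autoImplicit false

open Cfsg

namespace Cfsg.Agent.S2388

open Cfsg.Agent.Lib.Helper5_Semisimple Cfsg.Agent.Lib.Helper5_SemisimpleSL

theorem result {F : Type*} [Field F] [Fintype F] (p : ℕ) [Fact p.Prime] [CharP F p] (n : ℕ)
    (g h : Matrix.SpecialLinearGroup (Fin n) F) (hg : (orderOf g).Coprime p) (hh : (orderOf h).Coprime p)
    (hc : (g : Matrix (Fin n) (Fin n) F).charpoly = (h : Matrix (Fin n) (Fin n) F).charpoly) : IsConj g h := by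
  have hsg : Module.End.IsSemisimple (Matrix.toLin' (g : Matrix (Fin n) (Fin n) F)) := by
    apply isSemisimple_of_pow_eq_one p _ (orderOf g) hg
    have := congrArg (fun y : Matrix.SpecialLinearGroup (Fin n) F => (y : Matrix (Fin n) (Fin n) F)) (pow_orderOf_eq_one g)
    rw [← Matrix.SpecialLinearGroup.coe_pow]; exact this
  have hsh : Module.End.IsSemisimple (Matrix.toLin' (h : Matrix (Fin n) (Fin n) F)) := by
    apply isSemisimple_of_pow_eq_one p _ (orderOf h) hh
    have := congrArg (fun y : Matrix.SpecialLinearGroup (Fin n) F => (y : Matrix (Fin n) (Fin n) F)) (pow_orderOf_eq_one h)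
    rw [← Matrix.SpecialLinearGroup.coe_pow]; exact this
  obtain ⟨P, hP⟩ := exists_conj _ _ hsg hsh hc
  obtain ⟨P', hP', hdet⟩ := exists_conj_det_one _ _ hsg P hP
  rw [isConj_iff]
  let c : Matrix.SpecialLinearGroup (Fin n) F := ⟨(P' : Matrix (Fin n) (Fin n) F), hdet⟩
  refine ⟨c, ?_⟩
  have h1 : c * g = h * c := by
    apply Subtype.ext
    exact hP'
  rw [h1]; group

end Cfsg.Agent.S2388
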