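import Cfsg.Statements.S2384
import Cfsg.Agent.Lib.Helper5_SSCount
import Cfsg.Agent.S2388

set_option autoImplicit false

open Cfsg

namespace Cfsg.Agent.S2384

open Cfsg.Agent.Lib.Helper5_SSCount Polynomial

theorem card_T {F : Type*} [Field F] [Fintype F] (m : ℕ) (a : F) :
    Nat.card {c : Fin (m + 1) → F // c 0 = a} = Fintype.card F ^ m := by
  classical
  have e : {c : Fin (m + 1) → F // c 0 = a} ≃ (Fin m → F) :=
    { toFun := fun c => Fin.tail c.1
      invFun := fun x => ⟨Fin.cons a x, by simp⟩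
      left_inv := by
        rintro ⟨c, rfl⟩
        apply Subtype.ext
        simp
      right_inv := by
        intro t
        simp }
  rw [Nat.card_congr e, Nat.card_eq_fintype_card]
  simp

theorem orderOf_toGL {F : Type*} [Field F] {n : ℕ} (g : Matrix.SpecialLinearGroup (Fin n) F) :
    orderOf (Matrix.SpecialLinearGroup.toGL g) = orderOf g :=
  orderOf_injective _ Matrix.SpecialLinearGroup.toGL_injective g

theorem result {F : Type*} [Field F] [Fintype F] {q : ℕ} (hq : Fintype.card F = q) (p : ℕ) [Fact p.Prime] [CharP F p] (n : ℕ) (hn : 1 ≤ n) :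
    Nat.card {c : ConjClasses (Matrix.SpecialLinearGroup (Fin n) F) //
      ∃ g : Matrix.SpecialLinearGroup (Fin n) F, ConjClasses.mk g = c ∧ (orderOf g).Coprime p} = q ^ (n - 1) := by
  classical
  obtain ⟨m, rfl⟩ : ∃ m, n = m + 1 := ⟨n - 1, by omega⟩
  subst hq
  rw [Nat.add_sub_cancel, ← card_T m ((-1 : F) ^ (m + 1))]
  symm
  have hex : ∀ c : {c : Fin (m + 1) → F // c 0 = (-1 : F) ^ (m + 1)},
      ∃ g : Matrix.SpecialLinearGroup (Fin (m + 1)) F, (orderOf g).Coprime p ∧
      (g : Matrix (Fin (m + 1)) (Fin (m + 1)) F).charpoly = PP c.1 := by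
    intro c
    have hc0 : (PP c.1).coeff 0 = (-1 : F) ^ (m + 1) := by
      have := PP_coeff c.1 0
      simp only [Fin.val_zero] at this
      rw [this]
      exact c.2
    obtain ⟨g, hg1, hg2⟩ := exists_ss p (PP c.1) (PP_monic _) (PP_natDegree _) (by
      rw [hc0]; exact pow_ne_zero _ (by norm_num))
    have hdet : (g : Matrix (Fin (m + 1)) (Fin (m + 1)) F).det = 1 := by
      rw [Matrix.det_eq_sign_charpoly_coeff, hg2, hc0, Fintype.card_fin, ← mul_pow]
      simp
    obtain ⟨s, hs⟩ : ∃ s : Matrix.SpecialLinearGroup (Fin (m + 1)) F,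
        (s : Matrix (Fin (m + 1)) (Fin (m + 1)) F) = (g : Matrix (Fin (m + 1)) (Fin (m + 1)) F) :=
      ⟨⟨_, hdet⟩, rfl⟩
    refine ⟨s, ?_, by rw [hs]; exact hg2⟩
    rw [← orderOf_toGL, show Matrix.SpecialLinearGroup.toGL s = g from Units.ext hs]
    exact hg1
  choose G hG1 hG2 using hex
  apply Nat.card_congr
  refine Equiv.ofBijective (fun c => ⟨ConjClasses.mk (G c), G c, rfl, hG1 c⟩) ⟨?_, ?_⟩
  · intro c d hcd
    have h1 : ConjClasses.mk (G c) = ConjClasses.mk (G d) := congrArg Subtype.val hcd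
    rw [ConjClasses.mk_eq_mk_iff_isConj] at h1
    have h2 := gl_charpoly_of_isConj _ _ (Matrix.SpecialLinearGroup.toGL.map_isConj h1)
    have h3 : (G c : Matrix (Fin (m + 1)) (Fin (m + 1)) F).charpoly = (G d : Matrix (Fin (m + 1)) (Fin (m + 1)) F).charpoly := h2
    rw [hG2, hG2] at h3
    exact Subtype.ext (PP_injective h3)
  · rintro ⟨_, g, rfl, hg⟩
    have hmon := Matrix.charpoly_monic (g : Matrix (Fin (m + 1)) (Fin (m + 1)) F)
    have hdeg : (g : Matrix (Fin (m + 1)) (Fin (m + 1)) F).charpoly.natDegree = m + 1 := by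
      rw [Matrix.charpoly_natDegree_eq_dim, Fintype.card_fin]
    have hPP := eq_PP _ hmon hdeg
    have h0 : (g : Matrix (Fin (m + 1)) (Fin (m + 1)) F).charpoly.coeff 0 = (-1 : F) ^ (m + 1) := by
      have := Matrix.det_eq_sign_charpoly_coeff (g : Matrix (Fin (m + 1)) (Fin (m + 1)) F)
      rw [g.2, Fintype.card_fin] at this
      have h1 : ((-1 : F) ^ (m + 1)) * ((-1 : F) ^ (m + 1)) = 1 := by
        rw [← mul_pow]; simp
      calc (g : Matrix (Fin (m + 1)) (Fin (m + 1)) F).charpoly.coeff 0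
          = ((-1 : F) ^ (m + 1)) * ((-1 : F) ^ (m + 1)) * (g : Matrix (Fin (m + 1)) (Fin (m + 1)) F).charpoly.coeff 0 := by
            rw [h1, one_mul]
        _ = (-1 : F) ^ (m + 1) * 1 := by rw [mul_assoc, ← this]
        _ = _ := mul_one _
    refine ⟨⟨fun i => (g : Matrix (Fin (m + 1)) (Fin (m + 1)) F).charpoly.coeff i, by simpa using h0⟩, ?_⟩
    apply Subtype.ext
    show ConjClasses.mk (G _) = ConjClasses.mk g
    rw [ConjClasses.mk_eq_mk_iff_isConj]
    apply Cfsg.Agent.S2388.result p _ _ _ (hG1 _) hg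
    rw [hG2, ← hPP]

end Cfsg.Agent.S2384
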