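import Cfsg.Statements.S2387
import Cfsg.Agent.Lib.Helper5_SSCount

set_option autoImplicit false

open Cfsg

namespace Cfsg.Agent.S2387

open Cfsg.Agent.Lib.Helper5_SSCount Polynomial

theorem card_T {F : Type*} [Field F] [Fintype F] (m : ℕ) :
    Nat.card {c : Fin (m + 1) → F // c 0 ≠ 0} = (Fintype.card F - 1) * Fintype.card F ^ m := by
  classical
  have e : {c : Fin (m + 1) → F // c 0 ≠ 0} ≃ {a : F // a ≠ 0} × (Fin m → F) :=
    { toFun := fun c => (⟨c.1 0, c.2⟩, Fin.tail c.1)
      invFun := fun x => ⟨Fin.cons x.1.1 x.2, by simpa using x.1.2⟩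
      left_inv := by
        intro c
        apply Subtype.ext
        simp
      right_inv := by
        rintro ⟨⟨a, ha⟩, t⟩
        simp }
  rw [Nat.card_congr e, Nat.card_prod, Nat.card_eq_fintype_card, Nat.card_eq_fintype_card,
    Fintype.card_subtype_compl (fun a : F => a = 0)]
  simp

theorem result {F : Type*} [Field F] [Fintype F] {q : ℕ} (hq : Fintype.card F = q) (p : ℕ) [Fact p.Prime] [CharP F p] (n : ℕ) (hn : 1 ≤ n) :
    Nat.card {c : ConjClasses (GL (Fin n) F) // ∃ g : GL (Fin n) F, ConjClasses.mk g = c ∧ (orderOf g).Coprime p} = (q - 1) * q ^ (n - 1) := by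
  classical
  obtain ⟨m, rfl⟩ : ∃ m, n = m + 1 := ⟨n - 1, by omega⟩
  subst hq
  rw [Nat.add_sub_cancel, ← card_T m]
  symm
  have hex : ∀ c : {c : Fin (m + 1) → F // c 0 ≠ 0}, ∃ g : GL (Fin (m + 1)) F, (orderOf g).Coprime p ∧
      (g : Matrix (Fin (m + 1)) (Fin (m + 1)) F).charpoly = PP c.1 := by
    intro c
    apply exists_ss p (PP c.1) (PP_monic _) (PP_natDegree _)
    have := PP_coeff c.1 0
    simp only [Fin.val_zero] at this
    rw [this]
    exact c.2
  choose G hG1 hG2 using hex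
  apply Nat.card_congr
  refine Equiv.ofBijective (fun c => ⟨ConjClasses.mk (G c), G c, rfl, hG1 c⟩) ⟨?_, ?_⟩
  · intro c d hcd
    have h1 : ConjClasses.mk (G c) = ConjClasses.mk (G d) := congrArg Subtype.val hcd
    rw [ConjClasses.mk_eq_mk_iff_isConj] at h1
    have h2 := gl_charpoly_of_isConj _ _ h1
    rw [hG2, hG2] at h2
    exact Subtype.ext (PP_injective h2)
  · rintro ⟨_, g, rfl, hg⟩
    have hmon := Matrix.charpoly_monic (g : Matrix (Fin (m + 1)) (Fin (m + 1)) F)
    have hdeg : (g : Matrix (Fin (m + 1)) (Fin (m + 1)) F).charpoly.natDegree = m + 1 := by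
      rw [Matrix.charpoly_natDegree_eq_dim, Fintype.card_fin]
    have hPP := eq_PP _ hmon hdeg
    have h0 : (g : Matrix (Fin (m + 1)) (Fin (m + 1)) F).charpoly.coeff 0 ≠ 0 := by
      intro h
      have := Matrix.det_eq_sign_charpoly_coeff (g : Matrix (Fin (m + 1)) (Fin (m + 1)) F)
      rw [h, mul_zero] at this
      exact Matrix.GeneralLinearGroup.det_ne_zero g this
    refine ⟨⟨fun i => (g : Matrix (Fin (m + 1)) (Fin (m + 1)) F).charpoly.coeff i, by simpa using h0⟩, ?_⟩
    apply Subtype.ext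
    show ConjClasses.mk (G _) = ConjClasses.mk g
    rw [ConjClasses.mk_eq_mk_iff_isConj]
    apply gl_isConj p _ _ (hG1 _) hg
    rw [hG2, ← hPP]

end Cfsg.Agent.S2387
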