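import Cfsg.Statements.S2433
import Cfsg.Agent.Lib.Helper5_SL2Res

set_option autoImplicit false

open Cfsg

namespace Cfsg.Agent.S2433

open Cfsg.Agent.Lib.Helper5_SL2Res Cfsg.Agent.Lib.Helper5_GL2Char Cfsg.Agent.Lib.Helper5_GL2Val

theorem result {F : Type*} [Field F] [Fintype F] [DecidableEq F] (hodd : Odd (Fintype.card F)) (α : MulChar F ℂ) (g : Matrix.SpecialLinearGroup (Fin 2) F) :
    ((g : Matrix (Fin 2) (Fin 2) F) 0 1 = 0 → (g : Matrix (Fin 2) (Fin 2) F) 1 0 = 0 → (g : Matrix (Fin 2) (Fin 2) F) 0 0 ^ 2 ≠ 1 →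
      (Cfsg.indFun ((Cfsg.upperTriangularGL 2 F).comap Matrix.SpecialLinearGroup.toGL) (fun b => α (((b : Matrix.SpecialLinearGroup (Fin 2) F) : Matrix (Fin 2) (Fin 2) F) 0 0))) g = α ((g : Matrix (Fin 2) (Fin 2) F) 0 0) + α ((g : Matrix (Fin 2) (Fin 2) F) 1 1)) ∧
    ((∀ (c : F) (v : Fin 2 → F), v ≠ 0 → (g : Matrix (Fin 2) (Fin 2) F).mulVec v ≠ c • v) → (Cfsg.indFun ((Cfsg.upperTriangularGL 2 F).comap Matrix.SpecialLinearGroup.toGL) (fun b => α (((b : Matrix.SpecialLinearGroup (Fin 2) F) : Matrix (Fin 2) (Fin 2) F) 0 0))) g = 0) ∧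
    ((g : Matrix (Fin 2) (Fin 2) F) 1 0 = 0 → (g : Matrix (Fin 2) (Fin 2) F) 0 0 = (g : Matrix (Fin 2) (Fin 2) F) 1 1 → (g : Matrix (Fin 2) (Fin 2) F) 0 1 ≠ 0 →
      (Cfsg.indFun ((Cfsg.upperTriangularGL 2 F).comap Matrix.SpecialLinearGroup.toGL) (fun b => α (((b : Matrix.SpecialLinearGroup (Fin 2) F) : Matrix (Fin 2) (Fin 2) F) 0 0))) g = α ((g : Matrix (Fin 2) (Fin 2) F) 0 0)) ∧
    ((g : Matrix (Fin 2) (Fin 2) F) 0 1 = 0 → (g : Matrix (Fin 2) (Fin 2) F) 1 0 = 0 → (g : Matrix (Fin 2) (Fin 2) F) 0 0 = (g : Matrix (Fin 2) (Fin 2) F) 1 1 →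
      (Cfsg.indFun ((Cfsg.upperTriangularGL 2 F).comap Matrix.SpecialLinearGroup.toGL) (fun b => α (((b : Matrix.SpecialLinearGroup (Fin 2) F) : Matrix (Fin 2) (Fin 2) F) 0 0))) g = ((Fintype.card F : ℂ) + 1) * α ((g : Matrix (Fin 2) (Fin 2) F) 0 0)) := by
  change (_ → _ → _ → II α g = _) ∧ (_ → II α g = _) ∧ (_ → _ → _ → II α g = _) ∧ (_ → _ → _ → II α g = _)
  rw [II_eq_res]
  unfold res
  have hdet := g.2
  rw [Matrix.det_fin_two] at hdet
  refine ⟨fun h01 h10 hne => ?_, fun hg => ps_elliptic _ _ _ hg, fun h10 heq h01 => ?_, fun h01 h10 heq => ?_⟩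
  · rw [h01, zero_mul, sub_zero] at hdet
    have ha : (g : Matrix (Fin 2) (Fin 2) F) 0 0 ≠ 0 := by
      intro h; rw [h] at hdet; simp at hdet
    have hd : (g : Matrix (Fin 2) (Fin 2) F) 1 1 ≠ 0 := by
      intro h; rw [h] at hdet; simp at hdet
    rw [ps_diag _ _ _ h01 h10 (by
      intro h
      apply hne
      rw [toGL_val] at h
      rw [sq]
      nth_rewrite 2 [h]
      exact hdet), toGL_val, MulChar.one_apply ha.isUnit, MulChar.one_apply hd.isUnit, mul_one, mul_one]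
  · rw [h10, mul_zero, sub_zero] at hdet
    have ha : (g : Matrix (Fin 2) (Fin 2) F) 0 0 ≠ 0 := by
      intro h; rw [h] at hdet; simp at hdet
    rw [ps_apply, toGL_val, h10, ← heq]
    simp [MulChar.one_apply ha.isUnit, h01]
  · rw [h10, mul_zero, sub_zero] at hdet
    have ha : (g : Matrix (Fin 2) (Fin 2) F) 0 0 ≠ 0 := by
      intro h; rw [h] at hdet; simp at hdet
    rw [ps_apply, toGL_val, h10, h01, ← heq]
    simp [MulChar.one_apply ha.isUnit]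
    ring

end Cfsg.Agent.S2433
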