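import Cfsg.Statements.S2540
import Cfsg.Agent.S0249

set_option autoImplicit false

open Cfsg

namespace Cfsg.Agent.S2540

open Matrix
open scoped commutatorElement

theorem aux_hom {H : Type*} [Group H] (a b g : H)
    (hb : ∀ z, z * (b * g * b⁻¹ * g⁻¹) = (b * g * b⁻¹ * g⁻¹) * z) :
    (a * b) * g * (a * b)⁻¹ * g⁻¹ = (a * g * a⁻¹ * g⁻¹) * (b * g * b⁻¹ * g⁻¹) := by
  have h2 : (a * b) * g * (a * b)⁻¹ * g⁻¹ = a * (b * g * b⁻¹ * g⁻¹) * (g * a⁻¹ * g⁻¹) := by group
  rw [h2, hb a, mul_assoc, ← hb]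
  group

theorem aux_comm {H : Type*} [Group H] (n1 n2 z1 z2 : H) (c1 : ∀ z, z * z1 = z1 * z) (c2 : ∀ z, z * z2 = z2 * z) :
    ⁅n1 * z1, n2 * z2⁆ = ⁅n1, n2⁆ := by
  rw [commutatorElement_def, commutatorElement_def]
  have e1 : n1 * z1 * (n2 * z2) * (n1 * z1)⁻¹ * (n2 * z2)⁻¹ =
      n1 * (z1 * n2) * (z2 * (z1⁻¹ * n1⁻¹)) * z2⁻¹ * n2⁻¹ := by group
  rw [e1, ← c1 n2, ← c2 (z1⁻¹ * n1⁻¹)]
  group

theorem aux_eq {H : Type*} [Group H] (a g : H) (h : a * g * a⁻¹ * g⁻¹ = 1) : a * g = g * a := by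
  have h3 : a * g = (a * g * a⁻¹ * g⁻¹) * (g * a) := by group
  rw [h3, h, one_mul]

theorem abs1 {S H : Type*} [Group S] [Group H] (ι : S →* H) (g : H) (hperf : commutator S = ⊤)
    (hcen : ∀ s, ι s * g * (ι s)⁻¹ * g⁻¹ ∈ Subgroup.center H) (s : S) : ι s * g = g * ι s := by
  let φ : S →* Subgroup.center H :=
    { toFun := fun s => ⟨ι s * g * (ι s)⁻¹ * g⁻¹, hcen s⟩
      map_one' := by
        apply Subtype.ext
        simp
      map_mul' := by
        intro s t
        apply Subtype.ext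
        show ι (s * t) * g * (ι (s * t))⁻¹ * g⁻¹ = (ι s * g * (ι s)⁻¹ * g⁻¹) * (ι t * g * (ι t)⁻¹ * g⁻¹)
        rw [map_mul]
        exact aux_hom _ _ _ (Subgroup.mem_center_iff.1 (hcen t)) }
  have hker : φ.ker = ⊤ := by
    rw [eq_top_iff, ← hperf, commutator_def, Subgroup.commutator_le]
    intro a _ b _
    rw [MonoidHom.mem_ker, map_commutatorElement, commutatorElement_eq_one_iff_mul_comm]
    apply Subtype.ext
    exact Subgroup.mem_center_iff.1 (φ b).2 (φ a).1
  have h1 : φ s = 1 := by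
    have : s ∈ φ.ker := by rw [hker]; trivial
    exact this
  have h2 : ι s * g * (ι s)⁻¹ * g⁻¹ = 1 := congrArg Subtype.val h1
  exact aux_eq _ _ h2

theorem abs2 {S : Type*} [Group S] (N : Subgroup S) (hperf : commutator S = ⊤)
    (h : ∀ s : S, ∃ n ∈ N, n⁻¹ * s ∈ Subgroup.center S) : N = ⊤ := by
  rw [eq_top_iff, ← hperf, commutator_def, Subgroup.commutator_le]
  intro s _ t _
  obtain ⟨n1, hn1, hz1⟩ := h s
  obtain ⟨n2, hn2, hz2⟩ := h t
  have hs1 : s = n1 * (n1⁻¹ * s) := by rw [mul_inv_cancel_left]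
  have ht1 : t = n2 * (n2⁻¹ * t) := by rw [mul_inv_cancel_left]
  have c1 := Subgroup.mem_center_iff.1 hz1
  have c2 := Subgroup.mem_center_iff.1 hz2
  have : ⁅s, t⁆ = ⁅n1, n2⁆ := by
    rw [hs1, ht1]
    exact aux_comm _ _ _ _ c1 c2
  rw [this, commutatorElement_def]
  exact N.mul_mem (N.mul_mem (N.mul_mem hn1 hn2) (N.inv_mem hn1)) (N.inv_mem hn2)

theorem main {F : Type*} [Field F] (n : ℕ)
    (hs : IsSimpleGroup (Matrix.ProjectiveSpecialLinearGroup (Fin n) F))
    (hperf : commutator (Matrix.SpecialLinearGroup (Fin n) F) = ⊤)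
    (G : Subgroup (Matrix.GeneralLinearGroup (Fin n) F))
    (hG : ∀ s : Matrix.SpecialLinearGroup (Fin n) F, ∀ g ∈ G,
      (Matrix.SpecialLinearGroup.toGL s) * g * (Matrix.SpecialLinearGroup.toGL s)⁻¹ ∈ G) :
    (∀ g ∈ G, ∃ c : F, (g : Matrix (Fin n) (Fin n) F) = c • (1 : Matrix (Fin n) (Fin n) F)) ∨
      (Matrix.SpecialLinearGroup.toGL : Matrix.SpecialLinearGroup (Fin n) F →* _).range ≤ G := by
  classical
  set ι : Matrix.SpecialLinearGroup (Fin n) F →* GL (Fin n) F := Matrix.SpecialLinearGroup.toGL with hι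
  set N : Subgroup (Matrix.SpecialLinearGroup (Fin n) F) := G.comap ι with hNdef
  have hN : N.Normal := by
    constructor
    intro x hx s
    show ι (s * x * s⁻¹) ∈ G
    rw [map_mul, map_mul, map_inv]
    exact hG s _ hx
  set π : Matrix.SpecialLinearGroup (Fin n) F →* Matrix.ProjectiveSpecialLinearGroup (Fin n) F :=
    QuotientGroup.mk' (Subgroup.center (Matrix.SpecialLinearGroup (Fin n) F)) with hπdef
  have hπ : Function.Surjective π := QuotientGroup.mk'_surjective _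
  have hNπ : (N.map π).Normal := hN.map π hπ
  rcases hs.eq_bot_or_eq_top_of_normal _ hNπ with hbot | htop
  · left
    have hNZ : N ≤ Subgroup.center (Matrix.SpecialLinearGroup (Fin n) F) := by
      intro x hx
      have h1 : π x ∈ N.map π := Subgroup.mem_map_of_mem _ hx
      rw [hbot, Subgroup.mem_bot] at h1
      exact (QuotientGroup.eq_one_iff x).1 h1
    intro g hg
    -- the commutator map
    have hcen : ∀ s : Matrix.SpecialLinearGroup (Fin n) F,
        ι s * g * (ι s)⁻¹ * g⁻¹ ∈ Subgroup.center (GL (Fin n) F) := by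
      intro s
      have h1 : ι s * g * (ι s)⁻¹ * g⁻¹ ∈ G := G.mul_mem (hG s g hg) (G.inv_mem hg)
      have hdet : ((ι s * g * (ι s)⁻¹ * g⁻¹ : GL (Fin n) F) : Matrix (Fin n) (Fin n) F).det = 1 := by
        have h2 : Matrix.GeneralLinearGroup.det (ι s * g * (ι s)⁻¹ * g⁻¹) = 1 := by
          rw [map_mul, map_mul, map_mul, map_inv, map_inv]
          exact mul_inv_eq_one.2 (by rw [mul_comm (Matrix.GeneralLinearGroup.det (ι s)), mul_inv_cancel_right])
        have := congrArg Units.val h2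
        rwa [Matrix.GeneralLinearGroup.val_det_apply, Units.val_one] at this
      have hy : ι ⟨_, hdet⟩ = ι s * g * (ι s)⁻¹ * g⁻¹ := by
        apply Units.ext
        rfl
      have hyN : (⟨_, hdet⟩ : Matrix.SpecialLinearGroup (Fin n) F) ∈ N := by
        show ι _ ∈ G
        rw [hy]; exact h1
      obtain ⟨r, -, hr⟩ := Matrix.SpecialLinearGroup.mem_center_iff.1 (hNZ hyN)
      rw [Subgroup.mem_center_iff]
      intro z
      apply Units.ext
      have hr' : Matrix.scalar (Fin n) r = ((ι s * g * (ι s)⁻¹ * g⁻¹ : GL (Fin n) F) : Matrix (Fin n) (Fin n) F) := hr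
      rw [Units.val_mul z, Units.val_mul _ z, ← hr']
      exact ((Matrix.scalar_commute r (fun r' => mul_comm _ _)) _).eq.symm
    have hcomm := abs1 ι g hperf hcen
    obtain ⟨r, hr⟩ := Matrix.mem_range_scalar_of_commute_transvectionStruct
      (M := (g : Matrix (Fin n) (Fin n) F)) (fun t => by
        have := hcomm ⟨t.toMatrix, by simp⟩
        exact congrArg Units.val this)
    refine ⟨r, ?_⟩
    rw [← hr, Matrix.scalar_apply, Matrix.smul_one_eq_diagonal]
  · right
    have hNtop : N = ⊤ := by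
      apply abs2 N hperf
      intro s
      obtain ⟨n1, hn1, h1⟩ : π s ∈ N.map π := by rw [htop]; trivial
      exact ⟨n1, hn1, QuotientGroup.eq.1 h1⟩
    rintro _ ⟨s, rfl⟩
    have : s ∈ N := by rw [hNtop]; trivial
    exact this

theorem result {F : Type*} [Field F] [Fintype F] (n : ℕ) (hn : 1 ≤ n) (hex : ¬ (n = 2 ∧ Fintype.card F ≤ 3)) (G : Subgroup (Matrix.GeneralLinearGroup (Fin n) F)) (hG : ∀ s : Matrix.SpecialLinearGroup (Fin n) F, ∀ g ∈ G, (Matrix.SpecialLinearGroup.toGL s) * g * (Matrix.SpecialLinearGroup.toGL s)⁻¹ ∈ G) : (∀ g ∈ G, ∃ c : F, (g : Matrix (Fin n) (Fin n) F) = c • (1 : Matrix (Fin n) (Fin n) F)) ∨ (Matrix.SpecialLinearGroup.toGL : Matrix.SpecialLinearGroup (Fin n) F →* _).range ≤ G := by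
  classical
  rcases Nat.lt_or_ge n 3 with h3 | h3
  · rcases (by omega : n = 1 ∨ n = 2) with rfl | rfl
    · left
      intro g _
      refine ⟨(g : Matrix (Fin 1) (Fin 1) F) 0 0, ?_⟩
      ext i j
      fin_cases i; fin_cases j
      simp
    · have h4 : 4 ≤ Fintype.card F := by
        by_contra h
        exact hex ⟨rfl, by omega⟩
      have hs : IsSimpleGroup (Matrix.ProjectiveSpecialLinearGroup (Fin 2) F) :=
        Matrix.ProjectiveSpecialLinearGroup.rank_two_simple (by rw [Nat.card_eq_fintype_card]; exact h4)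
      have hex2 : ∃ a : F, a ≠ 0 ∧ a ^ 2 ≠ 1 := by
        obtain ⟨x, hx⟩ := IsCyclic.exists_generator (α := Fˣ)
        refine ⟨x, Units.ne_zero x, fun h => ?_⟩
        have h1 : orderOf x = Fintype.card F - 1 := by
          rw [orderOf_eq_card_of_forall_mem_zpowers hx, Nat.card_eq_fintype_card, Fintype.card_units]
        have h2 : orderOf x ≤ 2 := orderOf_le_of_pow_eq_one zero_lt_two (Units.ext (by simpa using h))
        omega
      obtain ⟨a, ha, ha2⟩ := hex2
      exact main 2 hs (SL2.commutator_eq_top ha ha2) G hG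
  · exact main n (Cfsg.Agent.S0249.result n h3)
      (Cfsg.Agent.Lib.Helper1_SL.commutator_eq_top (by simpa using h3)) G hG

end Cfsg.Agent.S2540
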