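import Cfsg.Statements.S2541

set_option autoImplicit false
open Cfsg

namespace Cfsg.Agent.S2541

theorem perm6_pow (σ : Equiv.Perm (Fin 6)) : orderOf σ ∣ 60 := by
  rw [← Equiv.Perm.lcm_cycleType]
  apply Multiset.lcm_dvd.2
  intro n hn
  have h1 := Equiv.Perm.le_card_support_of_mem_cycleType hn
  have h2 : σ.support.card ≤ 6 := by
    have := Finset.card_le_univ σ.support
    simpa using this
  have h3 : 2 ≤ n := Equiv.Perm.two_le_of_mem_cycleType hn
  have h4 : n ≤ 6 := h1.trans h2
  interval_cases n <;> decide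

/-- diagonal embedding of the units. -/
def dg (F : Type*) [Field F] : Fˣ →* GL (Fin 2) F :=
  Units.map
    { toFun := fun a => Matrix.diagonal ![a, 1]
      map_one' := by
        ext i j
        fin_cases i <;> fin_cases j <;> simp
      map_mul' := by
        intro a b
        rw [Matrix.diagonal_mul_diagonal]
        congr 1
        funext i
        fin_cases i <;> simp }

theorem dg_mem_center {F : Type*} [Field F] (a : Fˣ) : dg F a ∈ Subgroup.center (GL (Fin 2) F) ↔ a = 1 := by
  rw [Matrix.GeneralLinearGroup.mem_center_iff_val_mem_range_scalar]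
  constructor
  · rintro ⟨c, hc⟩
    have h0 := congrFun (congrFun hc 0) 0
    have h1 := congrFun (congrFun hc 1) 1
    simp [dg] at h0 h1
    apply Units.ext
    rw [← h0, h1]; rfl
  · rintro rfl
    exact ⟨1, by simp⟩

theorem result {F : Type*} [Field F] [Fintype F] (hF : Fintype.card F = 9) : ¬ Nonempty (Equiv.Perm (Fin 6) ≃* Matrix.ProjGenLinGroup (Fin 2) F) := by
  classical
  rintro ⟨e⟩
  obtain ⟨ζ, hζ⟩ := IsCyclic.exists_generator (α := Fˣ)
  have hord : orderOf ζ = 8 := by
    rw [orderOf_eq_card_of_forall_mem_zpowers hζ, Nat.card_eq_fintype_card, Fintype.card_units, hF]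
  set x := Matrix.ProjGenLinGroup.mk (dg F ζ) with hx
  have hxo : orderOf x = orderOf ζ := by
    rw [orderOf_eq_orderOf_iff]
    intro n
    rw [hx, ← map_pow, ← map_pow, Matrix.ProjGenLinGroup.mk_eq_one, dg_mem_center]
  have h1 : orderOf (e.symm x) = 8 := by rw [MulEquiv.orderOf_eq, hxo, hord]
  have h2 := perm6_pow (e.symm x)
  rw [h1] at h2
  revert h2
  decide

end Cfsg.Agent.S2541
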