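import Cfsg.Statements.S2550
import Cfsg.Agent.Lib.Helper5_PSLSpec
import Cfsg.Agent.S0243
import Cfsg.Agent.S0819

set_option autoImplicit false

open Cfsg

namespace Cfsg.Agent.S2550

open Cfsg.Agent.Lib.Helper5_PSLSpec

theorem result {F K : Type*} [Field F] [Fintype F] [Field K] [Fintype K] (hF : Fintype.card F = 2) (hK : Fintype.card K = 4) : Nat.card (Matrix.ProjectiveSpecialLinearGroup (Fin 4) F) = Nat.card (Matrix.ProjectiveSpecialLinearGroup (Fin 3) K) ∧ ¬ Nonempty (Matrix.ProjectiveSpecialLinearGroup (Fin 4) F ≃* Matrix.ProjectiveSpecialLinearGroup (Fin 3) K) := by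
  constructor
  · have h1 := S0243.result hF 4 (by norm_num)
    have h2 := S0243.result hK 3 (by norm_num)
    simp only [Fin.prod_univ_four, Fin.prod_univ_three, Fin.val_zero, Fin.val_one, Fin.val_two] at h1 h2
    norm_num at h1 h2
    omega
  · rintro ⟨e⟩
    classical
    haveI : Finite (Matrix.ProjectiveSpecialLinearGroup (Fin 4) F) := by
      unfold Matrix.ProjectiveSpecialLinearGroup
      infer_instance
    obtain ⟨A, hA, hs⟩ := exists_singer (F := F) 4 (by norm_num)
    rw [hF, show sm 2 4 = 15 by decide] at hs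
    obtain ⟨g, hg⟩ : ∃ g : Matrix.SpecialLinearGroup (Fin 4) F, (g : Matrix (Fin 4) (Fin 4) F) = A := ⟨⟨A, hA⟩, rfl⟩
    have h15 : 15 ∣ orderOf (mkP F 4 g) := by
      obtain ⟨c, hc⟩ := (mkP_pow_eq_one_iff g _).1 (pow_orderOf_eq_one (mkP F 4 g))
      rw [hg] at hc
      exact hs _ c hc
    obtain ⟨k, hk⟩ := h15
    have hpos : 0 < orderOf (mkP F 4 g) := orderOf_pos _
    have hk0 : k ≠ 0 := by
      rintro rfl
      omega
    have ho : orderOf ((mkP F 4 g) ^ k) = 15 := by
      rw [orderOf_pow_of_dvd hk0 ⟨15, by rw [hk]; ring⟩, hk]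
      exact Nat.mul_div_cancel _ (Nat.pos_of_ne_zero hk0)
    exact S0819.result hK (e ((mkP F 4 g) ^ k)) (by rw [MulEquiv.orderOf_eq, ho])

end Cfsg.Agent.S2550
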