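import Cfsg.Statements.S2552
import Cfsg.Agent.Lib.Helper5_SLTrans

set_option autoImplicit false
open Cfsg

namespace Cfsg.Agent.S2552

open Cfsg.Agent.Lib.Helper5_SLTrans

theorem result {F : Type*} [Field F] [Fintype F] (n : ℕ) (hn : 1 ≤ n) (U₁ U₂ : Submodule F (Fin n → F)) (h : Module.finrank F U₁ = Module.finrank F U₂) : ∃ g : Matrix.SpecialLinearGroup (Fin n) F, U₁.map ((Matrix.SpecialLinearGroup.toLin' g : (Fin n → F) ≃ₗ[F] (Fin n → F)) : (Fin n → F) →ₗ[F] (Fin n → F)) = U₂ := by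
  obtain ⟨e, he1, he2⟩ := exists_det_one_map_eq U₁ U₂ h
  have hdet : (LinearMap.toMatrix' (e : (Fin n → F) →ₗ[F] (Fin n → F))).det = 1 := by
    rw [LinearMap.det_toMatrix', he2]
  let g : Matrix.SpecialLinearGroup (Fin n) F := ⟨LinearMap.toMatrix' (e : (Fin n → F) →ₗ[F] (Fin n → F)), hdet⟩
  refine ⟨g, ?_⟩
  rw [Matrix.SpecialLinearGroup.toLin'_to_linearMap]
  have : Matrix.toLin' (g : Matrix (Fin n) (Fin n) F) = (e : (Fin n → F) →ₗ[F] (Fin n → F)) := by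
    show Matrix.toLin' (LinearMap.toMatrix' (e : (Fin n → F) →ₗ[F] (Fin n → F))) = _
    rw [Matrix.toLin'_toMatrix']
  rw [this]
  exact he1

end Cfsg.Agent.S2552
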