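import Cfsg.Statements.S2616
import Cfsg.Agent.Lib.Helper5_QF

set_option autoImplicit false
open Cfsg

namespace Cfsg.Agent.S2616

open Cfsg.Agent.Lib.Helper5_QF Module

theorem result {F V : Type*} [Field F] [Finite F] [AddCommGroup V] [Module F V] [FiniteDimensional F V] {m : ℕ} (hm : 1 ≤ m) (hV : Module.finrank F V = 2 * m) (Q : QuadraticForm F V) (hQ : (QuadraticMap.polarBilin Q).Nondegenerate) : (∃ b : Module.Basis (Fin m ⊕ Fin m) F V, (∀ i, Q (b (Sum.inl i)) = 0 ∧ Q (b (Sum.inr i)) = 0) ∧ (∀ i j, QuadraticMap.polar ⇑Q (b (Sum.inl i)) (b (Sum.inr j)) = if i = j then 1 else 0) ∧ (∀ i j, QuadraticMap.polar ⇑Q (b (Sum.inl i)) (b (Sum.inl j)) = 0 ∧ QuadraticMap.polar ⇑Q (b (Sum.inr i)) (b (Sum.inr j)) = 0)) ∨ (∃ (b : Module.Basis ((Fin (m - 1) ⊕ Fin (m - 1)) ⊕ Fin 2) F V) (ζ : F), (∀ t : F, t ^ 2 + t + ζ ≠ 0) ∧ (∀ i, Q (b (Sum.inl (Sum.inl i))) = 0 ∧ Q (b (Sum.inl (Sum.inr i))) = 0) ∧ (∀ i j, QuadraticMap.polar ⇑Q (b (Sum.inl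 (Sum.inl i))) (b (Sum.inl (Sum.inr j))) = if i = j then 1 else 0) ∧ (∀ i j, QuadraticMap.polar ⇑Q (b (Sum.inl (Sum.inl i))) (b (Sum.inl (Sum.inl j))) = 0 ∧ QuadraticMap.polar ⇑Q (b (Sum.inl (Sum.inr i))) (b (Sum.inl (Sum.inr j))) = 0) ∧ (∀ i (k : Fin 2), QuadraticMap.polar ⇑Q (b (Sum.inl (Sum.inl i))) (b (Sum.inr k)) = 0 ∧ QuadraticMap.polar ⇑Q (b (Sum.inl (Sum.inr i))) (b (Sum.inr k)) = 0) ∧ Q (b (Sum.inr 0)) = 1 ∧ QuadraticMap.polar ⇑Q (b (Sum.inr 0)) (b (Sum.inr 1)) = 1 ∧ Q (b (Sum.inr 1)) = ζ) := by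
  obtain ⟨k, e, f, h, han⟩ := witt_fin Q hQ
  have hd := h.finrank_perp
  rw [Fintype.card_fin, hV] at hd
  have hle := finrank_le_two_of_anisotropic Q _ han
  have hef : ∀ i j, QuadraticMap.polar ⇑Q (e i) (f j) = if i = j then 1 else 0 := by
    intro i j
    split_ifs with hij
    · subst hij; exact h.ef i
    · exact h.ef' i j hij
  have hcases : finrank F (perp Q e f) = 0 ∨ finrank F (perp Q e f) = 2 := by omega
  rcases hcases with h0 | h2
  · left
    have hk : k = m := by omega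
    subst hk
    haveI : Nonempty (Fin k ⊕ Fin k) := ⟨Sum.inl ⟨0, hm⟩⟩
    have hli : LinearIndependent F (Sum.elim e f) := by
      have := h.linearIndependent Q (fun x : Empty => x.elim) (fun x => x.elim) (linearIndependent_empty_type)
      exact this.comp Sum.inl Sum.inl_injective
    let b := basisOfLinearIndependentOfCardEqFinrank hli (by rw [hV]; simp; ring)
    have hb : ∀ s, b s = Sum.elim e f s := fun s => by
      simp [b]
    refine ⟨b, ?_, ?_, ?_⟩
    · intro i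
      rw [hb, hb]
      exact ⟨h.qe i, h.qf i⟩
    · intro i j
      rw [hb, hb]
      exact hef i j
    · intro i j
      rw [hb, hb, hb, hb]
      exact ⟨h.ee i j, h.ff i j⟩
  · right
    have hk : k = m - 1 := by omega
    subst hk
    obtain ⟨x, hx, y, hy, hQx, hxy, hirr, hli0⟩ := plane_basis Q _ han (h.perp_nondeg hQ) h2
    have hg : ∀ j : Fin 2, (![x, y] : Fin 2 → V) j ∈ perp Q e f := by
      intro j
      fin_cases j
      · exact hx
      · exact hy
    have hli := h.linearIndependent Q ![x, y] hg hli0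
    let b := basisOfLinearIndependentOfCardEqFinrank hli (by rw [hV]; simp; omega)
    have hb : ∀ s, b s = Sum.elim (Sum.elim e f) ![x, y] s := fun s => by
      simp [b]
    refine ⟨b, Q y, hirr, ?_, ?_, ?_, ?_, ?_, ?_, ?_⟩
    · intro i
      rw [hb, hb]
      exact ⟨h.qe i, h.qf i⟩
    · intro i j
      rw [hb, hb]
      exact hef i j
    · intro i j
      rw [hb, hb, hb, hb]
      exact ⟨h.ee i j, h.ff i j⟩
    · intro i j
      rw [hb, hb, hb]
      exact (mem_perp Q e f _).1 (hg j) i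
    · rw [hb]; exact hQx
    · rw [hb, hb]; exact hxy
    · rw [hb]; rfl

end Cfsg.Agent.S2616
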