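import Cfsg.Statements.S2617
import Cfsg.Agent.Lib.Helper5_QFStd

set_option autoImplicit false
open Cfsg

namespace Cfsg.Agent.S2617

open Cfsg.Agent.Lib.Helper5_QF Cfsg.Agent.Lib.Helper5_QFIndex Cfsg.Agent.Lib.Helper5_QFStd Module

theorem result {F : Type*} [Field F] [Finite F] {m : ℕ} (hm : 1 ≤ m) (ζ : F) (hζ : ∀ t : F, t ^ 2 + t + ζ ≠ 0) (g : (Fin m ⊕ Fin m → F) ≃ₗ[F] ((Fin (m - 1) ⊕ Fin (m - 1)) ⊕ Fin 2 → F)) : ¬ (∀ v : Fin m ⊕ Fin m → F, Cfsg.quadFormMinus (m - 1) F 1 ζ (g v) = Cfsg.quadFormPlus m F v) := by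
  intro hg
  have hab : ∀ z₁ z₂ : F, z₁ ^ 2 + 1 * z₁ * z₂ + ζ * z₂ ^ 2 = 0 → z₁ = 0 ∧ z₂ = 0 := by
    intro z₁ z₂ h
    have h2 : z₂ = 0 := by
      by_contra h2
      apply hζ (z₁ / z₂)
      field_simp
      linear_combination h
    subst h2
    refine ⟨?_, rfl⟩
    have : z₁ ^ 2 = 0 := by linear_combination h
    exact pow_eq_zero_iff (two_ne_zero) |>.1 this
  set U := LinearMap.range (inlMap F (Fin m) (Fin m)) with hU
  have h1 := finrank_le_of_singular (qMinus (m - 1) F 1 ζ) (hypMinus (m - 1) F 1 ζ)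
    (perpMinus (m - 1) F 1 ζ hab) (U.map (g : (Fin m ⊕ Fin m → F) →ₗ[F] _)) (by
      rintro _ ⟨_, ⟨a, rfl⟩, rfl⟩
      rw [qMinus_apply]
      simp only [LinearEquiv.coe_coe]
      rw [hg]
      simp [Cfsg.quadFormPlus, inlMap])
  rw [LinearEquiv.finrank_map_eq, hU, finrank_range_inlMap] at h1
  simp at h1
  omega

end Cfsg.Agent.S2617
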