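import Cfsg.Statements.S2561
import Cfsg.Agent.Lib.Helper5_F2Forms
import Cfsg.Agent.Lib.Helper5_QFStd2
import Cfsg.Agent.S2616
import Cfsg.Agent.S2617

set_option autoImplicit false

open Cfsg

namespace Cfsg.Agent.S2561

open Module Cfsg.Agent.Lib.Helper5_F2Forms Cfsg.Agent.Lib.Helper5_QF Cfsg.Agent.Lib.Helper5_QFStd
  Cfsg.Agent.Lib.Helper5_QFStd2

variable (m : ℕ)

/-- the standard form -/
noncomputable abbrev Q0 : VV m → ZMod 2 := Cfsg.quadFormPlus m (ZMod 2)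

theorem isQ0 : IsQ m (Q0 m) := by
  intro u v
  rw [BB_apply]; ring

theorem tr_inj (w w' : VV m) (h : tr (Q0 m) w = tr (Q0 m) w') : w = w' := by
  have h1 : ∀ u, BB m u (w - w') = 0 := by
    intro u
    have := congrFun h u
    simp only [tr] at this
    rw [map_sub, add_left_cancel this, sub_self]
  exact sub_eq_zero.1 (BB_nondeg m _ h1)

theorem exists_tr (q : VV m → ZMod 2) (hq : IsQ m q) : ∃ w, q = tr (Q0 m) w := by
  let φ₀ : VV m →+ ZMod 2 :=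
    { toFun := fun v => q v + Q0 m v
      map_zero' := by
        show q 0 + Q0 m 0 = 0
        rw [hq.zero, (isQ0 m).zero]; rfl
      map_add' := by
        intro u v
        show q (u + v) + Q0 m (u + v) = (q u + Q0 m u) + (q v + Q0 m v)
        rw [hq u v, isQ0 m u v]
        have := add_self_z2 (BB m u v)
        linear_combination this }
  let φ : VV m →ₗ[ZMod 2] ZMod 2 := φ₀.toZModLinearMap 2
  have hφ : ∀ v, φ v = q v + Q0 m v := fun v => rfl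
  let w : VV m := Sum.elim (fun i => φ (fP m (ZMod 2) i)) (fun i => φ (eP m (ZMod 2) i))
  refine ⟨w, ?_⟩
  funext v
  have h1 : BB m v w = φ v := by
    have e1 : BB m v w = ∑ i : Fin m, (v (.inl i) * w (.inr i) + w (.inl i) * v (.inr i)) := qPlus_polar m (ZMod 2) v w
    rw [e1, LinearMap.pi_apply_eq_sum_univ φ v, Fintype.sum_sum_type, ← Finset.sum_add_distrib]
    apply Finset.sum_congr rfl
    intro i _
    have a1 : (fun j : Fin m ⊕ Fin m => if Sum.inl i = j then (1 : ZMod 2) else 0) = eP m (ZMod 2) i := by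
      funext j; simp [eP, Pi.single_apply, eq_comm]
    have a2 : (fun j : Fin m ⊕ Fin m => if Sum.inr i = j then (1 : ZMod 2) else 0) = fP m (ZMod 2) i := by
      funext j; simp [fP, Pi.single_apply, eq_comm]
    rw [a1, a2]
    simp only [w, Sum.elim_inl, Sum.elim_inr, smul_eq_mul]
    ring
  simp only [tr]
  rw [h1, hφ]
  have := add_self_z2 (Q0 m v)
  linear_combination -this

/-- parametrisation of forms by vectors -/
noncomputable def param : VV m ≃ {q : VV m → ZMod 2 // IsQ m q} :=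
  Equiv.ofBijective (fun w => ⟨tr (Q0 m) w, (isQ0 m).isQ_tr w⟩) ⟨fun w w' h => tr_inj m w w' (congrArg Subtype.val h),
    fun q => by
      obtain ⟨w, hw⟩ := exists_tr m q.1 q.2
      exact ⟨w, Subtype.ext hw.symm⟩⟩

theorem card_VV : Nat.card (VV m) = 2 ^ (2 * m) := by
  rw [Nat.card_eq_fintype_card, Fintype.card_fun, ZMod.card, Fintype.card_sum, Fintype.card_fin, two_mul]

/-- the quadratic form attached to `w` -/
noncomputable def QW (w : VV m) : QuadraticForm (ZMod 2) (VV m) :=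
  qPlus m (ZMod 2) + QuadraticMap.linMulLin ((BB m).flip w) ((BB m).flip w)

theorem QW_apply (w v : VV m) : QW m w v = tr (Q0 m) w v := by
  show Cfsg.quadFormPlus m (ZMod 2) v + BB m v w * BB m v w = _
  rw [mul_self_z2]; rfl

theorem QW_polar (w u v : VV m) : (QW m w).polarBilin u v = BB m u v := by
  rw [QuadraticMap.polarBilin_apply_apply, QuadraticMap.polar, QW_apply, QW_apply, QW_apply,
    (isQ0 m).isQ_tr w u v]
  ring

theorem QW_nondeg (w : VV m) : (QW m w).polarBilin.Nondegenerate := by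
  constructor
  · intro x hx
    apply BB_nondeg m x
    intro u
    rw [BB_comm, ← QW_polar m w]; exact hx u
  · intro x hx
    apply BB_nondeg m x
    intro u
    rw [← QW_polar m w]; exact hx u

def IsPlus (q : VV m → ZMod 2) : Prop :=
  ∃ g : VV m ≃ₗ[ZMod 2] VV m, ∀ v, q v = Cfsg.quadFormPlus m (ZMod 2) (g v)

def IsMinus (q : VV m → ZMod 2) : Prop :=
  ∃ g : VV m ≃ₗ[ZMod 2] ((Fin (m - 1) ⊕ Fin (m - 1)) ⊕ Fin 2 → ZMod 2), ∀ v, q v = Cfsg.quadFormMinus (m - 1) (ZMod 2) 1 1 (g v)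

theorem dichotomy (hm : 1 ≤ m) (w : VV m) : IsPlus m (tr (Q0 m) w) ∨ IsMinus m (tr (Q0 m) w) := by
  have hfr : finrank (ZMod 2) (VV m) = 2 * m := by
    rw [Module.finrank_fintype_fun_eq_card, Fintype.card_sum, Fintype.card_fin, two_mul]
  rcases Cfsg.Agent.S2616.result hm hfr (QW m w) (QW_nondeg m w) with ⟨b, h0, h1, h2⟩ | ⟨b, ζ, hζ, h0, h1, h2, h3, h4, h5, h6⟩
  · left
    exact ⟨b.equivFun, fun v => by rw [← QW_apply]; exact plus_of_basis (QW m w) b h0 h1 h2 v⟩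
  · right
    have hζ1 : ζ = 1 := by
      apply eq_one_of_ne_zero
      intro h
      exact hζ 0 (by rw [h]; rfl)
    rw [hζ1] at h6
    exact ⟨b.equivFun, fun v => by rw [← QW_apply]; exact minus_of_basis (QW m w) b 1 1 h0 h1 h2 h3 h4 h5 h6 v⟩

theorem not_both (hm : 1 ≤ m) (q : VV m → ZMod 2) (h1 : IsPlus m q) (h2 : IsMinus m q) : False := by
  obtain ⟨g, hg⟩ := h1
  obtain ⟨g', hg'⟩ := h2
  apply Cfsg.Agent.S2617.result hm (1 : ZMod 2) (by decide) (g.symm.trans g')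
  intro v
  have := hg' (g.symm v)
  rw [hg, LinearEquiv.apply_symm_apply] at this
  exact this.symm

theorem isPlus_iff (w : VV m) : IsPlus m (tr (Q0 m) w) ↔ Q0 m w = 0 := (isQ0 m).tr_equiv_iff w

theorem isMinus_iff (hm : 1 ≤ m) (w : VV m) : IsMinus m (tr (Q0 m) w) ↔ Q0 m w ≠ 0 := by
  show _ ↔ ¬ (Q0 m w = 0)
  rw [← isPlus_iff m w]
  constructor
  · intro h h'; exact not_both m hm _ h' h
  · intro h
    rcases dichotomy m hm w with h' | h'
    · exact absurd h' h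
    · exact h'

theorem sgn_sum {ι : Type*} (s : Finset ι) (a : ι → ZMod 2) : sgn (∑ i ∈ s, a i) = ∏ i ∈ s, sgn (a i) := by
  classical
  induction s using Finset.induction_on with
  | empty => simp [sgn_zero]
  | insert i s hi ih => rw [Finset.sum_insert hi, Finset.prod_insert hi, sgn_add, ih]

theorem SS_Q0 : SS (Q0 m) = 2 ^ m := by
  unfold SS
  let e : (Fin m → ZMod 2 × ZMod 2) ≃ VV m :=
    (Equiv.arrowProdEquivProdArrow (Fin m) (fun _ => ZMod 2) (fun _ => ZMod 2)).trans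
      (Equiv.sumArrowEquivProdArrow (Fin m) (Fin m) (ZMod 2)).symm
  rw [← Equiv.sum_comp e]
  have h1 : ∀ p : Fin m → ZMod 2 × ZMod 2, sgn (Q0 m (e p)) = ∏ i, sgn ((p i).1 * (p i).2) := by
    intro p
    rw [← sgn_sum]
    rfl
  rw [Finset.sum_congr rfl (fun p _ => h1 p)]
  have h2 := Finset.prod_univ_sum (fun _ : Fin m => (Finset.univ : Finset (ZMod 2 × ZMod 2)))
    (fun _ x => sgn (x.1 * x.2))
  rw [Fintype.piFinset_univ] at h2
  rw [← h2]
  have h3 : ∑ x : ZMod 2 × ZMod 2, sgn (x.1 * x.2) = 2 := by decide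
  simp [h3]

theorem card_zeros (hm : 1 ≤ m) : Nat.card {w : VV m // Q0 m w = 0} = 2 ^ (2 * m - 1) + 2 ^ (m - 1) ∧
    Nat.card {w : VV m // Q0 m w ≠ 0} = 2 ^ (2 * m - 1) - 2 ^ (m - 1) := by
  classical
  have h1 : (SS (Q0 m) : ℤ) = (Nat.card {w : VV m // Q0 m w = 0} : ℤ) - (Nat.card {w : VV m // Q0 m w ≠ 0} : ℤ) := by
    unfold SS
    rw [Nat.card_eq_fintype_card, Nat.card_eq_fintype_card, Fintype.card_subtype, Fintype.card_subtype,
      ← Finset.sum_filter_add_sum_filter_not Finset.univ (fun w => Q0 m w = 0)]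
    have a1 : ∑ w ∈ Finset.univ.filter (fun w => Q0 m w = 0), sgn (Q0 m w) = ((Finset.univ.filter (fun w => Q0 m w = 0)).card : ℤ) := by
      rw [Finset.card_eq_sum_ones, Nat.cast_sum]
      apply Finset.sum_congr rfl
      intro w hw
      rw [(Finset.mem_filter.1 hw).2]; rfl
    have a2 : ∑ w ∈ Finset.univ.filter (fun w => ¬ Q0 m w = 0), sgn (Q0 m w) = -((Finset.univ.filter (fun w => Q0 m w ≠ 0)).card : ℤ) := by
      rw [Finset.card_eq_sum_ones, Nat.cast_sum, ← Finset.sum_neg_distrib]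
      apply Finset.sum_congr rfl
      intro w hw
      rw [eq_one_of_ne_zero _ (Finset.mem_filter.1 hw).2]; rfl
    rw [a1, a2]; ring
  have h2 : Nat.card {w : VV m // Q0 m w = 0} + Nat.card {w : VV m // Q0 m w ≠ 0} = 2 ^ (2 * m) := by
    rw [← card_VV m, Nat.card_eq_fintype_card, Nat.card_eq_fintype_card, Nat.card_eq_fintype_card]
    exact Fintype.card_subtype_compl (fun w => Q0 m w = 0) ▸ (by
      have := Fintype.card_subtype_le (fun w : VV m => Q0 m w = 0)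
      omega)
  rw [SS_Q0] at h1
  obtain ⟨k, rfl⟩ : ∃ k, m = k + 1 := ⟨m - 1, by omega⟩
  have e1 : 2 * (k + 1) - 1 = 2 * k + 1 := by omega
  have e2 : k + 1 - 1 = k := by omega
  rw [e1, e2]
  have e3 : (2 : ℕ) ^ (2 * (k + 1)) = 2 * 2 ^ (2 * k + 1) := by rw [← pow_succ']; congr 1
  have e4 : (2 : ℤ) ^ (k + 1) = 2 * 2 ^ k := by rw [pow_succ']
  have e5 : (2 : ℕ) ^ k ≤ 2 ^ (2 * k + 1) := Nat.pow_le_pow_right (by norm_num) (by omega)
  rw [e3] at h2
  rw [e4] at h1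
  generalize Nat.card {w : VV (k + 1) // Q0 (k + 1) w = 0} = Z at *
  generalize Nat.card {w : VV (k + 1) // Q0 (k + 1) w ≠ 0} = N at *
  have e6 : ((2 : ℕ) ^ k : ℤ) = (2 : ℤ) ^ k := by push_cast; rfl
  generalize (2 : ℕ) ^ (2 * k + 1) = A at *
  generalize hB : (2 : ℕ) ^ k = B at *
  rw [← e6] at h1
  omega

theorem result (m : ℕ) (hm : 1 ≤ m) :
    Nat.card {q : (Fin m ⊕ Fin m → ZMod 2) → ZMod 2 // (∀ u v : (Fin m ⊕ Fin m → ZMod 2), q (u + v) = q u + q v + (Cfsg.quadFormPlus m (ZMod 2) (u + v) - Cfsg.quadFormPlus m (ZMod 2) u - Cfsg.quadFormPlus m (ZMod 2) v))} = 2 ^ (2 * m) ∧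
    (∀ q : (Fin m ⊕ Fin m → ZMod 2) → ZMod 2, (∀ u v : (Fin m ⊕ Fin m → ZMod 2), q (u + v) = q u + q v + (Cfsg.quadFormPlus m (ZMod 2) (u + v) - Cfsg.quadFormPlus m (ZMod 2) u - Cfsg.quadFormPlus m (ZMod 2) v)) →
      (∃ g : (Fin m ⊕ Fin m → ZMod 2) ≃ₗ[ZMod 2] (Fin m ⊕ Fin m → ZMod 2), ∀ v, q v = Cfsg.quadFormPlus m (ZMod 2) (g v)) ∨
      (∃ g : (Fin m ⊕ Fin m → ZMod 2) ≃ₗ[ZMod 2] ((Fin (m - 1) ⊕ Fin (m - 1)) ⊕ Fin 2 → ZMod 2), ∀ v, q v = Cfsg.quadFormMinus (m - 1) (ZMod 2) 1 1 (g v))) ∧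
    Nat.card {q : (Fin m ⊕ Fin m → ZMod 2) → ZMod 2 // (∀ u v : (Fin m ⊕ Fin m → ZMod 2), q (u + v) = q u + q v + (Cfsg.quadFormPlus m (ZMod 2) (u + v) - Cfsg.quadFormPlus m (ZMod 2) u - Cfsg.quadFormPlus m (ZMod 2) v)) ∧ ∃ g : (Fin m ⊕ Fin m → ZMod 2) ≃ₗ[ZMod 2] (Fin m ⊕ Fin m → ZMod 2), ∀ v, q v = Cfsg.quadFormPlus m (ZMod 2) (g v)} = 2 ^ (2 * m - 1) + 2 ^ (m - 1) ∧
    Nat.card {q : (Fin m ⊕ Fin m → ZMod 2) → ZMod 2 // (∀ u v : (Fin m ⊕ Fin m → ZMod 2), q (u + v) = q u + q v + (Cfsg.quadFormPlus m (ZMod 2) (u + v) - Cfsg.quadFormPlus m (ZMod 2) u - Cfsg.quadFormPlus m (ZMod 2) v)) ∧ ∃ g : (Fin m ⊕ Fin m → ZMod 2) ≃ₗ[ZMod 2] ((Fin (m - 1) ⊕ Fin (m - 1)) ⊕ Fin 2 → ZMod 2), ∀ v, q v = Cfsg.quadFormMinus (m - 1) (ZMod 2) 1 1 (g v)} = 2 ^ (2 * m - 1) - 2 ^ (m - 1) := by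
  refine ⟨?_, ?_, ?_, ?_⟩
  · rw [← card_VV m]
    exact (Nat.card_congr (param m)).symm
  · intro q hq
    obtain ⟨w, rfl⟩ := exists_tr m q hq
    exact dichotomy m hm w
  · rw [← (card_zeros m hm).1]
    apply Nat.card_congr
    refine Equiv.symm (Equiv.ofBijective (fun w => ⟨tr (Q0 m) w.1, (isQ0 m).isQ_tr w.1, (isPlus_iff m w.1).2 w.2⟩) ⟨?_, ?_⟩)
    · intro w w' h
      exact Subtype.ext (tr_inj m _ _ (congrArg Subtype.val h))
    · rintro ⟨q, hq, hp⟩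
      obtain ⟨w, rfl⟩ := exists_tr m q hq
      exact ⟨⟨w, (isPlus_iff m w).1 hp⟩, rfl⟩
  · rw [← (card_zeros m hm).2]
    apply Nat.card_congr
    refine Equiv.symm (Equiv.ofBijective (fun w => ⟨tr (Q0 m) w.1, (isQ0 m).isQ_tr w.1, (isMinus_iff m hm w.1).2 w.2⟩) ⟨?_, ?_⟩)
    · intro w w' h
      exact Subtype.ext (tr_inj m _ _ (congrArg Subtype.val h))
    · rintro ⟨q, hq, hp⟩
      obtain ⟨w, rfl⟩ := exists_tr m q hq
      exact ⟨⟨w, (isMinus_iff m hm w).1 hp⟩, rfl⟩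

end Cfsg.Agent.S2561
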