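import Cfsg.Statements.S2562
import Cfsg.Agent.Lib.Helper5_QFStd

set_option autoImplicit false
open Cfsg

namespace Cfsg.Agent.S2562

open Cfsg.Agent.Lib.Helper5_QF Cfsg.Agent.Lib.Helper5_QFIndex Cfsg.Agent.Lib.Helper5_QFStd Module

theorem result (m : ℕ) (hm : 1 ≤ m) :
    (∃ U : Submodule (ZMod 2) (Fin m ⊕ Fin m → ZMod 2), (∀ u ∈ U, Cfsg.quadFormPlus m (ZMod 2) u = 0) ∧ Module.finrank (ZMod 2) ↥U = m) ∧
    (∀ U : Submodule (ZMod 2) (Fin m ⊕ Fin m → ZMod 2), (∀ u ∈ U, Cfsg.quadFormPlus m (ZMod 2) u = 0) → Module.finrank (ZMod 2) ↥U ≤ m) ∧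
    (∃ U : Submodule (ZMod 2) ((Fin (m - 1) ⊕ Fin (m - 1)) ⊕ Fin 2 → ZMod 2), (∀ u ∈ U, Cfsg.quadFormMinus (m - 1) (ZMod 2) 1 1 u = 0) ∧ Module.finrank (ZMod 2) ↥U = m - 1) ∧
    (∀ U : Submodule (ZMod 2) ((Fin (m - 1) ⊕ Fin (m - 1)) ⊕ Fin 2 → ZMod 2), (∀ u ∈ U, Cfsg.quadFormMinus (m - 1) (ZMod 2) 1 1 u = 0) → Module.finrank (ZMod 2) ↥U ≤ m - 1) := by
  refine ⟨?_, ?_, ?_, ?_⟩
  · refine ⟨LinearMap.range (inlMap (ZMod 2) (Fin m) (Fin m)), ?_, ?_⟩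
    · rintro _ ⟨a, rfl⟩
      simp [Cfsg.quadFormPlus, inlMap]
    · rw [finrank_range_inlMap]; simp
  · intro U hU
    have := finrank_le_of_singular (qPlus m (ZMod 2)) (hypPlus m (ZMod 2))
      (fun x hx _ => perpPlus m (ZMod 2) x hx) U hU
    simpa using this
  · refine ⟨(LinearMap.range (inlMap (ZMod 2) (Fin (m - 1)) (Fin (m - 1)))).map (inlMap (ZMod 2) (Fin (m - 1) ⊕ Fin (m - 1)) (Fin 2)), ?_, ?_⟩
    · rintro _ ⟨_, ⟨a, rfl⟩, rfl⟩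
      simp [Cfsg.quadFormMinus, inlMap]
    · rw [← LinearMap.range_comp, LinearMap.finrank_range_of_inj]
      · simp
      · exact (inlMap_injective _ _ _).comp (inlMap_injective _ _ _)
  · intro U hU
    have hab : ∀ z₁ z₂ : ZMod 2, z₁ ^ 2 + 1 * z₁ * z₂ + 1 * z₂ ^ 2 = 0 → z₁ = 0 ∧ z₂ = 0 := by decide
    have := finrank_le_of_singular (qMinus (m - 1) (ZMod 2) 1 1) (hypMinus (m - 1) (ZMod 2) 1 1)
      (perpMinus (m - 1) (ZMod 2) 1 1 hab) U (fun u hu => by rw [qMinus_apply]; exact hU u hu)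
    simpa using this

end Cfsg.Agent.S2562
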