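import Cfsg.Statements.S2567

set_option autoImplicit false
open Cfsg

namespace Cfsg.Agent.S2567

theorem unique_lift {G : Type*} [Group G] (m r : ℕ) (hr : r.Prime) (hcop : Nat.Coprime r m)
    (hZ : ∀ z ∈ Subgroup.center G, z ^ m = 1) (x : G ⧸ Subgroup.center G) (hx : orderOf x = r) :
    ∃! g : G, (QuotientGroup.mk g : G ⧸ Subgroup.center G) = x ∧ orderOf g = r := by
  haveI : Fact r.Prime := ⟨hr⟩
  obtain ⟨g0, rfl⟩ := QuotientGroup.mk_surjective x
  have hz : g0 ^ r ∈ Subgroup.center G := by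
    rw [← QuotientGroup.eq_one_iff, QuotientGroup.mk_pow, ← hx, pow_orderOf_eq_one]
  have hcopz : ∀ z ∈ Subgroup.center G, r.Coprime (orderOf z) := fun z hz =>
    Nat.Coprime.coprime_dvd_right (orderOf_dvd_of_pow_eq_one (hZ z hz)) hcop
  set z := (g0 ^ r)⁻¹ with hzdef
  have hz' : z ∈ Subgroup.center G := Subgroup.inv_mem _ hz
  obtain ⟨s, hs⟩ := exists_pow_eq_self_of_coprime (hcopz z hz')
  have hw : z ^ s ∈ Subgroup.center G := Subgroup.pow_mem _ hz' s
  have hwr : (z ^ s) ^ r = z := by rw [← pow_mul, mul_comm, pow_mul, hs]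
  have hne : (QuotientGroup.mk g0 : G ⧸ Subgroup.center G) ≠ 1 := by
    intro h
    rw [h, orderOf_one] at hx
    exact hr.one_lt.ne hx
  refine ⟨g0 * z ^ s, ⟨?_, ?_⟩, ?_⟩
  · rw [QuotientGroup.mk_mul, (QuotientGroup.eq_one_iff _).2 hw, mul_one]
  · apply orderOf_eq_prime
    · have hc : Commute g0 (z ^ s) := (Subgroup.mem_center_iff.1 hw g0)
      rw [hc.mul_pow, hwr, hzdef, mul_inv_cancel]
    · intro h
      apply hne
      rw [QuotientGroup.eq_one_iff]
      have : g0 = (z ^ s)⁻¹ := eq_inv_of_mul_eq_one_left h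
      rw [this]
      exact Subgroup.inv_mem _ hw
  · rintro g' ⟨hg1, hg2⟩
    set g := g0 * z ^ s with hg
    have hgr : g ^ r = 1 := by
      have hc : Commute g0 (z ^ s) := (Subgroup.mem_center_iff.1 hw g0)
      rw [hg, hc.mul_pow, hwr, hzdef, mul_inv_cancel]
    have hmk : (QuotientGroup.mk g : G ⧸ Subgroup.center G) = QuotientGroup.mk g' := by
      rw [hg1, hg, QuotientGroup.mk_mul, (QuotientGroup.eq_one_iff _).2 hw, mul_one]
    have hc1 : g⁻¹ * g' ∈ Subgroup.center G := QuotientGroup.eq.1 hmk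
    set c := g⁻¹ * g' with hc
    have hg' : g' = g * c := by rw [hc]; group
    have hcc : Commute g c := (Subgroup.mem_center_iff.1 hc1 g)
    have hcr : c ^ r = 1 := by
      have h1 : g' ^ r = 1 := by rw [← hg2, pow_orderOf_eq_one]
      rw [hg', hcc.mul_pow, hgr, one_mul] at h1
      exact h1
    have hc_one : c = 1 := by
      have h1 : orderOf c ∣ r := orderOf_dvd_of_pow_eq_one hcr
      have h2 := hcopz c hc1
      have h3 : orderOf c = 1 := Nat.eq_one_of_dvd_coprimes h2 h1 (dvd_refl _)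
      exact orderOf_eq_one_iff.1 h3
    rw [hg', hc_one, mul_one]

theorem result {F : Type*} [Field F] [Fintype F] {q n r : ℕ} (hF : Fintype.card F = q) (hr : r.Prime) (hdiv : ¬ r ∣ q - 1) (x : GL (Fin n) F ⧸ Subgroup.center (GL (Fin n) F)) (hx : orderOf x = r) : ∃! g : GL (Fin n) F, (QuotientGroup.mk g : GL (Fin n) F ⧸ Subgroup.center (GL (Fin n) F)) = x ∧ orderOf g = r := by
  classical
  apply unique_lift (q - 1) r hr ((Nat.Prime.coprime_iff_not_dvd hr).2 hdiv) _ x hx
  intro z hz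
  rw [Matrix.GeneralLinearGroup.center_eq_range_scalar] at hz
  obtain ⟨a, rfl⟩ := hz
  rw [← map_pow, ← hF, ← Fintype.card_units, pow_card_eq_one, map_one]

end Cfsg.Agent.S2567
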