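import Cfsg.Statements.S2569
import Cfsg.Agent.Lib.Helper5_SemisimpleSL

set_option autoImplicit false

open Cfsg

namespace Cfsg.Agent.S2569

open Cfsg.Agent.Lib.Helper5_Semisimple Cfsg.Agent.Lib.Helper5_SemisimpleSL

theorem result {F : Type*} [Field F] [Fintype F] {p : ℕ} [Fact p.Prime] [CharP F p] {n : ℕ} (x g : GL (Fin n) F) (hx : (orderOf x).Coprime p) : ∃ h : GL (Fin n) F, (h : Matrix (Fin n) (Fin n) F).det = 1 ∧ h * x * h⁻¹ = g * x * g⁻¹ := by
  have hss := isSemisimple_of_orderOf p x hx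
  obtain ⟨P', hP', hdet⟩ := exists_conj_det_one (x : Matrix (Fin n) (Fin n) F) ((g * x * g⁻¹ : GL (Fin n) F) : Matrix (Fin n) (Fin n) F) hss g (by
    have : g * x = (g * x * g⁻¹) * g := by group
    exact congrArg (fun y : GL (Fin n) F => (y : Matrix (Fin n) (Fin n) F)) this)
  refine ⟨P', hdet, ?_⟩
  have h1 : P' * x = (g * x * g⁻¹) * P' := Units.ext hP'
  rw [h1]; group

end Cfsg.Agent.S2569
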