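import Cfsg.Statements.S2571
import Cfsg.Agent.Lib.Helper5_Cyclic

set_option autoImplicit false
open Cfsg

namespace Cfsg.Agent.S2571

open Cfsg.Agent.Lib.Helper5_RegUnip Cfsg.Agent.Lib.Helper5_Cyclic Polynomial
open scoped Matrix

theorem aeval_mulVecLin {F : Type*} [Field F] {n : ℕ} (N : Matrix (Fin n) (Fin n) F) (p : F[X]) :
    aeval (Matrix.mulVecLin N) p = Matrix.mulVecLin (aeval N p) := by
  have h := Polynomial.aeval_algHom_apply (Matrix.toLinAlgEquiv' (R := F) (n := Fin n)).toAlgHom N p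
  exact h

theorem commute_aeval {R A : Type*} [CommSemiring R] [Semiring A] [Algebra R A] (a b : A)
    (h : Commute a b) (p : R[X]) : Commute a (aeval b p) := by
  induction p using Polynomial.induction_on' with
  | add p q hp hq => rw [map_add]; exact hp.add_right hq
  | monomial n c =>
    rw [aeval_monomial]
    exact (Algebra.commute_algebraMap_right c a).mul_right (h.pow_right n)

theorem result {F : Type*} [Field F] [Fintype F] {q n : ℕ} (hF : Fintype.card F = q) (hn : 1 ≤ n) (u : GL (Fin n) F) (hnil : ((u : Matrix (Fin n) (Fin n) F) - 1) ^ n = 0) (hreg : ((u : Matrix (Fin n) (Fin n) F) - 1).rank = n - 1) : Nat.card ↥(Subgroup.centralizer ({u} : Set (GL (Fin n) F))) = (q - 1) * q ^ (n - 1) := by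
  classical
  set N : Matrix (Fin n) (Fin n) F := (u : Matrix (Fin n) (Fin n) F) - 1 with hN
  set f : Module.End F (Fin n → F) := Matrix.mulVecLin N with hf
  have hfr : Module.finrank F (Fin n → F) = n := by simp
  have hn' : 1 ≤ Module.finrank F (Fin n → F) := by rw [hfr]; exact hn
  have hnil' : f ^ Module.finrank F (Fin n → F) = 0 := by
    rw [hfr, hf, ← mulVecLin_pow, hnil]; simp
  have hker : Module.finrank F (LinearMap.ker f) ≤ 1 := by
    rw [hf, finrank_ker_mulVecLin, hreg, Fintype.card_fin]; omega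
  obtain ⟨e, he⟩ := exists_cyclic f hn' hker
  have hcard := card_compl f hn' hnil' hker
  rw [hfr, hF] at hcard
  rw [← hcard]
  -- commuting facts
  have hcomm : ∀ g : GL (Fin n) F, g ∈ Subgroup.centralizer ({u} : Set (GL (Fin n) F)) →
      Commute (g : Matrix (Fin n) (Fin n) F) N := by
    intro g hg
    rw [Subgroup.mem_centralizer_singleton_iff] at hg
    have h1 : (g : Matrix (Fin n) (Fin n) F) * (u : Matrix (Fin n) (Fin n) F) = (u : Matrix (Fin n) (Fin n) F) * g := by
      have := congrArg (fun x : GL (Fin n) F => (x : Matrix (Fin n) (Fin n) F)) hg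
      simpa using this
    show (g : Matrix (Fin n) (Fin n) F) * N = N * g
    rw [hN, mul_sub, sub_mul, h1, mul_one, one_mul]
  have hcommL : ∀ M : Matrix (Fin n) (Fin n) F, Commute M N → Commute (Matrix.mulVecLin M) f := by
    intro M hM
    show Matrix.mulVecLin M * Matrix.mulVecLin N = Matrix.mulVecLin N * Matrix.mulVecLin M
    rw [Module.End.mul_eq_comp, Module.End.mul_eq_comp, ← Matrix.mulVecLin_mul, ← Matrix.mulVecLin_mul, hM.eq]
  have hwd : ∀ g : GL (Fin n) F, g ∈ Subgroup.centralizer ({u} : Set (GL (Fin n) F)) →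
      (f ^ (n - 1)) ((g : Matrix (Fin n) (Fin n) F) *ᵥ e) ≠ 0 := by
    intro g hg h0
    have hc := (hcommL _ (hcomm g hg)).pow_right (n - 1)
    have h1 : (f ^ (n - 1)) ((g : Matrix (Fin n) (Fin n) F) *ᵥ e) = (g : Matrix (Fin n) (Fin n) F) *ᵥ ((f ^ (n - 1)) e) := by
      have := congrArg (fun L : Module.End F (Fin n → F) => L e) hc.eq
      simp only [Module.End.mul_apply, Matrix.mulVecLin_apply] at this
      exact this.symm
    rw [h1] at h0
    have h2 : ((g⁻¹ : GL (Fin n) F) : Matrix (Fin n) (Fin n) F) *ᵥ ((g : Matrix (Fin n) (Fin n) F) *ᵥ ((f ^ (n - 1)) e)) = (f ^ (n - 1)) e := by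
      rw [Matrix.mulVec_mulVec, ← Units.val_mul, inv_mul_cancel]; simp
    rw [h0, Matrix.mulVec_zero] at h2
    rw [hfr] at he
    exact he h2.symm
  refine Nat.card_congr (Equiv.ofBijective (fun g => ⟨(g.1 : Matrix (Fin n) (Fin n) F) *ᵥ e, hwd g.1 g.2⟩) ⟨?_, ?_⟩)
  · intro g g' hgg
    have hgg' : (g.1 : Matrix (Fin n) (Fin n) F) *ᵥ e = (g'.1 : Matrix (Fin n) (Fin n) F) *ᵥ e := congrArg Subtype.val hgg
    apply Subtype.ext
    apply Units.ext
    apply Matrix.mulVec_injective
    funext v
    obtain ⟨p, hp⟩ := cyclic_surj f hnil' hker e he v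
    rw [aeval_mulVecLin, Matrix.mulVecLin_apply] at hp
    have key : ∀ h : GL (Fin n) F, h ∈ Subgroup.centralizer ({u} : Set (GL (Fin n) F)) →
        (h : Matrix (Fin n) (Fin n) F) *ᵥ v = (aeval N p) *ᵥ ((h : Matrix (Fin n) (Fin n) F) *ᵥ e) := by
      intro h hh
      have hc : Commute (h : Matrix (Fin n) (Fin n) F) (aeval N p) :=
        commute_aeval _ _ (hcomm h hh) p
      rw [← hp, Matrix.mulVec_mulVec, Matrix.mulVec_mulVec, hc.eq]
    rw [key g.1 g.2, key g'.1 g'.2, hgg']
  · rintro ⟨v, hv⟩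
    obtain ⟨p, hp⟩ := cyclic_surj f hnil' hker e he v
    rw [aeval_mulVecLin, Matrix.mulVecLin_apply] at hp
    have hcM : Commute (aeval N p) N := (commute_aeval N N (Commute.refl N) p).symm
    have hinj : Function.Injective (Matrix.mulVecLin (aeval N p)) := by
      apply commute_injective f hn' hnil' hker e _ (hcommL _ hcM)
      rw [Matrix.mulVecLin_apply, hp, hfr]
      exact hv
    have hunit : IsUnit (aeval N p) := by
      rw [← Matrix.mulVec_injective_iff_isUnit]
      exact hinj
    obtain ⟨g, hg⟩ := hunit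
    have hgc : g ∈ Subgroup.centralizer ({u} : Set (GL (Fin n) F)) := by
      rw [Subgroup.mem_centralizer_singleton_iff]
      apply Units.ext
      rw [Units.val_mul, Units.val_mul, hg]
      have hu : (u : Matrix (Fin n) (Fin n) F) = N + 1 := by rw [hN]; abel
      rw [hu, mul_add, add_mul, hcM.eq, mul_one, one_mul]
    refine ⟨⟨g, hgc⟩, ?_⟩
    apply Subtype.ext
    show (g : Matrix (Fin n) (Fin n) F) *ᵥ e = v
    rw [hg, hp]

end Cfsg.Agent.S2571
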