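import Cfsg.Statements.S2572
import Cfsg.Agent.Lib.Helper5_SqZeroCent

set_option autoImplicit false
open Cfsg

namespace Cfsg.Agent.S2572

open Cfsg.Agent.Lib.Helper5_SqZeroCent

theorem result {F : Type*} [Field F] [Fintype F] {q n : ℕ} (hF : Fintype.card F = q) (hn : 2 ≤ n) (t : GL (Fin n) F) (ht : Cfsg.IsTransvection (t : Matrix (Fin n) (Fin n) F)) : Nat.card ↥(Subgroup.centralizer ({t} : Set (GL (Fin n) F))) = q ^ (2 * n - 3) * (q - 1) * ∏ i : Fin (n - 2), (q ^ (n - 2) - q ^ (i : ℕ)) := by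
  rw [card_centralizer_sqzero n t ht.2 1 (n - 2) ht.1 (by omega), Matrix.card_GL_field, Matrix.card_GL_field, hF]
  have h1 : 1 * 1 + 2 * (1 * (n - 2)) = 2 * n - 3 := by omega
  rw [h1]
  simp only [Finset.univ_unique, Fin.default_eq_zero, Fin.isValue, Fin.val_eq_zero, pow_zero, Finset.prod_const,
    Finset.card_singleton, pow_one]
  ring

end Cfsg.Agent.S2572
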