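import Cfsg.Statements.S2574
import Cfsg.Agent.Lib.Helper5_RegUnip

set_option autoImplicit false
open Cfsg

namespace Cfsg.Agent.S2574

open Cfsg.Agent.Lib.Helper5_RegUnip Matrix

theorem form_invariant {F : Type*} [Field F] {m : ℕ} (A : Matrix (Fin m ⊕ Fin m) (Fin m ⊕ Fin m) F)
    (hA : Aᵀ * Matrix.J (Fin m) F * A = Matrix.J (Fin m) F) (x y : Fin m ⊕ Fin m → F) :
    Cfsg.sympForm m F (A *ᵥ x) (A *ᵥ y) = Cfsg.sympForm m F x y := by
  unfold Cfsg.sympForm
  conv_rhs => rw [← hA]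
  rw [← Matrix.mulVec_mulVec, ← Matrix.mulVec_mulVec, Matrix.dotProduct_mulVec x Aᵀ, Matrix.vecMul_transpose]

theorem form_sub_left {F : Type*} [Field F] {m : ℕ} (x x' y : Fin m ⊕ Fin m → F) :
    Cfsg.sympForm m F (x - x') y = Cfsg.sympForm m F x y - Cfsg.sympForm m F x' y := by
  unfold Cfsg.sympForm; rw [sub_dotProduct]

theorem form_sub_right {F : Type*} [Field F] {m : ℕ} (x y y' : Fin m ⊕ Fin m → F) :
    Cfsg.sympForm m F x (y - y') = Cfsg.sympForm m F x y - Cfsg.sympForm m F x y' := by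
  unfold Cfsg.sympForm; rw [Matrix.mulVec_sub, dotProduct_sub]

theorem form_step {F : Type*} [Field F] {m : ℕ} (A : Matrix (Fin m ⊕ Fin m) (Fin m ⊕ Fin m) F)
    (hA : Aᵀ * Matrix.J (Fin m) F * A = Matrix.J (Fin m) F) (x y : Fin m ⊕ Fin m → F) :
    Cfsg.sympForm m F ((A - 1) *ᵥ x) y = - Cfsg.sympForm m F (A *ᵥ x) ((A - 1) *ᵥ y) := by
  rw [Matrix.sub_mulVec, Matrix.sub_mulVec, Matrix.one_mulVec, Matrix.one_mulVec, form_sub_left, form_sub_right,
    form_invariant A hA]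
  ring

theorem form_pow {F : Type*} [Field F] {m : ℕ} (A : Matrix (Fin m ⊕ Fin m) (Fin m ⊕ Fin m) F)
    (hA : Aᵀ * Matrix.J (Fin m) F * A = Matrix.J (Fin m) F) (k : ℕ) :
    ∀ x y : Fin m ⊕ Fin m → F, ((A - 1) ^ k) *ᵥ y = 0 → Cfsg.sympForm m F (((A - 1) ^ k) *ᵥ x) y = 0 := by
  induction k with
  | zero =>
    intro x y hy
    simp only [pow_zero, Matrix.one_mulVec] at hy
    subst hy
    simp [Cfsg.sympForm]
  | succ n ih =>
    intro x y hy
    have hcomm : A * (A - 1) ^ n = (A - 1) ^ n * A := by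
      have : Commute A (A - 1) := (Commute.refl A).sub_right (Commute.one_right A)
      exact (this.pow_right n).eq
    rw [pow_succ', ← Matrix.mulVec_mulVec, form_step A hA, Matrix.mulVec_mulVec, hcomm, ← Matrix.mulVec_mulVec,
      ih, neg_zero]
    rw [Matrix.mulVec_mulVec, ← pow_succ]
    exact hy

theorem result {F : Type*} [Field F] [Finite F] {m : ℕ} (u : Matrix.symplecticGroup (Fin m) F) (hnil : ((u : Matrix (Fin m ⊕ Fin m) (Fin m ⊕ Fin m) F) - 1) ^ (2 * m) = 0) (hreg : ((u : Matrix (Fin m ⊕ Fin m) (Fin m ⊕ Fin m) F) - 1).rank = 2 * m - 1) (W : Submodule F (Fin m ⊕ Fin m → F)) (hW : ∀ v ∈ W, (u : Matrix (Fin m ⊕ Fin m) (Fin m ⊕ Fin m) F).mulVec v ∈ W) (hdim : 2 * Module.finrank F W ≤ 2 * m) : ∀ v ∈ W, ∀ w ∈ W, Cfsg.sympForm m F v w = 0 := by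
  set A : Matrix (Fin m ⊕ Fin m) (Fin m ⊕ Fin m) F := (u : Matrix (Fin m ⊕ Fin m) (Fin m ⊕ Fin m) F) with hAdef
  have hA : Aᵀ * Matrix.J (Fin m) F * A = Matrix.J (Fin m) F := by
    have h1 : Aᵀ ∈ Matrix.symplecticGroup (Fin m) F := SymplecticGroup.transpose_mem u.2
    have h2 := (SymplecticGroup.mem_iff).1 h1
    simpa using h2
  have hcard : Module.finrank F (Fin m ⊕ Fin m → F) = 2 * m := by
    rw [Module.finrank_fintype_fun_eq_card]; simp; ring
  set f : Module.End F (Fin m ⊕ Fin m → F) := Matrix.mulVecLin (A - 1) with hf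
  have hfn : f ^ (2 * m) = 0 := by rw [hf, ← mulVecLin_pow, hnil]; simp
  have hker : Module.finrank F (LinearMap.ker f) ≤ 1 := by
    rw [hf, finrank_ker_mulVecLin, hreg]; simp; omega
  have hWf : ∀ v ∈ W, f v ∈ W := by
    intro v hv
    have : f v = A.mulVec v - v := by simp [hf, Matrix.sub_mulVec]
    rw [this]
    exact W.sub_mem (hW v hv) hv
  have hWeq := invariant_eq_ker_pow f (2 * m) hfn hker W hWf
  set d := Module.finrank F W with hd
  have hdle : d ≤ Module.finrank F (Fin m ⊕ Fin m → F) := by rw [hcard]; omega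
  have hrange := range_pow_eq_ker_pow f (by rw [hcard]; exact hfn) hker d hdle
  rw [hcard] at hrange
  intro v hv w hw
  rw [hWeq, ← hrange] at hv
  obtain ⟨x, rfl⟩ := hv
  rw [hWeq] at hw
  have e1 : (f ^ (2 * m - d)) x = ((A - 1) ^ (2 * m - d)) *ᵥ x := by
    rw [hf, ← mulVecLin_pow]; rfl
  rw [e1]
  apply form_pow A hA
  have e2 : ((A - 1) ^ (2 * m - d)) *ᵥ w = (f ^ (2 * m - d)) w := by
    rw [hf, ← mulVecLin_pow]; rfl
  rw [e2]
  have hsplit : 2 * m - d = (2 * m - d - d) + d := by omega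
  rw [hsplit, pow_add, Module.End.mul_apply, LinearMap.mem_ker.1 hw, map_zero]

end Cfsg.Agent.S2574
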