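import Cfsg.Statements.S2575

set_option autoImplicit false

open Cfsg

namespace Cfsg.Agent.S2575

variable {F : Type*} [Field F]

theorem prod_eq (n i : ℕ) (hi : i ≤ n) :
    ∏ j : Fin n, (if (j : ℕ) < i then (-1 : F) else 1) = (-1) ^ i := by
  rw [Fin.prod_univ_eq_prod_range (fun j => if j < i then (-1 : F) else 1) n]
  obtain ⟨k, rfl⟩ := Nat.exists_eq_add_of_le hi
  rw [Finset.prod_range_add]
  have h1 : ∏ x ∈ Finset.range i, (if x < i then (-1 : F) else 1) = (-1) ^ i := by
    rw [Finset.prod_congr rfl (fun x hx => if_pos (Finset.mem_range.1 hx)), Finset.prod_const,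
      Finset.card_range]
  have h2 : ∏ x ∈ Finset.range k, (if i + x < i then (-1 : F) else 1) = 1 := by
    apply Finset.prod_eq_one
    intro x _
    rw [if_neg (by omega)]
  rw [h1, h2, mul_one]

theorem det_eq (n i : ℕ) (hi : i ≤ n) (c : F) :
    (c • Matrix.diagonal (fun j : Fin n => if (j : ℕ) < i then (-1 : F) else 1)).det
      = c ^ n * (-1) ^ i := by
  rw [Matrix.det_smul, Matrix.det_diagonal, prod_eq n i hi, Fintype.card_fin]

theorem result {F : Type*} [Field F] [Fintype F] {q : ℕ} (hF : Fintype.card F = q) (hq : Odd q) {n : ℕ} (hn : 1 ≤ n) (i : ℕ) (hi : i ≤ n) : (∃ c : F, c ≠ 0 ∧ (c • Matrix.diagonal (fun j : Fin n => if (j : ℕ) < i then (-1 : F) else 1)).det = 1) ↔ (Even i ∨ padicValNat 2 n < padicValNat 2 (q - 1)) := by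
  classical
  have : Fact (Nat.Prime 2) := ⟨Nat.prime_two⟩
  have hq2 : 2 ≤ q := by rw [← hF]; exact Fintype.one_lt_card
  have hq3 : 3 ≤ q := by
    obtain ⟨r, hr⟩ := hq
    omega
  have hN0 : q - 1 ≠ 0 := by omega
  have hn0 : n ≠ 0 := by omega
  have hne : (-1 : F) ≠ 1 := by
    intro h
    have h2 : (2 : F) = 0 := by linear_combination -h
    have hch : ringChar F = 2 := by
      have : ringChar F ∣ 2 := ringChar.dvd (by exact_mod_cast h2)
      rcases (Nat.dvd_prime Nat.prime_two).1 this with h1 | h1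
      · exact absurd h1 (CharP.ringChar_ne_one)
      · exact h1
    have := FiniteField.even_card_of_char_two hch
    rw [hF] at this
    have h9 := Nat.odd_iff.1 hq
    omega
  simp only [det_eq n i hi]
  constructor
  · rintro ⟨c, hc0, hc⟩
    by_cases hev : Even i
    · left; exact hev
    right
    have hodd : Odd i := Nat.not_even_iff_odd.1 hev
    rw [hodd.neg_one_pow] at hc
    have hcn : c ^ n = -1 := by linear_combination -hc
    have ho1 : orderOf c ∣ q - 1 := by
      apply orderOf_dvd_of_pow_eq_one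
      rw [← hF]
      exact FiniteField.pow_card_sub_one_eq_one c hc0
    have ho2 : orderOf c ∣ 2 * n := by
      apply orderOf_dvd_of_pow_eq_one
      rw [mul_comm, pow_mul, hcn]
      ring
    have ho3 : ¬ orderOf c ∣ n := by
      intro h
      rw [orderOf_dvd_iff_pow_eq_one, hcn] at h
      exact hne h
    have ho0 : orderOf c ≠ 0 := fun h => by
      rw [h, zero_dvd_iff] at ho1
      exact hN0 ho1
    obtain ⟨e, o', ho', heq⟩ := Nat.exists_eq_two_pow_mul_odd ho0
    have h1 : e ≤ padicValNat 2 (q - 1) := by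
      rw [← padicValNat_dvd_iff_le hN0]
      exact (Dvd.intro _ heq.symm).trans ho1
    have h2 : ¬ e ≤ padicValNat 2 n := by
      intro h
      rw [← padicValNat_dvd_iff_le hn0] at h
      apply ho3
      rw [heq]
      have hcop : Nat.Coprime (2 ^ e) o' :=
        Nat.Coprime.pow_left _ (Nat.coprime_two_left.2 ho')
      apply hcop.mul_dvd_of_dvd_of_dvd h
      have h3 : o' ∣ 2 * n := (Dvd.intro_left _ heq.symm).trans ho2
      exact (Nat.Coprime.dvd_mul_left (Nat.coprime_two_right.2 ho')).1 h3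
    omega
  · rintro (hev | hlt)
    · exact ⟨1, one_ne_zero, by rw [one_pow, hev.neg_one_pow, one_mul]⟩
    · by_cases hev : Even i
      · exact ⟨1, one_ne_zero, by rw [one_pow, hev.neg_one_pow, one_mul]⟩
      have hodd : Odd i := Nat.not_even_iff_odd.1 hev
      obtain ⟨k, m, hm, hnk⟩ := Nat.exists_eq_two_pow_mul_odd hn0
      have hk : k ≤ padicValNat 2 n := by
        rw [← padicValNat_dvd_iff_le hn0]
        exact Dvd.intro _ hnk.symm
      have hk1 : 2 ^ (k + 1) ∣ q - 1 := by
        rw [padicValNat_dvd_iff_le hN0]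
        omega
      obtain ⟨M, hM⟩ := hk1
      obtain ⟨ζ, hζ⟩ := IsCyclic.exists_generator (α := Fˣ)
      have hoζ : orderOf ζ = q - 1 := by
        rw [orderOf_eq_card_of_forall_mem_zpowers hζ, Nat.card_eq_fintype_card, Fintype.card_units,
          hF]
      have hM0 : 0 < M := by
        rcases Nat.eq_zero_or_pos M with h | h
        · rw [h, mul_zero] at hM; omega
        · exact h
      have hw2 : (ζ ^ (M * 2 ^ k)) * (ζ ^ (M * 2 ^ k)) = 1 := by
        have e : M * 2 ^ k + M * 2 ^ k = q - 1 := by rw [hM, pow_succ]; ring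
        rw [← pow_add, e, ← hoζ, pow_orderOf_eq_one]
      have hw1 : ζ ^ (M * 2 ^ k) ≠ 1 := by
        intro h
        have h3 := orderOf_dvd_of_pow_eq_one h
        rw [hoζ, hM] at h3
        have h4 := Nat.le_of_dvd (Nat.mul_pos hM0 (by positivity)) h3
        have h5 : 0 < M * 2 ^ k := Nat.mul_pos hM0 (by positivity)
        rw [pow_succ] at h4
        nlinarith
      have hwF : ((ζ ^ (M * 2 ^ k) : Fˣ) : F) = -1 := by
        have h6 : ((ζ ^ (M * 2 ^ k) : Fˣ) : F) * ((ζ ^ (M * 2 ^ k) : Fˣ) : F) = 1 := by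
          rw [← Units.val_mul, hw2, Units.val_one]
        rcases mul_self_eq_one_iff.1 h6 with h7 | h7
        · exact absurd (Units.ext h7) hw1
        · exact h7
      refine ⟨((ζ ^ M : Fˣ) : F), Units.ne_zero _, ?_⟩
      rw [hodd.neg_one_pow, hnk, pow_mul, ← Units.val_pow_eq_pow_val, ← pow_mul, hwF,
        hm.neg_one_pow]
      ring

end Cfsg.Agent.S2575
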