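import Cfsg.Statements.S2576

set_option autoImplicit false

open Cfsg

namespace Cfsg.Agent.S2576

variable {F : Type*} [Field F]

theorem det_eq (m : ℕ) (μ c : F) :
    (c • Matrix.blockDiagonal (fun _ : Fin m => !![(0 : F), 1; μ, 0])).det
      = c ^ (2 * m) * (-μ) ^ m := by
  rw [Matrix.det_smul, Matrix.det_blockDiagonal, Fintype.card_prod, Fintype.card_fin,
    Fintype.card_fin]
  simp only [Matrix.det_fin_two_of, Finset.prod_const, Finset.card_univ, Fintype.card_fin]
  congr 2
  ring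

theorem result {F : Type*} [Field F] [Fintype F] {q : ℕ} (hF : Fintype.card F = q) (hq : Odd q) {m : ℕ} (hm : 1 ≤ m) (μ : F) (hμ : orderOf μ = 2 ^ padicValNat 2 (q - 1)) : (∃ c : F, c ≠ 0 ∧ (c • Matrix.blockDiagonal (fun _ : Fin m => !![(0 : F), 1; μ, 0])).det = 1) ↔ (q % 4 = 3 ∨ padicValNat 2 (q - 1) < padicValNat 2 (2 * m)) := by
  classical
  have : Fact (Nat.Prime 2) := ⟨Nat.prime_two⟩
  have hq2 : 2 ≤ q := by rw [← hF]; exact Fintype.one_lt_card
  have hqo := Nat.odd_iff.1 hq
  have hN0 : q - 1 ≠ 0 := by omega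
  have hm0 : 2 * m ≠ 0 := by omega
  have hne : (-1 : F) ≠ 1 := by
    intro h
    have h2 : (2 : F) = 0 := by linear_combination -h
    have hch : ringChar F = 2 := by
      have : ringChar F ∣ 2 := ringChar.dvd (by exact_mod_cast h2)
      rcases (Nat.dvd_prime Nat.prime_two).1 this with h1 | h1
      · exact absurd h1 (CharP.ringChar_ne_one)
      · exact h1
    have := FiniteField.even_card_of_char_two hch
    rw [hF] at this
    omega
  obtain ⟨k, N', hN', hNk⟩ := Nat.exists_eq_two_pow_mul_odd hN0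
  have hN'0 : N' ≠ 0 := fun h => by rw [h] at hN'; exact absurd hN' (by decide)
  have hb : padicValNat 2 (q - 1) = k := by
    rw [hNk, padicValNat.mul (pow_ne_zero _ (by norm_num)) hN'0, padicValNat.prime_pow,
      padicValNat.eq_zero_of_not_dvd (fun h => (Nat.not_even_iff_odd.2 hN') (even_iff_two_dvd.2 h)),
      add_zero]
  rw [hb] at hμ ⊢
  have hk1 : 1 ≤ k := by
    rcases Nat.eq_zero_or_pos k with h | h
    · rw [h, pow_zero, one_mul] at hNk
      have := Nat.odd_iff.1 hN'
      omega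
    · exact h
  obtain ⟨k', rfl⟩ : ∃ k', k = k' + 1 := ⟨k - 1, by omega⟩
  have hμ1 : μ ^ 2 ^ (k' + 1) = 1 := by rw [← hμ]; exact pow_orderOf_eq_one μ
  have hμ2 : μ ^ 2 ^ k' = -1 := by
    have h1 : μ ^ 2 ^ k' * μ ^ 2 ^ k' = 1 := by
      rw [← pow_add, ← hμ1]
      congr 1
      rw [pow_succ]; ring
    rcases mul_self_eq_one_iff.1 h1 with h | h
    · exfalso
      have h2 := orderOf_dvd_of_pow_eq_one h
      rw [hμ] at h2
      have h3 := Nat.le_of_dvd (by positivity) h2
      rw [pow_succ] at h3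
      have : 0 < 2 ^ k' := by positivity
      omega
    · exact h
  have hiff : k' + 1 < padicValNat 2 (2 * m) ↔ 2 ^ (k' + 1) ∣ m := by
    rw [← Nat.succ_le_iff, ← padicValNat_dvd_iff_le hm0, Nat.succ_eq_add_one, pow_succ (n := k' + 1),
      mul_comm (2 ^ (k' + 1)) 2]
    exact Nat.mul_dvd_mul_iff_left (by norm_num)
  rw [hiff]
  simp only [det_eq]
  constructor
  · rintro ⟨c, hc0, hc⟩
    by_cases h43 : q % 4 = 3
    · left; exact h43
    right
    have hk' : 1 ≤ k' := by
      rcases Nat.eq_zero_or_pos k' with h | h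
      · exfalso
        rw [h] at hNk
        obtain ⟨j, hj⟩ := hN'
        simp only [zero_add, pow_one] at hNk
        omega
      · exact h
    have hev : Even (2 ^ k') := (Nat.even_pow.2 ⟨even_two, by omega⟩)
    obtain ⟨y, hy⟩ : ∃ y, y = c ^ 2 * (-μ) := ⟨_, rfl⟩
    have hμ0 : μ ≠ 0 := by
      intro h
      rw [h, zero_pow (by positivity)] at hμ1
      exact zero_ne_one hμ1
    have hy0 : y ≠ 0 := by
      rw [hy]; exact mul_ne_zero (pow_ne_zero _ hc0) (neg_ne_zero.2 hμ0)
    have hym : y ^ m = 1 := by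
      rw [hy, mul_pow, ← pow_mul]; exact hc
    have hcN : c ^ (q - 1) = 1 := by
      rw [← hF]; exact FiniteField.pow_card_sub_one_eq_one c hc0
    have hyN : y ^ (q - 1) = 1 := by
      rw [← hF]; exact FiniteField.pow_card_sub_one_eq_one y hy0
    have hyh : y ^ (2 ^ k' * N') = -1 := by
      have e1 : (c ^ 2) ^ (2 ^ k' * N') = 1 := by
        rw [← pow_mul, ← hcN, hNk]
        congr 1
        rw [pow_succ]; ring
      rw [hy, mul_pow, e1, one_mul, pow_mul, neg_pow μ, hev.neg_one_pow, one_mul, hμ2,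
        hN'.neg_one_pow]
    have ho1 : orderOf y ∣ m := orderOf_dvd_of_pow_eq_one hym
    have ho2 : orderOf y ∣ q - 1 := orderOf_dvd_of_pow_eq_one hyN
    have ho3 : ¬ orderOf y ∣ 2 ^ k' * N' := by
      intro h
      rw [orderOf_dvd_iff_pow_eq_one, hyh] at h
      exact hne h
    have ho0 : orderOf y ≠ 0 := fun h => by
      rw [h, zero_dvd_iff] at ho2
      exact hN0 ho2
    obtain ⟨e, o', ho', heq⟩ := Nat.exists_eq_two_pow_mul_odd ho0
    have hke : k' + 1 ≤ e := by
      by_contra hlt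
      apply ho3
      rw [heq]
      apply mul_dvd_mul (pow_dvd_pow 2 (by omega))
      have h3 : o' ∣ 2 ^ (k' + 1) * N' := by
        rw [← hNk]; exact (Dvd.intro_left _ heq.symm).trans ho2
      exact (Nat.Coprime.dvd_mul_left
        (Nat.Coprime.pow_right _ (Nat.coprime_two_right.2 ho'))).1 h3
    exact ((pow_dvd_pow 2 hke).trans (Dvd.intro _ heq.symm)).trans ho1
  · rintro (h43 | ⟨r, hr⟩)
    · have hk' : k' = 0 := by
        by_contra h
        obtain ⟨j, rfl⟩ : ∃ j, k' = j + 1 := ⟨k' - 1, by omega⟩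
        have : 4 ∣ q - 1 := by
          rw [hNk]
          exact ⟨2 ^ j * N', by rw [pow_succ, pow_succ]; ring⟩
        omega
      rw [hk', pow_zero, pow_one] at hμ2
      exact ⟨1, one_ne_zero, by rw [hμ2, neg_neg, one_pow, one_pow, one_mul]⟩
    · have hev : Even (2 ^ (k' + 1)) := (Nat.even_pow.2 ⟨even_two, by omega⟩)
      exact ⟨1, one_ne_zero, by
        rw [one_pow, one_mul, hr, pow_mul, neg_pow μ, hev.neg_one_pow, one_mul, hμ1, one_pow]⟩

end Cfsg.Agent.S2576
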