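import Cfsg.Statements.S2580
import Cfsg.Agent.Lib.Helper5_RankCrit

set_option autoImplicit false

open Cfsg

namespace Cfsg.Agent.S2580

open Polynomial Cfsg.Agent.Lib.Helper5_RankCrit

theorem aeval_transpose {F : Type*} [Field F] {n : Type*} [Fintype n] [DecidableEq n] (A : Matrix n n F) (f : F[X]) :
    aeval A.transpose f = (aeval A f).transpose := by
  rw [aeval_eq_sum_range, aeval_eq_sum_range, Matrix.transpose_sum]
  apply Finset.sum_congr rfl
  intro i _
  rw [Matrix.transpose_smul, Matrix.transpose_pow]

theorem isConj_transpose {F : Type*} [Field F] [Finite F] {n : Type*} [Fintype n] [DecidableEq n] (A : Matrix n n F) :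
    IsConj A A.transpose := by
  apply isConj_of_rank
  intro f
  rw [aeval_transpose, Matrix.rank_transpose]

theorem result {F : Type*} [Field F] [Finite F] {n : ℕ} (A : Matrix (Fin n) (Fin n) F) : IsConj A A.transpose :=
  isConj_transpose A

end Cfsg.Agent.S2580
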