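import Cfsg.Statements.S2585
import Cfsg.Agent.Lib.Helper5_Symp
import Cfsg.Agent.Lib.Helper5_QFStd

set_option autoImplicit false

open Cfsg

namespace Cfsg.Agent.S2585

open Module Cfsg.Agent.Lib.Helper5_Symp Cfsg.Agent.Lib.Helper5_QF Cfsg.Agent.Lib.Helper5_QFStd

theorem result {F : Type*} [Field F] [Fintype F] [CharP F 2] {m : ℕ} (A : Matrix.symplecticGroup (Fin m) F) : ∃ Q : QuadraticForm F (Fin m ⊕ Fin m → F), (∀ u v : Fin m ⊕ Fin m → F, QuadraticMap.polar ⇑Q u v = Cfsg.sympForm m F u v) ∧ ∀ v : Fin m ⊕ Fin m → F, Q ((A : Matrix (Fin m ⊕ Fin m) (Fin m ⊕ Fin m) F).mulVec v) = Q v := by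
  have h20 : (2 : F) = 0 := by exact_mod_cast CharP.cast_eq_zero F 2
  have hneg : ∀ x : F, -x = x := fun x => by linear_combination (-x) * h20
  have hadd : ∀ x : F, x + x = 0 := fun x => by linear_combination x * h20
  obtain ⟨M, hM⟩ : ∃ M : Matrix (Fin m ⊕ Fin m) (Fin m ⊕ Fin m) F, M = (A : Matrix (Fin m ⊕ Fin m) (Fin m ⊕ Fin m) F) := ⟨_, rfl⟩
  have hpol : ∀ u v, (qPlus m F).polarBilin u v = sB m F u v := by
    intro u v
    rw [qPlus_polar, sB_eq]
    apply Finset.sum_congr rfl
    intro i _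
    linear_combination (u (Sum.inl i) * v (Sum.inr i)) * h20
  have hinv : ∀ u v, (qPlus m F).polarBilin (M.mulVec u) (M.mulVec v) = (qPlus m F).polarBilin u v := by
    intro u v
    rw [hpol, hpol, hM, sB_mulVec]
  let D : (Fin m ⊕ Fin m → F) → F := fun v => qPlus m F (M.mulVec v) + qPlus m F v
  have hDadd : ∀ u v, D (u + v) = D u + D v := by
    intro u v
    simp only [D]
    rw [Matrix.mulVec_add, map_add', map_add', hinv]
    linear_combination hadd ((qPlus m F).polarBilin u v)
  have hDsmul : ∀ (c : F) v, D (c • v) = c ^ 2 * D v := by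
    intro c v
    simp only [D]
    rw [Matrix.mulVec_smul, QuadraticMap.map_smul, QuadraticMap.map_smul]
    simp only [smul_eq_mul]
    ring
  let ψ : (Fin m ⊕ Fin m → F) →ₗ[F] F :=
    { toFun := fun v => (frobeniusEquiv F 2).symm (D v)
      map_add' := by
        intro u v
        rw [hDadd, map_add]
      map_smul' := by
        intro c v
        rw [hDsmul, map_mul]
        have : (frobeniusEquiv F 2).symm (c ^ 2) = c := by
          rw [← frobeniusEquiv_def, RingEquiv.symm_apply_apply]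
        rw [this]; rfl }
  have hψ : ∀ v, ψ v ^ 2 = D v := fun v => frobeniusEquiv_symm_pow_p F 2 (D v)
  let T : (Fin m ⊕ Fin m → F) →ₗ[F] (Fin m ⊕ Fin m → F) := Matrix.mulVecLin M - LinearMap.id
  have hmem : ψ ∈ (LinearMap.ker T).dualAnnihilator := by
    rw [Submodule.mem_dualAnnihilator]
    intro v hv
    have hv' : M.mulVec v = v := by
      have : M.mulVec v - v = 0 := hv
      exact sub_eq_zero.1 this
    have : ψ v ^ 2 = 0 := by
      rw [hψ]
      simp only [D]
      rw [hv', hadd]
    exact pow_eq_zero_iff (two_ne_zero) |>.1 this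
  rw [← LinearMap.range_dualMap_eq_dualAnnihilator_ker] at hmem
  obtain ⟨φ, hφ⟩ := hmem
  have hφ' : ∀ v, φ (M.mulVec v) = ψ v + φ v := by
    intro v
    have : φ (T v) = ψ v := by rw [← hφ]; rfl
    have h2 : φ (T v) = φ (M.mulVec v) - φ v := by
      simp only [T, LinearMap.sub_apply, Matrix.mulVecLin_apply, LinearMap.id_apply, map_sub]
    rw [← this, h2]; ring
  refine ⟨qPlus m F + QuadraticMap.linMulLin φ φ, ?_, ?_⟩
  · intro u v
    rw [← sB_apply, ← hpol, QuadraticMap.polarBilin_apply_apply]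
    simp only [QuadraticMap.polar, QuadraticMap.add_apply, QuadraticMap.linMulLin_apply, map_add]
    linear_combination (φ u * φ v) * h20
  · intro v
    rw [← hM]
    simp only [QuadraticMap.add_apply, QuadraticMap.linMulLin_apply]
    rw [hφ']
    have h1 := hψ v
    simp only [D] at h1
    linear_combination h1 + (ψ v * φ v) * h20 + hadd (qPlus m F (M.mulVec v))

end Cfsg.Agent.S2585
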