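import Cfsg.Statements.S2594
import Cfsg.Agent.Lib.Helper5_SympCard
import Cfsg.Agent.Lib.Helper5_SympPerf

set_option autoImplicit false
open Cfsg

namespace Cfsg.Agent.S2594

open Matrix Cfsg.Agent.Lib.Helper5_Symp Cfsg.Agent.Lib.Helper5_SympGen Cfsg.Agent.Lib.Helper5_SympTv
  Cfsg.Agent.Lib.Helper5_SympPerf Cfsg.Agent.Lib.Helper5_SympCard

variable {F : Type*} [Field F] {m : ℕ}

/-- the natural action on vectors -/
instance act : MulAction (Matrix.symplecticGroup (Fin m) F) (Fin m ⊕ Fin m → F) where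
  smul g v := (g : Matrix (Fin m ⊕ Fin m) (Fin m ⊕ Fin m) F) *ᵥ v
  one_smul := one_mulVec'
  mul_smul := mul_mulVec

theorem smul_def (g : Matrix.symplecticGroup (Fin m) F) (v : Fin m ⊕ Fin m → F) :
    g • v = (g : Matrix (Fin m ⊕ Fin m) (Fin m ⊕ Fin m) F) *ᵥ v := rfl

theorem tv_inj (h2 : (2 : F) = 0) (w w' : Fin m ⊕ Fin m → F) (c : F) (hw : w ≠ 0) (hc : c ≠ 0)
    (h : tv w' c = tv w c) : w' = w := by
  obtain ⟨x, hx⟩ := exists_ne_left w hw
  have h1 := congrArg (fun t : Matrix.symplecticGroup (Fin m) F =>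
    (t : Matrix (Fin m ⊕ Fin m) (Fin m ⊕ Fin m) F) *ᵥ x) h
  simp only [tv_mulVec, add_right_inj] at h1
  have h3 : c * sB m F x w' ≠ 0 := by
    intro h0
    rw [h0, zero_smul] at h1
    rcases smul_eq_zero.1 h1.symm with h | h
    · exact (mul_ne_zero hc hx) h
    · exact hw h
  have h4 : w' = ((c * sB m F x w')⁻¹ * (c * sB m F x w)) • w := by
    rw [mul_smul, ← h1, smul_smul, inv_mul_cancel₀ h3, one_smul]
  set a := (c * sB m F x w')⁻¹ * (c * sB m F x w) with ha
  rw [h4, tv_smul] at h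
  have h5 : tv w (a ^ 2 * c + -c) = 1 := by
    rw [← tv_mul, h, tv_mul, add_neg_cancel, tv_zero_right]
  have h6 : a ^ 2 * c + -c = 0 := by
    by_contra hne
    exact tv_ne_one w _ hw hne h5
  have h7 : (a - 1) ^ 2 = 0 := by
    have : (a ^ 2 - 1) * c = 0 := by linear_combination h6
    rcases mul_eq_zero.1 this with h | h
    · linear_combination h - (a - 1) * h2
    · exact absurd h hc
  rw [h4, sub_eq_zero.1 (pow_eq_zero_iff (two_ne_zero) |>.1 h7), one_smul]

theorem result {F : Type*} [Field F] [Fintype F] [CharP F 2] {q : ℕ} (hF : Fintype.card F = q) {m : ℕ} (hm : 1 ≤ m) (t : Matrix.symplecticGroup (Fin m) F) (ht : ((t : Matrix (Fin m ⊕ Fin m) (Fin m ⊕ Fin m) F) - 1).rank = 1) : Nat.card ↥(Subgroup.centralizer ({t} : Set ↥(Matrix.symplecticGroup (Fin m) F))) = q ^ (2 * m - 1) * (q ^ ((m - 1) ^ 2) * ∏ i : Fin (m - 1), (q ^ (2 * ((i : ℕ) + 1)) - 1)) := by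
  subst hF
  have h2 : (2 : F) = 0 := CharTwo.two_eq_zero
  obtain ⟨w, c, hw, hc, rfl⟩ := eq_tv_of_rank t ht
  have hstab : Subgroup.centralizer ({tv w c} : Set ↥(Matrix.symplecticGroup (Fin m) F)) =
      MulAction.stabilizer (Matrix.symplecticGroup (Fin m) F) w := by
    ext g
    rw [Subgroup.mem_centralizer_singleton_iff, MulAction.mem_stabilizer_iff, smul_def]
    constructor
    · intro h
      apply tv_inj h2 w _ c hw hc
      rw [← conj_tv, h, mul_inv_cancel_right]
    · intro h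
      have := conj_tv g w c
      rw [h] at this
      exact (eq_mul_of_mul_inv_eq this)
  have horb : MulAction.orbit (Matrix.symplecticGroup (Fin m) F) w = {0}ᶜ := by
    ext v
    rw [MulAction.mem_orbit_iff, Set.mem_compl_iff, Set.mem_singleton_iff]
    constructor
    · rintro ⟨g, rfl⟩ h0
      apply hw
      have := inv_mulVec g w
      rw [smul_def] at h0
      rw [h0, Matrix.mulVec_zero] at this
      exact this.symm
    · intro hv
      obtain ⟨g, -, hg⟩ := exists_move w v hw hv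
      exact ⟨g, hg⟩
  have h3 := Subgroup.index_mul_card (MulAction.stabilizer (Matrix.symplecticGroup (Fin m) F) w)
  rw [MulAction.index_stabilizer, horb, Set.ncard_compl, Set.ncard_singleton,
    Module.natCard_eq_pow_finrank (K := F), finrank_V, Nat.card_eq_fintype_card, card_sp] at h3
  rw [hstab]
  obtain ⟨k, rfl⟩ : ∃ k, m = k + 1 := ⟨m - 1, by omega⟩
  rw [Finset.prod_range_succ] at h3
  have hq : 2 ≤ Fintype.card F := Fintype.one_lt_card
  have hpos : 0 < Fintype.card F ^ (2 * (k + 1)) - 1 := by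
    have : 2 ^ (2 * (k + 1)) ≤ Fintype.card F ^ (2 * (k + 1)) := Nat.pow_le_pow_left hq _
    have h4 : 2 ≤ 2 ^ (2 * (k + 1)) := by
      calc 2 = 2 ^ 1 := rfl
        _ ≤ 2 ^ (2 * (k + 1)) := Nat.pow_le_pow_right (by norm_num) (by omega)
    omega
  apply Nat.eq_of_mul_eq_mul_left hpos
  rw [h3, Nat.add_sub_cancel, ← Finset.prod_range (fun i => Fintype.card F ^ (2 * (i + 1)) - 1),
    ← mul_assoc (Fintype.card F ^ (2 * (k + 1) - 1)), ← pow_add,
    show 2 * (k + 1) - 1 + k ^ 2 = (k + 1) ^ 2 from by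
      have : 2 * (k + 1) - 1 = 2 * k + 1 := by omega
      rw [this]; ring]
  ring

end Cfsg.Agent.S2594
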