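import Cfsg.Statements.S2599
import Cfsg.Agent.Lib.Helper5_QF

set_option autoImplicit false

open Cfsg

namespace Cfsg.Agent.S2599

open Module Cfsg.Agent.Lib.Helper5_QF

theorem result {F : Type*} [Field F] [Fintype F] {p : ℕ} [Fact p.Prime] [CharP F p] {n : ℕ} (Q : QuadraticForm F (Fin n → F)) (hQ : (QuadraticMap.polarBilin Q).Nondegenerate) (x : ↥(Cfsg.isometryGroup F ⇑Q)) (hx : (orderOf x).Coprime p) (U : Submodule F (Fin n → F)) (hU0 : U ≠ ⊥) (hUx : ∀ u ∈ U, ((x : Matrix.GeneralLinearGroup (Fin n) F) : Matrix (Fin n) (Fin n) F).mulVec u ∈ U) (hirr : ∀ W : Submodule F (Fin n → F), W ≤ U → (∀ w ∈ W, ((x : Matrix.GeneralLinearGroup (Fin n) F) : Matrix (Fin n) (Fin n) F).mulVec w ∈ W) → W = ⊥ ∨ W = U) : U ⊓ LinearMap.BilinForm.orthogonal (QuadraticMap.polarBilin Q) U = ⊥ ∨ (∀ u ∈ U, Q u = 0) ∨ (p = 2 ∧ Module.finrank F U = 1 ∧ (∃ u ∈ U, Q u ≠ 0) ∧ ∀ u ∈ U, ((x : Matrix.GeneralLinearGroup (Fin n) F) : Matrix (Fin n) (Fin n) F).mulVec u = u) := by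
  obtain ⟨A, hAdef⟩ : ∃ A : Matrix (Fin n) (Fin n) F, A = ((x : Matrix.GeneralLinearGroup (Fin n) F) : Matrix (Fin n) (Fin n) F) := ⟨_, rfl⟩
  rw [← hAdef] at hUx hirr ⊢
  have hAQ : ∀ u, Q (A.mulVec u) = Q u := by
    intro u
    rw [hAdef]
    exact x.2 u u
  have hAunit : IsUnit A := by
    rw [hAdef]; exact (x : Matrix.GeneralLinearGroup (Fin n) F).isUnit
  have hApol : ∀ u v, Q.polarBilin (A.mulVec u) (A.mulVec v) = Q.polarBilin u v := by
    intro u v
    simp only [QuadraticMap.polarBilin_apply_apply, QuadraticMap.polar, ← Matrix.mulVec_add, hAQ]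
  have hsurj : ∀ u ∈ U, ∃ u' ∈ U, A.mulVec u' = u := by
    let f : U →ₗ[F] U := (Matrix.mulVecLin A).restrict hUx
    have hinj : Function.Injective f := by
      intro a b hab
      have : A.mulVec a.1 = A.mulVec b.1 := congrArg Subtype.val hab
      exact Subtype.ext ((Matrix.mulVec_injective_iff_isUnit.2 hAunit) this)
    have hs := LinearMap.injective_iff_surjective.1 hinj
    intro u hu
    obtain ⟨u', hu'⟩ := hs ⟨u, hu⟩
    exact ⟨u'.1, u'.2, congrArg Subtype.val hu'⟩
  rcases hirr (U ⊓ LinearMap.BilinForm.orthogonal (QuadraticMap.polarBilin Q) U) inf_le_left (by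
    intro w hw
    rw [Submodule.mem_inf] at hw ⊢
    refine ⟨hUx w hw.1, ?_⟩
    rw [LinearMap.BilinForm.mem_orthogonal_iff]
    intro u hu
    obtain ⟨u', hu', rfl⟩ := hsurj u hu
    show Q.polarBilin (A.mulVec u') (A.mulVec w) = 0
    rw [hApol]
    exact (LinearMap.BilinForm.mem_orthogonal_iff.1 hw.2) u' hu') with h | h
  · exact Or.inl h
  right
  have hpol0 : ∀ u ∈ U, ∀ v ∈ U, Q.polarBilin u v = 0 := by
    intro u hu v hv
    have : v ∈ U ⊓ LinearMap.BilinForm.orthogonal (QuadraticMap.polarBilin Q) U := by rw [h]; exact hv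
    exact (LinearMap.BilinForm.mem_orthogonal_iff.1 this.2) u hu
  let W : Submodule F (Fin n → F) :=
    { carrier := {u | u ∈ U ∧ Q u = 0}
      add_mem' := by
        rintro a b ⟨ha, ha'⟩ ⟨hb, hb'⟩
        exact ⟨U.add_mem ha hb, by rw [map_add', ha', hb', hpol0 a ha b hb]; simp⟩
      zero_mem' := ⟨U.zero_mem, by simp⟩
      smul_mem' := by
        rintro c a ⟨ha, ha'⟩
        exact ⟨U.smul_mem c ha, by rw [QuadraticMap.map_smul, ha']; simp⟩ }
  rcases hirr W (fun u hu => hu.1) (fun w hw => ⟨hUx w hw.1, by rw [hAQ]; exact hw.2⟩) with hW | hW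
  · right
    have han : ∀ u ∈ U, Q u = 0 → u = 0 := by
      intro u hu hq
      have : u ∈ W := ⟨hu, hq⟩
      rw [hW] at this
      exact (Submodule.mem_bot F).1 this
    obtain ⟨u₀, hu₀, hu₀0⟩ : ∃ u ∈ U, u ≠ 0 := by
      by_contra hcon
      push Not at hcon
      exact hU0 ((Submodule.eq_bot_iff U).2 hcon)
    have h20 : (2 : F) = 0 := by
      by_contra h2
      have h1 := hpol0 u₀ hu₀ u₀ hu₀
      rw [pb_self] at h1
      rcases mul_eq_zero.1 h1 with h1 | h1
      · exact h2 h1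
      · exact hu₀0 (han u₀ hu₀ h1)
    have hinj : ∀ u ∈ U, ∀ v ∈ U, Q u = Q v → u = v := by
      intro u hu v hv huv
      have : Q (u + v) = 0 := by
        rw [map_add', hpol0 u hu v hv, huv]
        linear_combination (Q v) * h20
      have h3 := han _ (U.add_mem hu hv) this
      have h4 : v + v = 0 := by
        rw [← two_smul F v, h20, zero_smul]
      have : u = u + (v + v) := by rw [h4, add_zero]
      rw [this, ← add_assoc, h3, zero_add]
    refine ⟨?_, ?_, ⟨u₀, hu₀, fun h => hu₀0 (han u₀ hu₀ h)⟩, fun u hu => hinj _ (hUx u hu) u hu (hAQ u)⟩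
    · have : p ∣ 2 := (CharP.cast_eq_zero_iff F p 2).1 (by exact_mod_cast h20)
      exact (Nat.prime_dvd_prime_iff_eq (Fact.out) Nat.prime_two).1 this
    · have hle : Nat.card U ≤ Nat.card F := by
        apply Nat.card_le_card_of_injective (fun u : U => Q u.1)
        intro a b hab
        exact Subtype.ext (hinj a.1 a.2 b.1 b.2 hab)
      rw [Module.natCard_eq_pow_finrank (K := F) (V := U)] at hle
      have hF1 : 1 < Nat.card F := Finite.one_lt_card
      have h1 : finrank F U ≤ 1 := by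
        by_contra hcon
        push Not at hcon
        have : Nat.card F ^ 2 ≤ Nat.card F ^ finrank F U := Nat.pow_le_pow_right (by omega) hcon
        nlinarith
      have h2 : finrank F U ≠ 0 := by
        intro h0
        exact hU0 (Submodule.finrank_eq_zero.1 h0)
      omega
  · left
    intro u hu
    have : u ∈ W := by rw [hW]; exact hu
    exact this.2

end Cfsg.Agent.S2599
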