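import Cfsg.Statements.S2618
import Cfsg.Agent.Lib.Helper5_QF

set_option autoImplicit false
open Cfsg

namespace Cfsg.Agent.S2618

open Cfsg.Agent.Lib.Helper5_QF Module

theorem result {F V : Type*} [Field F] [Finite F] [AddCommGroup V] [Module F V] [FiniteDimensional F V] {m : ℕ} (hV : Module.finrank F V = 2 * m + 1) (Q : QuadraticForm F V) (hQ : (QuadraticMap.polarBilin Q).Nondegenerate) : ∃ b : Module.Basis (Unit ⊕ (Fin m ⊕ Fin m)) F V, Q (b (Sum.inl ())) ≠ 0 ∧ (∀ i, QuadraticMap.polar ⇑Q (b (Sum.inl ())) (b (Sum.inr (Sum.inl i))) = 0 ∧ QuadraticMap.polar ⇑Q (b (Sum.inl ())) (b (Sum.inr (Sum.inr i))) = 0) ∧ (∀ i, Q (b (Sum.inr (Sum.inl i))) = 0 ∧ Q (b (Sum.inr (Sum.inr i))) = 0) ∧ (∀ i j, QuadraticMap.polar ⇑Q (b (Sum.inr (Sum.inl i))) (b (Sum.inr (Sum.inr j))) = if i = j then 1 else 0) ∧ (∀ i j, QuadraticMap.polar ⇑Q (b (Sum.inr (Sum.inl i))) (b (Sum.inr (Sum.inl j))) = 0 ∧ QuadraticMap.polar ⇑Q (b (Sum.inr (Sum.inr i)))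 (b (Sum.inr (Sum.inr j))) = 0) := by
  obtain ⟨k, e, f, h, han⟩ := witt_fin Q hQ
  have hd := h.finrank_perp
  rw [Fintype.card_fin, hV] at hd
  have hle := finrank_le_two_of_anisotropic Q _ han
  have hef : ∀ i j, QuadraticMap.polar ⇑Q (e i) (f j) = if i = j then 1 else 0 := by
    intro i j
    split_ifs with hij
    · subst hij; exact h.ef i
    · exact h.ef' i j hij
  have h1 : finrank F (perp Q e f) = 1 := by omega
  have hk : k = m := by omega
  subst hk
  obtain ⟨x, hx0, -⟩ := finrank_eq_one_iff'.1 h1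
  have hx0' : (x : V) ≠ 0 := fun hh => hx0 (Subtype.ext hh)
  have hli0 : LinearIndependent F (fun _ : Unit => (x : V)) := LinearIndependent.of_subsingleton () hx0'
  have hli := h.linearIndependent Q (fun _ : Unit => (x : V)) (fun _ => x.2) hli0
  let b0 := basisOfLinearIndependentOfCardEqFinrank hli (by rw [hV]; simp; omega)
  have hb0 : ∀ s, b0 s = Sum.elim (Sum.elim e f) (fun _ : Unit => (x : V)) s := fun s => by
    simp [b0]
  let b := b0.reindex (Equiv.sumComm _ _)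
  have hb1 : b (Sum.inl ()) = x := by
    simp [b, hb0]
  have hb2 : ∀ i, b (Sum.inr (Sum.inl i)) = e i := by
    intro i; simp [b, hb0]
  have hb3 : ∀ i, b (Sum.inr (Sum.inr i)) = f i := by
    intro i; simp [b, hb0]
  refine ⟨b, ?_, ?_, ?_, ?_, ?_⟩
  · rw [hb1]
    intro hq
    exact hx0' (han x.1 x.2 hq)
  · intro i
    rw [hb1, hb2, hb3, QuadraticMap.polar_comm, QuadraticMap.polar_comm _ _ (f i)]
    exact (mem_perp Q e f _).1 x.2 i
  · intro i
    rw [hb2, hb3]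
    exact ⟨h.qe i, h.qf i⟩
  · intro i j
    rw [hb2, hb3]
    exact hef i j
  · intro i j
    rw [hb2, hb2, hb3, hb3]
    exact ⟨h.ee i j, h.ff i j⟩

end Cfsg.Agent.S2618
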