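import Cfsg.Statements.S2619

set_option autoImplicit false
open Cfsg

namespace Cfsg.Agent.S2619

theorem uniq {F V ι : Type*} [Field F] [AddCommGroup V] [Module F V] (b : Module.Basis ι F V)
    (Q Q' : QuadraticForm F V) (hpol : QuadraticMap.polarBilin Q = QuadraticMap.polarBilin Q')
    (hb : ∀ i, Q (b i) = Q' (b i)) : Q = Q' := by
  have hpol' : ∀ x y, QuadraticMap.polar Q x y = QuadraticMap.polar Q' x y := by
    intro x y
    have := congrArg (fun B : LinearMap.BilinForm F V => B x y) hpol
    simpa using this
  let S : Submodule F V :=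
    { carrier := {x | Q x = Q' x}
      add_mem' := by
        intro x y hx hy
        have h1 := hpol' x y
        simp only [QuadraticMap.polar, Set.mem_setOf_eq] at h1 hx hy ⊢
        rw [hx, hy] at h1
        linear_combination h1
      zero_mem' := by simp
      smul_mem' := by
        intro a x hx
        simp only [Set.mem_setOf_eq] at hx ⊢
        rw [QuadraticMap.map_smul, QuadraticMap.map_smul, hx] }
  have hS : S = ⊤ := by
    rw [eq_top_iff, ← b.span_eq, Submodule.span_le]
    rintro _ ⟨i, rfl⟩
    exact hb i
  ext x
  have : x ∈ S := by rw [hS]; trivial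
  exact this

theorem result {F V ι : Type*} [Field F] [Finite F] [CharP F 2] [AddCommGroup V] [Module F V] [Fintype ι] (b : Module.Basis ι F V) (B : LinearMap.BilinForm F V) (hB : B.IsAlt) (c : ι → F) : ∃! Q : QuadraticForm F V, QuadraticMap.polarBilin Q = B ∧ ∀ i, Q (b i) = c i := by
  classical
  letI : LinearOrder ι := linearOrderOfSTO WellOrderingRel
  set M : Matrix ι ι F := Matrix.of (fun i j => if i < j then B (b i) (b j) else if i = j then c i else 0) with hM
  set A : LinearMap.BilinForm F V := Matrix.toBilin b M with hA
  have hAb : ∀ i j, A (b i) (b j) = M i j := by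
    intro i j
    have := LinearMap.BilinForm.toMatrix_apply b A i j
    rw [← this, hA, LinearMap.BilinForm.toMatrix_toBilin]
  refine ⟨LinearMap.BilinMap.toQuadraticMap A, ⟨?_, ?_⟩, ?_⟩
  · apply b.ext
    intro i
    apply b.ext
    intro j
    rw [QuadraticMap.polarBilin_apply_apply, LinearMap.BilinMap.polar_toQuadraticMap, hAb, hAb]
    simp only [hM, Matrix.of_apply]
    rcases lt_trichotomy i j with h | h | h
    · simp [h, not_lt_of_gt h, (ne_of_lt h).symm]
    · subst h
      simp [hB (b i), CharTwo.add_self_eq_zero]
    · rw [if_neg (not_lt_of_gt h), if_neg (ne_of_gt h), if_pos h, zero_add]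
      have := hB.neg_eq (b i) (b j)
      rw [← this, CharTwo.neg_eq]
  · intro i
    rw [LinearMap.BilinMap.toQuadraticMap_apply, hAb]
    simp [hM]
  · rintro Q' ⟨hQ1, hQ2⟩
    apply uniq b
    · rw [hQ1]
      apply b.ext
      intro i
      apply b.ext
      intro j
      rw [QuadraticMap.polarBilin_apply_apply, LinearMap.BilinMap.polar_toQuadraticMap, hAb, hAb]
      simp only [hM, Matrix.of_apply]
      rcases lt_trichotomy i j with h | h | h
      · simp [h, not_lt_of_gt h, (ne_of_lt h).symm]
      · subst h
        simp [hB (b i), CharTwo.add_self_eq_zero]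
      · rw [if_neg (not_lt_of_gt h), if_neg (ne_of_gt h), if_pos h, zero_add]
        have := hB.neg_eq (b i) (b j)
        rw [← this, CharTwo.neg_eq]
    · intro i
      rw [hQ2, LinearMap.BilinMap.toQuadraticMap_apply, hAb]
      simp [hM]

end Cfsg.Agent.S2619
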