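import Cfsg.Statements.S2620
import Cfsg.Agent.Lib.Helper5_QFDisc

set_option autoImplicit false

open Cfsg

namespace Cfsg.Agent.S2620

open Cfsg.Agent.Lib.Helper5_QFDisc Cfsg.Agent.Lib.Helper5_QFStd

theorem result {F : Type*} [Field F] [Fintype F] {q : ℕ} (hF : Fintype.card F = q) (hq : Odd q) {m : ℕ} (hm : 1 ≤ m) {ι : Type*} [Fintype ι] [DecidableEq ι] (b : Module.Basis ι F (Fin m ⊕ Fin m → F)) : IsSquare (Matrix.of (fun i j : ι => QuadraticMap.polar (Cfsg.quadFormPlus m F) (b i) (b j))).det ↔ Even (m * (q - 1) / 2) := by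
  have h := isSquare_gram_iff (qPlus m F).polarBilin (Pi.basisFun F (Fin m ⊕ Fin m)) b
  rw [det_gramPlus, isSquare_neg_one_pow hF hq] at h
  exact h

end Cfsg.Agent.S2620
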