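import Cfsg.Statements.S2621
import Cfsg.Agent.Lib.Helper5_QFDisc

set_option autoImplicit false

open Cfsg

namespace Cfsg.Agent.S2621

open Cfsg.Agent.Lib.Helper5_QFDisc Cfsg.Agent.Lib.Helper5_QFStd

theorem result {F : Type*} [Field F] [Fintype F] {q : ℕ} (hF : Fintype.card F = q) (hq : Odd q) {m : ℕ} (hm : 1 ≤ m) (a c : F) (hac : ∀ z₁ z₂ : F, z₁ ^ 2 + a * z₁ * z₂ + c * z₂ ^ 2 = 0 → z₁ = 0 ∧ z₂ = 0) {ι : Type*} [Fintype ι] [DecidableEq ι] (b : Module.Basis ι F ((Fin (m - 1) ⊕ Fin (m - 1)) ⊕ Fin 2 → F)) : IsSquare (Matrix.of (fun i j : ι => QuadraticMap.polar (Cfsg.quadFormMinus (m - 1) F a c) (b i) (b j))).det ↔ ¬ Even (m * (q - 1) / 2) := by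
  have h2 : (2 : F) ≠ 0 := by
    intro h
    have hc : ringChar F = 2 := by
      have : ringChar F ∣ 2 := (ringChar.spec F 2).1 (by exact_mod_cast h)
      rcases (Nat.dvd_prime Nat.prime_two).1 this with h' | h'
      · exact absurd h' (CharP.ringChar_ne_one)
      · exact h'
    have := FiniteField.even_card_of_char_two hc
    rw [hF] at this
    exact (Nat.not_even_iff_odd.2 hq) (Nat.even_iff.2 this)
  have h := isSquare_gram_iff (qMinus (m - 1) F a c).polarBilin (Pi.basisFun F _) b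
  rw [det_gramMinus, Nat.sub_add_cancel hm,
    isSquare_mul_nonsquare h2 (pow_ne_zero _ (neg_ne_zero.2 one_ne_zero)) (not_isSquare_disc h2 a c hac),
    isSquare_neg_one_pow hF hq] at h
  have e : (⇑(qMinus (m - 1) F a c) : _ → F) = Cfsg.quadFormMinus (m - 1) F a c := by
    funext v; exact qMinus_apply _ _ _ _ v
  simp only [QuadraticMap.polarBilin_apply_apply, e] at h
  exact h

end Cfsg.Agent.S2621
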