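import Cfsg.Statements.S2622

set_option autoImplicit false

open Cfsg

namespace Cfsg.Agent.S2622

open Module

variable {F V : Type*} [Field F] [AddCommGroup V] [Module F V] [FiniteDimensional F V]
variable (B : LinearMap.BilinForm F V)

/-- the orthogonal complement of a vector inside `W` -/
def cut (W : Submodule F V) (v : V) : Submodule F V := W ⊓ LinearMap.ker (B v)

omit [FiniteDimensional F V] in
theorem mem_cut (W : Submodule F V) (v x : V) : x ∈ cut B W v ↔ x ∈ W ∧ B v x = 0 := by
  simp [cut]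

omit [FiniteDimensional F V] in
theorem cut_nondeg (hS : ∀ x y, B x y = B y x) (W : Submodule F V)
    (hW : ∀ x ∈ W, (∀ y ∈ W, B x y = 0) → x = 0) (v : V) (hv : v ∈ W) (hvv : B v v ≠ 0) :
    ∀ x ∈ cut B W v, (∀ y ∈ cut B W v, B x y = 0) → x = 0 := by
  intro x hx hxy
  rw [mem_cut] at hx
  apply hW x hx.1
  intro y hy
  have h1 : y - (B v y / B v v) • v ∈ cut B W v := by
    rw [mem_cut]
    refine ⟨W.sub_mem hy (W.smul_mem _ hv), ?_⟩
    rw [map_sub, map_smul, smul_eq_mul]
    field_simp
    ring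
  have h3 := hxy _ h1
  rw [map_sub, map_smul, hS x v, hx.2] at h3
  simpa using h3

theorem finrank_cut (W : Submodule F V) (v : V) (hv : v ∈ W) (hvv : B v v ≠ 0) :
    finrank F (cut B W v) + 1 = finrank F W := by
  let φ : W →ₗ[F] F := (B v).comp W.subtype
  have hsurj : LinearMap.range φ = ⊤ := by
    apply LinearMap.range_eq_top.2
    intro c
    refine ⟨(c / B v v) • ⟨v, hv⟩, ?_⟩
    simp only [φ, map_smul, LinearMap.comp_apply, Submodule.subtype_apply, smul_eq_mul]
    field_simp
  have h1 := LinearMap.finrank_range_add_finrank_ker φ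
  rw [hsurj, finrank_top, finrank_self] at h1
  have h3 : finrank F (LinearMap.ker φ) = finrank F (cut B W v) := by
    have : (LinearMap.ker φ).map W.subtype = cut B W v := by
      ext x
      simp only [Submodule.mem_map, LinearMap.mem_ker, mem_cut, φ, LinearMap.comp_apply,
        Submodule.subtype_apply, Subtype.exists, exists_and_right, exists_eq_right]
      constructor
      · rintro ⟨h, h'⟩; exact ⟨h, h'⟩
      · rintro ⟨h, h'⟩; exact ⟨h, h'⟩
    rw [← this]
    exact (LinearEquiv.finrank_eq (Submodule.equivMapOfInjective _ W.injective_subtype _))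
  omega

theorem exists_orthonormal [Finite F] [CharP F 2] (hS : ∀ x y, B x y = B y x) (k : ℕ) : ∀ (W : Submodule F V)
    (_ : ∀ x ∈ W, (∀ y ∈ W, B x y = 0) → x = 0) (_ : finrank F W = k) (_ : k = 0 ∨ ∃ v ∈ W, B v v ≠ 0),
    ∃ (b : Fin k → V), (∀ i, b i ∈ W) ∧ (∀ i j, B (b i) (b j) = if i = j then 1 else 0) := by
  have h20 : (2 : F) = 0 := by exact_mod_cast CharP.cast_eq_zero F 2
  induction k with
  | zero =>
    intro W hW hdim _
    exact ⟨Fin.elim0, fun i => i.elim0, fun i => i.elim0⟩
  | succ k ih =>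
    intro W hW hdim hna
    obtain ⟨v₀, hv₀, hvv₀⟩ : ∃ v ∈ W, B v v ≠ 0 := by
      rcases hna with h | h
      · omega
      · exact h
    -- normalise
    obtain ⟨v, hv, hvv⟩ : ∃ v ∈ W, B v v = 1 := by
      have := Fintype.ofFinite F
      obtain ⟨r, hr⟩ := FiniteField.isSquare_of_char_two (F := F) (ringChar.eq F 2) (B v₀ v₀)
      have hr0 : r ≠ 0 := by rintro rfl; exact hvv₀ (by rw [hr]; simp)
      refine ⟨r⁻¹ • v₀, W.smul_mem _ hv₀, ?_⟩
      rw [map_smul, map_smul, LinearMap.smul_apply, hr, smul_eq_mul, smul_eq_mul]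
      field_simp
    -- choose a good v
    obtain ⟨v', hv', hvv', hgood⟩ : ∃ v ∈ W, B v v = 1 ∧ (k = 0 ∨ ∃ u ∈ cut B W v, B u u ≠ 0) := by
      by_cases hk : k = 0
      · exact ⟨v, hv, hvv, Or.inl hk⟩
      by_cases halt : ∃ u ∈ cut B W v, B u u ≠ 0
      · exact ⟨v, hv, hvv, Or.inr halt⟩
      push Not at halt
      have hv1 : B v v ≠ 0 := by rw [hvv]; exact one_ne_zero
      have hd := finrank_cut B W v hv hv1
      have hnd := cut_nondeg B hS W hW v hv hv1
      obtain ⟨e, he0⟩ : ∃ e : cut B W v, e ≠ 0 := by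
        have : Nontrivial (cut B W v) := Module.nontrivial_of_finrank_pos (R := F) (by omega)
        exact exists_ne 0
      obtain ⟨f₀, hf₀, hef₀⟩ : ∃ f ∈ cut B W v, B e.1 f ≠ 0 := by
        by_contra hcon
        push Not at hcon
        exact he0 (Subtype.ext (hnd e.1 e.2 hcon))
      obtain ⟨f, hf, hef⟩ : ∃ f ∈ cut B W v, B e.1 f = 1 :=
        ⟨(B e.1 f₀)⁻¹ • f₀, (cut B W v).smul_mem _ hf₀, by
          rw [map_smul, smul_eq_mul, inv_mul_cancel₀ hef₀]⟩
      have he := (mem_cut B W v e.1).1 e.2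
      have hf' := (mem_cut B W v f).1 hf
      refine ⟨v + e.1, W.add_mem hv he.1, ?_, Or.inr ⟨v + f, ?_, ?_⟩⟩
      · simp only [map_add, LinearMap.add_apply]
        rw [hvv, he.2, hS e.1 v, he.2, halt e.1 e.2]; simp
      · rw [mem_cut]
        refine ⟨W.add_mem hv hf'.1, ?_⟩
        simp only [map_add, LinearMap.add_apply]
        rw [hvv, hf'.2, hS e.1 v, he.2, hef]
        linear_combination h20
      · simp only [map_add, LinearMap.add_apply]
        rw [hvv, hf'.2, hS f v, hf'.2, halt f hf]; simp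
    have hv1 : B v' v' ≠ 0 := by rw [hvv']; exact one_ne_zero
    have hd := finrank_cut B W v' hv' hv1
    obtain ⟨b, hb, hbb⟩ := ih (cut B W v') (cut_nondeg B hS W hW v' hv' hv1) (by omega) hgood
    refine ⟨Fin.cons v' b, ?_, ?_⟩
    · intro i
      refine Fin.cases ?_ (fun i => ?_) i
      · simpa using hv'
      · simpa using ((mem_cut B W v' _).1 (hb i)).1
    · intro i j
      refine Fin.cases ?_ (fun i => ?_) i <;> refine Fin.cases ?_ (fun j => ?_) j
      · simpa using hvv'
      · simp only [Fin.cons_zero, Fin.cons_succ]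
        rw [((mem_cut B W v' _).1 (hb j)).2, if_neg (Fin.succ_ne_zero j).symm]
      · simp only [Fin.cons_zero, Fin.cons_succ]
        rw [hS, ((mem_cut B W v' _).1 (hb i)).2, if_neg (Fin.succ_ne_zero i)]
      · simp only [Fin.cons_succ, hbb, Fin.succ_inj]

theorem result {F V : Type*} [Field F] [Finite F] [CharP F 2] [AddCommGroup V] [Module F V] [FiniteDimensional F V] {n : ℕ} (hV : Module.finrank F V = n) (B : LinearMap.BilinForm F V) (hS : B.IsSymm) (hB : B.Nondegenerate) (hna : ∃ v : V, B v v ≠ 0) : ∃ b : Module.Basis (Fin n) F V, ∀ i j, B (b i) (b j) = if i = j then 1 else 0 := by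
  obtain ⟨v, hv⟩ := hna
  obtain ⟨b, -, hb⟩ := exists_orthonormal B (fun x y => hS.eq x y) n ⊤
    (fun x _ hx => hB.1 x (fun y => hx y trivial)) (by rw [finrank_top, hV]) (Or.inr ⟨v, trivial, hv⟩)
  have hli : LinearIndependent F b := by
    apply LinearMap.BilinForm.linearIndependent_of_iIsOrtho (B := B)
    · intro s t h
      show B (b s) (b t) = 0
      rw [hb, if_neg h]
    · intro s h
      have : B (b s) (b s) = 0 := h
      rw [hb, if_pos rfl] at this
      exact one_ne_zero this
  have hne : Nonempty (Fin n) := by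
    have hn : n ≠ 0 := by
      rintro rfl
      have : Subsingleton V := Module.finrank_zero_iff.1 hV
      exact hv (by rw [Subsingleton.elim v 0]; simp)
    exact ⟨⟨0, Nat.pos_of_ne_zero hn⟩⟩
  let c := basisOfLinearIndependentOfCardEqFinrank hli (by simp [hV])
  have hc : ∀ s, c s = b s := fun s => by simp [c]
  exact ⟨c, fun i j => by rw [hc, hc]; exact hb i j⟩

end Cfsg.Agent.S2622
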