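import Cfsg.Statements.S2623
import Cfsg.Agent.Lib.Helper5_QFDiag

set_option autoImplicit false

open Cfsg

namespace Cfsg.Agent.S2623

open Cfsg.Agent.Lib.Helper5_QFDisc Cfsg.Agent.Lib.Helper5_QFDiag

theorem result {F : Type*} [Field F] [Fintype F] (h2 : (2 : F) ≠ 0) {n : ℕ} (Q₁ Q₂ : QuadraticForm F (Fin n → F)) (h₁ : (QuadraticMap.polarBilin Q₁).Nondegenerate) (h₂ : (QuadraticMap.polarBilin Q₂).Nondegenerate) : (∃ g : (Fin n → F) ≃ₗ[F] (Fin n → F), ∀ v, Q₂ (g v) = Q₁ v) ↔ IsSquare ((Matrix.of (fun i j : Fin n => QuadraticMap.polar ⇑Q₁ (Pi.single i 1) (Pi.single j 1))).det * (Matrix.of (fun i j : Fin n => QuadraticMap.polar ⇑Q₂ (Pi.single i 1) (Pi.single j 1))).det) := by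
  constructor
  · rintro ⟨g, hg⟩
    obtain ⟨u, hu, h⟩ := gram_det Q₂.polarBilin (Pi.basisFun F (Fin n)) ((Pi.basisFun F (Fin n)).map g)
    have e1 : (Matrix.of fun i j => Q₂.polarBilin (((Pi.basisFun F (Fin n)).map g) i) (((Pi.basisFun F (Fin n)).map g) j))
        = Matrix.of (fun i j : Fin n => QuadraticMap.polar ⇑Q₁ (Pi.single i 1) (Pi.single j 1)) := by
      ext i j
      simp only [Matrix.of_apply, QuadraticMap.polarBilin_apply_apply, QuadraticMap.polar,
        Module.Basis.map_apply, Pi.basisFun_apply, ← map_add, hg]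
    have e2 : (Matrix.of fun i j => Q₂.polarBilin ((Pi.basisFun F (Fin n)) i) ((Pi.basisFun F (Fin n)) j))
        = Matrix.of (fun i j : Fin n => QuadraticMap.polar ⇑Q₂ (Pi.single i 1) (Pi.single j 1)) := by
      ext i j
      simp only [Matrix.of_apply, QuadraticMap.polarBilin_apply_apply, Pi.basisFun_apply]
    rw [e1, e2] at h
    rw [h]
    exact ⟨u * (Matrix.of (fun i j : Fin n => QuadraticMap.polar ⇑Q₂ (Pi.single i 1) (Pi.single j 1))).det, by ring⟩
  · intro h
    apply exists_isometry h2 Q₁ Q₂ h₁ h₂ (Pi.basisFun F (Fin n))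
    simpa only [QuadraticMap.polarBilin_apply_apply, Pi.basisFun_apply] using h

end Cfsg.Agent.S2623
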