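import Cfsg.Statements.S2624
import Cfsg.Agent.Lib.Helper5_QF

set_option autoImplicit false
open Cfsg

namespace Cfsg.Agent.S2624

open Cfsg.Agent.Lib.Helper5_QF Module

theorem norm_surj {F : Type*} [Field F] [Fintype F] (ζ : F) (hζ : ∀ t : F, t ^ 2 + t + ζ ≠ 0) (c : F) :
    ∃ a b : F, a ^ 2 + a * b + ζ * b ^ 2 = c := by
  obtain ⟨v, hv0, hv⟩ := exists_zero_matrix (le_refl 3) (!![1, 1, 0; 0, ζ, 0; 0, 0, -c] : Matrix (Fin 3) (Fin 3) F)
  simp only [Fin.sum_univ_three, Matrix.of_apply, Matrix.cons_val', Matrix.cons_val_zero, Matrix.cons_val_one,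
    Matrix.cons_val] at hv
  have h2 : v 2 ≠ 0 := by
    intro h2
    rw [h2] at hv
    have h1 : v 1 = 0 := by
      by_contra h1
      apply hζ (v 0 / v 1)
      field_simp
      linear_combination hv
    rw [h1] at hv
    have h0 : v 0 = 0 := by
      have : v 0 ^ 2 = 0 := by linear_combination hv
      exact pow_eq_zero_iff (two_ne_zero) |>.1 this
    apply hv0
    funext i
    fin_cases i
    · exact h0
    · exact h1
    · exact h2
  refine ⟨v 0 / v 2, v 1 / v 2, ?_⟩
  field_simp
  linear_combination hv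

theorem result {F : Type*} [Field F] [Fintype F] {n : ℕ} (hn : 2 ≤ n) (he : Even n) (Q : QuadraticForm F (Fin n → F)) (hQ : (QuadraticMap.polarBilin Q).Nondegenerate) (c : F) (hc : c ≠ 0) : ∃ g : (Fin n → F) ≃ₗ[F] (Fin n → F), ∀ v, Q (g v) = c * Q v := by
  obtain ⟨k, e, f, h, han⟩ := witt_fin Q hQ
  have hd := h.finrank_perp
  have hfr : finrank F (Fin n → F) = n := by simp
  rw [Fintype.card_fin, hfr] at hd
  have hle := finrank_le_two_of_anisotropic Q _ han
  obtain ⟨m, hm⟩ := he
  have hcases : finrank F (perp Q e f) = 0 ∨ finrank F (perp Q e f) = 2 := by omega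
  rcases hcases with h0 | h2
  · apply h.exists_similarity Q hQ (fun x : Fin 0 => x.elim0) (fun x : Fin 0 => x.elim0) (fun x => x.elim0)
      (fun x => x.elim0) (linearIndependent_empty_type) ⟨Sum.inl (Sum.inl ⟨0, by omega⟩)⟩
      (by rw [hfr]; simp; omega) c hc (fun x => x.elim0) (fun x => x.elim0)
  · obtain ⟨x, hx, y, hy, hQx, hxy, hirr, hli0⟩ := plane_basis Q _ han (h.perp_nondeg hQ) h2
    obtain ⟨a, b, hab⟩ := norm_surj (Q y) hirr c
    have hg : ∀ j : Fin 2, (![x, y] : Fin 2 → (Fin n → F)) j ∈ perp Q e f := by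
      intro j
      fin_cases j
      · exact hx
      · exact hy
    have hg' : ∀ j : Fin 2, (![a • x + b • y, (-(b * Q y)) • x + (a + b) • y] : Fin 2 → (Fin n → F)) j ∈ perp Q e f := by
      intro j
      fin_cases j
      · exact Submodule.add_mem _ (Submodule.smul_mem _ _ hx) (Submodule.smul_mem _ _ hy)
      · exact Submodule.add_mem _ (Submodule.smul_mem _ _ hx) (Submodule.smul_mem _ _ hy)
    have hyx : Q.polarBilin y x = 1 := by rw [pb_comm, hxy]
    have q0 : Q (a • x + b • y) = c * Q x := by
      rw [map_add', QuadraticMap.map_smul, QuadraticMap.map_smul, hQx, map_smul, map_smul, LinearMap.smul_apply, hxy]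
      simp only [smul_eq_mul]
      linear_combination hab
    have q1 : Q ((-(b * Q y)) • x + (a + b) • y) = c * Q y := by
      rw [map_add', QuadraticMap.map_smul, QuadraticMap.map_smul, hQx, map_smul, map_smul, LinearMap.smul_apply, hxy]
      simp only [smul_eq_mul]
      linear_combination (Q y) * hab
    have p01 : Q.polarBilin (a • x + b • y) ((-(b * Q y)) • x + (a + b) • y) = c * Q.polarBilin x y := by
      simp only [map_add, map_smul, LinearMap.add_apply, LinearMap.smul_apply, pb_self, hxy, hyx, hQx, smul_eq_mul]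
      linear_combination hab
    apply h.exists_similarity Q hQ ![x, y] ![a • x + b • y, (-(b * Q y)) • x + (a + b) • y] hg hg' hli0
      ⟨Sum.inr 0⟩ (by rw [hfr]; simp; omega) c hc
    · intro j
      fin_cases j
      · exact q0
      · exact q1
    · intro i j
      fin_cases i <;> fin_cases j
      · show Q.polarBilin (a • x + b • y) (a • x + b • y) = c * Q.polarBilin x x
        rw [pb_self, pb_self, q0]; ring
      · exact p01
      · show Q.polarBilin ((-(b * Q y)) • x + (a + b) • y) (a • x + b • y) = c * Q.polarBilin y x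
        rw [pb_comm, p01, pb_comm]
      · show Q.polarBilin ((-(b * Q y)) • x + (a + b) • y) ((-(b * Q y)) • x + (a + b) • y) = c * Q.polarBilin y y
        rw [pb_self, pb_self, q1]; ring

end Cfsg.Agent.S2624
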