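import Cfsg.Statements.S2625

set_option autoImplicit false
open Cfsg

namespace Cfsg.Agent.S2625

theorem result {F : Type*} [Field F] [Fintype F] {n : ℕ} (hn : Odd n) (Q : QuadraticForm F (Fin n → F)) (hQ : (QuadraticMap.polarBilin Q).Nondegenerate) (g : (Fin n → F) ≃ₗ[F] (Fin n → F)) (c : F) (hg : ∀ v, Q (g v) = c * Q v) : IsSquare c := by
  classical
  by_cases h2 : ringChar F = 2
  · exact FiniteField.isSquare_of_char_two h2 c
  set B : LinearMap.BilinForm F (Fin n → F) := QuadraticMap.polarBilin Q with hB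
  have hcomp : LinearMap.BilinForm.comp B (g : (Fin n → F) →ₗ[F] (Fin n → F)) (g : (Fin n → F) →ₗ[F] (Fin n → F)) = c • B := by
    refine LinearMap.ext fun u => LinearMap.ext fun v => ?_
    simp only [LinearMap.BilinForm.comp_apply, hB, QuadraticMap.polarBilin_apply_apply, QuadraticMap.polar,
      LinearMap.smul_apply, smul_eq_mul, LinearEquiv.coe_coe, ← map_add, hg]
    ring
  have hdet : (LinearMap.BilinForm.toMatrix' B).det ≠ 0 := by
    have := (LinearMap.BilinForm.nondegenerate_iff_det_ne_zero (Pi.basisFun F (Fin n))).1 hQ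
    rwa [LinearMap.BilinForm.toMatrix_basisFun] at this
  have h1 := congrArg (fun B' => (LinearMap.BilinForm.toMatrix' B').det) hcomp
  simp only [LinearMap.BilinForm.toMatrix'_comp, Matrix.det_mul, Matrix.det_transpose, map_smul, Matrix.det_smul,
    Fintype.card_fin] at h1
  set d := (LinearMap.toMatrix' (g : (Fin n → F) →ₗ[F] (Fin n → F))).det with hd
  have h3 : d * d = c ^ n := by
    apply mul_right_cancel₀ hdet
    rw [← h1]; ring
  obtain ⟨k, rfl⟩ := hn
  by_cases hc : c = 0
  · rw [hc]; exact ⟨0, by simp⟩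
  refine ⟨d / c ^ k, ?_⟩
  field_simp
  rw [← sq] at h3 
  rw [h3]; ring

end Cfsg.Agent.S2625
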