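import Cfsg.Statements.S2626

set_option autoImplicit false
open Cfsg

namespace Cfsg.Agent.S2626

open scoped Matrix

variable {F : Type*} [Field F] {k l : ℕ}

/-- block embedding on the left -/
def blkL (F : Type*) [Field F] (k l : ℕ) : Matrix (Fin k) (Fin k) F →* Matrix (Fin k ⊕ Fin l) (Fin k ⊕ Fin l) F where
  toFun A := Matrix.fromBlocks A 0 0 1
  map_one' := Matrix.fromBlocks_one
  map_mul' A B := by simp [Matrix.fromBlocks_multiply]

def blkR (F : Type*) [Field F] (k l : ℕ) : Matrix (Fin l) (Fin l) F →* Matrix (Fin k ⊕ Fin l) (Fin k ⊕ Fin l) F where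
  toFun A := Matrix.fromBlocks 1 0 0 A
  map_one' := Matrix.fromBlocks_one
  map_mul' A B := by simp [Matrix.fromBlocks_multiply]

def embL (Q₁ : (Fin k → F) → F) (Q₂ : (Fin l → F) → F) :
    ↥(Cfsg.isometryGroup F Q₁) →* ↥(Cfsg.isometryGroup F (fun v : Fin k ⊕ Fin l → F => Q₁ (v ∘ Sum.inl) + Q₂ (v ∘ Sum.inr))) :=
  ((Units.map (blkL F k l)).comp (Cfsg.isometryGroup F Q₁).subtype).codRestrict _ (by
    intro g u _
    have hg := g.2 (u ∘ Sum.inl) 0
    simp only [Units.coeHom_apply] at hg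
    simp only [MonoidHom.comp_apply, Subgroup.subtype_apply, Units.coeHom_apply, Units.coe_map, blkL, MonoidHom.coe_mk, OneHom.coe_mk,
      Matrix.fromBlocks_mulVec, Matrix.zero_mulVec, Matrix.one_mulVec, add_zero, zero_add, Sum.elim_comp_inl, Sum.elim_comp_inr]
    rw [hg])

def embR (Q₁ : (Fin k → F) → F) (Q₂ : (Fin l → F) → F) :
    ↥(Cfsg.isometryGroup F Q₂) →* ↥(Cfsg.isometryGroup F (fun v : Fin k ⊕ Fin l → F => Q₁ (v ∘ Sum.inl) + Q₂ (v ∘ Sum.inr))) :=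
  ((Units.map (blkR F k l)).comp (Cfsg.isometryGroup F Q₂).subtype).codRestrict _ (by
    intro g u _
    have hg := g.2 (u ∘ Sum.inr) 0
    simp only [Units.coeHom_apply] at hg
    simp only [MonoidHom.comp_apply, Subgroup.subtype_apply, Units.coeHom_apply, Units.coe_map, blkR, MonoidHom.coe_mk, OneHom.coe_mk,
      Matrix.fromBlocks_mulVec, Matrix.zero_mulVec, Matrix.one_mulVec, add_zero, zero_add, Sum.elim_comp_inl, Sum.elim_comp_inr]
    rw [hg])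

theorem map_mem_commutator {G H : Type*} [Group G] [Group H] (f : G →* H) (g : G) (hg : g ∈ commutator G) :
    f g ∈ commutator H := by
  have h1 : f g ∈ (commutator G).map f := Subgroup.mem_map_of_mem f hg
  rw [commutator_def, Subgroup.map_commutator] at h1
  exact Subgroup.commutator_mono le_top le_top h1

theorem result {F : Type*} [Field F] [Fintype F] {k l : ℕ} (Q₁ : QuadraticForm F (Fin k → F)) (Q₂ : QuadraticForm F (Fin l → F)) (h₁ : (QuadraticMap.polarBilin Q₁).Nondegenerate) (h₂ : (QuadraticMap.polarBilin Q₂).Nondegenerate) (g₁ : ↥(Cfsg.isometryGroup F ⇑Q₁)) (g₂ : ↥(Cfsg.isometryGroup F ⇑Q₂)) (hg₁ : g₁ ∈ Cfsg.Omega F ⇑Q₁) (hg₂ : g₂ ∈ Cfsg.Omega F ⇑Q₂) : ∃ g : ↥(Cfsg.isometryGroup F (fun v : Fin k ⊕ Fin l → F => Q₁ (v ∘ Sum.inl) + Q₂ (v ∘ Sum.inr))), g ∈ Cfsg.Omega F (fun v : Fin k ⊕ Fin l → F => Q₁ (v ∘ Sum.inl) + Q₂ (v ∘ Sum.inr)) ∧ ((g : Matrix.GeneralLinearGroup (Fin k ⊕ Fin l) F)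 : Matrix (Fin k ⊕ Fin l) (Fin k ⊕ Fin l) F) = Matrix.fromBlocks ((g₁ : Matrix.GeneralLinearGroup (Fin k) F) : Matrix (Fin k) (Fin k) F) 0 0 ((g₂ : Matrix.GeneralLinearGroup (Fin l) F) : Matrix (Fin l) (Fin l) F) := by
  refine ⟨embL (⇑Q₁) (⇑Q₂) g₁ * embR (⇑Q₁) (⇑Q₂) g₂, ?_, ?_⟩
  · exact Subgroup.mul_mem _ (map_mem_commutator _ _ hg₁) (map_mem_commutator _ _ hg₂)
  · simp [embL, embR, blkL, blkR, Matrix.fromBlocks_multiply]

end Cfsg.Agent.S2626
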