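import Cfsg.Statements.S2638
import Cfsg.Agent.Lib.Helper5_IrrCent

set_option autoImplicit false
open Cfsg

namespace Cfsg.Agent.S2638

open Cfsg.Agent.Lib.Helper5_IrrCent Module
open scoped Matrix

variable {F : Type*} [Field F] [Fintype F] {n : ℕ}

theorem modeq (X : Matrix (Fin n) (Fin n) F) (r : ℕ) [Fact r.Prime] (hX : X ^ r = 1)
    (W : Submodule F (Fin n → F)) (hW : ∀ w ∈ W, X *ᵥ w ∈ W) :
    Fintype.card F ^ finrank F W ≡
      Fintype.card F ^ finrank F (W ⊓ LinearMap.ker (X - 1).mulVecLin : Submodule F (Fin n → F)) [MOD r] := by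
  classical
  let f : Function.End W := fun w => ⟨X *ᵥ w.1, hW w.1 w.2⟩
  have hpow : ∀ (k : ℕ) (w : W), (((f ^ k) w : W) : Fin n → F) = (X ^ k) *ᵥ w.1 := by
    intro k
    induction k with
    | zero => intro w; rw [pow_zero, pow_zero, Matrix.one_mulVec]; rfl
    | succ k ih =>
      intro w
      rw [pow_succ', pow_succ']
      show X *ᵥ (((f ^ k) w : W) : Fin n → F) = _
      rw [ih, Matrix.mulVec_mulVec]
  have hf : f ^ r ^ 1 = 1 := by
    funext w
    apply Subtype.ext
    rw [pow_one, hpow, hX, Matrix.one_mulVec]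
    rfl
  have h1 := Equiv.Perm.card_fixedPoints_modEq hf
  have h2 : Fintype.card W = Fintype.card F ^ finrank F W := by
    rw [← Nat.card_eq_fintype_card, Module.natCard_eq_pow_finrank (K := F), Nat.card_eq_fintype_card]
  have h3 : Fintype.card (Function.fixedPoints f) =
      Fintype.card F ^ finrank F (W ⊓ LinearMap.ker (X - 1).mulVecLin : Submodule F (Fin n → F)) := by
    rw [← Nat.card_eq_fintype_card (α := F), ← Module.natCard_eq_pow_finrank (K := F), ← Nat.card_eq_fintype_card]
    refine Nat.card_congr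
      { toFun := fun w => ⟨w.1.1, w.1.2, ?_⟩
        invFun := fun w => ⟨⟨w.1, w.2.1⟩, ?_⟩
        left_inv := fun _ => rfl
        right_inv := fun _ => rfl }
    · have hw : f w.1 = w.1 := w.2
      have hw' : X *ᵥ w.1.1 = w.1.1 := congrArg Subtype.val hw
      rw [SetLike.mem_coe, LinearMap.mem_ker, Matrix.mulVecLin_apply, Matrix.sub_mulVec, hw', Matrix.one_mulVec, sub_self]
    · have hw := w.2.2
      rw [SetLike.mem_coe, LinearMap.mem_ker, Matrix.mulVecLin_apply, Matrix.sub_mulVec, Matrix.one_mulVec, sub_eq_zero] at hw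
      exact Subtype.ext hw
  rw [h2, h3] at h1
  exact h1

theorem result {F : Type*} [Field F] [Fintype F] {p q : ℕ} [Fact p.Prime] [CharP F p] (hF : Fintype.card F = q) {n r : ℕ} (hn : 1 ≤ n) (hr : r.Prime) (hrp : r ≠ p) (hi : orderOf (q : ZMod r) = n) (x : GL (Fin n) F) (hx : orderOf x = r) : IsCyclic ↥(Subgroup.centralizer ({x} : Set (GL (Fin n) F))) ∧ Nat.card ↥(Subgroup.centralizer ({x} : Set (GL (Fin n) F))) = q ^ n - 1 := by
  haveI : Fact r.Prime := ⟨hr⟩
  set X := (x : Matrix (Fin n) (Fin n) F) with hXdef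
  have hX : X ^ r = 1 := by
    rw [hXdef, ← Units.val_pow_eq_pow_val, ← hx, pow_orderOf_eq_one, Units.val_one]
  have hdvd : ∀ a b : ℕ, q ^ a ≡ q ^ b [MOD r] → (q : ZMod r) ^ b = 1 → n ∣ a := by
    intro a b hab hb
    rw [← hi]
    apply orderOf_dvd_of_pow_eq_one
    have := (ZMod.natCast_eq_natCast_iff _ _ _).2 hab
    push_cast at this
    rw [this, hb]
  have hfr : finrank F (Fin n → F) = n := by simp
  -- the fixed space is trivial
  have hU : LinearMap.ker (X - 1).mulVecLin = ⊥ := by
    have h1 := modeq X r hX ⊤ (fun _ _ => trivial)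
    rw [top_inf_eq, finrank_top, hfr, hF] at h1
    have h2 : n ∣ finrank F (LinearMap.ker (X - 1).mulVecLin) :=
      hdvd _ _ h1.symm (by rw [← hi, pow_orderOf_eq_one])
    have h3 : finrank F (LinearMap.ker (X - 1).mulVecLin) ≤ n := by
      have := Submodule.finrank_le (LinearMap.ker (X - 1).mulVecLin)
      rwa [hfr] at this
    by_contra hne
    have h4 : finrank F (LinearMap.ker (X - 1).mulVecLin) ≠ 0 := fun h => hne (Submodule.finrank_eq_zero.1 h)
    have h5 : finrank F (LinearMap.ker (X - 1).mulVecLin) = n :=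
      le_antisymm h3 (Nat.le_of_dvd (Nat.pos_of_ne_zero h4) h2)
    have h6 : LinearMap.ker (X - 1).mulVecLin = ⊤ := Submodule.eq_top_of_finrank_eq (by rw [h5, hfr])
    have h7 : X - 1 = 0 := by
      apply Matrix.mulVec_injective
      funext v
      have : v ∈ LinearMap.ker (X - 1).mulVecLin := by rw [h6]; trivial
      rw [LinearMap.mem_ker, Matrix.mulVecLin_apply] at this
      rw [this, Matrix.zero_mulVec]
    have h8 : x = 1 := Units.ext (sub_eq_zero.1 h7)
    rw [h8, orderOf_one] at hx
    exact hr.one_lt.ne hx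
  have hirr : Irr X := by
    intro W hW
    have h1 := modeq X r hX W hW
    rw [hU, inf_bot_eq, finrank_bot, hF] at h1
    have h2 : n ∣ finrank F W := hdvd _ _ h1 (by simp)
    have h3 : finrank F W ≤ n := by
      have := Submodule.finrank_le W
      rwa [hfr] at this
    by_cases h4 : finrank F W = 0
    · exact Or.inl (Submodule.finrank_eq_zero.1 h4)
    · right
      have h5 : finrank F W = n := le_antisymm h3 (Nat.le_of_dvd (Nat.pos_of_ne_zero h4) h2)
      exact Submodule.eq_top_of_finrank_eq (by rw [h5, hfr])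
  exact ⟨isCyclic_centralizer hn x hirr, by rw [card_centralizer hn x hirr, hF]⟩

end Cfsg.Agent.S2638
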