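import Cfsg.Statements.S2639
import Cfsg.Agent.Lib.Helper5_Herm
import Cfsg.Agent.Lib.Helper5_Transport

set_option autoImplicit false

open Cfsg

namespace Cfsg.Agent.S2639

open Module Cfsg.Agent.Lib.Helper5_FieldExt Cfsg.Agent.Lib.Helper5_Restrict Cfsg.Agent.Lib.Helper5_Transport
  Cfsg.Agent.Lib.Helper5_Herm

theorem result {K F : Type*} [Field K] [Fintype K] [Field F] [Fintype F] {q : ℕ} (hK : Fintype.card K = q ^ 2) (hF : Fintype.card F = q) (m : ℕ) : ∃ φ : ↥(Cfsg.GU m K q) →* ↥(Matrix.symplecticGroup (Fin m) F), Function.Injective φ := by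
  obtain ⟨alg, h2⟩ := exists_algebra hF hK
  subst hF
  obtain ⟨ε, hε, hεc⟩ := exists_skew (F := F) (K := K) h2
  let ρ : ↥(Cfsg.GU m K (Fintype.card F)) →* ((Fin m → K) →ₗ[F] (Fin m → K)) :=
    ((matEnd F (Fin m)).comp (Units.coeHom _)).comp (Cfsg.GU m K (Fintype.card F)).subtype
  apply exists_hom_symplectic (trHerm F ε m) ?_ (trHerm_nondeg F h2 ε hε m) ?_ ρ ?_ ?_
  · intro x
    rw [trHerm_apply]
    apply (algebraMap F K).injective
    rw [algebraMap_trace h2, map_mul, hεc, herm_conj F h2, map_zero]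
    ring
  · rw [finrank_fun, h2, Fintype.card_fin]; ring
  · intro g u v
    rw [trHerm_apply, trHerm_apply]
    congr 2
    exact g.2 u v
  · intro g g' h
    exact Subtype.ext (Units.ext (matEnd_injective F _ h))

end Cfsg.Agent.S2639
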