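import Cfsg.Statements.S2640
import Cfsg.Agent.Lib.Helper5_HermQ
import Cfsg.Agent.Lib.Helper5_Transport

set_option autoImplicit false

open Cfsg

namespace Cfsg.Agent.S2640

open Module Cfsg.Agent.Lib.Helper5_FieldExt Cfsg.Agent.Lib.Helper5_Restrict Cfsg.Agent.Lib.Helper5_Transport
  Cfsg.Agent.Lib.Helper5_Herm Cfsg.Agent.Lib.Helper5_HermQ Cfsg.Agent.Lib.Helper5_QFType

theorem result {K F : Type*} [Field K] [Fintype K] [Field F] [Fintype F] {q : ℕ} (hK : Fintype.card K = q ^ 2) (hF : Fintype.card F = q) (m : ℕ) (hm : Even m) : ∃ φ : ↥(Cfsg.GU m K q) →* ↥(Cfsg.isometryGroup F (Cfsg.quadFormPlus m F)), Function.Injective φ := by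
  obtain ⟨alg, h2⟩ := exists_algebra hF hK
  subst hF
  obtain ⟨r, rfl⟩ := hm
  obtain ⟨θ, hθ⟩ := exists_theta (F := F) (K := K)
  obtain ⟨e, f, h⟩ := exists_hyp_even h2 hθ r
  obtain ⟨b, -, -, hb⟩ := plus_basis_of_hyp (nQ F θ (r + r)) (by rw [finrank_fun, h2, Fintype.card_fin]; ring) h
  let ρ : ↥(Cfsg.GU (r + r) K (Fintype.card F)) →* ((Fin (r + r) → K) →ₗ[F] (Fin (r + r) → K)) :=
    ((matEnd F (Fin (r + r))).comp (Units.coeHom _)).comp (Cfsg.GU (r + r) K (Fintype.card F)).subtype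
  apply exists_hom_isometry (nQ F θ (r + r)) _ b hb ρ
  · intro g v
    rw [nQ_apply, nQ_apply]
    congr 2
    exact g.2 v v
  · intro g g' h
    exact Subtype.ext (Units.ext (matEnd_injective F _ h))

end Cfsg.Agent.S2640
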