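import Cfsg.Statements.S2641
import Cfsg.Agent.Lib.Helper5_HermQ
import Cfsg.Agent.Lib.Helper5_FieldExt2
import Cfsg.Agent.Lib.Helper5_Transport

set_option autoImplicit false

open Cfsg

namespace Cfsg.Agent.S2641

open Module Cfsg.Agent.Lib.Helper5_FieldExt Cfsg.Agent.Lib.Helper5_FieldExt2 Cfsg.Agent.Lib.Helper5_Restrict
  Cfsg.Agent.Lib.Helper5_Transport Cfsg.Agent.Lib.Helper5_Herm Cfsg.Agent.Lib.Helper5_HermQ
  Cfsg.Agent.Lib.Helper5_QFType Cfsg.Agent.Lib.Helper5_QF

variable {F K : Type*} [Field F] [Fintype F] [Field K] [Fintype K] [Algebra F K]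

/-- extension by zero -/
def ext0 {n : ℕ} (w : Fin n → K) : Fin (n + 1) → K := Fin.snoc (α := fun _ => K) w 0

theorem herm_ext0 {n : ℕ} (u v : Fin n → K) : herm F (ext0 u) (ext0 v) = herm F u v := by
  unfold herm
  rw [Fin.sum_univ_castSucc]
  simp [ext0]

theorem ext0_last {n : ℕ} (u : Fin n → K) : ext0 u (Fin.last n) = 0 := by
  simp [ext0]

theorem result {K F : Type*} [Field K] [Fintype K] [Field F] [Fintype F] {q : ℕ} (hK : Fintype.card K = q ^ 2) (hF : Fintype.card F = q) (m : ℕ) (hm : Odd m) (a b : F) (hab : ∀ z₁ z₂ : F, z₁ ^ 2 + a * z₁ * z₂ + b * z₂ ^ 2 = 0 → z₁ = 0 ∧ z₂ = 0) : ∃ φ : ↥(Cfsg.GU m K q) →* ↥(Cfsg.isometryGroup F (Cfsg.quadFormMinus (m - 1) F a b)), Function.Injective φ := by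
  obtain ⟨alg, h2⟩ := exists_algebra hF hK
  subst hF
  obtain ⟨r, hr⟩ := hm
  obtain rfl : m = r + r + 1 := by omega
  show ∃ φ : ↥(Cfsg.GU (r + r + 1) K (Fintype.card F)) →* ↥(Cfsg.isometryGroup F (Cfsg.quadFormMinus (r + r) F a b)), Function.Injective φ
  obtain ⟨θ, hθ⟩ := exists_theta (F := F) (K := K)
  obtain ⟨e, f, h⟩ := exists_hyp_even h2 hθ r
  obtain ⟨ω, hω1, hω2, hω3⟩ := exists_trace_norm (F := F) (K := K) h2 a b (by
    intro t ht
    have := hab (-t) 1 (by linear_combination ht)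
    exact one_ne_zero this.2)
  have hq : ∀ w : Fin (r + r) → K, nQ F θ (r + r + 1) (ext0 w) = nQ F θ (r + r) w := by
    intro w
    rw [nQ_apply, nQ_apply, herm_ext0]
  have hp : ∀ u v : Fin (r + r) → K, (nQ F θ (r + r + 1)).polarBilin (ext0 u) (ext0 v) = (nQ F θ (r + r)).polarBilin u v := by
    intro u v
    rw [nQ_polar h2 hθ, nQ_polar h2 hθ, herm_ext0]
  have h' : Hyp (nQ F θ (r + r + 1)) (fun i => ext0 (e i)) (fun i => ext0 (f i)) := by
    constructor
    · intro i; rw [hq]; exact h.qe i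
    · intro i; rw [hq]; exact h.qf i
    · intro i; rw [hp]; exact h.ef i
    · intro i j hij; rw [hp]; exact h.ef' i j hij
    · intro i j; rw [hp]; exact h.ee i j
    · intro i j; rw [hp]; exact h.ff i j
  have hperp : ∀ c : K, (Pi.single (Fin.last (r + r)) c : Fin (r + r + 1) → K) ∈
      perp (nQ F θ (r + r + 1)) (fun i => ext0 (e i)) (fun i => ext0 (f i)) := by
    intro c
    rw [mem_perp]
    intro i
    constructor
    · rw [nQ_polar h2 hθ, herm_single_right, ext0_last, zero_mul, map_zero]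
    · rw [nQ_polar h2 hθ, herm_single_right, ext0_last, zero_mul, map_zero]
  have hli0 : LinearIndependent F ![(Pi.single (Fin.last (r + r)) 1 : Fin (r + r + 1) → K), Pi.single (Fin.last (r + r)) ω] := by
    rw [LinearIndependent.pair_iff]
    intro s t hst
    have h1 := congrFun hst (Fin.last (r + r))
    simp only [Pi.add_apply, Pi.smul_apply, Pi.single_eq_same, Pi.zero_apply] at h1
    rw [Algebra.smul_def, Algebra.smul_def, mul_one] at h1
    have ht : t = 0 := by
      by_contra ht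
      apply hω3 (-s / t)
      have ht' : algebraMap F K t ≠ 0 := by simpa using ht
      rw [map_div₀, map_neg, div_eq_iff ht']
      linear_combination -h1
    subst ht
    refine ⟨?_, rfl⟩
    simpa using h1
  obtain ⟨bas, hbas⟩ := minus_basis_of_hyp (nQ F θ (r + r + 1)) (by rw [finrank_fun, h2, Fintype.card_fin]; ring) h'
    (Pi.single (Fin.last (r + r)) 1) (Pi.single (Fin.last (r + r)) ω) (hperp 1) (hperp ω) hli0 a b
    (by
      apply (algebraMap F K).injective
      rw [algebraMap_nQ h2 hθ, herm_single_left]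
      simp)
    (by
      apply (algebraMap F K).injective
      rw [nQ_polar h2 hθ, herm_single_left, Pi.single_eq_same, one_mul, trace_conj h2, algebraMap_trace h2, hω1])
    (by
      apply (algebraMap F K).injective
      rw [algebraMap_nQ h2 hθ, herm_single_left, Pi.single_eq_same, hω2])
  let ρ : ↥(Cfsg.GU (r + r + 1) K (Fintype.card F)) →* ((Fin (r + r + 1) → K) →ₗ[F] (Fin (r + r + 1) → K)) :=
    ((matEnd F (Fin (r + r + 1))).comp (Units.coeHom _)).comp (Cfsg.GU (r + r + 1) K (Fintype.card F)).subtype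
  apply exists_hom_isometry (nQ F θ (r + r + 1)) _ bas hbas ρ
  · intro g v
    rw [nQ_apply, nQ_apply]
    congr 2
    exact g.2 v v
  · intro g g' h
    exact Subtype.ext (Units.ext (matEnd_injective F _ h))

end Cfsg.Agent.S2641
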