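import Cfsg.Statements.S2667

set_option autoImplicit false
open Cfsg

namespace Cfsg.Agent.S2667

theorem pow_fix {X : Type*} [Group X] (σ : MulAut X) (h : X) (hh : σ h = h) (e : ℕ) : (σ ^ e) h = h := by
  induction e with
  | zero => simp
  | succ n ih => rw [pow_succ, MulAut.mul_apply, hh, ih]

theorem result {X : Type*} [Group X] (σ : MulAut X) (e : ℕ) (he : 1 ≤ e)
    (g : X) (hg : g ∈ (MulEquiv.toMonoidHom (σ ^ e)).eqLocus (MonoidHom.id X)) (a : X) (ha : g = a * (σ a)⁻¹) (k : X) :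
    (k ∈ (MulEquiv.toMonoidHom (σ ^ e)).eqLocus (MonoidHom.id X) ∧ k * g * (σ k)⁻¹ = g) ↔
      (a⁻¹ * k * a ∈ (MulEquiv.toMonoidHom σ).eqLocus (MonoidHom.id X) ∧
        (a⁻¹ * k * a) * (((σ ^ e) a)⁻¹ * a) = (((σ ^ e) a)⁻¹ * a) * (a⁻¹ * k * a)) := by
  have mem1 : ∀ (τ : MulAut X) (y : X), y ∈ (MulEquiv.toMonoidHom τ).eqLocus (MonoidHom.id X) ↔ τ y = y := by
    intro τ y; exact Iff.rfl
  rw [mem1, mem1]
  have key : k * g * (σ k)⁻¹ = g ↔ σ (a⁻¹ * k * a) = a⁻¹ * k * a := by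
    subst ha
    simp only [map_mul, map_inv]
    constructor
    · intro h
      have : k * a = a * (σ a)⁻¹ * σ k * σ a := by
        calc k * a = (k * (a * (σ a)⁻¹) * (σ k)⁻¹) * σ k * σ a := by group
          _ = a * (σ a)⁻¹ * σ k * σ a := by rw [h]
      calc (σ a)⁻¹ * σ k * σ a = a⁻¹ * (a * (σ a)⁻¹ * σ k * σ a) := by group
        _ = a⁻¹ * k * a := by rw [← this]; group
    · intro h
      calc k * (a * (σ a)⁻¹) * (σ k)⁻¹ = a * (a⁻¹ * k * a) * (σ a)⁻¹ * (σ k)⁻¹ := by group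
        _ = a * (σ a)⁻¹ := by rw [← h]; group
  rw [key]
  constructor
  · rintro ⟨hk, hh⟩
    refine ⟨hh, ?_⟩
    have h2 := pow_fix σ _ hh e
    simp only [map_mul, map_inv] at h2
    rw [hk] at h2
    calc a⁻¹ * k * a * (((σ ^ e) a)⁻¹ * a) = (((σ ^ e) a)⁻¹ * k * (σ ^ e) a) * (((σ ^ e) a)⁻¹ * a) := by rw [h2]
      _ = ((σ ^ e) a)⁻¹ * a * (a⁻¹ * k * a) := by group
  · rintro ⟨hh, hc⟩
    refine ⟨?_, hh⟩
    have h2 := pow_fix σ _ hh e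
    simp only [map_mul, map_inv] at h2
    have h3 : ((σ ^ e) a)⁻¹ * (σ ^ e) k * (σ ^ e) a * (((σ ^ e) a)⁻¹ * a) = ((σ ^ e) a)⁻¹ * a * (a⁻¹ * k * a) := by
      rw [h2]; exact hc
    have h4 : ((σ ^ e) a)⁻¹ * ((σ ^ e) k * a) = ((σ ^ e) a)⁻¹ * (k * a) := by
      calc ((σ ^ e) a)⁻¹ * ((σ ^ e) k * a) = ((σ ^ e) a)⁻¹ * (σ ^ e) k * (σ ^ e) a * (((σ ^ e) a)⁻¹ * a) := by group
        _ = ((σ ^ e) a)⁻¹ * a * (a⁻¹ * k * a) := h3
        _ = ((σ ^ e) a)⁻¹ * (k * a) := by group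
    exact mul_right_cancel (mul_left_cancel h4)

end Cfsg.Agent.S2667
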