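import Cfsg.Statements.S2668

set_option autoImplicit false
open Cfsg

namespace Cfsg.Agent.S2668

theorem pow_fix {X : Type*} [Group X] (σ : MulAut X) (h : X) (hh : σ h = h) (e : ℕ) : (σ ^ e) h = h := by
  induction e with
  | zero => simp
  | succ n ih => rw [pow_succ, MulAut.mul_apply, hh, ih]

theorem norm_eq {X : Type*} [Group X] (σ : MulAut X) (a : X) (d : ℕ) :
    ((List.range d).map (fun i => (σ ^ i) (a * (σ a)⁻¹))).prod = a * ((σ ^ d) a)⁻¹ := by
  induction d with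
  | zero => simp
  | succ n ih =>
    rw [List.range_succ, List.map_append, List.prod_append, ih]
    simp only [List.map_cons, List.map_nil, List.prod_cons, List.prod_nil, mul_one, map_mul, map_inv]
    have : (σ ^ n) (σ a) = (σ ^ (n + 1)) a := by
      rw [pow_succ, MulAut.mul_apply]
    rw [this]
    group

theorem result {X : Type*} [Group X] (σ : MulAut X) (e d : ℕ) (he : 1 ≤ e) (hd : 1 ≤ d)
    (g : X) (hg : g ∈ (MulEquiv.toMonoidHom (σ ^ e)).eqLocus (MonoidHom.id X)) (a : X) (ha : g = a * (σ a)⁻¹) :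
    ((List.range d).map (fun i => (σ ^ i) g)).prod = a * ((σ ^ d) a)⁻¹ ∧
      ((List.range d).map (fun i => (σ ^ i) g)).prod ∈ (MulEquiv.toMonoidHom ((σ ^ d) ^ e)).eqLocus (MonoidHom.id X) ∧
      (((σ ^ d) ^ e) a)⁻¹ * a = (((σ ^ e) a)⁻¹ * a) ^ d := by
  have mem1 : ∀ (τ : MulAut X) (y : X), y ∈ (MulEquiv.toMonoidHom τ).eqLocus (MonoidHom.id X) ↔ τ y = y := by
    intro τ y; exact Iff.rfl
  rw [mem1] at hg
  have hτ : (σ ^ d) ^ e = (σ ^ e) ^ d := by rw [← pow_mul, ← pow_mul, mul_comm]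
  refine ⟨by rw [ha]; exact norm_eq σ a d, ?_, ?_⟩
  · rw [mem1, map_list_prod, List.map_map]
    congr 1
    apply List.map_congr_left
    intro i _
    simp only [Function.comp]
    have h1 : ((σ ^ d) ^ e) g = g := by rw [hτ]; exact pow_fix _ _ hg d
    have h2 : ((σ ^ d) ^ e) ((σ ^ i) g) = (σ ^ i) (((σ ^ d) ^ e) g) := by
      rw [← MulAut.mul_apply, ← MulAut.mul_apply, ← pow_mul, ← pow_add, ← pow_add, add_comm]
    rw [h2, h1]
  · -- x is fixed by σ
    set x := ((σ ^ e) a)⁻¹ * a with hx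
    have hσx : σ x = x := by
      rw [hx]
      simp only [map_mul, map_inv]
      rw [ha] at hg
      simp only [map_mul, map_inv] at hg
      have hc : σ ((σ ^ e) a) = (σ ^ e) (σ a) := by
        rw [← MulAut.mul_apply, ← MulAut.mul_apply, ← pow_succ, ← pow_succ']
      rw [hc]
      calc ((σ ^ e) (σ a))⁻¹ * σ a = ((σ ^ e) a)⁻¹ * ((σ ^ e) a * ((σ ^ e) (σ a))⁻¹) * σ a := by group
        _ = ((σ ^ e) a)⁻¹ * a := by rw [hg]; group
    rw [hτ]
    clear hd
    induction d with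
    | zero => simp
    | succ n ih =>
      have h3 : ((σ ^ e) ^ n) x = x := by
        rw [← pow_mul]; exact pow_fix σ x hσx _
      have h4 : ((σ ^ e) ^ n) x = (((σ ^ e) ^ (n + 1)) a)⁻¹ * ((σ ^ e) ^ n) a := by
        rw [hx]
        simp only [map_mul, map_inv]
        rw [← MulAut.mul_apply, ← pow_succ]
      have hτn : (σ ^ n) ^ e = (σ ^ e) ^ n := by rw [← pow_mul, ← pow_mul, mul_comm]
      have ih' := ih hτn
      calc (((σ ^ e) ^ (n + 1)) a)⁻¹ * a = ((((σ ^ e) ^ (n + 1)) a)⁻¹ * ((σ ^ e) ^ n) a) * ((((σ ^ e) ^ n) a)⁻¹ * a) := by group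
        _ = x * x ^ n := by rw [← h4, h3, ih']
        _ = x ^ (n + 1) := by rw [pow_succ']

end Cfsg.Agent.S2668
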