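import Cfsg.Statements.S2669

set_option autoImplicit false
open Cfsg

namespace Cfsg.Agent.S2669

theorem pow_fix {X : Type*} [Group X] (σ : MulAut X) (h : X) (hh : σ h = h) (e : ℕ) : (σ ^ e) h = h := by
  induction e with
  | zero => simp
  | succ n ih => rw [pow_succ, MulAut.mul_apply, hh, ih]

theorem pow_mem {X : Type*} [Group X] (σ : MulAut X) (Y : Subgroup X) (hY : ∀ y : X, y ∈ Y ↔ σ y ∈ Y)
    (e : ℕ) (y : X) (hy : y ∈ Y) : (σ ^ e) y ∈ Y := by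
  induction e with
  | zero => simpa using hy
  | succ n ih => rw [pow_succ', MulAut.mul_apply]; exact (hY _).1 ih

theorem main {X : Type*} [Group X] (σ : MulAut X) (e : ℕ) (G H : Subgroup X)
    (hG : ∀ y, y ∈ G ↔ (σ ^ e) y = y) (hH : ∀ y, y ∈ H ↔ σ y = y)
    (Y : Subgroup X) (hY : ∀ y : X, y ∈ Y ↔ σ y ∈ Y)
    (hYL : ∀ y ∈ Y, ∃ a ∈ Y, y = a * (σ a)⁻¹) (hYLe : ∀ y ∈ Y, ∃ a ∈ Y, y = a * ((σ ^ e) a)⁻¹)
    (a : X) :
    Nat.card {k : ↥G // (k : X)⁻¹ * (a * (σ a)⁻¹) * σ k ∈ Y} * Nat.card ↥(Y ⊓ H) =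
      Nat.card {h : ↥H // (h : X)⁻¹ * (((σ ^ e) a)⁻¹ * a) * h ∈ Y} * Nat.card ↥(Y ⊓ G) := by
  let P := {p : X × X // (σ ^ e) p.1 = p.1 ∧ p.2 ∈ Y ∧ σ (a⁻¹ * p.1 * p.2) = a⁻¹ * p.1 * p.2}
  -- first bijection
  have h1 : Nat.card ({k : ↥G // (k : X)⁻¹ * (a * (σ a)⁻¹) * σ k ∈ Y} × ↥(Y ⊓ H)) = Nat.card P := by
    have hch : ∀ k : {k : ↥G // (k : X)⁻¹ * (a * (σ a)⁻¹) * σ k ∈ Y},
        ∃ y ∈ Y, (k.1.1)⁻¹ * (a * (σ a)⁻¹) * σ k.1.1 = y * (σ y)⁻¹ := by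
      intro k; exact hYL _ k.2
    choose y0 hy0 hy0' using hch
    have hfix0 : ∀ k : {k : ↥G // (k : X)⁻¹ * (a * (σ a)⁻¹) * σ k ∈ Y},
        σ (a⁻¹ * k.1.1 * y0 k) = a⁻¹ * k.1.1 * y0 k := by
      intro k
      have := hy0' k
      simp only [map_mul, map_inv]
      calc (σ a)⁻¹ * σ k.1.1 * σ (y0 k) = a⁻¹ * k.1.1 * ((k.1.1)⁻¹ * (a * (σ a)⁻¹) * σ k.1.1) * σ (y0 k) := by group
        _ = a⁻¹ * k.1.1 * y0 k := by rw [this]; group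
    let f : ({k : ↥G // (k : X)⁻¹ * (a * (σ a)⁻¹) * σ k ∈ Y} × ↥(Y ⊓ H)) → P := fun q =>
      ⟨(q.1.1.1, y0 q.1 * q.2.1), (hG _).1 q.1.1.2, Y.mul_mem (hy0 q.1) q.2.2.1, by
          have hu : σ q.2.1 = q.2.1 := (hH _).1 q.2.2.2
          have := hfix0 q.1
          calc σ (a⁻¹ * q.1.1.1 * (y0 q.1 * q.2.1))
              = σ (a⁻¹ * q.1.1.1 * y0 q.1) * σ q.2.1 := by
                rw [← map_mul]; congr 1; group
            _ = a⁻¹ * q.1.1.1 * (y0 q.1 * q.2.1) := by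
                rw [this, hu]; group⟩
    apply Nat.card_congr
    refine Equiv.ofBijective f ⟨?_, ?_⟩
    · rintro ⟨k, u⟩ ⟨k', u'⟩ hq
      have hq' := congrArg Subtype.val hq
      simp only [f, Prod.mk.injEq] at hq'
      obtain ⟨hk, hu⟩ := hq'
      have hkk : k = k' := Subtype.ext (Subtype.ext hk)
      subst hkk
      have : u = u' := Subtype.ext (mul_left_cancel hu)
      rw [this]
    · rintro ⟨⟨k, y⟩, hk, hy, hfix⟩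
      simp only at hk hy hfix
      have hkA : k⁻¹ * (a * (σ a)⁻¹) * σ k ∈ Y := by
        have : k⁻¹ * (a * (σ a)⁻¹) * σ k = y * (σ y)⁻¹ := by
          simp only [map_mul, map_inv] at hfix
          calc k⁻¹ * (a * (σ a)⁻¹) * σ k = k⁻¹ * a * ((σ a)⁻¹ * σ k * σ y) * (σ y)⁻¹ := by group
            _ = y * (σ y)⁻¹ := by rw [hfix]; group
        rw [this]
        exact Y.mul_mem hy (Y.inv_mem ((hY y).1 hy))
      let kk : {k : ↥G // (k : X)⁻¹ * (a * (σ a)⁻¹) * σ k ∈ Y} := ⟨⟨k, (hG _).2 hk⟩, hkA⟩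
      have hu : (y0 kk)⁻¹ * y ∈ Y ⊓ H := by
        refine ⟨Y.mul_mem (Y.inv_mem (hy0 kk)) hy, ?_⟩
        apply (hH _).2
        have h0' : σ (a⁻¹ * k * y0 kk) = a⁻¹ * k * y0 kk := hfix0 kk
        have e1 : (y0 kk)⁻¹ * y = (a⁻¹ * k * y0 kk)⁻¹ * (a⁻¹ * k * y) := by group
        rw [e1, map_mul, map_inv, hfix, h0']
      refine ⟨(kk, ⟨_, hu⟩), ?_⟩
      apply Subtype.ext
      simp only [f, kk, Prod.mk.injEq, true_and]
      group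
  -- second bijection
  have h2 : Nat.card ({h : ↥H // (h : X)⁻¹ * (((σ ^ e) a)⁻¹ * a) * h ∈ Y} × ↥(Y ⊓ G)) = Nat.card P := by
    have hch : ∀ h : {h : ↥H // (h : X)⁻¹ * (((σ ^ e) a)⁻¹ * a) * h ∈ Y},
        ∃ y ∈ Y, (h.1.1)⁻¹ * (((σ ^ e) a)⁻¹ * a) * h.1.1 = ((σ ^ e) y)⁻¹ * y := by
      intro h
      obtain ⟨c, hc, hcc⟩ := hYLe _ (Y.inv_mem h.2)
      refine ⟨c⁻¹, Y.inv_mem hc, ?_⟩
      have := congrArg (·⁻¹) hcc
      simp only [inv_inv] at this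
      rw [this]; simp
    choose y1 hy1 hy1' using hch
    let f : ({h : ↥H // (h : X)⁻¹ * (((σ ^ e) a)⁻¹ * a) * h ∈ Y} × ↥(Y ⊓ G)) → P := fun q =>
      ⟨(a * q.1.1.1 * (q.2.1 * y1 q.1)⁻¹, q.2.1 * y1 q.1),
        by
          have hu : (σ ^ e) q.2.1 = q.2.1 := (hG _).1 q.2.2.2
          have hh : σ q.1.1.1 = q.1.1.1 := (hH _).1 q.1.1.2
          have hh' := pow_fix σ _ hh e
          have := hy1' q.1
          simp only [map_mul, map_inv, mul_inv_rev]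
          rw [hu, hh']
          calc (σ ^ e) a * q.1.1.1 * (((σ ^ e) (y1 q.1))⁻¹ * (q.2.1)⁻¹)
              = (σ ^ e) a * q.1.1.1 * (((σ ^ e) (y1 q.1))⁻¹ * y1 q.1) * (y1 q.1)⁻¹ * (q.2.1)⁻¹ := by group
            _ = a * q.1.1.1 * ((y1 q.1)⁻¹ * (q.2.1)⁻¹) := by
                rw [← this]; group,
        Y.mul_mem q.2.2.1 (hy1 q.1), by
          have hh : σ q.1.1.1 = q.1.1.1 := (hH _).1 q.1.1.2
          have e1 : a⁻¹ * (a * q.1.1.1 * (q.2.1 * y1 q.1)⁻¹) * (q.2.1 * y1 q.1) = q.1.1.1 := by group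
          rw [e1, hh]⟩
    apply Nat.card_congr
    refine Equiv.ofBijective f ⟨?_, ?_⟩
    · rintro ⟨h, u⟩ ⟨h', u'⟩ hq
      have hq' := congrArg Subtype.val hq
      simp only [f, Prod.mk.injEq] at hq'
      obtain ⟨hk, hu⟩ := hq'
      rw [hu] at hk
      have hk' := mul_left_cancel (mul_right_cancel hk)
      have hkk : h = h' := Subtype.ext (Subtype.ext hk')
      subst hkk
      have : u = u' := Subtype.ext (mul_right_cancel hu)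
      rw [this]
    · rintro ⟨⟨k, y⟩, hk, hy, hfix⟩
      simp only at hk hy hfix
      have hfe := pow_fix σ _ hfix e
      have hB' : (a⁻¹ * k * y)⁻¹ * (((σ ^ e) a)⁻¹ * a) * (a⁻¹ * k * y) = ((σ ^ e) y)⁻¹ * y := by
        simp only [map_mul, map_inv] at hfe
        rw [hk] at hfe
        calc (a⁻¹ * k * y)⁻¹ * (((σ ^ e) a)⁻¹ * a) * (a⁻¹ * k * y)
            = (a⁻¹ * k * y)⁻¹ * (((σ ^ e) a)⁻¹ * k * (σ ^ e) y) * (((σ ^ e) y)⁻¹ * y) := by group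
          _ = ((σ ^ e) y)⁻¹ * y := by rw [hfe]; group
      have hB : (a⁻¹ * k * y)⁻¹ * (((σ ^ e) a)⁻¹ * a) * (a⁻¹ * k * y) ∈ Y := by
        rw [hB']
        exact Y.mul_mem (Y.inv_mem (pow_mem σ Y hY e y hy)) hy
      let hh : {h : ↥H // (h : X)⁻¹ * (((σ ^ e) a)⁻¹ * a) * h ∈ Y} := ⟨⟨a⁻¹ * k * y, (hH _).2 hfix⟩, hB⟩
      have hu : y * (y1 hh)⁻¹ ∈ Y ⊓ G := by
        refine ⟨Y.mul_mem hy (Y.inv_mem (hy1 hh)), ?_⟩
        apply (hG _).2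
        have h0 : (a⁻¹ * k * y)⁻¹ * (((σ ^ e) a)⁻¹ * a) * (a⁻¹ * k * y) = ((σ ^ e) (y1 hh))⁻¹ * y1 hh := hy1' hh
        rw [hB'] at h0
        simp only [map_mul, map_inv]
        calc (σ ^ e) y * ((σ ^ e) (y1 hh))⁻¹ = (σ ^ e) y * (((σ ^ e) (y1 hh))⁻¹ * y1 hh) * (y1 hh)⁻¹ := by group
          _ = y * (y1 hh)⁻¹ := by rw [← h0]; group
      refine ⟨(hh, ⟨_, hu⟩), ?_⟩
      apply Subtype.ext
      simp only [f, hh, Prod.mk.injEq]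
      constructor <;> group
  rw [← Nat.card_prod, ← Nat.card_prod, h1, h2]

theorem result {X : Type*} [Group X] (σ : MulAut X) (e : ℕ) (he : 1 ≤ e)
    [Finite ↥((MulEquiv.toMonoidHom (σ ^ e)).eqLocus (MonoidHom.id X))]
    (Y : Subgroup X) (hY : ∀ y : X, y ∈ Y ↔ σ y ∈ Y)
    (hYL : ∀ y ∈ Y, ∃ a ∈ Y, y = a * (σ a)⁻¹) (hYLe : ∀ y ∈ Y, ∃ a ∈ Y, y = a * ((σ ^ e) a)⁻¹)
    (g : X) (hg : g ∈ (MulEquiv.toMonoidHom (σ ^ e)).eqLocus (MonoidHom.id X)) (a : X) (ha : g = a * (σ a)⁻¹) :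
    Nat.card {k : ↥((MulEquiv.toMonoidHom (σ ^ e)).eqLocus (MonoidHom.id X)) // (k : X)⁻¹ * g * σ k ∈ Y} *
        Nat.card ↥(Y ⊓ (MulEquiv.toMonoidHom σ).eqLocus (MonoidHom.id X)) =
      Nat.card {h : ↥((MulEquiv.toMonoidHom σ).eqLocus (MonoidHom.id X)) // (h : X)⁻¹ * (((σ ^ e) a)⁻¹ * a) * h ∈ Y} *
        Nat.card ↥(Y ⊓ (MulEquiv.toMonoidHom (σ ^ e)).eqLocus (MonoidHom.id X)) := by
  subst ha
  exact main σ e _ _ (fun _ => Iff.rfl) (fun _ => Iff.rfl) Y hY hYL hYLe a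

end Cfsg.Agent.S2669
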