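import Cfsg.Statements.S2678
import Cfsg.Agent.Lib.Helper5_Restrict
import Cfsg.Agent.Lib.Helper5_Transport

set_option autoImplicit false

open Cfsg

namespace Cfsg.Agent.S2678

open Module Cfsg.Agent.Lib.Helper5_FieldExt Cfsg.Agent.Lib.Helper5_Restrict Cfsg.Agent.Lib.Helper5_Transport
  Cfsg.Agent.Lib.Helper5_Symp

theorem result {K F : Type*} [Field K] [Fintype K] [Field F] [Fintype F] {q : ℕ} (hK : Fintype.card K = q ^ 2) (hF : Fintype.card F = q) (a : ℕ) : ∃ φ : ↥(Matrix.symplecticGroup (Fin a) K) →* ↥(Matrix.symplecticGroup (Fin (2 * a)) F), Function.Injective φ := by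
  obtain ⟨alg, h2⟩ := exists_algebra hF hK
  let ρ : ↥(Matrix.symplecticGroup (Fin a) K) →* ((Fin a ⊕ Fin a → K) →ₗ[F] (Fin a ⊕ Fin a → K)) :=
    (matEnd F (Fin a ⊕ Fin a)).comp (Matrix.symplecticGroup (Fin a) K).subtype
  apply exists_hom_symplectic (trBilin F (sB a K)) ?_ (trBilin_nondeg F _ (sB_nondegenerate a K)) ?_ ρ ?_ ?_
  · intro x
    rw [trBilin_apply, sB_self, map_zero]
  · rw [finrank_fun, h2, Fintype.card_sum, Fintype.card_fin]; ring
  · intro g u v
    rw [trBilin_apply, trBilin_apply]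
    congr 1
    exact sB_mulVec g u v
  · intro g g' h
    exact Subtype.ext (matEnd_injective F _ h)

end Cfsg.Agent.S2678
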