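import Cfsg.Statements.S2679
import Cfsg.Agent.Lib.Helper5_FieldExt2
import Cfsg.Agent.Lib.Helper5_Restrict
import Cfsg.Agent.Lib.Helper5_QFType
import Cfsg.Agent.Lib.Helper5_Transport

set_option autoImplicit false

open Cfsg

namespace Cfsg.Agent.S2679

open Module Cfsg.Agent.Lib.Helper5_FieldExt Cfsg.Agent.Lib.Helper5_FieldExt2 Cfsg.Agent.Lib.Helper5_Restrict
  Cfsg.Agent.Lib.Helper5_Transport Cfsg.Agent.Lib.Helper5_QFType Cfsg.Agent.Lib.Helper5_QF
  Cfsg.Agent.Lib.Helper5_QFStd Cfsg.Agent.Lib.Helper5_QFStd2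

variable {F K : Type*} [Field F] [Field K] [Algebra F K]

/-- index type -/
abbrev II (k : ℕ) := (Fin k ⊕ Fin k) ⊕ Fin 2

/-- base change of vectors -/
def lift {k : ℕ} (v : II k → F) : II k → K := fun i => algebraMap F K (v i)

theorem lift_add {k : ℕ} (u v : II k → F) : lift (K := K) (u + v) = lift u + lift v := by
  funext i; simp [lift]

theorem lift_single {k : ℕ} (s : II k) : lift (K := K) (Pi.single s (1 : F)) = Pi.single s 1 := by
  funext i
  by_cases h : i = s
  · subst h; simp [lift]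
  · simp [lift, Pi.single_eq_of_ne h]

theorem q_lift {k : ℕ} (a c : F) (v : II k → F) :
    qMinus k K (algebraMap F K a) (algebraMap F K c) (lift v) = algebraMap F K (qMinus k F a c v) := by
  rw [qMinus_apply, qMinus_apply]
  simp [Cfsg.quadFormMinus, lift]

theorem p_lift {k : ℕ} (a c : F) (u v : II k → F) :
    (qMinus k K (algebraMap F K a) (algebraMap F K c)).polarBilin (lift u) (lift v)
      = algebraMap F K ((qMinus k F a c).polarBilin u v) := by
  simp only [QuadraticMap.polarBilin_apply_apply, QuadraticMap.polar, ← lift_add, q_lift, map_sub]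

theorem mulVec_lift {k : ℕ} (M : Matrix (II k) (II k) F) (v : II k → F) :
    (M.map (algebraMap F K)).mulVec (lift v) = lift (M.mulVec v) := by
  funext i
  exact (RingHom.map_mulVec (algebraMap F K) M v i).symm

theorem result {F K : Type*} [Field F] [Fintype F] [Field K] [Fintype K] {q : ℕ} (hF : Fintype.card F = q) (hK : Fintype.card K = q ^ 2) {m : ℕ} (hm : 1 ≤ m) (a c : F) (hac : ∀ z₁ z₂ : F, z₁ ^ 2 + a * z₁ * z₂ + c * z₂ ^ 2 = 0 → z₁ = 0 ∧ z₂ = 0) : ∃ φ : ↥(Cfsg.isometryGroup F (Cfsg.quadFormMinus (m - 1) F a c)) →* ↥(Cfsg.isometryGroup K (Cfsg.quadFormPlus m K)), Function.Injective φ := by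
  obtain ⟨alg, h2⟩ := exists_algebra hF hK
  obtain ⟨k, rfl⟩ : ∃ k, m = k + 1 := ⟨m - 1, by omega⟩
  show ∃ φ : ↥(Cfsg.isometryGroup F (Cfsg.quadFormMinus k F a c)) →* ↥(Cfsg.isometryGroup K (Cfsg.quadFormPlus (k + 1) K)), Function.Injective φ
  obtain ⟨ω, hω1, hω2, hω3⟩ := exists_trace_norm (F := F) (K := K) h2 a c (by
    intro t ht
    have := hac (-t) 1 (by linear_combination ht)
    exact one_ne_zero this.2)
  set a' := algebraMap F K a with ha'
  set c' := algebraMap F K c with hc'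
  set ω' := conj (F := F) ω with hω'
  let QK := qMinus k K a' c'
  have hne : ω - ω' ≠ 0 := by
    intro h
    obtain ⟨d, hd⟩ := mem_range_of_conj_eq (F := F) ω (sub_eq_zero.1 h).symm
    exact hω3 d hd
  -- vectors in the last plane
  let pl : K → K → (II k → K) := fun z₁ z₂ => Pi.single (Sum.inr 0) z₁ + Pi.single (Sum.inr 1) z₂
  have hpl0 : ∀ z₁ z₂, pl z₁ z₂ (Sum.inr 0) = z₁ := by intro z₁ z₂; simp [pl]
  have hpl1 : ∀ z₁ z₂, pl z₁ z₂ (Sum.inr 1) = z₂ := by intro z₁ z₂; simp [pl]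
  have hpll : ∀ z₁ z₂ s, pl z₁ z₂ (Sum.inl s) = 0 := by intro z₁ z₂ s; simp [pl]
  have hplQ : ∀ z₁ z₂, QK (pl z₁ z₂) = z₁ ^ 2 + a' * z₁ * z₂ + c' * z₂ ^ 2 := by
    intro z₁ z₂
    simp only [QK]
    rw [qMinus_apply]
    simp only [Cfsg.quadFormMinus, hpl0, hpl1, hpll]
    simp
  have hplP : ∀ z₁ z₂ y₁ y₂, QK.polarBilin (pl z₁ z₂) (pl y₁ y₂) = 2 * z₁ * y₁ + a' * (z₁ * y₂ + z₂ * y₁) + 2 * c' * z₂ * y₂ := by
    intro z₁ z₂ y₁ y₂
    simp only [QK]
    rw [qMinus_polar]
    simp only [hpl0, hpl1, hpll]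
    simp
  have hh := hypMinus k K a' c'
  have hplperp : ∀ z₁ z₂, pl z₁ z₂ ∈ perp QK (eM k K) (fM k K) := by
    intro z₁ z₂
    rw [mem_perp]
    intro i
    exact ⟨by rw [polar_eM, hpll], by rw [polar_fM, hpll]⟩
  have hD : QK.polarBilin (pl (-ω) 1) (pl (-ω') 1) = -(ω - ω') ^ 2 := by
    rw [hplP, ← hω1, ← hω2]
    ring
  have hD0 : -(ω - ω') ^ 2 ≠ 0 := neg_ne_zero.2 (pow_ne_zero 2 hne)
  have hext := hh.extend (pl (-ω) 1) ((-(ω - ω') ^ 2)⁻¹ • pl (-ω') 1) (hplperp _ _)
    (Submodule.smul_mem _ _ (hplperp _ _))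
    (by rw [hplQ, ← hω1, ← hω2]; ring)
    (by
      rw [QuadraticMap.map_smul, hplQ]
      have : (-ω') ^ 2 + a' * (-ω') * 1 + c' * 1 ^ 2 = 0 := by rw [← hω1, ← hω2]; ring
      rw [this, smul_zero])
    (by rw [map_smul, hD, smul_eq_mul, inv_mul_cancel₀ hD0])
  have hext' := hext.reindex QK (finSuccEquiv k)
  obtain ⟨b, -, -, hb⟩ := plus_basis_of_hyp QK (by
    rw [Module.finrank_fintype_fun_eq_card]; simp; ring) hext'
  let ρ : ↥(Cfsg.isometryGroup F (Cfsg.quadFormMinus k F a c)) →* ((II k → K) →ₗ[K] (II k → K)) :=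
    (((matEnd K (II k)).comp ((algebraMap F K).mapMatrix : Matrix (II k) (II k) F →+* Matrix (II k) (II k) K).toMonoidHom).comp
      (Units.coeHom _)).comp (Cfsg.isometryGroup F (Cfsg.quadFormMinus k F a c)).subtype
  have hρ : ∀ (g : ↥(Cfsg.isometryGroup F (Cfsg.quadFormMinus k F a c))) (v : II k → K),
      ρ g v = (((g : Matrix.GeneralLinearGroup (II k) F) : Matrix (II k) (II k) F).map (algebraMap F K)).mulVec v :=
    fun g v => rfl
  apply exists_hom_isometry QK _ b hb ρ
  · intro g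
    have hgQ : ∀ v : II k → F, qMinus k F a c (((g : Matrix.GeneralLinearGroup (II k) F) : Matrix (II k) (II k) F).mulVec v) = qMinus k F a c v := by
      intro v
      rw [qMinus_apply, qMinus_apply]
      exact g.2 v v
    have hgP : ∀ u v : II k → F, (qMinus k F a c).polarBilin (((g : Matrix.GeneralLinearGroup (II k) F) : Matrix (II k) (II k) F).mulVec u)
        (((g : Matrix.GeneralLinearGroup (II k) F) : Matrix (II k) (II k) F).mulVec v) = (qMinus k F a c).polarBilin u v := by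
      intro u v
      simp only [QuadraticMap.polarBilin_apply_apply, QuadraticMap.polar, ← Matrix.mulVec_add, hgQ]
    have es : ∀ s : II k, (Pi.single s 1 : II k → K) = lift (Pi.single s (1 : F)) := fun s => (lift_single s).symm
    have key : QK.comp (ρ g) = QK := by
      apply ext_of_basis (Pi.basisFun K (II k))
      · intro s t
        rw [comp_polar, Pi.basisFun_apply, Pi.basisFun_apply, hρ, hρ, es s, es t,
          mulVec_lift, mulVec_lift]
        simp only [QK]
        rw [p_lift, p_lift, hgP]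
      · intro s
        rw [QuadraticMap.comp_apply, Pi.basisFun_apply, hρ, es s, mulVec_lift]
        simp only [QK]
        rw [q_lift, q_lift, hgQ]
    intro v
    conv_rhs => rw [← key]
    rfl
  · intro g g' h
    apply Subtype.ext
    apply Units.ext
    have h1 := matEnd_injective K _ h
    ext i j
    have h3 := congrFun (congrFun h1 i) j
    exact (algebraMap F K).injective h3

end Cfsg.Agent.S2679
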