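import Cfsg.Statements.S2791
import Cfsg.Agent.Lib.Helper4_Frobenius
import Cfsg.Agent.Lib.Helper4_Omega
import Cfsg.Agent.Lib.Helper4_WC2
import Cfsg.Agent.Lib.Helper7_Subnormal

set_option autoImplicit false
open Cfsg

namespace Cfsg.Agent.S2791

open Cfsg.Agent.Lib.Helper4_Syl Cfsg.Agent.Lib.Helper4_Control Cfsg.Agent.Lib.Helper4_Control2
  Cfsg.Agent.Lib.Helper4_Control3 Cfsg.Agent.Lib.Helper4_Alperin Cfsg.Agent.Lib.Helper4_WC2
  Cfsg.Agent.Lib.Helper4_Frobenius Cfsg.Agent.Lib.Helper4_Omega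
open scoped commutatorElement Pointwise

theorem main {G : Type*} [Group G] [Finite G] {p : ℕ} [Fact p.Prime] (S : Sylow p G)
    (A : Subgroup G) (hA : IsMulCommutative ↥A) (hsc : Cfsg.IsStronglyClosed A (S : Subgroup G)) :
    ∀ B c, B ≤ (S : Subgroup G) → lc c B ≤ (S : Subgroup G) →
      Ind (Subgroup.normalizer (A : Set G)) B c := by
  have hS := IsSylIn.of_sylow_top S
  have hP := ind_fusPred (Subgroup.normalizer (A : Set G)) (S : Subgroup G)
  have hAS : A ≤ (S : Subgroup G) := hsc.1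
  have hSA : (S : Subgroup G) ≤ Subgroup.normalizer (A : Set G) := by
    apply le_normalizer_of_conj_mem
    intro s hs a ha
    exact hsc.2 a ha s (Subgroup.mul_mem _ (Subgroup.mul_mem _ hs (hAS ha)) (Subgroup.inv_mem _ hs))
  apply alperin_induction_left S.2 _ hP.trans hP.inv hP.res
  intro T hT
  obtain ⟨c, hc1, hFN⟩ := exists_FN_conj hS (S.2.to_le hT)
  refine ⟨lc c T, hc1, ⟨c, rfl⟩, hFN, ?_⟩
  intro IH y hy
  set U := lc c T with hU
  have hUp : IsPGroup p U := S.2.to_le hc1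
  set U₁ := U ⊓ A with hU₁
  have hNU₁ : Subgroup.normalizer (U : Set G) ≤ Subgroup.normalizer (U₁ : Set G) := by
    apply le_normalizer_of_conj_mem
    intro n hn m hm
    have h1 := conj_mem_of_mem_normalizer hn hm.1
    exact ⟨h1, hsc.2 m hm.2 n (hc1 h1)⟩
  by_cases hAU : A ≤ U
  · refine ⟨y, ?_, fun a _ => rfl⟩
    rw [Cfsg.Agent.Lib.Helper3_Local.mem_normalizer_iff_conj_le]
    intro a ha
    exact hsc.2 a ha y (hc1 (conj_mem_of_mem_normalizer hy (hAU ha)))
  set A₁ := A ⊓ Subgroup.normalizer (U : Set G) with hA₁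
  have hA₁U : ¬ A₁ ≤ U := by
    intro hcon
    have hVp : IsPGroup p (U ⊔ A : Subgroup G) := S.2.to_le (sup_le hc1 hAS)
    have hne : U ≠ U ⊔ A := by
      intro h
      apply hAU
      rw [h]; exact le_sup_right
    obtain ⟨x, hxV, hxU, hxN⟩ := exists_mem_normalizer_not_mem hVp le_sup_left hne
    have hxV' : x ∈ ((U ⊔ A : Subgroup G) : Set G) := hxV
    rw [Subgroup.coe_mul_of_left_le_normalizer_right U A (hc1.trans hSA)] at hxV'
    obtain ⟨u, hu, a, ha, rfl⟩ := hxV'
    apply hxU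
    apply U.mul_mem hu
    apply hcon
    refine ⟨ha, ?_⟩
    have : a = u⁻¹ * (u * a) := by group
    rw [this]
    exact Subgroup.mul_mem _ (Subgroup.inv_mem _ (Subgroup.le_normalizer hu)) hxN
  set K := stab2 U U₁ ⊓ Subgroup.centralizer (U₁ : Set G) with hK
  have hKN : K ≤ Subgroup.normalizer (U : Set G) := fun k hk => hk.1.1
  have hNK : Subgroup.normalizer (U : Set G) ≤ Subgroup.normalizer (K : Set G) :=
    le_normalizer_inf' (le_normalizer_stab2 le_rfl hNU₁) (le_normalizer_centralizer' hNU₁)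
  have hA₁K : A₁ ≤ K := by
    intro a ha
    refine ⟨⟨ha.2, hNU₁ ha.2, fun r hr => ⟨?_, ?_⟩⟩, ?_⟩
    · rw [commutatorElement_def]
      exact U.mul_mem (conj_mem_of_mem_normalizer ha.2 hr) (U.inv_mem hr)
    · have : ⁅a, r⁆ = a * (r * a⁻¹ * r⁻¹) := by rw [commutatorElement_def]; group
      rw [this]
      exact A.mul_mem ha.1 (conj_mem_of_mem_normalizer (hSA (hc1 hr)) (A.inv_mem ha.1))
    · show a ∈ Subgroup.centralizer (U₁ : Set G)
      rw [Subgroup.mem_centralizer_iff]
      intro b hb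
      exact congrArg Subtype.val (hA.is_comm.comm ⟨b, hb.2⟩ ⟨a, ha.1⟩)
  set R := (S : Subgroup G) ⊓ K with hR
  have hRS : IsSylIn p R K := by
    have h1 := Cfsg.Agent.Lib.Helper7_Subnormal.isSylIn_inf_of_normal hFN hKN hNK
    rwa [inf_assoc, inf_eq_right.2 hKN] at h1
  have hcen : ∀ g ∈ K, (orderOf g).Coprime p → g ∈ Subgroup.centralizer (U : Set G) := by
    intro g hg hgc
    exact two_step hUp hgc hg.1.1 hg.2 hg.1.2.2
  obtain ⟨k, hk, hky⟩ := frattini hRS y (mem_normalizer_iff_conj_smul.1 (hNK hy))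
  obtain ⟨u, hu, r, hr, hkur⟩ := exists_mul_of_sylow hRS hcen hk
  set z := r * (k⁻¹ * y) with hz
  have hzU : z ∈ Subgroup.normalizer (U : Set G) :=
    Subgroup.mul_mem _ (hKN hr.2) (Subgroup.mul_mem _ (Subgroup.inv_mem _ (hKN hk)) hy)
  have hzR : z ∈ Subgroup.normalizer (R : Set G) :=
    Subgroup.mul_mem _ (Subgroup.le_normalizer hr) hky
  have hyz : y = u * z := by rw [hz, ← mul_assoc, ← hkur]; group
  have hag : Agree U z y := by
    intro a ha
    have h1 := conj_mem_of_mem_normalizer hzU ha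
    have h2 := Subgroup.mem_centralizer_iff.1 hu _ h1
    rw [hyz]
    calc z * a * z⁻¹ = (z * a * z⁻¹ * u) * u⁻¹ := by group
      _ = (u * (z * a * z⁻¹)) * u⁻¹ := by rw [h2]
      _ = u * z * a * (u * z)⁻¹ := by group
  have hV : U ⊔ R ≤ (S : Subgroup G) := sup_le hc1 inf_le_left
  have hzV : lc z (U ⊔ R) = U ⊔ R := by
    rw [lc_sup, mem_normalizer_iff_lc.1 hzU, mem_normalizer_iff_lc.1 hzR]
  have hlt : U < U ⊔ R := by
    refine lt_of_le_of_ne le_sup_left ?_
    intro h
    apply hA₁U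
    rw [h]
    exact le_trans (le_inf (inf_le_left.trans hAS) hA₁K) le_sup_right
  have h1 := IH (U ⊔ R) z hV (by rw [hzV]; exact hV) (Cfsg.Agent.Lib.Helper3_Comp.card_lt_of_lt hlt)
  have h2 := hP.res (U ⊔ R) U z le_sup_left hV (by rw [hzV]; exact hV) h1
  exact h2.congr hag

/-- Let S be a Sylow p-subgroup of the finite group G and A an abelian subgroup of S that is strongly closed in S with respect to G. Then A controls strong fusion in G: for some Sylow p-subgroup T containing A, whenever a subset of T is conjugated into T by an element of G, the same elementwise conjugation is induced by an element of N_G(A). -/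
theorem result {G : Type*} [Group G] [Finite G] {p : ℕ} [Fact p.Prime] (S : Sylow p G) (A : Subgroup G) (hA : IsMulCommutative ↥A) (hsc : Cfsg.IsStronglyClosed A (S : Subgroup G)) : Cfsg.ControlsStrongFusion p A := by
  refine ⟨S, hsc.1, fun X hX => ⟨hX, fun g hg => ?_⟩⟩
  obtain ⟨x, hx, hag⟩ := main S A hA hsc (Subgroup.closure X) g ((Subgroup.closure_le _).2 hX)
    (lc_closure_le_iff.2 hg)
  exact ⟨x, hx, fun a ha => (hag a (Subgroup.subset_closure ha)).symm⟩

end Cfsg.Agent.S2791
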