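import Mathlib
import Cfsg.Statements.S3375

set_option autoImplicit false
open Cfsg

namespace Cfsg.Agent.S3375

/-- Let γ be an automorphism of order 2 of a finite group H. (i) If γ fixes only the identity, then H is abelian and γ inverts every element. (ii) If γ has exactly two fixed points and H has a subgroup of index 2, then H has a γ-invariant abelian subgroup of index 2 on which γ acts by inversion. -/
theorem result {H : Type*} [Group H] [Finite H] (γ : MulAut H) (hγ : orderOf γ = 2) :
    ((∀ h : H, γ h = h → h = 1) → (∀ a b : H, a * b = b * a) ∧ ∀ h : H, γ h = h⁻¹) ∧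
    ((Nat.card {h : H // γ h = h} = 2 ∧ ∃ M : Subgroup H, M.index = 2) →
      ∃ A : Subgroup H, A.index = 2 ∧ IsMulCommutative A ∧ (∀ a ∈ A, γ a ∈ A) ∧ ∀ a ∈ A, γ a = a⁻¹) := by
  have hsq : ∀ h : H, γ (γ h) = h := by
    intro h
    have : γ ^ 2 = 1 := by rw [← hγ]; exact pow_orderOf_eq_one γ
    have h2 : (γ ^ 2) h = h := by rw [this]; rfl
    rwa [pow_two] at h2
  refine ⟨fun hfpf => ?_, ?_⟩
  · have hinj : Function.Injective (fun h : H => γ h * h⁻¹) := by
      intro a b hab
      simp only at hab
      have h1 : γ (a⁻¹ * b) = a⁻¹ * b := by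
        rw [map_mul, map_inv]
        have : γ b = γ a * a⁻¹ * b := by rw [hab]; group
        rw [this]; group
      have := hfpf _ h1
      exact (inv_mul_eq_one.1 this)
    have hsurj := Finite.surjective_of_injective hinj
    have hinv : ∀ h : H, γ h = h⁻¹ := by
      intro h
      obtain ⟨x, rfl⟩ := hsurj h
      simp only [map_mul, map_inv, hsq, mul_inv_rev, inv_inv]
    refine ⟨fun a b => ?_, hinv⟩
    have := hinv (a * b)
    rw [map_mul, hinv, hinv, ← mul_inv_rev] at this
    exact (inv_injective this).symm
  · rintro ⟨hfix, M, hM⟩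
    obtain ⟨A, hA2, hAinv⟩ : ∃ A : Subgroup H, A.index = 2 ∧ ∀ a, a ∈ A ↔ γ a ∈ A := by
      by_cases hinv : ∀ a, a ∈ M ↔ γ a ∈ M
      · exact ⟨M, hM, hinv⟩
      · push Not at hinv
        obtain ⟨a, ha⟩ := hinv
        have ha' : ¬ (a ∈ M ↔ γ a ∈ M) := by tauto
        let M' : Subgroup H :=
          { carrier := {h | h ∈ M ↔ γ h ∈ M}
            one_mem' := by simp [M.one_mem]
            mul_mem' := by
              intro x y hx hy
              simp only [Set.mem_setOf_eq] at hx hy ⊢
              rw [map_mul, Subgroup.mul_mem_iff_of_index_two hM,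
                Subgroup.mul_mem_iff_of_index_two hM, hx, hy]
            inv_mem' := by
              intro x hx
              simp only [Set.mem_setOf_eq] at hx ⊢
              rw [map_inv, inv_mem_iff, inv_mem_iff, hx] }
        have hmem : ∀ h, h ∈ M' ↔ (h ∈ M ↔ γ h ∈ M) := fun h => Iff.rfl
        refine ⟨M', ?_, ?_⟩
        · rw [Subgroup.index_eq_two_iff]
          refine ⟨a, fun b => ?_⟩
          rw [hmem, hmem, map_mul, Subgroup.mul_mem_iff_of_index_two hM,
            Subgroup.mul_mem_iff_of_index_two hM, xor_iff_iff_not]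
          tauto
        · intro x
          rw [hmem, hmem, hsq]
          tauto
    -- the fixed point subgroup
    let F : Subgroup H :=
      { carrier := {h | γ h = h}
        one_mem' := map_one γ
        mul_mem' := by
          intro x y hx hy
          simp only [Set.mem_setOf_eq] at hx hy ⊢
          rw [map_mul, hx, hy]
        inv_mem' := by
          intro x hx
          simp only [Set.mem_setOf_eq] at hx ⊢
          rw [map_inv, hx] }
    have hF : Nat.card F = 2 := hfix
    have hψA : ∀ h : H, γ h * h⁻¹ ∈ A := by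
      intro h
      rw [Subgroup.mul_mem_iff_of_index_two hA2, inv_mem_iff]
      exact (hAinv h).symm
    let ψ : H ⧸ F → A := Quotient.lift (fun h : H => (⟨γ h * h⁻¹, hψA h⟩ : A)) (by
      intro a b hab
      have h1 : a⁻¹ * b ∈ F := QuotientGroup.leftRel_apply.1 hab
      have h2 : γ (a⁻¹ * b) = a⁻¹ * b := h1
      rw [map_mul, map_inv] at h2
      apply Subtype.ext
      show γ a * a⁻¹ = γ b * b⁻¹
      have : γ b = γ a * (a⁻¹ * b) := by rw [← h2]; group
      rw [this]; group)
    have hψinj : Function.Injective ψ := by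
      intro x y
      refine Quotient.inductionOn₂ x y (fun a b hab => ?_)
      have hab' : γ a * a⁻¹ = γ b * b⁻¹ := congrArg Subtype.val hab
      apply Quotient.sound
      apply QuotientGroup.leftRel_apply.2
      show γ (a⁻¹ * b) = a⁻¹ * b
      rw [map_mul, map_inv]
      have : γ b = γ a * a⁻¹ * b := by rw [hab']; group
      rw [this]; group
    have hcard : Nat.card (H ⧸ F) = Nat.card A := by
      have h1 := F.card_mul_index
      have h2 := A.card_mul_index
      rw [hF] at h1
      rw [hA2] at h2
      have : F.index = Nat.card (H ⧸ F) := rfl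
      omega
    have hψsurj : Function.Surjective ψ :=
      ((Nat.bijective_iff_injective_and_card ψ).2 ⟨hψinj, hcard⟩).2
    have hinv : ∀ a ∈ A, γ a = a⁻¹ := by
      intro a ha
      obtain ⟨x, hx⟩ := hψsurj ⟨a, ha⟩
      revert hx
      refine Quotient.inductionOn x (fun h hx => ?_)
      have hx' : γ h * h⁻¹ = a := congrArg Subtype.val hx
      rw [← hx']
      simp only [map_mul, map_inv, hsq, mul_inv_rev, inv_inv]
    refine ⟨A, hA2, ?_, fun a ha => (hAinv a).1 ha, hinv⟩
    apply IsMulCommutative.of_setLike_mul_comm
    intro a ha b hb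
    have := hinv (a * b) (A.mul_mem ha hb)
    rw [map_mul, hinv a ha, hinv b hb, ← mul_inv_rev] at this
    exact (inv_injective this).symm

end Cfsg.Agent.S3375
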