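import Mathlib
import Cfsg.Agent.Lib.CharPermChar
import Cfsg.Statements.S3704

set_option autoImplicit false
open Cfsg

namespace Cfsg.Agent.S3704

open Cfsg.Agent.Lib.CharBasic Cfsg.Agent.Lib.CharOrtho Cfsg.Agent.Lib.CharComplete Cfsg.Agent.Lib.CharMore Cfsg.Agent.Lib.CharInd Cfsg.Agent.Lib.CharPermChar

theorem permChar_one_eq {G : Type*} [Group G] (X : Type*) [MulAction G X] :
    permChar (G := G) X 1 = (Nat.card X : ℂ) := by
  rw [permChar_apply]
  congr 1
  have : MulAction.fixedBy X (1 : G) = Set.univ := by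
    ext x; simp
  rw [this, Nat.card_univ]

/-- Let G be a finite group acting faithfully and 2-transitively on a finite set Ω of size n, and let H be a subgroup of index n in G which is not transitive on Ω and fixes no point of Ω. Then H has exactly two orbits on Ω. -/
theorem result {G Ω : Type*} [Group G] [Finite G] [MulAction G Ω] [FaithfulSMul G Ω] [Finite Ω] (h2 : MulAction.IsMultiplyPretransitive G Ω 2) (H : Subgroup G) (hidx : H.index = Nat.card Ω) (hnt : ¬ MulAction.IsPretransitive H Ω) (hfix : ∀ a : Ω, ∃ h : H, h • a ≠ a) : Nat.card (MulAction.orbitRel.Quotient H Ω) = 2 := by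
  classical
  have : Fintype G := Fintype.ofFinite G
  have : Fintype H := Fintype.ofFinite H
  have hn2 : 2 ≤ Nat.card Ω := by
    by_contra hcon
    apply hnt
    have : Subsingleton Ω := Finite.card_le_one_iff_subsingleton.1 (by omega)
    exact ⟨fun x y => ⟨1, Subsingleton.elim _ _⟩⟩
  have hne : Nonempty Ω := by
    by_contra h
    rw [not_nonempty_iff] at h
    rw [Nat.card_of_isEmpty] at hn2
    omega
  have htr : MulAction.IsPretransitive G Ω := MulAction.isPretransitive_of_is_two_pretransitive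
  have hχ : IsIrrCharacter G (fun g : G => permChar Ω g - 1) :=
    (isIrr_permChar_sub_one_iff Ω hn2).2 h2
  have hΨ : IsCharacter G (fun g : G => permChar (G ⧸ H) g - 1) :=
    isCharacter_permChar_sub_one (G ⧸ H)
  set χ : G → ℂ := fun g : G => permChar Ω g - 1 with hχdef
  set Ψ : G → ℂ := fun g : G => permChar (G ⧸ H) g - 1 with hΨdef
  have eΩ : permChar (G := G) Ω = χ + 1 := by
    funext g; simp [hχdef]
  have eΓ : permChar (G := G) (G ⧸ H) = Ψ + 1 := by
    funext g; simp [hΨdef]
  have h11 : classInner (1 : G → ℂ) 1 = 1 := classInner_irr_self isIrr_one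
  have hΩ1 : classInner (permChar (G := G) Ω) 1 = 1 := by
    rw [classInner_permChar_one, card_orbits_of_pretransitive, Nat.cast_one]
  have hΓ1 : classInner (permChar (G := G) (G ⧸ H)) 1 = 1 := by
    rw [classInner_permChar_one, card_orbits_of_pretransitive, Nat.cast_one]
  have hχ1 : classInner χ 1 = 0 := by
    have := hΩ1
    rw [eΩ, classInner_add_left, h11] at this
    linear_combination this
  have h1χ : classInner 1 χ = 0 := by
    rw [← classInner_conj_symm, hχ1, map_zero]
  -- Frobenius reciprocity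
  have hind : permChar (G := G) (G ⧸ H) = indFun H (fun _ => 1) := by
    have h1 := permChar_eq_indFun (G := G) (G ⧸ H) ((1 : G) : G ⧸ H)
    have h2 : ∀ H' : Subgroup G, H' = H → indFun H' (fun _ => 1) = indFun H (fun _ => 1) := by
      rintro H' rfl; rfl
    rw [h1, h2 _ (MulAction.stabilizer_quotient H)]
  have hk : classInner (permChar (G := G) (G ⧸ H)) (permChar (G := G) Ω) =
      (Nat.card (MulAction.orbitRel.Quotient H Ω) : ℂ) := by
    rw [hind, frobenius_reciprocity H _ _
      (isClassFunction_of_isCharacter (isCharacter_permChar (G := G) Ω))]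
    have e : (fun h : H => permChar (G := G) Ω (h : G)) = permChar (G := H) Ω := rfl
    rw [e]
    have e2 : (fun _ : H => (1 : ℂ)) = 1 := rfl
    rw [e2, ← classInner_conj_symm, classInner_permChar_one, Complex.conj_natCast]
  obtain ⟨m, hm, hexp⟩ := exists_mult hΨ
  have hk2 : (Nat.card (MulAction.orbitRel.Quotient H Ω) : ℂ) = (m ⟨χ, hχ⟩ : ℂ) + 1 := by
    rw [← hk]
    rw [eΩ, classInner_add_right, hΓ1, eΓ, classInner_add_left, h1χ, add_zero, hm ⟨χ, hχ⟩]
  have hk3 : Nat.card (MulAction.orbitRel.Quotient H Ω) = m ⟨χ, hχ⟩ + 1 := by exact_mod_cast hk2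
  -- degree bound
  choose d hd using fun ψ : IrrCharacter G => irr_degree ψ.2
  have hΨ1 : Ψ 1 = ((Nat.card Ω - 1 : ℕ) : ℂ) := by
    simp only [hΨdef]
    rw [permChar_one_eq (G ⧸ H)]
    have : Nat.card (G ⧸ H) = Nat.card Ω := hidx
    rw [this, Nat.cast_sub (by omega)]
    simp
  have hχ1' : χ 1 = ((Nat.card Ω - 1 : ℕ) : ℂ) := by
    simp only [hχdef]
    rw [permChar_one_eq Ω, Nat.cast_sub (by omega)]
    simp
  have hsum : Nat.card Ω - 1 = ∑ ψ : IrrCharacter G, m ψ * d ψ := by
    have h1 : Ψ 1 = ((∑ ψ : IrrCharacter G, m ψ * d ψ : ℕ) : ℂ) := by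
      conv_lhs => rw [hexp]
      rw [Finset.sum_apply]
      push_cast
      refine Finset.sum_congr rfl fun ψ _ => ?_
      rw [Pi.smul_apply, smul_eq_mul, (hd ψ).2.1]
    rw [hΨ1] at h1
    exact_mod_cast h1
  have hdχ : d ⟨χ, hχ⟩ = Nat.card Ω - 1 := by
    have := (hd ⟨χ, hχ⟩).2.1
    simp only at this
    rw [hχ1'] at this
    exact_mod_cast this.symm
  have hle : m ⟨χ, hχ⟩ * d ⟨χ, hχ⟩ ≤ Nat.card Ω - 1 := by
    rw [hsum]
    exact Finset.single_le_sum (f := fun ψ => m ψ * d ψ) (fun _ _ => Nat.zero_le _)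
      (Finset.mem_univ _)
  have hm1 : m ⟨χ, hχ⟩ ≤ 1 := by
    rw [hdχ] at hle
    by_contra hcon
    have h2 : 2 ≤ m ⟨χ, hχ⟩ := by omega
    have h3 : 2 * (Nat.card Ω - 1) ≤ m ⟨χ, hχ⟩ * (Nat.card Ω - 1) := Nat.mul_le_mul_right _ h2
    omega
  have hm0 : m ⟨χ, hχ⟩ ≠ 0 := by
    intro h0
    apply hnt
    rw [h0] at hk3
    exact (MulAction.pretransitive_iff_subsingleton_quotient H Ω).mpr
      (Nat.card_eq_one_iff_unique.mp hk3).1
  omega

end Cfsg.Agent.S3704
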