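import Cfsg.Statements.S3733
import Mathlib

set_option autoImplicit false
open Cfsg

namespace Cfsg.Agent.S3733

/-- conjugation on `V` by an element of `A`. -/
def cj {G : Type*} [Group G] (A V : Subgroup G) (hAV : A ≤ Subgroup.normalizer (V : Set G))
    (a : A) : V →* V where
  toFun v := ⟨a * v * (a:G)⁻¹, (Subgroup.mem_normalizer_iff.mp (hAV a.2) v).mp v.2⟩
  map_one' := by ext; simp
  map_mul' x y := by ext; simp

theorem main {G : Type*} [Group G] [Finite G] (A V : Subgroup G) (hc : ∀ x y : V, x * y = y * x)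
    (hAV : A ≤ Subgroup.normalizer (V : Set G)) (𝒜 : Finset (Subgroup G)) (hne : 𝒜.Nonempty)
    (hle : ∀ B ∈ 𝒜, B ≤ A) (hpart : ∀ a ∈ A, a ≠ 1 → ∃! B, B ∈ 𝒜 ∧ a ∈ B)
    (htriv : ∀ B ∈ 𝒜, V ⊓ Subgroup.centralizer (B : Set G) = ⊥) (v : V) :
    v ^ (𝒜.card - 1) = 1 := by
  classical
  have := Fintype.ofFinite A
  let _ : CommGroup V := { (inferInstance : Group V) with mul_comm := hc }
  set T : Subgroup G → V :=
    fun B => ∏ a : A, (if (a:G) ∈ B then cj A V hAV a v else 1) with hT
  have hfix : ∀ (B : Subgroup G) (b : A), (b:G) ∈ B → cj A V hAV b (T B) = T B := by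
    intro B b hb
    simp only [hT]
    rw [map_prod]
    refine Fintype.prod_equiv (Equiv.mulLeft b) _ _ ?_
    intro a
    have h1 : ((b * a : A) : G) ∈ B ↔ (a:G) ∈ B := by
      rw [Subgroup.coe_mul]; exact B.mul_mem_cancel_left hb
    show cj A V hAV b (if (a:G) ∈ B then cj A V hAV a v else 1) =
      (if ((b * a : A) : G) ∈ B then cj A V hAV (b * a) v else 1)
    by_cases ha : (a:G) ∈ B
    · rw [if_pos ha, if_pos (h1.mpr ha)]
      ext; simp [cj, mul_assoc]
    · rw [if_neg ha, if_neg (fun h => ha (h1.mp h)), map_one]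
  have hone : ∀ (B B' : Subgroup G), B' ∈ 𝒜 → B' ≤ B → T B = 1 := by
    intro B B' hB' hle'
    have h1 : ((T B : V) : G) ∈ V ⊓ Subgroup.centralizer (B' : Set G) := by
      refine ⟨(T B).2, ?_⟩
      show ((T B : V) : G) ∈ Subgroup.centralizer (B' : Set G)
      rw [Subgroup.mem_centralizer_iff]
      intro b hb
      have h2 := hfix B ⟨b, hle B' hB' hb⟩ (hle' hb)
      have h3 : b * (T B : G) * b⁻¹ = T B := congrArg Subtype.val h2
      calc b * (T B : G) = (b * (T B : G) * b⁻¹) * b := by group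
        _ = _ := by rw [h3]
    rw [htriv B' hB', Subgroup.mem_bot] at h1
    exact Subtype.ext h1
  set R : Subgroup G → V := fun B =>
    ∏ a ∈ Finset.univ.erase (1 : A), (if (a:G) ∈ B then cj A V hAV a v else 1) with hR
  have hTR : ∀ B : Subgroup G, T B = v * R B := by
    intro B
    simp only [hT, hR]
    rw [← Finset.mul_prod_erase Finset.univ _ (Finset.mem_univ (1 : A))]
    congr 1
    rw [if_pos (by simpa using B.one_mem)]
    ext; simp [cj]
  have hprod : ∏ B ∈ 𝒜, R B = R A := by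
    simp only [hR]
    rw [Finset.prod_comm]
    refine Finset.prod_congr rfl fun a ha => ?_
    have ha1 : a ≠ 1 := Finset.ne_of_mem_erase ha
    obtain ⟨B0, ⟨hB0, haB0⟩, huniq⟩ := hpart a a.2 (fun h => ha1 (Subtype.ext h))
    rw [Finset.prod_eq_single B0, if_pos haB0, if_pos a.2]
    · intro B hB hne'
      rw [if_neg]
      intro haB
      exact hne' (huniq B ⟨hB, haB⟩)
    · intro h; exact absurd hB0 h
  obtain ⟨B0, hB0⟩ := hne
  have hA1 : v * R A = 1 := by rw [← hTR]; exact hone A B0 hB0 (hle B0 hB0)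
  have hall : ∏ B ∈ 𝒜, T B = 1 := Finset.prod_eq_one fun B hB => hone B B hB le_rfl
  have h2 : v ^ 𝒜.card * R A = 1 := by
    rw [← hprod, ← hall]
    rw [Finset.prod_congr rfl (fun B _ => hTR B), Finset.prod_mul_distrib, Finset.prod_const]
  have hcard : 𝒜.card = (𝒜.card - 1) + 1 := by
    have := Finset.card_pos.mpr ⟨B0, hB0⟩; omega
  rw [hcard, pow_succ, mul_assoc, hA1, mul_one] at h2
  exact h2


/-- Let A and V be subgroups of a finite group with V abelian and nontrivial and A normalizing V. Suppose a nonempty finite family of proper subgroups of A partitions A: every non-identity element of A lies in exactly one member. If the number of members minus one is coprime to the order of V, then some member B of the family has a non-identity fixed point on V, that is V ∩ C(B) ≠ 1. -/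
theorem result {G : Type*} [Group G] [Finite G] (A V : Subgroup G) (hVab : IsMulCommutative V) (hV : V ≠ ⊥) (hAV : A ≤ Subgroup.normalizer (V : Set G)) (𝒜 : Finset (Subgroup G)) (hne : 𝒜.Nonempty) (hprop : ∀ B ∈ 𝒜, B < A) (hpart : ∀ a ∈ A, a ≠ 1 → ∃! B, B ∈ 𝒜 ∧ a ∈ B) (hk : (𝒜.card - 1).Coprime (Nat.card V)) : ∃ B ∈ 𝒜, V ⊓ Subgroup.centralizer (B : Set G) ≠ ⊥ := by
  by_contra hcon
  push Not at hcon
  apply hV
  rw [Subgroup.eq_bot_iff_forall]
  intro x hx
  have h1 := main A V (fun x y => hVab.is_comm.comm x y) hAV 𝒜 hne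
    (fun B hB => (hprop B hB).le) hpart hcon ⟨x, hx⟩
  have h2 : orderOf (⟨x, hx⟩ : V) ∣ 𝒜.card - 1 := orderOf_dvd_of_pow_eq_one h1
  have h3 : orderOf (⟨x, hx⟩ : V) ∣ Nat.card V := orderOf_dvd_natCard _
  have h4 : orderOf (⟨x, hx⟩ : V) ∣ Nat.gcd (𝒜.card - 1) (Nat.card V) := Nat.dvd_gcd h2 h3
  rw [Nat.Coprime.gcd_eq_one hk, Nat.dvd_one] at h4
  have h5 := orderOf_eq_one_iff.mp h4
  exact congrArg Subtype.val h5

end Cfsg.Agent.S3733
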