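import Cfsg.Statements.S3735

import Cfsg.Agent.Lib.Helper7_Subnormal
set_option autoImplicit false
open Cfsg

namespace Cfsg.Agent.S3735

open Cfsg.Agent.Lib.Helper7_Subnormal Cfsg.Agent.Lib.Helper7_Conj

theorem normalizer_inf_le {G : Type*} [Group G] (S T : Subgroup G) :
    Subgroup.normalizer (S : Set G) ⊓ Subgroup.normalizer (T : Set G) ≤
      Subgroup.normalizer ((S ⊓ T : Subgroup G) : Set G) := by
  intro m hm
  obtain ⟨h1, h2⟩ := Subgroup.mem_inf.1 hm
  rw [Subgroup.mem_normalizer_iff] at h1 h2 ⊢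
  intro x
  exact ⟨fun hx => ⟨(h1 x).1 hx.1, (h2 x).1 hx.2⟩, fun hx => ⟨(h1 x).2 hx.1, (h2 x).2 hx.2⟩⟩

/-- conjugating an `A`-invariant subgroup by an element normalizing `A`. -/
theorem inv_cj {G : Type*} [Group G] {A S : Subgroup G} {h : G}
    (hh : h ∈ Subgroup.normalizer (A : Set G)) (hS : A ≤ Subgroup.normalizer (S : Set G)) :
    A ≤ Subgroup.normalizer ((S.map (MulAut.conj h).toMonoidHom : Subgroup G) : Set G) := by
  rw [normalizer_cj]
  calc A = A.map (MulAut.conj h).toMonoidHom := (mem_normalizer_iff_cj.1 hh).symm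
    _ ≤ _ := cj_mono hS

theorem exists_min_inv {G : Type*} [Group G] [Finite G] (A W : Subgroup G)
    (hW : A ≤ Subgroup.normalizer (W : Set G)) (hne : W ≠ ⊥) :
    ∃ S : Subgroup G, S ≤ W ∧ A ≤ Subgroup.normalizer (S : Set G) ∧ S ≠ ⊥ ∧
      ∀ S' : Subgroup G, S' ≤ S → A ≤ Subgroup.normalizer (S' : Set G) → S' = ⊥ ∨ S' = S := by
  haveI : Nonempty {S : Subgroup G // S ≤ W ∧ A ≤ Subgroup.normalizer (S : Set G) ∧ S ≠ ⊥} :=
    ⟨⟨W, le_rfl, hW, hne⟩⟩
  obtain ⟨⟨S, h1, h2, h3⟩, hmin⟩ := Finite.exists_min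
    (fun S : {S : Subgroup G // S ≤ W ∧ A ≤ Subgroup.normalizer (S : Set G) ∧ S ≠ ⊥} =>
      Nat.card S.1)
  refine ⟨S, h1, h2, h3, fun S' hle hinv => ?_⟩
  by_cases hb : S' = ⊥
  · exact Or.inl hb
  · exact Or.inr (Subgroup.eq_of_le_of_card_ge hle (hmin ⟨S', hle.trans h1, hinv, hb⟩))

/-- Clifford's Theorem for actions on finite abelian groups, first part. Let H and V be subgroups of a finite group with V abelian and H normalizing V, and let A be a normal subgroup of H. If every H-invariant subgroup of V has an H-invariant complement in V, then every A-invariant subgroup of V has an A-invariant complement in V. -/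
theorem result {G : Type*} [Group G] [Finite G] (H A V : Subgroup G) (hVab : IsMulCommutative V) (hHV : H ≤ Subgroup.normalizer (V : Set G)) (hAH : A ≤ H) (hAn : H ≤ Subgroup.normalizer (A : Set G)) (hss : ∀ U : Subgroup G, U ≤ V → H ≤ Subgroup.normalizer (U : Set G) → ∃ W : Subgroup G, W ≤ V ∧ H ≤ Subgroup.normalizer (W : Set G) ∧ U ⊓ W = ⊥ ∧ U ⊔ W = V) (U : Subgroup G) (hUV : U ≤ V) (hAU : A ≤ Subgroup.normalizer (U : Set G)) : ∃ W : Subgroup G, W ≤ V ∧ A ≤ Subgroup.normalizer (W : Set G) ∧ U ⊓ W = ⊥ ∧ U ⊔ W = V := by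
  classical
  set Irr : Set (Subgroup G) := {S | S ≤ V ∧ A ≤ Subgroup.normalizer (S : Set G) ∧ S ≠ ⊥ ∧
      ∀ S' : Subgroup G, S' ≤ S → A ≤ Subgroup.normalizer (S' : Set G) → S' = ⊥ ∨ S' = S} with hIrr
  set T := sSup Irr with hT
  have hTV : T ≤ V := sSup_le (fun S hS => hS.1)
  have hIrrcj : ∀ h ∈ H, ∀ S ∈ Irr, S.map (MulAut.conj h).toMonoidHom ∈ Irr := by
    rintro h hh S ⟨h1, h2, h3, h4⟩
    refine ⟨?_, inv_cj (hAn hh) h2, ?_, ?_⟩
    · calc S.map (MulAut.conj h).toMonoidHom ≤ V.map (MulAut.conj h).toMonoidHom := cj_mono h1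
        _ = V := mem_normalizer_iff_cj.1 (hHV hh)
    · intro hb
      apply h3
      rw [cj_eq_iff] at hb
      rw [hb, Subgroup.map_bot]
    · intro S' hle hinv
      rcases h4 (S'.map (MulAut.conj h⁻¹).toMonoidHom) (cj_le_iff.2 (by rwa [inv_inv]))
        (inv_cj (hAn (H.inv_mem hh)) hinv) with hb | hb
      · left
        rw [cj_eq_iff] at hb
        rw [hb, Subgroup.map_bot]
      · right
        rw [cj_eq_iff, inv_inv] at hb
        exact hb
  have hHT : H ≤ Subgroup.normalizer (T : Set G) := by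
    intro h hh
    rw [mem_normalizer_iff_cj]
    refine Subgroup.eq_of_le_of_card_ge ?_ (by rw [card_cj])
    rw [Subgroup.map_le_iff_le_comap]
    refine sSup_le (fun S hS => ?_)
    rw [← Subgroup.map_le_iff_le_comap]
    exact le_sSup (hIrrcj h hh S hS)
  have hTeq : T = V := by
    obtain ⟨W', hW'V, hW'H, hinf, hsup⟩ := hss T hTV hHT
    have hW'bot : W' = ⊥ := by
      by_contra hne
      obtain ⟨S, h1, h2, h3, h4⟩ := exists_min_inv A W' (hAH.trans hW'H) hne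
      have h5 : S ≤ T := le_sSup ⟨h1.trans hW'V, h2, h3, h4⟩
      exact h3 (le_bot_iff.1 (hinf ▸ le_inf h5 h1))
    rw [← hsup, hW'bot, sup_bot_eq]
  haveI : Nonempty {W : Subgroup G // W ≤ V ∧ A ≤ Subgroup.normalizer (W : Set G) ∧ U ⊓ W = ⊥} :=
    ⟨⟨⊥, bot_le, by
      rw [Subgroup.normalizer_eq_top_iff.2 (inferInstance : (⊥ : Subgroup G).Normal)]
      exact le_top, by simp⟩⟩
  obtain ⟨⟨W, hWV, hWA, hUW⟩, hmax⟩ := Finite.exists_max
    (fun W : {W : Subgroup G // W ≤ V ∧ A ≤ Subgroup.normalizer (W : Set G) ∧ U ⊓ W = ⊥} =>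
      Nat.card W.1)
  refine ⟨W, hWV, hWA, hUW, ?_⟩
  by_contra hne
  have hle : U ⊔ W ≤ V := sup_le hUV hWV
  have hex : ∃ S ∈ Irr, ¬ S ≤ U ⊔ W := by
    by_contra hcon
    push Not at hcon
    apply hne
    apply le_antisymm hle
    rw [← hTeq]
    exact sSup_le hcon
  obtain ⟨S, ⟨h1, h2, h3, h4⟩, hS⟩ := hex
  have hUWA : A ≤ Subgroup.normalizer ((U ⊔ W : Subgroup G) : Set G) :=
    (le_inf hAU hWA).trans (normalizer_inf_le_normalizer_sup U W)
  have hSbot : S ⊓ (U ⊔ W) = ⊥ := by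
    rcases h4 (S ⊓ (U ⊔ W)) inf_le_left ((le_inf h2 hUWA).trans (normalizer_inf_le _ _)) with h | h
    · exact h
    · exact absurd (inf_eq_left.1 h) hS
  have hWSA : A ≤ Subgroup.normalizer ((W ⊔ S : Subgroup G) : Set G) :=
    (le_inf hWA h2).trans (normalizer_inf_le_normalizer_sup W S)
  have hWnS : W ≤ Subgroup.normalizer (S : Set G) := by
    refine le_trans ?_ (Subgroup.centralizer_le_normalizer _)
    intro w hw
    rw [Subgroup.mem_centralizer_iff]
    intro s hs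
    exact congrArg Subtype.val (mul_comm' (⟨s, h1 hs⟩ : V) ⟨w, hWV hw⟩)
  have hdis : U ⊓ (W ⊔ S) = ⊥ := by
    rw [eq_bot_iff]
    rintro u ⟨hu, huWS⟩
    have h5 : u ∈ ((W ⊔ S : Subgroup G) : Set G) := huWS
    rw [Subgroup.coe_mul_of_left_le_normalizer_right W S hWnS] at h5
    obtain ⟨w, hw, s, hs, rfl⟩ := h5
    have hs' : s ∈ U ⊔ W := by
      have : s = w⁻¹ * (w * s) := by group
      rw [this]
      exact mul_mem (inv_mem ((le_sup_right : W ≤ U ⊔ W) hw)) ((le_sup_left : U ≤ U ⊔ W) hu)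
    have hs1 : s = 1 := by
      have : s ∈ S ⊓ (U ⊔ W) := ⟨hs, hs'⟩
      rwa [hSbot, Subgroup.mem_bot] at this
    subst hs1
    have hu' : w * 1 ∈ U := hu
    show w * 1 ∈ (⊥ : Subgroup G)
    rw [mul_one] at hu' ⊢
    rw [← hUW]
    exact ⟨hu', hw⟩
  have h6 := hmax ⟨W ⊔ S, sup_le hWV h1, hWSA, hdis⟩
  have h7 : W = W ⊔ S := Subgroup.eq_of_le_of_card_ge le_sup_left h6
  exact hS ((le_sup_right.trans h7.symm.le).trans le_sup_right)

end Cfsg.Agent.S3735
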