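import Cfsg.Statements.S3741
import Mathlib

set_option autoImplicit false
open Cfsg

namespace Cfsg.Agent.S3741

open scoped commutatorElement

theorem relIndex_mul_card' {G : Type*} [Group G] {H K : Subgroup G} (h : H ≤ K) :
    H.relIndex K * Nat.card H = Nat.card K := by
  have h1 := Subgroup.card_mul_index (H.subgroupOf K)
  rw [Nat.card_congr (Subgroup.subgroupOfEquivOfLe h).toEquiv, mul_comm] at h1
  exact h1

theorem per_a {G : Type*} [Group G] [Finite G] {p : ℕ} [hp : Fact p.Prime] (hG : IsPGroup p G)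
    (B Z : Subgroup G) (a : G)
    (hZ : ∀ b ∈ B, b * a * b⁻¹ * a⁻¹ ∈ Z) (hcard : Nat.card Z ≤ p) [Decidable (a ∈ Subgroup.centralizer (B : Set G))] :
    p * Nat.card ↥(B ⊓ Subgroup.centralizer ({a} : Set G)) =
      Nat.card B + (if a ∈ Subgroup.centralizer (B : Set G) then 1 else 0) * ((p - 1) * Nat.card B) := by
  set D := B ⊓ Subgroup.centralizer ({a} : Set G) with hD
  have hidx : D.relIndex B * Nat.card D = Nat.card B := relIndex_mul_card' inf_le_left
  let φ : ↥B ⧸ D.subgroupOf B → ↥Z := fun q =>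
    Quotient.liftOn' q (fun b => (⟨(b : G) * a * (b : G)⁻¹ * a⁻¹, hZ b b.2⟩ : ↥Z)) (by
      intro x y hxy
      rw [QuotientGroup.leftRel_apply, Subgroup.mem_subgroupOf] at hxy
      have hxy2 := (Subgroup.mem_centralizer_singleton_iff).1 hxy.2
      apply Subtype.ext
      show (x : G) * a * (x : G)⁻¹ * a⁻¹ = (y : G) * a * (y : G)⁻¹ * a⁻¹
      congr 1
      have h1 : a * ((x : G)⁻¹ * (y : G)) = ((x : G)⁻¹ * (y : G)) * a := by
        simpa using hxy2.symm
      calc (x : G) * a * (x : G)⁻¹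
          = (x : G) * (a * ((x : G)⁻¹ * (y : G))) * (y : G)⁻¹ := by group
        _ = (y : G) * a * (y : G)⁻¹ := by rw [h1]; group)
  have hφinj : Function.Injective φ := by
    intro s t hst
    obtain ⟨x, rfl⟩ := QuotientGroup.mk_surjective s
    obtain ⟨y, rfl⟩ := QuotientGroup.mk_surjective t
    have h1 : (x : G) * a * (x : G)⁻¹ * a⁻¹ = (y : G) * a * (y : G)⁻¹ * a⁻¹ :=
      congrArg Subtype.val hst
    have h2 : (x : G) * a * (x : G)⁻¹ = (y : G) * a * (y : G)⁻¹ := mul_right_cancel h1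
    rw [QuotientGroup.eq, Subgroup.mem_subgroupOf]
    refine Subgroup.mem_inf.2 ⟨(x⁻¹ * y).2, ?_⟩
    rw [Subgroup.mem_centralizer_singleton_iff]
    show ((x : G)⁻¹ * (y : G)) * a = a * ((x : G)⁻¹ * (y : G))
    symm
    calc a * ((x : G)⁻¹ * (y : G))
        = (x : G)⁻¹ * ((x : G) * a * (x : G)⁻¹) * (y : G) := by group
      _ = ((x : G)⁻¹ * (y : G)) * a := by rw [h2]; group
  have hle : D.relIndex B ≤ p := by
    have h1 : D.relIndex B = Nat.card (↥B ⧸ D.subgroupOf B) := rfl
    rw [h1]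
    exact (Nat.card_le_card_of_injective φ hφinj).trans hcard
  obtain ⟨k, hk⟩ := IsPGroup.iff_card.1 (hG.to_subgroup B)
  have hdvd : D.relIndex B ∣ p ^ k := hk ▸ Dvd.intro _ hidx
  obtain ⟨j, -, hj⟩ := (Nat.dvd_prime_pow hp.out).1 hdvd
  have hj1 : j ≤ 1 := by
    by_contra h
    have h2 : p ^ 2 ≤ p ^ j := Nat.pow_le_pow_right hp.out.pos (by omega)
    have h3 : p < p ^ 2 := by
      have := Nat.pow_lt_pow_right hp.out.one_lt (show 1 < 2 by norm_num)
      rwa [pow_one] at this
    omega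
  have hp1 : p = (p - 1) + 1 := by have := hp.out.pos; omega
  by_cases ha : a ∈ Subgroup.centralizer (B : Set G)
  · rw [if_pos ha, one_mul]
    have hDB : D = B := by
      apply le_antisymm inf_le_left
      intro b hb
      refine Subgroup.mem_inf.2 ⟨hb, ?_⟩
      rw [Subgroup.mem_centralizer_singleton_iff]
      exact (Subgroup.mem_centralizer_iff.1 ha) b hb
    rw [hDB]
    calc p * Nat.card B = ((p - 1) + 1) * Nat.card B := by rw [← hp1]
      _ = Nat.card B + (p - 1) * Nat.card B := by ring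
  · rw [if_neg ha, zero_mul, add_zero]
    have hj0 : j ≠ 0 := by
      rintro rfl
      rw [pow_zero, Subgroup.relIndex_eq_one] at hj
      apply ha
      rw [Subgroup.mem_centralizer_iff]
      intro b hb
      exact (Subgroup.mem_centralizer_singleton_iff).1 (hj hb).2
    have hj' : j = 1 := by omega
    rw [hj', pow_one] at hj
    rw [← hidx, hj]

theorem count {G : Type*} [Group G] [Finite G] {p : ℕ} [hp : Fact p.Prime] (hG : IsPGroup p G)
    (A B : Subgroup G) (hcard : Nat.card ↥⁅A, B⁆ ≤ p) :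
    p * Nat.card {x : ↥A × ↥B // (x.2 : G) * (x.1 : G) = (x.1 : G) * (x.2 : G)} =
      Nat.card A * Nat.card B +
        Nat.card ↥(A ⊓ Subgroup.centralizer (B : Set G)) * ((p - 1) * Nat.card B) := by
  classical
  haveI := Fintype.ofFinite ↥A
  have e : {x : ↥A × ↥B // (x.2 : G) * (x.1 : G) = (x.1 : G) * (x.2 : G)} ≃
      Σ a : ↥A, {b : ↥B // (b : G) * (a : G) = (a : G) * (b : G)} :=
    Equiv.subtypeProdEquivSigmaSubtype (fun (a : ↥A) (b : ↥B) => (b : G) * (a : G) = (a : G) * (b : G))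
  rw [Nat.card_congr e, Nat.card_sigma, Finset.mul_sum]
  have key : ∀ a : ↥A, p * Nat.card {b : ↥B // (b : G) * (a : G) = (a : G) * (b : G)} =
      Nat.card B + (if (a : G) ∈ Subgroup.centralizer (B : Set G) then 1 else 0) * ((p - 1) * Nat.card B) := by
    intro a
    rw [← per_a hG B ⁅A, B⁆ (a : G) (by
      intro b hb
      rw [Subgroup.commutator_comm, ← commutatorElement_def]
      exact Subgroup.commutator_mem_commutator hb a.2) hcard]
    congr 1
    exact Nat.card_congr
      { toFun := fun b => ⟨b.1, b.1.2, (Subgroup.mem_centralizer_singleton_iff).2 b.2⟩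
        invFun := fun d => ⟨⟨d.1, d.2.1⟩, (Subgroup.mem_centralizer_singleton_iff).1 d.2.2⟩
        left_inv := fun _ => rfl
        right_inv := fun _ => rfl }
  rw [Finset.sum_congr rfl (fun a _ => key a), Finset.sum_add_distrib, Finset.sum_const,
    ← Finset.sum_mul, Finset.sum_boole, Finset.card_univ, smul_eq_mul, ← Nat.card_eq_fintype_card]
  congr 2
  rw [Nat.cast_id, ← Fintype.card_subtype, ← Nat.card_eq_fintype_card]
  exact Nat.card_congr
    { toFun := fun a => ⟨a.1, a.1.2, a.2⟩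
      invFun := fun d => ⟨⟨d.1, d.2.1⟩, d.2.2⟩
      left_inv := fun _ => rfl
      right_inv := fun _ => rfl }

/-- Let A and B be subgroups of a finite p-group with [A, B] ≤ A ∩ B and [A, B] of order at most p. Then |A : C_A(B)| = |B : C_B(A)|. -/
theorem result {G : Type*} [Group G] [Finite G] {p : ℕ} [Fact p.Prime] (hG : IsPGroup p G) (A B : Subgroup G) (hAB : ⁅A, B⁆ ≤ A ⊓ B) (hcard : Nat.card ↥⁅A, B⁆ ≤ p) : (A ⊓ Subgroup.centralizer (B : Set G)).relIndex A = (B ⊓ Subgroup.centralizer (A : Set G)).relIndex B := by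
  have hp : Fact p.Prime := inferInstance
  have c1 := count hG A B hcard
  have c2 := count hG B A (by rw [Subgroup.commutator_comm]; exact hcard)
  have e : Nat.card {x : ↥A × ↥B // (x.2 : G) * (x.1 : G) = (x.1 : G) * (x.2 : G)} =
      Nat.card {x : ↥B × ↥A // (x.2 : G) * (x.1 : G) = (x.1 : G) * (x.2 : G)} :=
    Nat.card_congr ((Equiv.prodComm ↥A ↥B).subtypeEquiv (fun x => ⟨Eq.symm, Eq.symm⟩))
  rw [e, c2] at c1
  set cA := Nat.card ↥(A ⊓ Subgroup.centralizer (B : Set G)) with hcA
  set cB := Nat.card ↥(B ⊓ Subgroup.centralizer (A : Set G)) with hcB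
  have rA : (A ⊓ Subgroup.centralizer (B : Set G)).relIndex A * cA = Nat.card A :=
    relIndex_mul_card' inf_le_left
  have rB : (B ⊓ Subgroup.centralizer (A : Set G)).relIndex B * cB = Nat.card B :=
    relIndex_mul_card' inf_le_left
  have hcApos : 0 < cA := Nat.card_pos
  have hcBpos : 0 < cB := Nat.card_pos
  have hq : 0 < p - 1 := by have := hp.out.one_lt; omega
  have h1 : cB * ((p - 1) * Nat.card A) = cA * ((p - 1) * Nat.card B) := by
    have : Nat.card B * Nat.card A = Nat.card A * Nat.card B := mul_comm _ _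
    omega
  have h2 : cB * Nat.card A = cA * Nat.card B := by
    apply Nat.eq_of_mul_eq_mul_left hq
    calc (p - 1) * (cB * Nat.card A) = cB * ((p - 1) * Nat.card A) := by ring
      _ = cA * ((p - 1) * Nat.card B) := h1
      _ = (p - 1) * (cA * Nat.card B) := by ring
  rw [← rA, ← rB] at h2
  apply Nat.eq_of_mul_eq_mul_left (Nat.mul_pos hcApos hcBpos)
  calc cA * cB * (A ⊓ Subgroup.centralizer (B : Set G)).relIndex A
      = cB * ((A ⊓ Subgroup.centralizer (B : Set G)).relIndex A * cA) := by ring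
    _ = cA * ((B ⊓ Subgroup.centralizer (A : Set G)).relIndex B * cB) := h2
    _ = cA * cB * (B ⊓ Subgroup.centralizer (A : Set G)).relIndex B := by ring

end Cfsg.Agent.S3741
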