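import Cfsg.Statements.S3743

import Mathlib
import Cfsg.Agent.Lib.Helper3_Core
set_option autoImplicit false
open Cfsg

namespace Cfsg.Agent.S3743

open Cfsg.Agent.Lib.Helper3_Core

universe u

theorem fitClass_pi (π : Set ℕ) :
    FitClass.{u} (fun X _ => ∀ p : ℕ, p.Prime → p ∣ Nat.card X → p ∈ π) where
  iso e h := by rwa [← Nat.card_congr e.toEquiv]
  bot := by
    intro X _ p hp hd
    rw [Subgroup.card_bot] at hd
    exact absurd (Nat.dvd_one.1 hd) hp.ne_one
  normal N _ h := fun p hp hd => h p hp (hd.trans (Subgroup.card_subgroup_dvd_card N))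
  sup M N _ hN h1 h2 := by
    intro p hp hd
    haveI := hN
    rcases (Nat.Prime.dvd_mul hp).1 (hd.trans (card_sup_dvd_of_normal M N)) with h | h
    · exact h1 p hp h
    · exact h2 p hp h

/-- In a finite group G, every subnormal nilpotent subgroup lies in the Fitting subgroup F(G), and, for a set of primes π, every subnormal subgroup all of whose prime divisors lie in π lies in O_π(G). -/
theorem result {G : Type*} [Group G] [Finite G] (A : Subgroup G) (hA : A.IsSubnormal) : (Group.IsNilpotent A → A ≤ Cfsg.fittingSubgroup G) ∧ ∀ π : Set ℕ, (∀ p : ℕ, p.Prime → p ∣ Nat.card A → p ∈ π) → A ≤ Cfsg.piCore π G := by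
  refine ⟨fun h => subnormal_le_rad fitClass_nilpotent hA h, fun π h => ?_⟩
  exact subnormal_le_rad (fitClass_pi π) hA h

end Cfsg.Agent.S3743
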