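import Cfsg.Statements.S3744
import Cfsg.Agent.Lib.Helper4_PCompl

set_option autoImplicit false
open Cfsg

namespace Cfsg.Agent.S3744



/-- A finite p-soluble group has a p-complement, all its p-complements are conjugate, and every subgroup of order prime to p lies in one of them. Here a p-complement is a subgroup of order prime to p whose index is a power of p. -/
theorem result {G : Type*} [Group G] [Finite G] {p : ℕ} [Fact p.Prime] (hG : Cfsg.IsPSolvable p G) : (∃ H : Subgroup G, (Nat.card H).Coprime p ∧ ∃ n : ℕ, H.index = p ^ n) ∧ (∀ H₁ H₂ : Subgroup G, (Nat.card H₁).Coprime p → (∃ n : ℕ, H₁.index = p ^ n) → (Nat.card H₂).Coprime p → (∃ n : ℕ, H₂.index = p ^ n) → ∃ g : G, H₂ = H₁.map (MulAut.conj g).toMonoidHom) ∧ (∀ U : Subgroup G, (Nat.card U).Coprime p → ∃ H : Subgroup G, (Nat.card H).Coprime p ∧ (∃ n : ℕ, H.index = p ^ n) ∧ ∃ g : G, U.map (MulAut.conj g).toMonoidHom ≤ H) := by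
  obtain ⟨⟨H, hH⟩, hD⟩ := Cfsg.Agent.Lib.Helper4_PCompl.ed_of_isPSolvable hG
  refine ⟨⟨H, hH.1, hH.2⟩, ?_, ?_⟩
  · intro H₁ H₂ c1 i1 c2 i2
    obtain ⟨g, hg⟩ := hD H₁ H₂ c1 ⟨c2, i2⟩
    obtain ⟨n1, hn1⟩ := i1
    obtain ⟨n2, hn2⟩ := i2
    have e1 := Subgroup.card_mul_index H₁
    have e2 := Subgroup.card_mul_index H₂
    rw [hn1] at e1
    rw [hn2] at e2
    have d2 : Nat.card H₂ ∣ Nat.card H₁ := by
      apply Nat.Coprime.dvd_of_dvd_mul_right (c2.pow_right n1)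
      rw [e1, ← e2]; exact Dvd.intro _ rfl
    refine ⟨g, (Subgroup.eq_of_le_of_card_ge hg ?_).symm⟩
    rw [Subgroup.card_map_of_injective (MulAut.conj g).injective]
    exact Nat.le_of_dvd Nat.card_pos d2
  · intro U hU
    obtain ⟨g, hg⟩ := hD U H hU hH
    exact ⟨H, hH.1, hH.2, g, hg⟩

end Cfsg.Agent.S3744
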