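import Cfsg.Statements.S3746
import Cfsg.Agent.Lib.Helper3_PComp
import Cfsg.Agent.Lib.Helper3_Comp

set_option autoImplicit false
open Cfsg

namespace Cfsg.Agent.S3746

open scoped commutatorElement

/-- Let Z ≤ Z(G) be a central subgroup of a finite group G and E a subgroup of G containing Z whose image E/Z is a component of G/Z (subnormal and quasisimple). Then the derived subgroup [E, E] is a component of G. -/
theorem result {G : Type*} [Group G] [Finite G] (Z : Subgroup G) (hZ : Z ≤ Subgroup.center G) [Z.Normal] (E : Subgroup G) (hZE : Z ≤ E) (hE : Cfsg.IsComponent (E.map (QuotientGroup.mk' Z))) : Cfsg.IsComponent ⁅E, E⁆ := by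
  obtain ⟨hsub, hq⟩ := hE
  have hker : (QuotientGroup.mk' Z).ker = Z := QuotientGroup.ker_mk' Z
  have hEc : (E.map (QuotientGroup.mk' Z)).comap (QuotientGroup.mk' Z) = E := by
    rw [Subgroup.comap_map_eq, hker, sup_eq_left.2 hZE]
  have hEsub : E.IsSubnormal := by
    have h1 := hsub.comap (QuotientGroup.mk' Z)
    rwa [hEc] at h1
  have hKsub : (⁅E, E⁆ : Subgroup G).IsSubnormal :=
    Cfsg.Agent.Lib.Helper3_Comp.commutator_self_subnormal hEsub
  have hKE : ⁅E, E⁆ ≤ E := Subgroup.commutator_le_self E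
  have hmap : (⁅E, E⁆ : Subgroup G).map (QuotientGroup.mk' Z) = E.map (QuotientGroup.mk' Z) := by
    rw [Subgroup.map_commutator]
    exact (Subgroup.isPerfect_iff).1 hq.1
  have hEKZ : E = ⁅E, E⁆ ⊔ Z := by
    have h1 := congrArg (Subgroup.comap (QuotientGroup.mk' Z)) hmap
    rw [hEc, Subgroup.comap_map_eq, hker] at h1
    exact h1.symm
  have hcent : ∀ z ∈ Z, ∀ y : G, z * y * z⁻¹ = y := by
    intro z hz y
    have := Subgroup.mem_center_iff.1 (hZ hz) y
    rw [← this, mul_assoc, mul_inv_cancel, mul_one]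
  have hperf : ⁅(⁅E, E⁆ : Subgroup G), ⁅E, E⁆⁆ = ⁅E, E⁆ := by
    apply le_antisymm (Subgroup.commutator_le_self _)
    rw [Subgroup.commutator_le]
    intro x hx y hy
    rw [hEKZ] at hx hy
    obtain ⟨k, hk, z, hz, rfl⟩ := Subgroup.mem_sup_of_normal_right.1 hx
    obtain ⟨k', hk', z', hz', rfl⟩ := Subgroup.mem_sup_of_normal_right.1 hy
    have h1 : ⁅k * z, k' * z'⁆ = ⁅k, k'⁆ := by
      rw [commutatorElement_def, commutatorElement_def]
      calc k * z * (k' * z') * (k * z)⁻¹ * (k' * z')⁻¹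
          = k * (z * (k' * (z' * (z⁻¹ * k⁻¹) * z'⁻¹) * k'⁻¹) * z⁻¹) * z := by group
        _ = k * (k' * (z⁻¹ * k⁻¹) * k'⁻¹) * z := by rw [hcent z' hz', hcent z hz]
        _ = k * k' * (z⁻¹ * (k⁻¹ * k'⁻¹) * z⁻¹⁻¹) := by group
        _ = k * k' * k⁻¹ * k'⁻¹ := by rw [hcent z⁻¹ (Z.inv_mem hz)]; group
    rw [h1]
    exact Subgroup.commutator_mem_commutator hk hk'
  refine ⟨hKsub, ?_⟩
  have hperf' : Group.IsPerfect ↥(⁅E, E⁆ : Subgroup G) := (Subgroup.isPerfect_iff).2 hperf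
  let f : ↥(⁅E, E⁆ : Subgroup G) →* ↥(E.map (QuotientGroup.mk' Z)) :=
    ((QuotientGroup.mk' Z).comp (⁅E, E⁆ : Subgroup G).subtype).codRestrict _
      (fun k => ⟨k, hKE k.2, rfl⟩)
  have hsurj : Function.Surjective f := by
    rintro ⟨e, he⟩
    rw [← hmap] at he
    obtain ⟨k, hk, rfl⟩ := he
    exact ⟨⟨k, hk⟩, rfl⟩
  have hkerf : f.ker = Z.subgroupOf ⁅E, E⁆ := by
    ext k
    rw [MonoidHom.mem_ker, Subgroup.mem_subgroupOf, ← QuotientGroup.eq_one_iff]
    constructor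
    · intro h; exact congrArg Subtype.val h
    · intro h; exact Subtype.ext h
  have hA : Z.subgroupOf ⁅E, E⁆ ≤ Subgroup.center ↥(⁅E, E⁆ : Subgroup G) := by
    intro k hk
    rw [Subgroup.mem_subgroupOf] at hk
    rw [Subgroup.mem_center_iff]
    intro g
    exact Subtype.ext (Subgroup.mem_center_iff.1 (hZ hk) g)
  refine Cfsg.Agent.Lib.Helper3_PComp.quasisimple_of_central_quotient hperf'
    (Z.subgroupOf ⁅E, E⁆) hA ?_
  exact Cfsg.Agent.Lib.Helper3_Comp.isQuasisimple_of_equiv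
    ((QuotientGroup.quotientMulEquivOfEq hkerf.symm).trans
      (QuotientGroup.quotientKerEquivOfSurjective f hsurj)).symm hq

end Cfsg.Agent.S3746
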