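import Cfsg.Statements.S3748

import Cfsg.Agent.Lib.Helper7_Subnormal
import Cfsg.Agent.Lib.Helper3_Comp
set_option autoImplicit false
open Cfsg

namespace Cfsg.Agent.S3748

open Cfsg.Agent.Lib.Helper7_Subnormal

/-- Call a proper subgroup M of G primitive when M = N_G(N) for every non-trivial normal subgroup N of M. If M is a primitive subgroup of the finite group G, then no non-trivial subnormal subgroup of G is contained in M; in particular M ∩ F(G) = 1. -/
theorem result {G : Type*} [Group G] [Finite G] (M : Subgroup G) (hM : M ≠ ⊤) (hprim : ∀ N : Subgroup G, N ≤ M → M ≤ Subgroup.normalizer (N : Set G) → N ≠ ⊥ → Subgroup.normalizer (N : Set G) = M) : (∀ L : Subgroup G, L.IsSubnormal → L ≤ M → L = ⊥) ∧ M ⊓ Cfsg.fittingSubgroup G = ⊥ := by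
  obtain ⟨L, hLs, hLM, hmax, hML, hnot⟩ := exists_largest_subnormal_le M hM
  have hLbot : L = ⊥ := by
    by_contra hne
    exact hnot (hprim L hLM hML hne).le
  have h1 : ∀ L : Subgroup G, L.IsSubnormal → L ≤ M → L = ⊥ := by
    intro S hS hSM
    exact le_bot_iff.1 (hLbot ▸ hmax S hS hSM)
  refine ⟨h1, h1 _ ?_ inf_le_left⟩
  haveI := Cfsg.Agent.Lib.Helper3_Comp.fittingSubgroup_isNilpotent G
  exact Subgroup.IsSubnormal.trans inf_le_right (isSubnormal_of_isNilpotent _)
    (Cfsg.Agent.Lib.Helper3_Comp.fittingSubgroup_normal G).isSubnormal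

end Cfsg.Agent.S3748
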