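import Cfsg.Statements.S3749
import Cfsg.Agent.Lib.Helper1_CoprimeSylow
import Cfsg.Agent.Lib.Helper4_Syl
import Cfsg.Agent.Lib.Helper4_Core
import Cfsg.Agent.Lib.Helper2_EA

set_option autoImplicit false
open Cfsg

namespace Cfsg.Agent.S3749

open scoped Pointwise in
open Cfsg.Agent.Lib.Helper1_CoprimeSylow in
theorem aux {G : Type*} [Group G] [Finite G] (M : Subgroup G) (P : Subgroup G) {p : ℕ} [hp : Fact p.Prime]
    (hPM : P ≤ M) (hPp : IsPGroup p P) (hPn : Subgroup.normalizer (P : Set G) = M)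
    (N : Subgroup G) [hN : N.Normal] (hMN : M ⊓ N = ⊥) :
    ¬ p ∣ Nat.card N ∧ (∀ q : ℕ, [Fact q.Prime] → ∃ Q₀ ∈ sylSet q N, M ≤ Subgroup.normalizer (Q₀ : Set G) ∧
      ∀ Q₁ ∈ sylSet q N, M ≤ Subgroup.normalizer (Q₁ : Set G) → Q₁ = Q₀) := by
  have hcent : ∀ w ∈ N, (∀ a ∈ P, a * w = w * a) → w = 1 := by
    intro w hw hc
    have h1 : w ∈ Subgroup.normalizer (P : Set G) := by
      apply Subgroup.centralizer_le_normalizer
      rw [Subgroup.mem_centralizer_iff]
      exact hc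
    rw [hPn] at h1
    have h2 : w ∈ M ⊓ N := ⟨h1, hw⟩
    rw [hMN] at h2
    exact Subgroup.mem_bot.1 h2
  have hpN : ¬ p ∣ Nat.card N := by
    intro hdvd
    letI : MulAction P N := MulAction.compHom N ((MulAut.conjNormal (H := N)).comp P.subtype)
    have h1 : (1 : N) ∈ MulAction.fixedPoints P N := by
      intro a
      show (MulAut.conjNormal (a : G) : MulAut N) 1 = 1
      exact map_one _
    obtain ⟨b, hb, hb1⟩ := hPp.exists_fixed_point_of_prime_dvd_card_of_fixed_point N hdvd h1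
    apply hb1
    apply Subtype.ext
    symm
    apply hcent b.1 b.2
    intro a ha
    have h2 : (MulAut.conjNormal (a : G) : MulAut N) b = b := hb ⟨a, ha⟩
    have h3 := congrArg Subtype.val h2
    rw [MulAut.conjNormal_apply] at h3
    exact mul_inv_eq_iff_eq_mul.1 h3
  refine ⟨hpN, ?_⟩
  intro q _
  have hPN : P ≤ Subgroup.normalizer (N : Set G) := by
    rw [Subgroup.normalizer_eq_top]; exact le_top
  have hcop : (Nat.card P).Coprime (Nat.card N) := by
    obtain ⟨k, hk⟩ := (IsPGroup.iff_card).1 hPp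
    rw [hk]
    exact Nat.Coprime.pow_left _ ((Nat.Prime.coprime_iff_not_dvd hp.out).2 hpN)
  have hsolv : Group.IsSolvable P ∨ Group.IsSolvable N := by
    left
    haveI := hPp.isNilpotent
    infer_instance
  obtain ⟨Q₀, hQ₀, hPQ₀⟩ := exists_invariant_sylow hPN hcop hsolv q
  have huniq : ∀ Q₁ ∈ sylSet q N, P ≤ Subgroup.normalizer (Q₁ : Set G) → Q₁ = Q₀ := by
    intro Q₁ hQ₁ hPQ₁
    obtain ⟨c, hc, hcQ⟩ := invariant_sylow_conj hPN hcop hsolv q hQ₁ hQ₀ hPQ₁ hPQ₀
    have hc1 : c = 1 := by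
      apply hcent c hc.1
      intro a ha
      exact (Subgroup.mem_centralizer_iff.1 hc.2) a ha
    rw [hc1, map_one, one_smul] at hcQ
    exact hcQ
  refine ⟨Q₀, hQ₀, ?_, fun Q₁ hQ₁ hM₁ => huniq Q₁ hQ₁ (hPM.trans hM₁)⟩
  intro m hm
  rw [← conj_smul_eq_self_iff]
  apply huniq
  · exact conj_smul_mem_sylSet hQ₀ (by rw [Subgroup.normalizer_eq_top]; trivial)
  · rw [Cfsg.Agent.Lib.Helper4_Syl.normalizer_conj]
    have h1 : MulAut.conj m • P = P := by
      rw [conj_smul_eq_self_iff, hPn]; exact hm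
    rw [← h1]
    exact Subgroup.pointwise_smul_le_pointwise_smul_iff.2 hPQ₀

/-- Call a proper subgroup M of G primitive when M = N_G(N) for every non-trivial normal subgroup N of M. Let M be a primitive subgroup of the finite group G, p a prime with O_p(M) ≠ 1, and N a normal subgroup of G with M ∩ N = 1. Then p does not divide the order of N; for every prime q there is exactly one Sylow q-subgroup of N normalized by M; and if the order of N has at least two prime divisors then M is not a maximal subgroup of G. -/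
theorem result {G : Type*} [Group G] [Finite G] (M : Subgroup G) (hM : M ≠ ⊤) (hprim : ∀ N : Subgroup G, N ≤ M → M ≤ Subgroup.normalizer (N : Set G) → N ≠ ⊥ → Subgroup.normalizer (N : Set G) = M) {p : ℕ} [Fact p.Prime] (hOp : Cfsg.pCore p ↥M ≠ ⊥) (N : Subgroup G) [N.Normal] (hMN : M ⊓ N = ⊥) : ¬ p ∣ Nat.card N ∧ (∀ q : ℕ, [Fact q.Prime] → ∃! Q : Sylow q ↥N, M ≤ Subgroup.normalizer ((Q : Subgroup ↥N).map N.subtype : Set G)) ∧ ((∃ q r : ℕ, q.Prime ∧ r.Prime ∧ q ≠ r ∧ q ∣ Nat.card N ∧ r ∣ Nat.card N) → ¬ IsCoatom M) := by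
  set P : Subgroup G := (Cfsg.pCore p ↥M).map M.subtype with hP
  have hPM : P ≤ M := Subgroup.map_subtype_le _
  have hPp : IsPGroup p P := (Cfsg.Agent.Lib.Helper4_Core.pCore_isPGroup p M).map _
  have hPne : P ≠ ⊥ := by
    intro h
    apply hOp
    rw [hP] at h
    exact (Subgroup.map_eq_bot_iff_of_injective _ M.subtype_injective).1 h
  have hMP : M ≤ Subgroup.normalizer (P : Set G) := by
    have h1 : (Cfsg.pCore p ↥M).Normal := inferInstance
    intro m hm
    rw [Subgroup.mem_normalizer_iff]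
    intro x
    constructor
    · rintro ⟨y, hy, rfl⟩
      exact ⟨⟨m, hm⟩ * y * ⟨m, hm⟩⁻¹, h1.conj_mem y hy _, rfl⟩
    · rintro ⟨y, hy, hyx⟩
      refine ⟨⟨m, hm⟩⁻¹ * y * ⟨m, hm⟩, ?_, ?_⟩
      · have := h1.conj_mem y hy ⟨m, hm⟩⁻¹
        rwa [inv_inv] at this
      · show m⁻¹ * (M.subtype y) * m = x
        rw [hyx]; group
  have hPn := hprim P hPM hMP hPne
  obtain ⟨h1, h2⟩ := aux M P hPM hPp hPn N hMN
  refine ⟨h1, ?_, ?_⟩
  · intro q _
    obtain ⟨Q₀, hQ₀, hMQ₀, huniq⟩ := h2 q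
    obtain ⟨Q, hQ⟩ := Cfsg.Agent.Lib.Helper1_CoprimeSylow.exists_sylow_of_mem_sylSet hQ₀
    refine ⟨Q, ?_, ?_⟩
    · show M ≤ Subgroup.normalizer ((Q : Subgroup ↥N).map N.subtype : Set G)
      rw [hQ]; exact hMQ₀
    · intro Q' hQ'
      have h3 := huniq _ (Cfsg.Agent.Lib.Helper1_CoprimeSylow.mem_sylSet_of_sylow Q') hQ'
      rw [← hQ] at h3
      exact Sylow.ext (Subgroup.map_injective N.subtype_injective h3)
  · rintro ⟨q, r, hq, hr, hqr, hqN, hrN⟩ hco
    haveI : Fact q.Prime := ⟨hq⟩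
    obtain ⟨Q₀, hQ₀, hMQ₀, -⟩ := h2 q
    have hQcard := hQ₀.2
    have hf : (Nat.card N).factorization q ≠ 0 := by
      have := (hq.dvd_iff_one_le_factorization (Nat.card_pos.ne')).1 hqN
      omega
    have hQne : ¬ Q₀ ≤ M := by
      intro h
      have h3 : Q₀ ≤ M ⊓ N := le_inf h hQ₀.1
      rw [hMN, le_bot_iff] at h3
      rw [h3, Subgroup.card_bot] at hQcard
      have := Nat.one_lt_pow hf hq.one_lt
      omega
    have hlt : M < M ⊔ Q₀ := by
      apply lt_of_le_of_ne le_sup_left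
      intro h
      apply hQne
      rw [h]; exact le_sup_right
    have htop := hco.2 _ hlt
    have htop2 : M ⊔ N = ⊤ := by
      rw [eq_top_iff, ← htop]
      exact sup_le_sup_left hQ₀.1 M
    have c1 := Cfsg.Agent.Lib.Helper2_EA.card_sup_mul_card_inf M Q₀ hMQ₀
    have c2 := Cfsg.Agent.Lib.Helper2_EA.card_sup_mul_card_inf M N
      (by rw [Subgroup.normalizer_eq_top]; exact le_top)
    have hMQ : M ⊓ Q₀ = ⊥ := by
      rw [← le_bot_iff, ← hMN]
      exact inf_le_inf_left M hQ₀.1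
    rw [htop, hMQ, Subgroup.card_bot, mul_one] at c1
    rw [htop2, hMN, Subgroup.card_bot, mul_one] at c2
    have c3 : Nat.card Q₀ = Nat.card N := by
      have : Nat.card M * Nat.card Q₀ = Nat.card M * Nat.card N := by rw [← c1, ← c2]
      exact Nat.eq_of_mul_eq_mul_left Nat.card_pos this
    rw [← c3, hQcard] at hrN
    exact hqr ((Nat.prime_dvd_prime_iff_eq hr hq).1 (hr.dvd_of_dvd_pow hrN)).symm

end Cfsg.Agent.S3749
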