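import Cfsg.Statements.S3760

import Cfsg.Agent.Lib.Helper7_Conj
set_option autoImplicit false
open Cfsg

namespace Cfsg.Agent.S3760


/-- Let the group G act transitively on a set X, let x ∈ X with stabilizer H = G_x, and let K ≤ H. Then N_G(K) acts transitively on the set of fixed points of K if and only if every G-conjugate of K contained in H is already an H-conjugate of K. -/
theorem result {G : Type*} [Group G] {X : Type*} [MulAction G X] (htrans : ∀ a b : X, ∃ g : G, g • a = b) (x : X) (K : Subgroup G) (hK : K ≤ MulAction.stabilizer G x) : (∀ a b : X, (∀ k ∈ K, k • a = a) → (∀ k ∈ K, k • b = b) → ∃ g ∈ Subgroup.normalizer (K : Set G), g • a = b) ↔ ∀ g : G, K.map (MulAut.conj g).toMonoidHom ≤ MulAction.stabilizer G x → ∃ h ∈ MulAction.stabilizer G x, K.map (MulAut.conj g).toMonoidHom = K.map (MulAut.conj h).toMonoidHom := by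
  have hmem : ∀ (g y : G), y ∈ K.map (MulAut.conj g).toMonoidHom ↔ g⁻¹ * y * g ∈ K :=
    fun g y => Cfsg.Agent.Lib.Helper7_Conj.mem_cj
  constructor
  · intro H g hg
    have h1 : ∀ k ∈ K, k • (g⁻¹ • x) = g⁻¹ • x := by
      intro k hk
      have h3 : g * k * g⁻¹ ∈ MulAction.stabilizer G x :=
        hg ((hmem g _).2 (by simpa [mul_assoc] using hk))
      rw [MulAction.mem_stabilizer_iff] at h3
      calc k • (g⁻¹ • x) = g⁻¹ • ((g * k * g⁻¹) • x) := by simp [mul_smul]
        _ = g⁻¹ • x := by rw [h3]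
    have h2 : ∀ k ∈ K, k • x = x := fun k hk => hK hk
    obtain ⟨n, hn, hnx⟩ := H x (g⁻¹ • x) h2 h1
    refine ⟨g * n, ?_, ?_⟩
    · rw [MulAction.mem_stabilizer_iff, mul_smul, hnx, smul_inv_smul]
    · ext y
      rw [hmem, hmem]
      have := (Subgroup.mem_normalizer_iff''.1 hn) (g⁻¹ * y * g)
      simpa [mul_assoc] using this
  · intro H a b ha hb
    have key : ∀ c : X, (∀ k ∈ K, k • c = c) →
        ∃ n ∈ Subgroup.normalizer (K : Set G), n • x = c := by
      intro c hc
      obtain ⟨u, hu⟩ := htrans x c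
      have h1 : K.map (MulAut.conj u⁻¹).toMonoidHom ≤ MulAction.stabilizer G x := by
        intro y hy
        rw [hmem] at hy
        rw [MulAction.mem_stabilizer_iff]
        have h4 := hc _ hy
        rw [← hu] at h4
        simp only [inv_inv, mul_smul, inv_smul_smul] at h4
        exact smul_left_cancel u h4
      obtain ⟨h, hh, heq⟩ := H u⁻¹ h1
      refine ⟨u * h, ?_, ?_⟩
      · rw [Subgroup.mem_normalizer_iff'']
        intro y
        have h3 : (u⁻¹ * y * u) ∈ K.map (MulAut.conj u⁻¹).toMonoidHom ↔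
            (u⁻¹ * y * u) ∈ K.map (MulAut.conj h).toMonoidHom := by rw [heq]
        rw [hmem, hmem] at h3
        simpa [mul_assoc] using h3
      · rw [mul_smul, MulAction.mem_stabilizer_iff.1 hh, hu]
    obtain ⟨n1, hn1, h1⟩ := key a ha
    obtain ⟨n2, hn2, h2⟩ := key b hb
    exact ⟨n2 * n1⁻¹, mul_mem hn2 (inv_mem hn1), by rw [mul_smul, ← h1, inv_smul_smul, h2]⟩

end Cfsg.Agent.S3760
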