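import Cfsg.Statements.S3768
import Cfsg.Agent.Lib.Helper1_FrobKer
import Cfsg.Agent.Lib.Helper1_FrobThm
import Cfsg.Agent.S3383

set_option autoImplicit false
open Cfsg

namespace Cfsg.Agent.S3768

open Subgroup Cfsg.Agent.Lib.Helper1_FrobKer

/-- Let G be a finite Frobenius group with Frobenius complement R and Frobenius kernel K (the identity together with the elements in no conjugate of R), and let N be a normal subgroup of G not containing K. Then G/N is a Frobenius group with Frobenius complement RN/N whose Frobenius kernel is the image of K. -/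
theorem result {G : Type*} [Group G] [Finite G] (R : Subgroup G) (hR : Cfsg.IsFrobeniusComplement R) (N : Subgroup G) [N.Normal] (hKN : ¬ Cfsg.frobeniusKernel R ⊆ N) : Cfsg.IsFrobeniusComplement (R.map (QuotientGroup.mk' N)) ∧ Cfsg.frobeniusKernel (R.map (QuotientGroup.mk' N)) = QuotientGroup.mk' N '' Cfsg.frobeniusKernel R := by
  classical
  obtain ⟨K₀, hK₀, hK₀n, hK₀c⟩ := Cfsg.Agent.Lib.Helper1_FrobThm.exists_kernel R hR.2.2
  haveI := hK₀n
  have hNK : N ≤ K₀ := by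
    rcases (Cfsg.Agent.S3383.result R hR K₀ hK₀).2 N inferInstance with h | h
    · exfalso
      apply hKN
      rw [← hK₀]
      exact h
    · exact h
  have hK₀bot : K₀ ≠ ⊥ := by
    intro h
    apply hR.2.1
    have := hK₀c.isCompl.sup_eq_top
    rwa [h, bot_sup_eq] at this
  have h39 := (Cfsg.Agent.S0039.result K₀ R hK₀c hK₀bot hR.1).mp hR
  have hdisj : K₀ ⊓ R = ⊥ := hK₀c.isCompl.inf_eq_bot
  set π := QuotientGroup.mk' N with hπ
  have hπs : Function.Surjective π := QuotientGroup.mk'_surjective N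
  haveI hKbn : (K₀.map π).Normal := hK₀n.map π hπs
  have hπ1 : ∀ x : G, π x = 1 ↔ x ∈ N := fun x => QuotientGroup.eq_one_iff x
  -- commuting with `r` inside `K₀`
  have hcomm : ∀ r ∈ R, r ≠ 1 → ∀ a ∈ K₀, ∀ b ∈ K₀, a * r * a⁻¹ * r⁻¹ = b * r * b⁻¹ * r⁻¹ → a = b := by
    intro r hr hr1 a ha b hb hab
    have h3 : a * r * a⁻¹ = b * r * b⁻¹ := mul_right_cancel hab
    have h2 : (b⁻¹ * a) * r = r * (b⁻¹ * a) := by
      calc (b⁻¹ * a) * r = b⁻¹ * (a * r * a⁻¹) * a := by group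
        _ = b⁻¹ * (b * r * b⁻¹) * a := by rw [h3]
        _ = r * (b⁻¹ * a) := by group
    have h4 : b⁻¹ * a ∈ K₀ ⊓ centralizer {r} := by
      refine ⟨K₀.mul_mem (K₀.inv_mem hb) ha, ?_⟩
      show _ ∈ centralizer {r}
      rw [mem_centralizer_singleton_iff]
      exact h2
    rw [h39 r hr hr1, mem_bot] at h4
    exact (inv_mul_eq_one.mp h4).symm
  have hc : IsComplement' (K₀.map π) (R.map π) := by
    apply isComplement'_of_disjoint_and_mul_eq_univ
    · rw [disjoint_iff, eq_bot_iff]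
      rintro x ⟨⟨k, hk, rfl⟩, ⟨r, hr, hrk⟩⟩
      rw [mem_bot]
      have h1 : π (k⁻¹ * r) = 1 := by rw [map_mul, map_inv, hrk, inv_mul_cancel]
      have h2 : k⁻¹ * r ∈ K₀ := hNK ((hπ1 _).mp h1)
      have h3 : r ∈ K₀ := by
        have := K₀.mul_mem hk h2
        rwa [mul_inv_cancel_left] at this
      have h4 : r ∈ K₀ ⊓ R := ⟨h3, hr⟩
      rw [hdisj, mem_bot] at h4
      rw [← hrk, h4, map_one]
    · rw [Set.eq_univ_iff_forall]
      intro q
      obtain ⟨g, rfl⟩ := hπs q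
      obtain ⟨k, hk, r, hr, rfl⟩ := Cfsg.Agent.S0039.exists_mul hK₀c g
      exact Set.mem_mul.mpr ⟨π k, mem_map_of_mem π hk, π r, mem_map_of_mem π hr, (map_mul π k r).symm⟩
  have hKb : K₀.map π ≠ ⊥ := by
    intro h
    apply hKN
    rw [← hK₀]
    intro k hk
    have h1 : π k ∈ K₀.map π := mem_map_of_mem π hk
    rw [h, mem_bot] at h1
    exact (hπ1 k).mp h1
  have hRb : R.map π ≠ ⊥ := by
    intro h
    apply hR.1
    rw [eq_bot_iff]
    intro r hr
    have h1 : π r ∈ R.map π := mem_map_of_mem π hr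
    rw [h, mem_bot] at h1
    have h2 : r ∈ K₀ ⊓ R := ⟨hNK ((hπ1 r).mp h1), hr⟩
    rwa [hdisj] at h2
  have hfpf : ∀ h ∈ R.map π, h ≠ 1 → K₀.map π ⊓ centralizer {h} = ⊥ := by
    rintro _ ⟨r, hr, rfl⟩ hr1
    have hr1' : r ≠ 1 := by
      intro h; apply hr1; rw [h, map_one]
    rw [eq_bot_iff]
    rintro _ ⟨⟨k, hk, rfl⟩, hkc⟩
    have hkc' : π k ∈ centralizer {π r} := hkc
    rw [mem_centralizer_singleton_iff] at hkc'
    rw [mem_bot, hπ1]
    have hkN : k * r * k⁻¹ * r⁻¹ ∈ N := by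
      rw [← hπ1]
      simp only [map_mul, map_inv]
      rw [hkc']
      group
    have hmem : ∀ n : N, (n : G) * r * (n : G)⁻¹ * r⁻¹ ∈ N := by
      intro n
      have h1 : r * (n : G)⁻¹ * r⁻¹ ∈ N := ‹N.Normal›.conj_mem _ (N.inv_mem n.2) r
      have h2 : (n : G) * r * (n : G)⁻¹ * r⁻¹ = (n : G) * (r * (n : G)⁻¹ * r⁻¹) := by group
      rw [h2]; exact N.mul_mem n.2 h1
    let f : N → N := fun n => ⟨(n : G) * r * (n : G)⁻¹ * r⁻¹, hmem n⟩
    have hf : Function.Injective f := by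
      intro a b hab
      apply Subtype.ext
      exact hcomm r hr hr1' a (hNK a.2) b (hNK b.2) (congrArg Subtype.val hab)
    have hfs : Function.Surjective f := Finite.injective_iff_surjective.mp hf
    obtain ⟨n, hn⟩ := hfs ⟨_, hkN⟩
    have h5 := hcomm r hr hr1' n (hNK n.2) k hk (congrArg Subtype.val hn)
    rw [← h5]; exact n.2
  obtain ⟨h1, h2⟩ := frob_and_kernel (K₀.map π) (R.map π) hc hKb hRb hfpf
  refine ⟨h1, ?_⟩
  rw [h2, ← hK₀, Subgroup.coe_map]

end Cfsg.Agent.S3768
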