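import Cfsg.Statements.S3774
import Mathlib

set_option autoImplicit false
open Cfsg

namespace Cfsg.Agent.S3774

/-- Let G be a nontrivial finite 2-group whose automorphism group permutes the involutions of G transitively. Then every involution of G is central, so that the involutions together with 1 form the subgroup Ω₁(Z(G)), and if this subgroup has order q then |G| is a power of q. -/
theorem result {G : Type*} [Group G] [Finite G] [Nontrivial G] (hG : IsPGroup 2 G) (htrans : ∀ x y : G, x ≠ 1 → x ^ 2 = 1 → y ≠ 1 → y ^ 2 = 1 → ∃ a : MulAut G, a x = y) : (∀ x : G, x ^ 2 = 1 → x ∈ Subgroup.center G) ∧ ∃ m : ℕ, Nat.card G = Nat.card {z : G // z ^ 2 = 1} ^ m := by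
  classical
  haveI : Fact (Nat.Prime 2) := ⟨Nat.prime_two⟩
  haveI : Fintype G := Fintype.ofFinite G
  -- the involution in the cyclic group generated by x
  let ι : G → G := fun x => x ^ (orderOf x / 2)
  have hord : ∀ x : G, x ≠ 1 → 2 ∣ orderOf x := by
    intro x hx
    obtain ⟨k, hk⟩ := (IsPGroup.iff_orderOf.mp hG) x
    rcases Nat.eq_zero_or_pos k with h0 | h0
    · exfalso; apply hx
      rw [h0, pow_zero] at hk
      exact orderOf_eq_one_iff.mp hk
    · rw [hk]; exact dvd_pow_self 2 h0.ne'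
  have hι2 : ∀ x : G, x ≠ 1 → (ι x) ^ 2 = 1 := by
    intro x hx
    show (x ^ (orderOf x / 2)) ^ 2 = 1
    rw [← pow_mul, Nat.div_mul_cancel (hord x hx), pow_orderOf_eq_one]
  have hι1 : ∀ x : G, x ≠ 1 → ι x ≠ 1 := by
    intro x hx
    have h2 := hord x hx
    have hpos := orderOf_pos x
    apply pow_ne_one_of_lt_orderOf
    · obtain ⟨c, hc⟩ := h2
      omega
    · omega
  have hιa : ∀ (a : MulAut G) (x : G), ι (a x) = a (ι x) := by
    intro a x
    show (a x) ^ (orderOf (a x) / 2) = a (x ^ (orderOf x / 2))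
    rw [MulEquiv.orderOf_eq, map_pow]
  -- part 1
  have hcen : ∀ x : G, x ^ 2 = 1 → x ∈ Subgroup.center G := by
    intro x hx
    by_cases hx1 : x = 1
    · rw [hx1]; exact Subgroup.one_mem _
    haveI := hG.center_nontrivial
    obtain ⟨c, hc⟩ := exists_ne (1 : Subgroup.center G)
    have hc1 : (c : G) ≠ 1 := fun h => hc (Subtype.ext h)
    have hz : ι (c : G) ∈ Subgroup.center G := Subgroup.pow_mem _ c.2 _
    obtain ⟨a, ha⟩ := htrans (ι (c : G)) x (hι1 _ hc1) (hι2 _ hc1) hx1 hx
    rw [← ha, Subgroup.mem_center_iff]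
    intro g
    have h1 := Subgroup.mem_center_iff.mp hz (a.symm g)
    have h2 := congrArg a h1
    rw [map_mul, map_mul, MulEquiv.apply_symm_apply] at h2
    exact h2
  refine ⟨hcen, ?_⟩
  -- the subgroup of involutions
  let Ω : Subgroup G :=
    { carrier := {z | z ^ 2 = 1}
      one_mem' := one_pow 2
      mul_mem' := by
        intro x y hx hy
        have hc : Commute x y := (Subgroup.mem_center_iff.mp (hcen x hx) y).symm
        show (x * y) ^ 2 = 1
        rw [hc.mul_pow, show x ^ 2 = 1 from hx, show y ^ 2 = 1 from hy, one_mul]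
      inv_mem' := by
        intro x hx
        show (x⁻¹) ^ 2 = 1
        rw [inv_pow, show x ^ 2 = 1 from hx, inv_one] }
  have hΩcard : Nat.card Ω = Nat.card {z : G // z ^ 2 = 1} := rfl
  obtain ⟨b, hb⟩ := IsPGroup.iff_card.mp (hG.to_subgroup Ω)
  obtain ⟨a, ha⟩ := IsPGroup.iff_card.mp hG
  -- counting
  set X : Finset G := Finset.univ.filter (fun x => x ≠ 1) with hX
  set Y : Finset G := Finset.univ.filter (fun z => z ≠ 1 ∧ z ^ 2 = 1) with hY
  have hXcard : X.card + 1 = Nat.card G := by
    rw [hX, Finset.filter_ne', Finset.card_erase_of_mem (Finset.mem_univ _), Finset.card_univ,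
      Nat.card_eq_fintype_card]
    have : 0 < Fintype.card G := Fintype.card_pos
    omega
  have hYcard : Y.card + 1 = Nat.card {z : G // z ^ 2 = 1} := by
    rw [Nat.card_eq_fintype_card, Fintype.card_subtype]
    have : Y = (Finset.univ.filter (fun z : G => z ^ 2 = 1)).erase 1 := by
      ext z
      simp [hY]
    rw [this, Finset.card_erase_of_mem (by simp)]
    have : 0 < (Finset.univ.filter (fun z : G => z ^ 2 = 1)).card :=
      Finset.card_pos.mpr ⟨1, by simp⟩
    omega
  have hmaps : ∀ x ∈ X, ι x ∈ Y := by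
    intro x hx
    rw [hX, Finset.mem_filter] at hx
    rw [hY, Finset.mem_filter]
    exact ⟨Finset.mem_univ _, hι1 x hx.2, hι2 x hx.2⟩
  have hsum := Finset.card_eq_sum_card_fiberwise hmaps
  obtain ⟨x0, hx0⟩ := exists_ne (1 : G)
  set y0 := ι x0 with hy0
  have hfib : ∀ y ∈ Y, (X.filter (fun x => ι x = y)).card = (X.filter (fun x => ι x = y0)).card := by
    intro y hy
    rw [hY, Finset.mem_filter] at hy
    obtain ⟨al, hal⟩ := htrans y0 y (hι1 _ hx0) (hι2 _ hx0) hy.2.1 hy.2.2
    symm
    apply Finset.card_bij (fun x _ => al x)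
    · intro x hx
      rw [Finset.mem_filter, hX, Finset.mem_filter] at hx ⊢
      refine ⟨⟨Finset.mem_univ _, ?_⟩, ?_⟩
      · intro h
        apply hx.1.2
        have : al x = al 1 := by rw [h, map_one]
        exact al.injective this
      · rw [hιa, hx.2, hal]
    · intro x _ x' _ h
      exact al.injective h
    · intro x hx
      rw [Finset.mem_filter, hX, Finset.mem_filter] at hx
      refine ⟨al.symm x, ?_, MulEquiv.apply_symm_apply al x⟩
      rw [Finset.mem_filter, hX, Finset.mem_filter]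
      refine ⟨⟨Finset.mem_univ _, ?_⟩, ?_⟩
      · intro h
        apply hx.1.2
        have : al (al.symm x) = al 1 := by rw [h]
        rwa [MulEquiv.apply_symm_apply, map_one] at this
      · apply al.injective
        rw [← hιa, MulEquiv.apply_symm_apply, hx.2, hal]
  rw [Finset.sum_congr rfl hfib, Finset.sum_const, smul_eq_mul] at hsum
  have hdvd : (2 ^ b - 1) ∣ (2 ^ a - 1) := by
    have e1 : X.card = 2 ^ a - 1 := by omega
    have e2 : Y.card = 2 ^ b - 1 := by
      rw [← hΩcard, hb] at hYcard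
      omega
    rw [← e1, ← e2, hsum]
    exact Dvd.intro _ rfl
  have hgcd := Nat.pow_sub_one_gcd_pow_sub_one 2 b a
  rw [Nat.gcd_eq_left hdvd] at hgcd
  have h1 : 2 ^ b = 2 ^ Nat.gcd b a := by
    have p1 : 1 ≤ 2 ^ b := Nat.one_le_two_pow
    have p2 : 1 ≤ 2 ^ Nat.gcd b a := Nat.one_le_two_pow
    omega
  have h2 : b = Nat.gcd b a := Nat.pow_right_injective (le_refl 2) h1
  obtain ⟨m, hm⟩ : b ∣ a := h2 ▸ Nat.gcd_dvd_right b a
  refine ⟨m, ?_⟩
  rw [← hΩcard, hb, ha, hm, pow_mul]

end Cfsg.Agent.S3774
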