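import Mathlib
import Cfsg.Agent.Lib.helper6_HallAut
import Cfsg.Agent.S0012
import Cfsg.Statements.S3780

set_option autoImplicit false
open Cfsg

namespace Cfsg.Agent.S3780

theorem ring_fact {R : Type*} [Ring R] {p : ℕ} (hp : p.Prime) (a : R) (ha : a ^ p = 1) :
    ∃ N s : R, N + 1 = a ∧ N ^ p = (p : R) * s := by
  obtain ⟨s, hs⟩ := Commute.exists_add_pow_prime_eq hp
    (show Commute a (-1 : R) from (Commute.one_right a).neg_right)
  rw [ha] at hs
  rcases hp.eq_two_or_odd' with h2 | hodd
  · refine ⟨a + -1, 1 + a * (-1) * s, by abel, ?_⟩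
    rw [hs, h2]
    push_cast
    noncomm_ring
  · refine ⟨a + -1, a * (-1) * s, by abel, ?_⟩
    rw [hs, hodd.neg_one_pow]
    noncomm_ring

theorem card_le_mul {A : Type*} [AddCommGroup A] [Finite A] (f : A →+ A) (X Y Z : AddSubgroup A)
    (h1 : ∀ x ∈ X, f x ∈ Z) (h2 : ∀ x ∈ X, f x = 0 → x ∈ Y) :
    Nat.card X ≤ Nat.card Y * Nat.card Z := by
  obtain ⟨g, hg⟩ : ∃ g : X →+ Z, ∀ x : X, (g x : A) = f x :=
    ⟨(f.comp X.subtype).codRestrict Z (fun x => h1 x x.2), fun x => rfl⟩
  have h3 := AddSubgroup.card_mul_index g.ker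
  rw [AddSubgroup.index_ker] at h3
  rw [← h3]
  apply Nat.mul_le_mul
  · apply Nat.card_le_card_of_injective (fun x : g.ker => (⟨x.1.1, h2 x.1.1 x.1.2 (by
      have h4 : g x.1 = 0 := x.2
      rw [← hg, h4]
      rfl)⟩ : Y))
    intro x y hxy
    apply Subtype.ext
    apply Subtype.ext
    exact congrArg (fun z : Y => z.1) hxy
  · exact Nat.card_le_card_of_injective (fun x : g.range => x.1) Subtype.val_injective

/-- automorphisms as additive endomorphisms -/
def toEnd (V : Type*) [CommGroup V] : MulAut V →* AddMonoid.End (Additive V) where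
  toFun α := (MulEquiv.toAdditive α).toAddMonoidHom
  map_one' := rfl
  map_mul' _ _ := rfl

theorem toEnd_apply {V : Type*} [CommGroup V] (α : MulAut V) (v : V) :
    toEnd V α (Additive.ofMul v) = Additive.ofMul (α v) := rfl

/-- the chain of kernels -/
def ker (V : Type*) [CommGroup V] (p : ℕ) (N : AddMonoid.End (Additive V)) (k : ℕ) :
    AddSubgroup (Additive V) where
  carrier := {w | p • w = 0 ∧ (N ^ k) w = 0}
  zero_mem' := ⟨by simp, by simp⟩
  add_mem' := by
    rintro a b ⟨ha1, ha2⟩ ⟨hb1, hb2⟩
    exact ⟨by rw [smul_add, ha1, hb1, add_zero], by rw [map_add, ha2, hb2, add_zero]⟩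
  neg_mem' := by
    rintro a ⟨ha1, ha2⟩
    exact ⟨by rw [smul_neg, ha1, neg_zero], by rw [map_neg, ha2, neg_zero]⟩

theorem card_ker_le {V : Type*} [CommGroup V] [Finite V] (p : ℕ) (N : AddMonoid.End (Additive V))
    (k : ℕ) : Nat.card (ker V p N k) ≤ Nat.card (ker V p N 1) ^ k := by
  induction k with
  | zero =>
    rw [pow_zero]
    have : Subsingleton (ker V p N 0) := by
      constructor
      intro a b
      apply Subtype.ext
      have ha : (N ^ 0) a.1 = 0 := a.2.2
      have hb : (N ^ 0) b.1 = 0 := b.2.2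
      rw [pow_zero] at ha hb
      have ha' : a.1 = 0 := ha
      have hb' : b.1 = 0 := hb
      rw [ha', hb']
    exact Finite.card_le_one_iff_subsingleton.mpr this
  | succ k ih =>
    have h1 := card_le_mul (N ^ k : AddMonoid.End (Additive V)) (ker V p N (k + 1)) (ker V p N k)
      (ker V p N 1) (by
        rintro x ⟨hx1, hx2⟩
        refine ⟨?_, ?_⟩
        · have h5 := map_nsmul (N ^ k) p x
          rw [hx1, map_zero] at h5
          exact h5.symm
        · rw [pow_one]
          rw [pow_succ'] at hx2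
          exact hx2) (by
        rintro x ⟨hx1, hx2⟩ hx3
        exact ⟨hx1, hx3⟩)
    calc Nat.card (ker V p N (k + 1)) ≤ Nat.card (ker V p N k) * Nat.card (ker V p N 1) := h1
      _ ≤ Nat.card (ker V p N 1) ^ k * Nat.card (ker V p N 1) := Nat.mul_le_mul_right _ ih
      _ = Nat.card (ker V p N 1) ^ (k + 1) := (pow_succ _ _).symm

/-- Let V be a finite abelian p-group and α an automorphism of V of order p whose fixed-point subgroup has order p^n. Then V can be generated by pn elements: some subset of V with at most pn elements generates V. -/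
theorem result {V : Type*} [CommGroup V] [Finite V] {p : ℕ} [Fact p.Prime] (hV : IsPGroup p V) (α : MulAut V) (hα : orderOf α = p) (n : ℕ) (hfix : Nat.card {v : V // α v = v} = p ^ n) : ∃ S : Finset V, S.card ≤ p * n ∧ Subgroup.closure (S : Set V) = ⊤ := by
  classical
  have hp : p.Prime := Fact.out
  obtain ⟨m, hm⟩ := IsPGroup.iff_card.mp hV
  obtain ⟨r, hr⟩ : ∃ r, (frattini V).index = p ^ r := by
    have h1 : (frattini V).index ∣ p ^ m := hm ▸ Subgroup.index_dvd_card _
    obtain ⟨r, -, hr⟩ := (Nat.dvd_prime_pow hp).mp h1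
    exact ⟨r, hr⟩
  obtain ⟨y, hy⟩ := Cfsg.Agent.Lib.helper6_HallAut.exists_gens_frattini hr
  have hgen := hy y (fun i => by simp)
  -- the nilpotent operator
  have hapow : toEnd V α ^ p = 1 := by
    rw [← map_pow, ← hα, pow_orderOf_eq_one, map_one]
  obtain ⟨N, s, hN, hs⟩ := ring_fact hp (toEnd V α) hapow
  -- `ker p` is all of `Ω₁`
  have hΩ : Nat.card (powMonoidHom p : V →* V).ker ≤ Nat.card (ker V p N p) := by
    apply Nat.card_le_card_of_injective (fun x : (powMonoidHom p : V →* V).ker =>
      (⟨Additive.ofMul x.1, by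
        have hx : x.1 ^ p = 1 := x.2
        have hx' : p • (Additive.ofMul x.1) = 0 := congrArg Additive.ofMul hx
        refine ⟨hx', ?_⟩
        rw [hs]
        show (p : AddMonoid.End (Additive V)) (s (Additive.ofMul x.1)) = 0
        rw [AddMonoid.End.natCast_apply]
        have h5 := map_nsmul s p (Additive.ofMul x.1)
        rw [hx', map_zero] at h5
        exact h5.symm⟩ : ker V p N p))
    intro a b hab
    apply Subtype.ext
    exact congrArg (fun z : ker V p N p => Additive.toMul z.1) hab
  have hfix' : Nat.card (ker V p N 1) ≤ p ^ n := by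
    rw [← hfix]
    apply Nat.card_le_card_of_injective (fun x : ker V p N 1 =>
      (⟨Additive.toMul x.1, by
        have hx : (N ^ 1) x.1 = 0 := x.2.2
        rw [pow_one] at hx
        have hx1 : (N + 1) x.1 = N x.1 + x.1 := rfl
        have hx3 : toEnd V α x.1 = x.1 := by
          rw [← hN, hx1, hx, zero_add]
        exact congrArg Additive.toMul hx3⟩ : {v : V // α v = v}))
    intro a b hab
    apply Subtype.ext
    exact congrArg (fun z : {v : V // α v = v} => Additive.ofMul z.1) hab
  -- `|V : Φ| ≤ |Ω₁|`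
  have hidx : p ^ r ≤ Nat.card (powMonoidHom p : V →* V).ker := by
    have h1 := Subgroup.card_mul_index (powMonoidHom p : V →* V).ker
    rw [Subgroup.index_ker] at h1
    have h2 := Subgroup.card_mul_index (powMonoidHom p : V →* V).range
    have h3 : (powMonoidHom p : V →* V).range.index = Nat.card (powMonoidHom p : V →* V).ker := by
      have h4 : Nat.card (powMonoidHom p : V →* V).range * (powMonoidHom p : V →* V).range.index =
          Nat.card (powMonoidHom p : V →* V).range * Nat.card (powMonoidHom p : V →* V).ker := by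
        rw [h2, ← h1, mul_comm]
      exact Nat.eq_of_mul_eq_mul_left Nat.card_pos h4
    have h5 : (powMonoidHom p : V →* V).range ≤ frattini V := by
      rintro _ ⟨x, rfl⟩
      exact (Cfsg.Agent.S0012.result p hV).2 x
    have h6 := Subgroup.index_dvd_of_le h5
    rw [hr, h3] at h6
    exact Nat.le_of_dvd Nat.card_pos h6
  have hfinal : p ^ r ≤ p ^ (n * p) := by
    calc p ^ r ≤ Nat.card (powMonoidHom p : V →* V).ker := hidx
      _ ≤ Nat.card (ker V p N p) := hΩ
      _ ≤ Nat.card (ker V p N 1) ^ p := card_ker_le p N p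
      _ ≤ (p ^ n) ^ p := Nat.pow_le_pow_left hfix' p
      _ = p ^ (n * p) := (pow_mul _ _ _).symm
  have hrn : r ≤ n * p := (Nat.pow_le_pow_iff_right hp.one_lt).mp hfinal
  refine ⟨Finset.univ.image y, ?_, ?_⟩
  · calc (Finset.univ.image y).card ≤ (Finset.univ : Finset (Fin r)).card := Finset.card_image_le
      _ = r := by simp
      _ ≤ p * n := by rw [mul_comm]; exact hrn
  · rw [Finset.coe_image, Finset.coe_univ, Set.image_univ]
    exact hgen

end Cfsg.Agent.S3780
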