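import Cfsg.Statements.S3784
import Mathlib

set_option autoImplicit false
open Cfsg

namespace Cfsg.Agent.S3784

theorem odd_dvd_two_pow {s k : ℕ} (hs : Odd s) (h : s ∣ 2 ^ k) : s = 1 :=
  Nat.Coprime.eq_one_of_dvd (Nat.Coprime.pow_right k (Nat.coprime_two_right.mpr hs)) h

/-- `x ^ n + 1` a power of two, `x`, `n` odd, forces `n = 1`. -/
theorem lemA {x n a : ℕ} (hx : Odd x) (hx2 : 2 ≤ x) (hn : Odd n) (h : x ^ n + 1 = 2 ^ a) :
    n = 1 := by
  have key := geom_sum_mul (-(x : ℤ)) n
  rw [Odd.neg_pow hn] at key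
  set T := ∑ i ∈ Finset.range n, (-(x : ℤ)) ^ i with hT
  have key' : T * (((x + 1 : ℕ)) : ℤ) = ((x ^ n + 1 : ℕ) : ℤ) := by
    push_cast
    linear_combination -key
  have hTodd : Odd T := by
    rw [← ZMod.intCast_eq_one_iff_odd, hT]
    push_cast
    have h1 : (x : ZMod 2) = 1 := ZMod.natCast_eq_one_iff_odd.mpr hx
    have h2 : (-(1 : ZMod 2)) = 1 := by decide
    rw [h1, h2]
    simp only [one_pow, Finset.sum_const, Finset.card_range, nsmul_eq_mul, mul_one]
    exact ZMod.natCast_eq_one_iff_odd.mpr hn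
  have h3 : T.natAbs * (x + 1) = x ^ n + 1 := by
    have h4 := congrArg Int.natAbs key'
    rwa [Int.natAbs_mul, Int.natAbs_natCast, Int.natAbs_natCast] at h4
  have h5 : T.natAbs = 1 := odd_dvd_two_pow (Int.natAbs_odd.mpr hTodd) (h ▸ Dvd.intro _ h3)
  rw [h5, one_mul] at h3
  have h6 : x ^ n = x ^ 1 := by rw [pow_one]; omega
  exact Nat.pow_right_injective hx2 h6

/-- `x ^ n - 1` a power of two, `x`, `n` odd, forces `n = 1`. -/
theorem lemB {x n b : ℕ} (hx : Odd x) (hx2 : 2 ≤ x) (hn : Odd n) (h : x ^ n = 2 ^ b + 1) :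
    n = 1 := by
  obtain ⟨y, rfl⟩ : ∃ y, x = y + 1 := ⟨x - 1, by omega⟩
  have key := geom_sum_mul_add y n
  set S := ∑ i ∈ Finset.range n, (y + 1) ^ i with hS
  have hSodd : Odd S := by
    rw [← ZMod.natCast_eq_one_iff_odd, hS]
    push_cast
    have h1 : ((y : ZMod 2) + 1) = 1 := by
      have := ZMod.natCast_eq_one_iff_odd.mpr hx
      push_cast at this
      exact this
    rw [h1]
    simp only [one_pow, Finset.sum_const, Finset.card_range, nsmul_eq_mul, mul_one]
    exact ZMod.natCast_eq_one_iff_odd.mpr hn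
  have h3 : S * y = 2 ^ b := by omega
  have h5 : S = 1 := odd_dvd_two_pow hSodd (Dvd.intro _ h3)
  rw [h5, one_mul] at key
  have h6 : (y + 1) ^ n = (y + 1) ^ 1 := by rw [pow_one]; omega
  exact Nat.pow_right_injective hx2 h6

theorem sq_case {w b : ℕ} (hw : 2 ≤ w) (h : w ^ 2 = 2 ^ b + 1) : w = 3 := by
  have h1 : (w - 1) * (w + 1) = 2 ^ b := by
    obtain ⟨v, rfl⟩ : ∃ v, w = v + 1 := ⟨w - 1, by omega⟩
    have : (v + 1) ^ 2 = v * (v + 1 + 1) + 1 := by ring
    simp only [Nat.add_sub_cancel]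
    omega
  obtain ⟨i, -, hi⟩ := (Nat.dvd_prime_pow Nat.prime_two).mp (Dvd.intro _ h1 : (w - 1) ∣ 2 ^ b)
  obtain ⟨j, -, hj⟩ := (Nat.dvd_prime_pow Nat.prime_two).mp (Dvd.intro_left _ h1 : (w + 1) ∣ 2 ^ b)
  rcases i with _ | _ | i
  · rcases j with _ | _ | j
    · simp at hi hj; omega
    · simp at hi hj; omega
    · rw [pow_succ, pow_succ] at hj
      simp at hi
      omega
  · simp at hi; omega
  · rw [pow_succ, pow_succ] at hi
    have hpos : 0 < 2 ^ i := by positivity
    rcases j with _ | _ | j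
    · simp at hj; omega
    · simp at hj; omega
    · rw [pow_succ, pow_succ] at hj
      omega


/-- Let p, q be primes and a, b positive integers with p^a = q^b + 1. Then either p = 2, b = 1, a is prime and q = 2^a − 1; or q = 2, a = 1, b is a power of 2 and p = 2^b + 1; or p^a = 9 and q^b = 8. -/
theorem result (p q a b : ℕ) (hp : p.Prime) (hq : q.Prime) (ha : 1 ≤ a) (hb : 1 ≤ b) (h : p ^ a = q ^ b + 1) : (p = 2 ∧ b = 1 ∧ a.Prime ∧ q + 1 = 2 ^ a) ∨ (q = 2 ∧ a = 1 ∧ (∃ m : ℕ, b = 2 ^ m) ∧ p = 2 ^ b + 1) ∨ (p ^ a = 9 ∧ q ^ b = 8) := by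
  by_cases hp2 : p = 2
  · subst hp2
    left
    have hq2 : q ≠ 2 := by
      rintro rfl
      obtain ⟨a', rfl⟩ : ∃ a', a = a' + 1 := ⟨a - 1, by omega⟩
      obtain ⟨b', rfl⟩ : ∃ b', b = b' + 1 := ⟨b - 1, by omega⟩
      rw [pow_succ, pow_succ] at h
      omega
    have hqodd : Odd q := hq.odd_of_ne_two hq2
    have hb1 : b = 1 := by
      rcases Nat.even_or_odd b with hbe | hbo
      · exfalso
        obtain ⟨e, he⟩ := hbe
        have hwodd : Odd (q ^ e) := hqodd.pow
        obtain ⟨k, hk⟩ := hwodd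
        have h1 : q ^ b = (2 * k + 1) * (2 * k + 1) := by rw [he, pow_add, hk]
        have h2 : (2 * k + 1) * (2 * k + 1) = 4 * (k * k + k) + 1 := by ring
        rw [h1, h2] at h
        rcases a with _ | _ | a
        · omega
        · have hk0 : k * k + k = 0 := by omega
          have hk1 : k = 0 := by nlinarith
          have he0 : e ≠ 0 := by omega
          have h3 : 2 ≤ q ^ e := le_trans hq.two_le (Nat.le_self_pow he0 q)
          omega
        · rw [pow_succ, pow_succ] at h
          omega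
      · exact lemA hqodd hq.two_le hbo h.symm
    subst hb1
    rw [pow_one] at h
    refine ⟨rfl, rfl, ?_, h.symm⟩
    have ha1 : a ≠ 1 := by
      rintro rfl
      have := hq.two_le
      omega
    have hP : (2 ^ a - 1).Prime := by
      have : 2 ^ a - 1 = q := by omega
      rw [this]; exact hq
    exact (Nat.prime_of_pow_sub_one_prime ha1 hP).2
  · right
    have hpodd : Odd p := hp.odd_of_ne_two hp2
    have hq2 : q = 2 := by
      have h1 : Odd (p ^ a) := hpodd.pow
      rw [h] at h1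
      have h2 : Even (q ^ b) := by
        rcases Nat.even_or_odd (q ^ b) with h3 | h3
        · exact h3
        · exact absurd h1 (Nat.not_odd_iff_even.mpr (h3.add_one))
      exact hq.even_iff.mp ((Nat.even_pow.mp h2).1)
    subst hq2
    rcases Nat.even_or_odd a with hae | hao
    · right
      obtain ⟨e, he⟩ := hae
      have he0 : e ≠ 0 := by omega
      have h1 : (p ^ e) ^ 2 = 2 ^ b + 1 := by rw [← h, he, ← two_mul, mul_comm, pow_mul]
      have h2 : 2 ≤ p ^ e := le_trans hp.two_le (Nat.le_self_pow he0 p)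
      have h3 := sq_case h2 h1
      rw [h3] at h1
      constructor
      · rw [h]; omega
      · omega
    · left
      have ha1 := lemB hpodd hp.two_le hao h
      subst ha1
      rw [pow_one] at h
      refine ⟨rfl, rfl, ?_, h⟩
      exact Nat.pow_of_pow_add_prime (by norm_num) (by omega) (h ▸ hp)

end Cfsg.Agent.S3784
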