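import Mathlib
import Cfsg.Agent.S0009
import Cfsg.Agent.S0044
import Cfsg.Agent.Lib.Helper4_Omega
import Cfsg.Agent.Lib.Helper4_Core
import Cfsg.Statements.S3785

set_option autoImplicit false
open Cfsg

namespace Cfsg.Agent.S3785

open Cfsg.Agent.Lib.Helper4_Omega Cfsg.Agent.Lib.Helper4_Chain Cfsg.Agent.Lib.Helper3_Comp

/-- a `p'`-element commuting with the elements of prime order of `F(G)` centralizes `O_p(G)` -/
theorem claimA {G : Type*} [Group G] [Finite G]
    (hodd : Odd (Nat.card (Cfsg.fittingSubgroup G))) (p : ℕ) [hp : Fact p.Prime] (y : G)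
    (hy : ∀ x ∈ Cfsg.fittingSubgroup G, (orderOf x).Prime → y * x = x * y)
    (hyp : (orderOf y).Coprime p) : y ∈ Subgroup.centralizer (Cfsg.pCore p G : Set G) := by
  by_contra hyC
  have hn : (Cfsg.pCore p G).Normal := Cfsg.Agent.S0009.pCore_normal p G
  have hyN : y ∈ Subgroup.normalizer (Cfsg.pCore p G : Set G) := by
    rw [Subgroup.normalizer_eq_top_iff.mpr hn]
    trivial
  obtain ⟨R, hRQ, hRN, hRC, hR⟩ :=
    exists_small_exponent (Cfsg.Agent.Lib.Helper4_Core.pCore_isPGroup p G) hyp hyN hyC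
  apply hRC
  rw [Subgroup.mem_centralizer_iff]
  intro x hx
  have hxF : x ∈ Cfsg.fittingSubgroup G := Cfsg.Agent.S0009.pCore_le_fitting p (hRQ hx)
  by_cases hx1 : x = 1
  · simp [hx1]
  · rcases hR x hx with h1 | ⟨h2, h4⟩
    · have ho : orderOf x = p := orderOf_eq_prime h1 hx1
      exact (hy x hxF (by rw [ho]; exact hp.out)).symm
    · exfalso
      apply hx1
      have h5 : orderOf x ∣ 4 := orderOf_dvd_of_pow_eq_one h4
      have h6 : orderOf x ∣ Nat.card (Cfsg.fittingSubgroup G) := by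
        have := orderOf_dvd_natCard (⟨x, hxF⟩ : Cfsg.fittingSubgroup G)
        rwa [Subgroup.orderOf_mk] at this
      have h7 : (Nat.card (Cfsg.fittingSubgroup G)).Coprime 4 := by
        have : (Nat.card (Cfsg.fittingSubgroup G)).Coprime (2 ^ 2) :=
          Nat.Coprime.pow_right 2 (Nat.coprime_two_right.mpr hodd)
        simpa using this
      exact orderOf_eq_one_iff.mp (Nat.Coprime.eq_one_of_dvd (h7.coprime_dvd_left h6) h5)

/-- the set whose centralizer is `D_q` -/
def setS (G : Type*) [Group G] (q : ℕ) : Set G :=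
  {x | (x ∈ Cfsg.fittingSubgroup G ∧ (orderOf x).Prime) ∨
    ∃ p : ℕ, p.Prime ∧ p ≠ q ∧ x ∈ Cfsg.pCore p G}

theorem setS_conj {G : Type*} [Group G] (q : ℕ) (x g : G) (hx : x ∈ setS G q) :
    g * x * g⁻¹ ∈ setS G q := by
  rcases hx with ⟨h1, h2⟩ | ⟨p, hp, hpq, h1⟩
  · left
    refine ⟨(fittingSubgroup_normal G).conj_mem x h1 g, ?_⟩
    have := MulEquiv.orderOf_eq (MulAut.conj g) x
    rw [MulAut.conj_apply] at this
    rwa [this]
  · right
    exact ⟨p, hp, hpq, (Cfsg.Agent.S0009.pCore_normal p G).conj_mem x h1 g⟩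

theorem centralizer_setS_normal {G : Type*} [Group G] (q : ℕ) :
    (Subgroup.centralizer (setS G q)).Normal := by
  constructor
  intro d hd g
  rw [Subgroup.mem_centralizer_iff] at hd ⊢
  intro s hs
  have h1 := hd (g⁻¹ * s * g⁻¹⁻¹) (setS_conj q s g⁻¹ hs)
  rw [inv_inv] at h1
  calc s * (g * d * g⁻¹) = g * ((g⁻¹ * s * g) * d) * g⁻¹ := by group
    _ = g * (d * (g⁻¹ * s * g)) * g⁻¹ := by rw [h1]
    _ = g * d * g⁻¹ * s := by group

/-- `q'`-elements of `D_q` commute with `D_q` -/
theorem central_of_coprime {G : Type*} [Group G] [Finite G] (hG : Group.IsSolvable G)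
    (hodd : Odd (Nat.card (Cfsg.fittingSubgroup G))) (q : ℕ) [hq : Fact q.Prime] (z : G)
    (hz : z ∈ Subgroup.centralizer (setS G q)) (hzq : (orderOf z).Coprime q) (d : G)
    (hd : d ∈ Subgroup.centralizer (setS G q)) : d * z = z * d := by
  rw [Subgroup.mem_centralizer_iff] at hz hd
  have hzE : ∀ x ∈ Cfsg.fittingSubgroup G, (orderOf x).Prime → z * x = x * z :=
    fun x hx ho => (hz x (Or.inl ⟨hx, ho⟩)).symm
  have hzq' := claimA hodd q z hzE hzq
  -- z centralizes F(G)
  have hzF : z ∈ Subgroup.centralizer (Cfsg.fittingSubgroup G : Set G) := by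
    have h1 : Cfsg.fittingSubgroup G ≤ Subgroup.centralizer ({z} : Set G) := by
      rw [Cfsg.Agent.S0009.result]
      apply iSup_le
      intro p
      intro x hx
      rw [Subgroup.mem_centralizer_singleton_iff]
      by_cases hpq : (p : ℕ) = q
      · rw [Subgroup.mem_centralizer_iff] at hzq'
        rw [hpq] at hx
        exact hzq' x hx
      · exact hz x (Or.inr ⟨p, p.2, hpq, hx⟩)
    rw [Subgroup.mem_centralizer_iff]
    intro x hx
    have := h1 hx
    rw [Subgroup.mem_centralizer_singleton_iff] at this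
    exact this
  have hzF' : z ∈ Cfsg.fittingSubgroup G := Cfsg.Agent.S0044.result hzF
  -- the q'-part of F(G)
  obtain ⟨A, hA⟩ : ∃ A : Subgroup G, A = ⨆ p : {p : Nat.Primes // (p : ℕ) ≠ q},
    Cfsg.pCore ((p : Nat.Primes) : ℕ) G := ⟨_, rfl⟩
  have hAn : A.Normal := by
    rw [hA]
    haveI : ∀ p : {p : Nat.Primes // (p : ℕ) ≠ q}, (Cfsg.pCore ((p : Nat.Primes) : ℕ) G).Normal :=
      fun p => Cfsg.Agent.S0009.pCore_normal _ G
    exact Subgroup.iSup_normal _
  have hFle : Cfsg.fittingSubgroup G ≤ Cfsg.pCore q G ⊔ A := by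
    rw [Cfsg.Agent.S0009.result]
    apply iSup_le
    intro p
    by_cases hpq : (p : ℕ) = q
    · rw [hpq]
      exact le_sup_left
    · refine le_trans ?_ le_sup_right
      rw [hA]
      exact le_iSup (fun p : {p : Nat.Primes // (p : ℕ) ≠ q} =>
        Cfsg.pCore ((p : Nat.Primes) : ℕ) G) ⟨p, hpq⟩
  have hzA : z ∈ A := by
    have h1 := hFle hzF'
    rw [Subgroup.mem_sup_of_normal_right] at h1
    obtain ⟨u, hu, a, ha, hua⟩ := h1
    obtain ⟨k, hk⟩ := (Cfsg.Agent.Lib.Helper4_Core.pCore_isPGroup q G) ⟨u, hu⟩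
    have hk' : u ^ q ^ k = 1 := by simpa using congrArg Subtype.val hk
    rw [← QuotientGroup.eq_one_iff, ← orderOf_eq_one_iff]
    have h2 : (z : G ⧸ A) = (u : G ⧸ A) := by
      rw [← hua, QuotientGroup.mk_mul, (QuotientGroup.eq_one_iff a).mpr ha, mul_one]
    have h3 : orderOf (z : G ⧸ A) ∣ q ^ k := by
      apply orderOf_dvd_of_pow_eq_one
      rw [h2, ← QuotientGroup.mk_pow, hk', QuotientGroup.mk_one]
    have h4 : orderOf (z : G ⧸ A) ∣ orderOf z := orderOf_map_dvd (QuotientGroup.mk' A) z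
    exact Nat.Coprime.eq_one_of_dvd ((hzq.coprime_dvd_left h4).pow_right k) h3
  have hAd : A ≤ Subgroup.centralizer ({d} : Set G) := by
    rw [hA]
    apply iSup_le
    intro p x hx
    rw [Subgroup.mem_centralizer_singleton_iff]
    exact hd x (Or.inr ⟨p.1, p.1.2, p.2, hx⟩)
  have := hAd hzA
  rw [Subgroup.mem_centralizer_singleton_iff] at this
  exact this.symm

theorem centralizer_setS_le {G : Type*} [Group G] [Finite G] (hG : Group.IsSolvable G)
    (hodd : Odd (Nat.card (Cfsg.fittingSubgroup G))) (q : ℕ) [hq : Fact q.Prime] :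
    Subgroup.centralizer (setS G q) ≤ Cfsg.fittingSubgroup G := by
  apply le_sSup
  refine ⟨centralizer_setS_normal q, ?_⟩
  apply Group.of_quotient_center_nilpotent
  apply IsPGroup.isNilpotent (p := q)
  intro dbar
  obtain ⟨d, rfl⟩ := QuotientGroup.mk_surjective dbar
  obtain ⟨a, m, hm, hdm⟩ := Nat.exists_eq_pow_mul_and_not_dvd (orderOf_pos (d : G)).ne' q
    hq.out.ne_one
  refine ⟨a, ?_⟩
  rw [← QuotientGroup.mk_pow, QuotientGroup.eq_one_iff, Subgroup.mem_center_iff]
  intro e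
  apply Subtype.ext
  have ho : orderOf ((d : G) ^ q ^ a) = m := by
    rw [orderOf_pow_of_dvd (pow_ne_zero _ hq.out.ne_zero) ⟨m, hdm⟩, hdm,
      Nat.mul_div_cancel_left _ (pow_pos hq.out.pos _)]
  have hco : (orderOf ((d : G) ^ q ^ a)).Coprime q := by
    rw [ho, Nat.coprime_comm]
    exact (Nat.Prime.coprime_iff_not_dvd hq.out).mpr hm
  have := central_of_coprime hG hodd q ((d : G) ^ q ^ a)
    (Subgroup.pow_mem _ d.2 _) hco e e.2
  simpa using this

/-- Let G be a finite solvable group whose Fitting subgroup F(G) has odd order. If an element g of G commutes with every element of prime order of F(G), then g ∈ F(G). -/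
theorem result {G : Type*} [Group G] [Finite G] (hG : Group.IsSolvable G) (hodd : Odd (Nat.card (Cfsg.fittingSubgroup G))) (g : G) (hg : ∀ x ∈ Cfsg.fittingSubgroup G, (orderOf x).Prime → g * x = x * g) : g ∈ Cfsg.fittingSubgroup G := by
  classical
  have hFn := fittingSubgroup_normal G
  rw [← QuotientGroup.eq_one_iff, ← orderOf_eq_one_iff]
  by_contra hne
  obtain ⟨q, hq, hqd⟩ := Nat.exists_prime_and_dvd hne
  haveI : Fact q.Prime := ⟨hq⟩
  obtain ⟨a, m, hm, hgm⟩ := Nat.exists_eq_pow_mul_and_not_dvd (orderOf_pos g).ne' q hq.ne_one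
  have hm0 : m ≠ 0 := by
    rintro rfl
    exact hm (dvd_zero q)
  have ho : orderOf (g ^ m) = q ^ a := by
    rw [orderOf_pow_of_dvd hm0 ⟨q ^ a, by rw [hgm, mul_comm]⟩, hgm,
      Nat.mul_div_cancel _ (Nat.pos_of_ne_zero hm0)]
  have hpow : ∀ x ∈ Cfsg.fittingSubgroup G, (orderOf x).Prime → g ^ m * x = x * g ^ m := by
    intro x hx hox
    exact ((Commute.pow_left (show Commute g x from hg x hx hox) m)).eq
  have hmem : g ^ m ∈ Subgroup.centralizer (setS G q) := by
    rw [Subgroup.mem_centralizer_iff]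
    rintro x (⟨h1, h2⟩ | ⟨p, hp, hpq, h1⟩)
    · exact (hpow x h1 h2).symm
    · haveI : Fact p.Prime := ⟨hp⟩
      have hco : (orderOf (g ^ m)).Coprime p := by
        rw [ho]
        exact Nat.Coprime.pow_left a ((Nat.coprime_primes hq hp).mpr (Ne.symm hpq))
      have h3 := claimA hodd p (g ^ m) hpow hco
      rw [Subgroup.mem_centralizer_iff] at h3
      exact h3 x h1
  have hF := centralizer_setS_le hG hodd q hmem
  have h4 : orderOf (g : G ⧸ Cfsg.fittingSubgroup G) ∣ m := by
    apply orderOf_dvd_of_pow_eq_one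
    rw [← QuotientGroup.mk_pow, QuotientGroup.eq_one_iff]
    exact hF
  exact hm (dvd_trans hqd h4)

end Cfsg.Agent.S3785
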