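import Cfsg.Statements.S3979

import Mathlib
set_option autoImplicit false
open Cfsg

namespace Cfsg.Agent.S3979


/-- A finite cyclic group has trivial Schur multiplier: every finite stem extension of it is an isomorphism, said through `HasCyclicSchurMultiplier G 1`. -/
theorem result {G : Type*} [Group G] [Finite G] [IsCyclic G] : Cfsg.HasCyclicSchurMultiplier G 1 := by
  constructor
  · refine ⟨G, inferInstance, inferInstance, MonoidHom.id G, ⟨fun x => ⟨x, rfl⟩, ?_, ?_⟩, ⟨?_⟩⟩
    · intro x hx
      have : x = 1 := hx
      rw [this]; exact one_mem _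
    · intro x hx
      have : x = 1 := hx
      rw [this]; exact one_mem _
    · exact
        { toFun := fun _ => 1
          invFun := fun _ => 1
          left_inv := fun x => Subtype.ext (by
            have : x.1 = 1 := x.2
            rw [this]; rfl)
          right_inv := fun x => Subsingleton.elim _ _
          map_mul' := fun _ _ => by simp }
  · intro Γ _ _ σ hσ
    obtain ⟨hs, hc, hd⟩ := hσ
    have hcomm : ∀ a b : Γ, a * b = b * a := commutative_of_cyclic_center_quotient σ hc
    have hbot : commutator Γ = ⊥ := by
      rw [eq_bot_iff]
      apply Subgroup.commutator_le.2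
      intro a _ b _
      rw [Subgroup.mem_bot, commutatorElement_def, hcomm a b]
      group
    refine ⟨1, fun x => ⟨1, ?_⟩⟩
    have h1 : x.1 ∈ (⊥ : Subgroup Γ) := hbot ▸ hd x.2
    rw [Subgroup.mem_bot] at h1
    exact Subtype.ext h1.symm

end Cfsg.Agent.S3979
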