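import Cfsg.Statements.S3950
import Cfsg.Agent.Lib.Helper4_Stem3
import Cfsg.Agent.S3979

set_option autoImplicit false
open Cfsg

namespace Cfsg.Agent.S3950

open scoped commutatorElement in
open Cfsg.Agent.Lib.Helper4_Stem3 in

/-- A finite abelian group has trivial Schur multiplier if and only if it is cyclic. -/
theorem result {G : Type*} [CommGroup G] [Finite G] : Cfsg.HasCyclicSchurMultiplier G 1 ↔ IsCyclic G := by
  constructor
  swap
  · intro h
    exact Cfsg.Agent.S3979.result
  intro hM
  by_contra hcyc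
  obtain ⟨ι, _, n, hn, ⟨e⟩⟩ := CommGroup.equiv_prod_multiplicative_zmod_of_finite G
  classical
  by_cases hcop : Pairwise (Function.onFun Nat.Coprime n)
  · apply hcyc
    let f : Multiplicative (ZMod (∏ i, n i)) ≃* G :=
      ((AddEquiv.toMultiplicative (ZMod.prodEquivPi n hcop).toAddEquiv).trans
        (MulEquiv.piMultiplicative _)).trans e.symm
    exact isCyclic_of_surjective f f.surjective
  · unfold Pairwise at hcop
    push Not at hcop
    obtain ⟨i, j, hij, hc⟩ := hcop
    obtain ⟨p, hp, hpi, hpj⟩ := Nat.Prime.not_coprime_iff_dvd.1 hc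
    haveI : Fact p.Prime := ⟨hp⟩
    let a : G → ZMod p := fun g => ZMod.castHom hpi (ZMod p) (Multiplicative.toAdd (e g i))
    let b : G → ZMod p := fun g => ZMod.castHom hpj (ZMod p) (Multiplicative.toAdd (e g j))
    haveI ia : IsAdd a := ⟨fun g h => by
      show ZMod.castHom hpi (ZMod p) (Multiplicative.toAdd (e (g * h) i)) = _
      rw [map_mul, Pi.mul_apply, toAdd_mul, map_add]⟩
    haveI ib : IsAdd b := ⟨fun g h => by
      show ZMod.castHom hpj (ZMod p) (Multiplicative.toAdd (e (g * h) j)) = _
      rw [map_mul, Pi.mul_apply, toAdd_mul, map_add]⟩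
    have hstem : Cfsg.IsStemExtension (proj a b) :=
      isStem (fun g h => mul_comm g h) (e.symm (Pi.mulSingle i (Multiplicative.ofAdd 1)))
        (e.symm (Pi.mulSingle j (Multiplicative.ofAdd 1))) (by
        show ZMod.castHom hpi (ZMod p) (Multiplicative.toAdd (e (e.symm _) i)) *
          ZMod.castHom hpj (ZMod p) (Multiplicative.toAdd (e (e.symm _) j)) -
          ZMod.castHom hpi (ZMod p) (Multiplicative.toAdd (e (e.symm _) i)) *
          ZMod.castHom hpj (ZMod p) (Multiplicative.toAdd (e (e.symm _) j)) = 1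
        rw [e.apply_symm_apply, e.apply_symm_apply, Pi.mulSingle_eq_same, Pi.mulSingle_eq_same,
          Pi.mulSingle_eq_of_ne hij, toAdd_ofAdd, toAdd_ofAdd, toAdd_one, map_one, map_one,
          map_zero]
        ring)
    obtain ⟨π, hπ⟩ := hM.2 (Tw a b) (proj a b) hstem
    obtain ⟨c, hc⟩ := hπ ((kerEquiv a b).symm (Multiplicative.ofAdd 1))
    have h1 : c = 1 := Subsingleton.elim _ _
    rw [h1, map_one] at hc
    have h2 := congrArg (kerEquiv a b) hc
    rw [map_one, MulEquiv.apply_symm_apply] at h2
    have h3 : (0 : ZMod p) = 1 := congrArg Multiplicative.toAdd h2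
    exact zero_ne_one h3

end Cfsg.Agent.S3950
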