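import Cfsg.Statements.S3951
import Cfsg.Agent.Lib.Helper4_Stem3

set_option autoImplicit false
open Cfsg

namespace Cfsg.Agent.S3951

open scoped commutatorElement in
open Cfsg.Agent.Lib.Helper4_Stem3 in

/-- For positive integers `m` and `n` with `n` dividing `m`, the Schur multiplier of the abelian group `ZMod m × ZMod n` (written multiplicatively) is cyclic of order `n`. In particular the elementary abelian group of order `p ^ 2` has multiplier of order `p`. -/
theorem result (m n : ℕ) [NeZero m] [NeZero n] (hnm : n ∣ m) : Cfsg.HasCyclicSchurMultiplier (Multiplicative (ZMod m × ZMod n)) n := by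
  let a : Multiplicative (ZMod m × ZMod n) → ZMod n :=
    fun g => ZMod.castHom hnm (ZMod n) (Multiplicative.toAdd g).1
  let b : Multiplicative (ZMod m × ZMod n) → ZMod n := fun g => (Multiplicative.toAdd g).2
  haveI ia : IsAdd a := ⟨fun g h => by
    show ZMod.castHom hnm (ZMod n) (Multiplicative.toAdd (g * h)).1 = _
    rw [toAdd_mul, Prod.fst_add, map_add]⟩
  haveI ib : IsAdd b := ⟨fun g h => by
    show (Multiplicative.toAdd (g * h)).2 = _
    rw [toAdd_mul, Prod.snd_add]⟩
  constructor
  · refine ⟨Tw a b, inferInstance, inferInstance, proj a b,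
      isStem (fun g h => mul_comm g h) (Multiplicative.ofAdd (1, 0)) (Multiplicative.ofAdd (0, 1)) ?_,
      ⟨kerEquiv a b⟩⟩
    show ZMod.castHom hnm (ZMod n) 1 * 1 - ZMod.castHom hnm (ZMod n) 0 * 0 = 1
    rw [map_one, map_zero]
    ring
  · intro Γ _ _ σ hσ
    obtain ⟨X, hX⟩ := hσ.1 (Multiplicative.ofAdd (1, 0))
    obtain ⟨Y, hY⟩ := hσ.1 (Multiplicative.ofAdd (0, 1))
    have hle := ker_le_zpowers σ hσ _ _ (mul_comm _ _) (by
      intro g
      obtain ⟨i, hi⟩ := ZMod.intCast_surjective (Multiplicative.toAdd g).1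
      obtain ⟨j, hj⟩ := ZMod.intCast_surjective (Multiplicative.toAdd g).2
      refine ⟨i, j, ?_⟩
      rw [← ofAdd_zsmul, ← ofAdd_zsmul, ← ofAdd_add]
      apply Multiplicative.toAdd.injective
      rw [toAdd_ofAdd]
      ext
      · simp [hi]
      · simp [hj]) X Y hX hY
    have hk0 : ⁅X, Y⁆ ∈ σ.ker := by
      rw [MonoidHom.mem_ker, map_commutatorElement, commutatorElement_eq_one_iff_commute]
      exact mul_comm _ _
    have hYn : Y ^ n ∈ Subgroup.center Γ := hσ.2.1 (by
      rw [MonoidHom.mem_ker, map_pow, hY, ← ofAdd_nsmul]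
      apply Multiplicative.toAdd.injective
      rw [toAdd_ofAdd, toAdd_one]
      ext
      · simp
      · simp)
    have hpow := commutator_pow_eq_one X Y (hσ.2.1 hk0) n hYn
    apply exists_surj (⟨⁅X, Y⁆, hk0⟩ : σ.ker) n (Subtype.ext hpow)
    intro x
    obtain ⟨i, hi⟩ := hle x.2
    exact ⟨i, Subtype.ext hi⟩

end Cfsg.Agent.S3951
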