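import Cfsg.Statements.S3957
import Cfsg.Agent.Lib.Helper4_Schur

set_option autoImplicit false
universe u v
open Cfsg

namespace Cfsg.Agent.S3957

open Cfsg.Agent.Lib.Helper4_Schur in

/-- Let `Q` be a finite group with Schur multiplier `A` and let `τ : Δ →* Q` be a finite stem extension, `Δ` in the universe of `Q`. Then there is a finite stem extension `σ : Γ →* Q` with kernel isomorphic to `A` (a Schur covering group) and a surjective homomorphism `β : Γ →* Δ` with `τ ∘ β = σ`. -/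
theorem result {Q : Type u} [Group Q] [Finite Q] {A : Type v} [CommGroup A] (hA : Cfsg.HasSchurMultiplier Q A) {Δ : Type u} [Group Δ] [Finite Δ] (τ : Δ →* Q) (hτ : Cfsg.IsStemExtension τ) : ∃ (Γ : Type u) (_ : Group Γ) (_ : Finite Γ) (σ : Γ →* Q), Cfsg.IsStemExtension σ ∧ Nonempty (σ.ker ≃* A) ∧ ∃ β : Γ →* Δ, Function.Surjective β ∧ τ.comp β = σ := by
  obtain ⟨eA⟩ := equiv_M hA
  obtain ⟨ψ, hψ⟩ := exists_lift τ hτ.1 hτ.2.1
  have hψ' : ∀ e, τ (ψ e) = pr Q e := fun e => DFunLike.congr_fun hψ e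
  have hψs := lift_surjective τ hτ ψ hψ
  have hM := map_M τ hτ.2.1 ψ hψ
  rw [inf_eq_left.2 hτ.2.2] at hM
  set T := (pr Q).ker ⊓ ψ.ker with hT
  obtain ⟨C, hCT, h1, h2⟩ := exists_compl Q T inf_le_left
  have hle : C ≤ (pr Q).ker := hCT.trans inf_le_left
  haveI := normal_of_le_ker Q hle
  have h2' : ∀ r ∈ (pr Q).ker, ∃ c ∈ C, r * c⁻¹ ∈ commutator (E Q) := by
    intro r hr
    have h3 : ψ r ∈ τ.ker := by
      rw [MonoidHom.mem_ker, hψ']; exact hr
    rw [← hM] at h3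
    obtain ⟨m, hm, hmr⟩ := h3
    have ht : r * m⁻¹ ∈ T :=
      ⟨(pr Q).ker.mul_mem hr ((pr Q).ker.inv_mem hm.1), by
        show r * m⁻¹ ∈ ψ.ker
        rw [MonoidHom.mem_ker, map_mul, map_inv, hmr, mul_inv_cancel]⟩
    obtain ⟨c, hc, hc2⟩ := h2 _ ht
    refine ⟨c, hc, ?_⟩
    have e1 : r * c⁻¹ = (r * m⁻¹ * c⁻¹) * (c * m * c⁻¹) := by group
    rw [e1]
    exact mul_mem hc2 ((inferInstance : (commutator (E Q)).Normal).conj_mem m hm.2 c)
  obtain ⟨h3, h4, ⟨e5⟩⟩ := cover_of_compl Q C hle h1 h2'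
  refine ⟨E Q ⧸ C, inferInstance, h4, _, h3, ⟨e5.trans eA.symm⟩,
    QuotientGroup.lift C ψ (hCT.trans inf_le_right), ?_, ?_⟩
  · intro d
    obtain ⟨e, rfl⟩ := hψs d
    exact ⟨QuotientGroup.mk' C e, rfl⟩
  · apply MonoidHom.ext
    intro x
    obtain ⟨e, rfl⟩ := QuotientGroup.mk'_surjective C x
    exact hψ' e

end Cfsg.Agent.S3957
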