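import Cfsg.Statements.S3958
import Cfsg.Agent.Lib.Helper4_Schur

set_option autoImplicit false
universe u v
open Cfsg

namespace Cfsg.Agent.S3958

theorem exists_copy (X : Type u) [Group X] [Finite X] :
    ∃ (Y : Type v) (_ : Group Y) (_ : Finite Y), Nonempty (Y ≃* X) := by
  obtain ⟨n, ⟨e⟩⟩ := Finite.exists_equiv_fin X
  let e' : ULift.{v} (Fin n) ≃ X := Equiv.ulift.trans e.symm
  letI : Group (ULift.{v} (Fin n)) := e'.group
  exact ⟨ULift.{v} (Fin n), inferInstance, inferInstance, ⟨e'.mulEquiv⟩⟩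

theorem stem_transport {Y : Type*} {X : Type*} {G : Type*} [Group Y] [Group X] [Group G] (β : X →* G)
    (hβ : Cfsg.IsStemExtension β) (ε : Y ≃* X) : Cfsg.IsStemExtension (β.comp ε.toMonoidHom) := by
  refine ⟨hβ.1.comp ε.surjective, ?_, ?_⟩
  · intro y hy
    have h1 : ε y ∈ Subgroup.center X := hβ.2.1 hy
    rw [Subgroup.mem_center_iff] at h1 ⊢
    intro z
    apply ε.injective
    rw [map_mul, map_mul, h1]
  · intro y hy
    have h1 : ε y ∈ commutator X := hβ.2.2 hy
    have h2 : ε.symm.toMonoidHom (ε y) ∈ (commutator X).map ε.symm.toMonoidHom :=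
      Subgroup.mem_map_of_mem _ h1
    rw [commutator_def, Subgroup.map_commutator] at h2
    have h3 : ε.symm.toMonoidHom (ε y) = y := ε.symm_apply_apply y
    rw [h3] at h2
    rw [commutator_def]
    exact Subgroup.commutator_mono le_top le_top h2

open Cfsg.Agent.Lib.Helper4_Schur in

/-- Let `σ : Γ →* Q` be a finite stem extension of the finite group `Q` with `Γ` of trivial Schur multiplier. Then `σ` is a Schur covering group of `Q`: for every finite stem extension `τ : Δ →* Q` with `Δ` in the same universe as `Q`, the kernel of `τ` is a homomorphic image of the kernel of `σ`. -/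
theorem result {Q : Type u} [Group Q] [Finite Q] {Γ : Type v} [Group Γ] [Finite Γ] (σ : Γ →* Q) (hσ : Cfsg.IsStemExtension σ) (hΓ : Cfsg.HasCyclicSchurMultiplier Γ 1) (Δ : Type u) [Group Δ] [Finite Δ] (τ : Δ →* Q) (hτ : Cfsg.IsStemExtension τ) : ∃ π : σ.ker →* τ.ker, Function.Surjective π := by
  obtain ⟨ψ, hψ⟩ := exists_lift σ hσ.1 hσ.2.1
  have hψ' : ∀ e, σ (ψ e) = pr Q e := fun e => DFunLike.congr_fun hψ e
  have hψs := lift_surjective σ hσ ψ hψ
  have hM := map_M σ hσ.2.1 ψ hψ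
  rw [inf_eq_left.2 hσ.2.2] at hM
  have hkle : ψ.ker ≤ (pr Q).ker := by
    intro e he
    rw [MonoidHom.mem_ker, ← hψ', (MonoidHom.mem_ker).1 he, map_one]
  obtain ⟨C, hCT, h1, h2⟩ := exists_compl Q ψ.ker hkle
  have hle : C ≤ (pr Q).ker := hCT.trans hkle
  haveI := normal_of_le_ker Q hle
  have h2' : ∀ r ∈ (pr Q).ker, ∃ c ∈ C, r * c⁻¹ ∈ commutator (E Q) := by
    intro r hr
    have h3 : ψ r ∈ σ.ker := by
      rw [MonoidHom.mem_ker, hψ']; exact hr
    rw [← hM] at h3
    obtain ⟨m, hm, hmr⟩ := h3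
    have ht : r * m⁻¹ ∈ ψ.ker := by
      rw [MonoidHom.mem_ker, map_mul, map_inv, hmr, mul_inv_cancel]
    obtain ⟨c, hc, hc2⟩ := h2 _ ht
    refine ⟨c, hc, ?_⟩
    have e1 : r * c⁻¹ = (r * m⁻¹ * c⁻¹) * (c * m * c⁻¹) := by group
    rw [e1]
    exact mul_mem hc2 ((inferInstance : (commutator (E Q)).Normal).conj_mem m hm.2 c)
  obtain ⟨-, h4, -⟩ := cover_of_compl Q C hle h1 h2'
  let β : E Q ⧸ C →* Γ := QuotientGroup.lift C ψ hCT
  have hβ : Cfsg.IsStemExtension β := by
    refine ⟨?_, ?_, ?_⟩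
    · intro d
      obtain ⟨e, rfl⟩ := hψs d
      exact ⟨QuotientGroup.mk' C e, rfl⟩
    · intro x hx
      obtain ⟨e, rfl⟩ := QuotientGroup.mk'_surjective C x
      have he : e ∈ ψ.ker := hx
      rw [Subgroup.mem_center_iff]
      intro y
      obtain ⟨e', rfl⟩ := QuotientGroup.mk'_surjective C y
      rw [← map_mul, ← map_mul, (Subgroup.mem_center_iff.1 (pr_ker_le_center Q (hkle he))) e']
    · intro x hx
      obtain ⟨e, rfl⟩ := QuotientGroup.mk'_surjective C x
      have he : e ∈ ψ.ker := hx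
      obtain ⟨c, hc, hc2⟩ := h2 e he
      have hc1 : QuotientGroup.mk' C c = 1 := (QuotientGroup.eq_one_iff c).2 hc
      have h5 : QuotientGroup.mk' C e = QuotientGroup.mk' C (e * c⁻¹) := by
        rw [map_mul, map_inv, hc1, inv_one, mul_one]
      rw [h5]
      have h3 : QuotientGroup.mk' C (e * c⁻¹) ∈ (commutator (E Q)).map (QuotientGroup.mk' C) :=
        Subgroup.mem_map_of_mem _ hc2
      rw [commutator_def, Subgroup.map_commutator] at h3
      rw [commutator_def]
      exact Subgroup.commutator_mono le_top le_top h3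
  obtain ⟨Y, _, _, ⟨ε⟩⟩ := exists_copy.{u, v} (E Q ⧸ C)
  obtain ⟨π₀, hπ₀⟩ := hΓ.2 Y (β.comp ε.toMonoidHom) (stem_transport β hβ ε)
  have hβinj : ∀ x, β x = 1 → x = 1 := by
    intro x hx
    have h5 : ε.symm x ∈ (β.comp ε.toMonoidHom).ker := by
      rw [MonoidHom.mem_ker]
      show β (ε (ε.symm x)) = 1
      rw [ε.apply_symm_apply, hx]
    obtain ⟨a, ha⟩ := hπ₀ ⟨_, h5⟩
    have ha1 : a = 1 := Subsingleton.elim _ _
    rw [ha1, map_one] at ha
    have h6 : ε.symm x = 1 := (congrArg Subtype.val ha).symm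
    have h7 := congrArg ε h6
    rwa [ε.apply_symm_apply, map_one] at h7
  let g : M Q →* σ.ker := (ψ.comp (M Q).subtype).codRestrict σ.ker (fun m => by
    rw [← hM]; exact Subgroup.mem_map_of_mem _ m.2)
  have hg : Function.Bijective g := by
    constructor
    · rw [injective_iff_map_eq_one]
      intro m hm
      have h5 : ψ m.1 = 1 := congrArg Subtype.val hm
      have h6 : QuotientGroup.mk' C m.1 = 1 := hβinj _ h5
      have h7 : m.1 ∈ C ⊓ commutator (E Q) := ⟨(QuotientGroup.eq_one_iff m.1).1 h6, m.2.2⟩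
      rw [h1, Subgroup.mem_bot] at h7
      exact Subtype.ext h7
    · rintro ⟨k, hk⟩
      rw [← hM] at hk
      obtain ⟨m, hm, rfl⟩ := hk
      exact ⟨⟨m, hm⟩, rfl⟩
  obtain ⟨π₂, hπ₂⟩ := exists_surj_ker τ hτ
  exact ⟨π₂.comp (MulEquiv.ofBijective g hg).symm.toMonoidHom,
    hπ₂.comp (MulEquiv.ofBijective g hg).symm.surjective⟩

end Cfsg.Agent.S3958
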