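import Cfsg.Statements.S3961
import Cfsg.Agent.Lib.Helper4_Stem

set_option autoImplicit false
universe u v
open Cfsg

namespace Cfsg.Agent.S3961

open scoped commutatorElement in
theorem comm_congr_center {P : Type*} [Group P] (a b c d : P) (h1 : a * b⁻¹ ∈ Subgroup.center P)
    (h2 : c * d⁻¹ ∈ Subgroup.center P) : ⁅a, c⁆ = ⁅b, d⁆ := by
  have e1 : ∀ w, w * (a * b⁻¹) = (a * b⁻¹) * w := Subgroup.mem_center_iff.1 h1
  have e2 : ∀ w, w * (c * d⁻¹) = (c * d⁻¹) * w := Subgroup.mem_center_iff.1 h2
  have ha : a = (a * b⁻¹) * b := by group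
  have hc : c = (c * d⁻¹) * d := by group
  generalize a * b⁻¹ = z at *
  generalize c * d⁻¹ = w at *
  subst ha hc
  rw [commutatorElement_def, commutatorElement_def]
  have e3 : z * b * (w * d) = (z * w) * (b * d) := by
    calc z * b * (w * d) = z * (b * w) * d := by group
      _ = z * (w * b) * d := by rw [e2 b]
      _ = _ := by group
  have e4 : (z * b)⁻¹ * (w * d)⁻¹ = (b⁻¹ * d⁻¹) * (z * w)⁻¹ := by
    have e6 : (w * d) * (z * b) = (z * w) * (d * b) := by
      calc (w * d) * (z * b) = w * (d * z) * b := by group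
        _ = w * (z * d) * b := by rw [e1 d]
        _ = (w * z) * (d * b) := by group
        _ = _ := by rw [e1 w]
    calc (z * b)⁻¹ * (w * d)⁻¹ = ((w * d) * (z * b))⁻¹ := by group
      _ = ((z * w) * (d * b))⁻¹ := by rw [e6]
      _ = _ := by group
  have e5 : ∀ v, v * (z * w) = (z * w) * v := by
    intro v
    calc v * (z * w) = (v * z) * w := by group
      _ = z * (v * w) := by rw [e1 v]; group
      _ = z * (w * v) := by rw [e2 v]
      _ = _ := by group
  calc z * b * (w * d) * (z * b)⁻¹ * (w * d)⁻¹ = (z * b * (w * d)) * ((z * b)⁻¹ * (w * d)⁻¹) := by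
        group
    _ = (z * w) * (b * d) * ((b⁻¹ * d⁻¹) * (z * w)⁻¹) := by rw [e3, e4]
    _ = ((z * w) * (b * d * b⁻¹ * d⁻¹)) * (z * w)⁻¹ := by group
    _ = ((b * d * b⁻¹ * d⁻¹) * (z * w)) * (z * w)⁻¹ := by rw [e5]
    _ = _ := by group

open scoped commutatorElement in
open Cfsg.Agent.Lib.Helper4_Stem in

/-- Let `π : G →* Q` be a surjective homomorphism with central kernel from a finite perfect group `G` (a perfect cover of `Q`). Then `π` is universal, in the sense that every surjective homomorphism `ξ : X →* Q` with central kernel from a group `X` in the universe of `G` admits a homomorphism `η : G →* X` with `ξ ∘ η = π`, if and only if `G` has trivial Schur multiplier. -/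
theorem result {G : Type u} {Q : Type v} [Group G] [Group Q] [Finite G] (hG : Group.IsPerfect G) (π : G →* Q) (hπ : Function.Surjective π) (hker : π.ker ≤ Subgroup.center G) : (∀ (X : Type u) [Group X] (ξ : X →* Q), Function.Surjective ξ → ξ.ker ≤ Subgroup.center X → ∃ η : G →* X, ξ.comp η = π) ↔ Cfsg.HasCyclicSchurMultiplier G 1 := by
  have hGtop : commutator G = ⊤ := Group.isPerfect_def.1 hG
  constructor
  · intro huniv
    apply hasCyclic_one
    intro Γ _ _ σ hσ
    obtain ⟨hs, hc, hd⟩ := hσ
    have hmap : (commutator Γ).map σ = ⊤ := by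
      rw [commutator_def, Subgroup.map_commutator, Subgroup.map_top_of_surjective σ hs,
        ← commutator_def, hGtop]
    have hΓtop : commutator Γ = ⊤ := by
      rw [eq_top_iff]
      intro x _
      have : σ x ∈ (commutator Γ).map σ := by rw [hmap]; trivial
      obtain ⟨d, hdm, hdx⟩ := this
      have h1 : x * d⁻¹ ∈ commutator Γ := hd (by
        rw [MonoidHom.mem_ker, map_mul, map_inv, hdx, mul_inv_cancel])
      have := (commutator Γ).mul_mem h1 hdm
      simpa using this
    have hkc : (π.comp σ).ker ≤ Subgroup.center Γ := by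
      have h1 : ⁅(π.comp σ).ker, (⊤ : Subgroup Γ)⁆ ≤ σ.ker := by
        rw [Subgroup.commutator_le]
        intro n hn y _
        rw [MonoidHom.mem_ker, map_commutatorElement, commutatorElement_eq_one_iff_commute]
        have : σ n ∈ Subgroup.center G := hker hn
        exact (Subgroup.mem_center_iff.1 this _).symm
      have h2 : ⁅⁅(π.comp σ).ker, (⊤ : Subgroup Γ)⁆, (⊤ : Subgroup Γ)⁆ = ⊥ := by
        rw [eq_bot_iff, Subgroup.commutator_le]
        intro n hn y _
        rw [Subgroup.mem_bot, commutatorElement_eq_one_iff_commute]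
        exact (Subgroup.mem_center_iff.1 (hc (h1 hn)) _).symm
      have h3 : ⁅⁅(⊤ : Subgroup Γ), (π.comp σ).ker⁆, (⊤ : Subgroup Γ)⁆ = ⊥ := by
        rw [Subgroup.commutator_comm ⊤]; exact h2
      have h4 := Subgroup.commutator_commutator_eq_bot_of_rotate h3 h2
      rw [← commutator_def, hΓtop, Subgroup.commutator_comm,
        Subgroup.commutator_eq_bot_iff_le_centralizer] at h4
      intro x hx
      have := h4 hx
      rw [Subgroup.mem_centralizer_iff] at this
      rw [Subgroup.mem_center_iff]
      intro y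
      exact this y trivial
    obtain ⟨η, hη⟩ := huniv Γ (π.comp σ) (hπ.comp hs) hkc
    have hz : ∀ g, σ (η g) * g⁻¹ ∈ Subgroup.center G := by
      intro g
      apply hker
      have := DFunLike.congr_fun hη g
      simp only [MonoidHom.comp_apply] at this
      rw [MonoidHom.mem_ker, map_mul, map_inv, this, mul_inv_cancel]
    have hid : ∀ g, σ (η g) = g := by
      have hle : commutator G ≤ MonoidHom.eqLocus (σ.comp η) (MonoidHom.id G) := by
        rw [commutator_def, Subgroup.commutator_le]
        intro g _ h _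
        show σ (η ⁅g, h⁆) = ⁅g, h⁆
        rw [map_commutatorElement, map_commutatorElement]
        exact comm_congr_center _ _ _ _ (hz g) (hz h)
      intro g
      exact hle (hGtop ▸ Subgroup.mem_top g)
    have hrange : η.range = ⊤ := by
      rw [eq_top_iff, ← hΓtop, commutator_def, Subgroup.commutator_le]
      intro x _ y _
      have hx : x * (η (σ x))⁻¹ ∈ Subgroup.center Γ := hc (by
        rw [MonoidHom.mem_ker, map_mul, map_inv, hid, mul_inv_cancel])
      have hy : y * (η (σ y))⁻¹ ∈ Subgroup.center Γ := hc (by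
        rw [MonoidHom.mem_ker, map_mul, map_inv, hid, mul_inv_cancel])
      rw [comm_congr_center _ _ _ _ hx hy, ← map_commutatorElement]
      exact ⟨_, rfl⟩
    rw [eq_bot_iff]
    intro k hk
    have : k ∈ η.range := hrange ▸ Subgroup.mem_top k
    obtain ⟨g, rfl⟩ := this
    rw [MonoidHom.mem_ker, hid] at hk
    rw [hk, map_one]
    exact one_mem _
  · intro hM X _ ξ hξ hξc
    let P : Subgroup (G × X) :=
      MonoidHom.eqLocus (π.comp (MonoidHom.fst G X)) (ξ.comp (MonoidHom.snd G X))
    have hPmem : ∀ x : P, π x.1.1 = ξ x.1.2 := fun x => x.2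
    let pr : P →* G := (MonoidHom.fst G X).comp P.subtype
    have hpr : Function.Surjective pr := by
      intro g
      obtain ⟨x, hx⟩ := hξ (π g)
      exact ⟨⟨(g, x), hx.symm⟩, rfl⟩
    have hprc : pr.ker ≤ Subgroup.center P := by
      intro x hx
      have hx1 : x.1.1 = 1 := hx
      have hx2 : x.1.2 ∈ Subgroup.center X := hξc (by
        rw [MonoidHom.mem_ker, ← hPmem x, hx1, map_one])
      rw [Subgroup.mem_center_iff]
      intro y
      apply Subtype.ext
      apply Prod.ext
      · show y.1.1 * x.1.1 = x.1.1 * y.1.1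
        rw [hx1, mul_one, one_mul]
      · exact Subgroup.mem_center_iff.1 hx2 y.1.2
    have hcz : ∀ x y : P, pr x = pr y → x * y⁻¹ ∈ Subgroup.center P := by
      intro x y h
      apply hprc
      rw [MonoidHom.mem_ker, map_mul, map_inv, h, mul_inv_cancel]
    -- finiteness
    obtain ⟨s, hs⟩ := hpr.hasRightInverse
    have : Finite (commutatorSet P) := by
      apply Set.Finite.to_subtype
      apply (Set.finite_range (fun gh : G × G => ⁅s gh.1, s gh.2⁆)).subset
      rintro _ ⟨x, y, rfl⟩
      refine ⟨(pr x, pr y), ?_⟩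
      exact comm_congr_center _ _ _ _ (hcz _ _ (hs _)) (hcz _ _ (hs _))
    let D : Subgroup P := commutator P
    let τ : D →* G := pr.comp D.subtype
    have hmap : D.map pr = ⊤ := by
      show (commutator P).map pr = ⊤
      rw [commutator_def, Subgroup.map_commutator, Subgroup.map_top_of_surjective pr hpr,
        ← commutator_def, hGtop]
    have hlift : ∀ x : P, ∃ d ∈ D, pr d = pr x := by
      intro x
      have : pr x ∈ D.map pr := by rw [hmap]; trivial
      obtain ⟨d, hd, hdx⟩ := this
      exact ⟨d, hd, hdx⟩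
    have hτs : Function.Surjective τ := by
      intro g
      obtain ⟨x, rfl⟩ := hpr g
      obtain ⟨d, hd, hdx⟩ := hlift x
      exact ⟨⟨d, hd⟩, hdx⟩
    have hDperf : ⁅D, D⁆ = D := by
      apply le_antisymm (Subgroup.commutator_le_left D D)
      show commutator P ≤ ⁅D, D⁆
      rw [commutator_def, Subgroup.commutator_le]
      intro x _ y _
      obtain ⟨d, hd, hdx⟩ := hlift x
      obtain ⟨d', hd', hdy⟩ := hlift y
      rw [comm_congr_center x d y d' (hcz _ _ hdx.symm) (hcz _ _ hdy.symm)]
      exact Subgroup.commutator_mem_commutator hd hd'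
    have hDtop : commutator D = ⊤ := Group.isPerfect_def.1 (Subgroup.isPerfect_iff.2 hDperf)
    have hstem : Cfsg.IsStemExtension τ := by
      refine ⟨hτs, ?_, ?_⟩
      · intro x hx
        have : x.1 ∈ Subgroup.center P := hprc hx
        rw [Subgroup.mem_center_iff] at this ⊢
        intro y
        exact Subtype.ext (this y.1)
      · rw [hDtop]; exact le_top
    obtain ⟨ρ, hρ⟩ := hM.2 D τ hstem
    have hinj : Function.Injective τ := by
      rw [← MonoidHom.ker_eq_bot_iff, eq_bot_iff]
      intro x hx
      obtain ⟨c, hc⟩ := hρ ⟨x, hx⟩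
      have h1 : c = 1 := Subsingleton.elim _ _
      rw [h1, map_one] at hc
      exact (congrArg Subtype.val hc).symm
    let e : D ≃* G := MulEquiv.ofBijective τ ⟨hinj, hτs⟩
    refine ⟨(((MonoidHom.snd G X).comp P.subtype).comp D.subtype).comp e.symm.toMonoidHom, ?_⟩
    ext g
    show ξ (e.symm g).1.1.2 = π g
    rw [← hPmem]
    congr 1
    exact e.apply_symm_apply g

end Cfsg.Agent.S3961
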