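import Cfsg.Statements.S3962

set_option autoImplicit false
open Cfsg

namespace Cfsg.Agent.S3962


/-- Let `G` be a perfect group and `π : G →* Q` a surjective homomorphism whose kernel is central. Then `π` maps the centre of `G` onto the centre of `Q`. Taking `π` to be the map to `G ⧸ Z(G)` shows that the central quotient of a perfect group has trivial centre. -/
theorem result {G Q : Type*} [Group G] [Group Q] (hG : Group.IsPerfect G) (π : G →* Q) (hπ : Function.Surjective π) (hker : π.ker ≤ Subgroup.center G) : (Subgroup.center G).map π = Subgroup.center Q := by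
  apply le_antisymm
  · rintro _ ⟨z, hz, rfl⟩
    rw [Subgroup.mem_center_iff]
    intro q
    obtain ⟨g, rfl⟩ := hπ q
    rw [← map_mul, ← map_mul, Subgroup.mem_center_iff.1 hz g]
  · intro q hq
    obtain ⟨g, rfl⟩ := hπ q
    refine ⟨g, ?_, rfl⟩
    have hz : ∀ a : G, g * a * g⁻¹ * a⁻¹ ∈ Subgroup.center G := by
      intro a
      apply hker
      rw [MonoidHom.mem_ker]
      have h1 := Subgroup.mem_center_iff.1 hq (π a)
      simp only [map_mul, map_inv]
      rw [← h1]
      group
    let φ : G →* Subgroup.center G :=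
      { toFun := fun a => ⟨g * a * g⁻¹ * a⁻¹, hz a⟩
        map_one' := by ext; simp
        map_mul' := by
          intro a b
          ext
          have hb := Subgroup.mem_center_iff.1 (hz b) a⁻¹
          show g * (a * b) * g⁻¹ * (a * b)⁻¹ = g * a * g⁻¹ * a⁻¹ * (g * b * g⁻¹ * b⁻¹)
          calc g * (a * b) * g⁻¹ * (a * b)⁻¹
              = g * a * g⁻¹ * ((g * b * g⁻¹ * b⁻¹) * a⁻¹) := by group
            _ = g * a * g⁻¹ * (a⁻¹ * (g * b * g⁻¹ * b⁻¹)) := by rw [hb]
            _ = g * a * g⁻¹ * a⁻¹ * (g * b * g⁻¹ * b⁻¹) := by group }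
    have hker2 : ∀ a, φ a = 1 := by
      intro a
      have h1 : commutator G ≤ φ.ker := by
        rw [commutator_def, Subgroup.commutator_le]
        intro a _ b _
        rw [MonoidHom.mem_ker, map_commutatorElement, commutatorElement_eq_one_iff_mul_comm]
        ext
        exact Subgroup.mem_center_iff.1 (φ b).2 (φ a).1
      have h2 : a ∈ commutator G := by rw [hG.commutator_eq_top]; trivial
      exact h1 h2
    show g ∈ Subgroup.center G
    rw [Subgroup.mem_center_iff]
    intro a
    have h3 : g * a * g⁻¹ * a⁻¹ = 1 := congrArg Subtype.val (hker2 a)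
    have h4 : g * a * g⁻¹ = a := mul_inv_eq_one.1 h3
    exact (mul_inv_eq_iff_eq_mul.1 h4).symm

end Cfsg.Agent.S3962
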