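import Cfsg.Statements.S3965
import Cfsg.Agent.Lib.Helper4_Stem2

set_option autoImplicit false
open Cfsg

namespace Cfsg.Agent.S3965



/-- For even `n ≥ 2` the dihedral group of order `2 n` has Schur multiplier cyclic of order `2`. -/
theorem result (n : ℕ) [NeZero n] (hn : Even n) : Cfsg.HasCyclicSchurMultiplier (DihedralGroup n) 2 := by
  exact Cfsg.Agent.Lib.Helper4_Stem2.dih_even n hn

end Cfsg.Agent.S3965
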