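import Cfsg.Statements.S3968
import Cfsg.Agent.Lib.helper8_Center
import Cfsg.Agent.Lib.CharBurnside
import Cfsg.Agent.Lib.CharSmall
import Cfsg.Agent.Lib.CharThompson

set_option autoImplicit false
open Cfsg

namespace Cfsg.Agent.S3968

open Cfsg.Agent.Lib.helper8_Center Cfsg.Agent.Lib.CharBurnside Cfsg.Agent.Lib.CharSmall Cfsg.Agent.Lib.CharThompson Cfsg.Agent.Lib.CharBasic Cfsg.Agent.Lib.CharOrtho Cfsg.Agent.Lib.CharMore Cfsg.Agent.Lib.CharInd

/-- Let `p` be a prime and `G` a finite group with a faithful irreducible complex character of degree `p` (so `G` is an irreducible linear group in `p` variables). If `p ^ 2` divides the order of `G`, then the centre of `G` is nontrivial. -/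
theorem result {G : Type*} [Group G] [Finite G] (p : ℕ) (hp : p.Prime) (χ : Cfsg.IrrCharacter G) (hdeg : χ.1 1 = p) (hfaith : ∀ g : G, χ.1 g = χ.1 1 → g = 1) (hdiv : p ^ 2 ∣ Nat.card G) : Subgroup.center G ≠ ⊥ := by
  classical
  haveI := Fintype.ofFinite G
  haveI : Fact p.Prime := ⟨hp⟩
  intro hZ
  obtain ⟨P⟩ : Nonempty (Sylow p G) := inferInstance
  haveI : Fintype (P : Subgroup G) := Fintype.ofFinite _
  have hch := isCharacter_of_isIrr χ.2
  have hPcard : p ^ 2 ∣ Nat.card (P : Subgroup G) := by
    rw [Sylow.card_eq_multiplicity]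
    apply pow_dvd_pow
    exact (hp.pow_dvd_iff_le_factorization Nat.card_pos.ne').mp hdiv
  -- central elements of P
  have hA : ∀ z ∈ (P : Subgroup G), (∀ y ∈ (P : Subgroup G), y * z = z * y) → z ≠ 1 →
      χ.1 z = 0 := by
    intro z hz hzc hz1
    obtain ⟨n, ρ, hρ, hχeq⟩ := χ.2
    haveI := hρ
    have hfr : Module.finrank ℂ (Fin n → ℂ) = p := by
      have h1 := Representation.char_one ρ
      rw [hχeq, hdeg] at h1
      exact_mod_cast h1.symm
    have hle : (P : Subgroup G) ≤ Subgroup.centralizer ({z} : Set G) := by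
      intro y hy
      rw [Subgroup.mem_centralizer_singleton_iff]
      exact hzc y hy
    have hcop : Nat.Coprime (Module.finrank ℂ (Fin n → ℂ))
        (Subgroup.centralizer ({z} : Set G)).index := by
      rw [hfr, Nat.Prime.coprime_iff_not_dvd hp]
      exact fun h => P.not_dvd_index (h.trans (Subgroup.index_dvd_of_le hle))
    rcases vanish_or_scalar ρ z hcop with h | h
    · rw [← hχeq]; exact h
    · exfalso
      obtain ⟨ω, hω⟩ := (char_norm_eq_iff ρ z).mp h
      apply hz1
      have hzc' : z ∈ Subgroup.center G := by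
        rw [Subgroup.mem_center_iff]
        intro g
        have h1 : ρ (g * z * (z * g)⁻¹) = 1 := by
          have h2 : ρ (g * z) = ρ (z * g) := by
            rw [map_mul, map_mul, hω]
            ext v
            simp
          rw [map_mul, h2, ← map_mul, mul_inv_cancel, map_one]
        have h3 : χ.1 (g * z * (z * g)⁻¹) = χ.1 1 := by
          rw [← hχeq]
          unfold Representation.character
          rw [h1, ← map_one ρ]
        have h4 := hfaith _ h3
        exact mul_inv_eq_one.mp h4
      rw [hZ] at hzc'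
      exact hzc'
  by_cases hab : ∀ a ∈ (P : Subgroup G), ∀ b ∈ (P : Subgroup G), a * b = b * a
  · -- abelian Sylow subgroup
    obtain ⟨m, hm⟩ := classInner_char_nat (isCharacter_restrict (P : Subgroup G) hch)
      (isCharacter_one (G := (P : Subgroup G)))
    unfold Cfsg.classInner at hm
    rw [Finset.sum_eq_single (1 : (P : Subgroup G))] at hm
    · simp only [Pi.one_apply, map_one, mul_one, Subgroup.coe_one] at hm
      rw [hdeg] at hm
      have hPc : (Nat.card (P : Subgroup G) : ℂ) ≠ 0 := by exact_mod_cast Nat.card_pos.ne'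
      have h1 : (p : ℂ) = (Nat.card (P : Subgroup G) : ℂ) * m := by
        rw [← hm]; field_simp
      have h2 : p = Nat.card (P : Subgroup G) * m := by exact_mod_cast h1
      have h3 : p ^ 2 ∣ p := hPcard.trans ⟨m, h2⟩
      have h4 := Nat.le_of_dvd hp.pos h3
      have := hp.one_lt
      nlinarith
    · intro x _ hx1
      have := hA x x.2 (fun y hy => hab y hy x x.2) (fun h => hx1 (Subtype.ext h))
      simp only [this, zero_mul]
    · intro h; exact absurd (Finset.mem_univ _) h
  · push Not at hab
    obtain ⟨a, ha, b, hb, hne⟩ := hab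
    have hres := isCharacter_restrict (P : Subgroup G) hch
    have hex : ∃ ψ : Cfsg.IrrCharacter (P : Subgroup G),
        Cfsg.classInner (fun x : (P : Subgroup G) => χ.1 x) (ψ : ↥(P : Subgroup G) → ℂ) ≠ 0 ∧
        (ψ : ↥(P : Subgroup G) → ℂ) 1 ≠ 1 := by
      by_contra hcon
      push Not at hcon
      have h1 := comm_of_linear_constituents hres hcon ⟨a, ha⟩ ⟨b, hb⟩
      have h2 := hfaith _ h1
      apply hne
      have h3 : a * b * a⁻¹ * b⁻¹ = 1 := h2
      calc a * b = (a * b * a⁻¹ * b⁻¹) * (b * a) := by group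
        _ = b * a := by rw [h3, one_mul]
    obtain ⟨ψ, hψc, hψ1⟩ := hex
    obtain ⟨d, hd0, hd, hdvd⟩ := irr_degree ψ.2
    obtain ⟨a', b', ha', hb', hle⟩ := degree_le_of_constituent hres ψ.2 hψc
    have ha'p : a' = p := by
      have : χ.1 1 = (a' : ℂ) := ha'
      rw [hdeg] at this
      exact_mod_cast this.symm
    have hb'd : b' = d := by
      rw [hd] at hb'
      exact_mod_cast hb'.symm
    obtain ⟨k, hk⟩ := (IsPGroup.iff_card.mp P.2)
    rw [hk] at hdvd
    obtain ⟨j, -, hj⟩ := (Nat.dvd_prime_pow hp).mp hdvd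
    have hdp : d = p := by
      cases j with
      | zero =>
        exfalso; apply hψ1; rw [hd, hj]; simp
      | succ j =>
        have h1 : p ∣ d := by rw [hj]; exact dvd_pow_self p (Nat.succ_ne_zero j)
        have h2 := Nat.le_of_dvd hd0 h1
        omega
    have heq := eq_of_constituent_of_degree_eq hres ψ.2 hψc (by
      rw [hd, hdp]; exact hdeg)
    haveI : Nontrivial (P : Subgroup G) := ⟨⟨⟨a, ha⟩, ⟨b, hb⟩, fun h => hne (by
      have := congrArg Subtype.val h
      simp only at this
      rw [this])⟩⟩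
    haveI := P.isPGroup'.center_nontrivial
    obtain ⟨z, hz⟩ := exists_ne (1 : Subgroup.center (P : Subgroup G))
    have hzc : ∀ g : (P : Subgroup G), g * z.1 = z.1 * g := fun g =>
      (Subgroup.mem_center_iff.mp z.2 g)
    have h1 := central_norm ψ.2 hzc
    rw [charDegree_eq hd, ← heq] at h1
    have h2 := hA z.1.1 z.1.2 (fun y hy => congrArg Subtype.val (hzc ⟨y, hy⟩))
      (fun h => hz (Subtype.ext (Subtype.ext h)))
    simp only [h2, norm_zero] at h1
    have : (d : ℝ) ≠ 0 := by exact_mod_cast hd0.ne'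
    exact this h1.symm

end Cfsg.Agent.S3968
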