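import Mathlib
import Cfsg.Agent.Lib.helper6_FrobP
import Cfsg.Statements.S3969

set_option autoImplicit false
open Cfsg

namespace Cfsg.Agent.S3969

/-- Let `P` be an abelian Sylow `p`-subgroup of the finite group `G`, generated by `d` elements (`d` its minimal number of generators). If the order of `G` is coprime to `(p - 1)(p ^ 2 - 1) ⋯ (p ^ d - 1)`, then `G` has a normal `p`-complement. (The classical statement needs only the largest number of cyclic factors of `P` of equal order in place of `d`; the form here follows from it.) -/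
theorem result {G : Type*} [Group G] [Finite G] (p : ℕ) [Fact p.Prime] (P : Sylow p G) (hab : IsMulCommutative (P : Subgroup G)) (hcop : Nat.Coprime (Nat.card G) (∏ i ∈ Finset.Icc 1 (Group.rank (P : Subgroup G)), (p ^ i - 1))) : Cfsg.HasNormalPComplement p G := by
  classical
  have hp : p.Prime := Fact.out
  have hab' : ∀ x ∈ (P : Subgroup G), ∀ y ∈ (P : Subgroup G), x * y = y * x := by
    intro x hx y hy
    exact congrArg Subtype.val (hab.is_comm.comm (⟨x, hx⟩ : (P : Subgroup G)) ⟨y, hy⟩)
  obtain ⟨d, hd, hd2⟩ := Cfsg.Agent.Lib.helper6_FrobP.frattini_index_rank p P.2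
  have hN : Subgroup.normalizer ((P : Subgroup G) : Set G) ≤
      Subgroup.centralizer ((P : Subgroup G) : Set G) := by
    apply Cfsg.Agent.Lib.helper6_FrobP.normalizer_le_centralizer_of_coprime p P hab'
    intro g hg hgc
    rcases Cfsg.Agent.Lib.helper6_FrobP.centralizes_or_prime p (P : Subgroup G) P.2 g hg hgc d hd2
      with h | ⟨q, i, hq, hqg, hi1, hi2, hqi⟩
    · exact h
    · exfalso
      have h1 : q ∣ Nat.card G := hqg.trans (orderOf_dvd_natCard g)
      have h2 : q ∣ ∏ i ∈ Finset.Icc 1 (Group.rank (P : Subgroup G)), (p ^ i - 1) :=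
        hqi.trans (Finset.dvd_prod_of_mem _ (Finset.mem_Icc.2 ⟨hi1, hi2.trans hd⟩))
      have h3 := Nat.Coprime.eq_one_of_dvd (Nat.Coprime.coprime_dvd_left h1 hcop) h2
      exact hq.one_lt.ne' h3
  exact ⟨P, (MonoidHom.transferSylow P hN).ker, inferInstance,
    MonoidHom.ker_transferSylow_isComplement' P hN⟩

end Cfsg.Agent.S3969
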