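import Mathlib
import Cfsg.Agent.Lib.helper6_FrobP
import Cfsg.Statements.S3970

set_option autoImplicit false
open Cfsg

namespace Cfsg.Agent.S3970


universe u

theorem aux : ∀ (n : ℕ) (G : Type u) [Group G] [Finite G], Nat.card G = n →
    (∀ p : ℕ, p.Prime → p ∣ Nat.card G → (∃ q : ℕ, q.Prime ∧ q ∣ Nat.card G ∧ p < q) →
      ∀ P : Sylow p G, IsMulCommutative (P : Subgroup G) ∧ Group.rank (P : Subgroup G) ≤ 2) →
    ¬ 12 ∣ Nat.card G → Group.IsSolvable G := by
  intro n
  induction n using Nat.strong_induction_on with
  | _ n ih =>
    intro G _ _ hcard h h12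
    classical
    by_cases h1 : Nat.card G = 1
    · have : Subsingleton G := (Nat.card_eq_one_iff_unique.1 h1).1
      infer_instance
    obtain ⟨p, hpdef⟩ : ∃ p, p = (Nat.card G).minFac := ⟨_, rfl⟩
    have hp : p.Prime := hpdef ▸ Nat.minFac_prime h1
    have hpG : p ∣ Nat.card G := hpdef ▸ Nat.minFac_dvd _
    have hpmin : ∀ q, q.Prime → q ∣ Nat.card G → p ≤ q :=
      fun q hq hqG => hpdef ▸ Nat.minFac_le_of_dvd hq.two_le hqG
    have := Fact.mk hp
    by_cases hbig : ∃ q, q.Prime ∧ q ∣ Nat.card G ∧ p < q
    · obtain ⟨P⟩ : Nonempty (Sylow p G) := inferInstance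
      obtain ⟨hab, hrk⟩ := h p hp hpG hbig P
      have hab' : ∀ x ∈ (P : Subgroup G), ∀ y ∈ (P : Subgroup G), x * y = y * x := by
        intro x hx y hy
        exact congrArg Subtype.val (hab.is_comm.comm (⟨x, hx⟩ : (P : Subgroup G)) ⟨y, hy⟩)
      obtain ⟨d, hd, hd2⟩ := Cfsg.Agent.Lib.helper6_FrobP.frattini_index_rank p P.2
      have hN : Subgroup.normalizer ((P : Subgroup G) : Set G) ≤
          Subgroup.centralizer ((P : Subgroup G) : Set G) := by
        apply Cfsg.Agent.Lib.helper6_FrobP.normalizer_le_centralizer_of_coprime p P hab'
        intro g hg hgc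
        rcases Cfsg.Agent.Lib.helper6_FrobP.centralizes_or_prime p (P : Subgroup G) P.2 g hg hgc
          d hd2 with h | ⟨q, i, hq, hqg, hi1, hi2, hqi⟩
        · exact h
        · exfalso
          have hqG : q ∣ Nat.card G := hqg.trans (orderOf_dvd_natCard g)
          have hpq := hpmin q hq hqG
          have hp2 := hp.two_le
          have hcase1 : ¬ q ∣ p - 1 := by
            intro hh
            have := Nat.le_of_dvd (by omega) hh
            omega
          have hi : i = 1 ∨ i = 2 := by omega
          rcases hi with rfl | rfl
          · rw [pow_one] at hqi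
            exact hcase1 hqi
          · have h3 : p ^ 2 - 1 = (p - 1) * (p + 1) := by
              obtain ⟨t, rfl⟩ : ∃ t, p = t + 1 := ⟨p - 1, by omega⟩
              simp only [Nat.add_sub_cancel]
              have : (t + 1) ^ 2 = t * (t + 1 + 1) + 1 := by ring
              rw [this, Nat.add_sub_cancel]
            rw [h3] at hqi
            rcases (Nat.Prime.dvd_mul hq).1 hqi with h4 | h4
            · exact hcase1 h4
            · have h5 := Nat.le_of_dvd (by omega) h4
              have h6 : q ≠ p := by
                rintro rfl
                have : q ∣ 1 := (Nat.dvd_add_right (dvd_refl q)).1 h4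
                exact hq.one_lt.ne' (Nat.dvd_one.1 this)
              have h7 : q = p + 1 := by omega
              have h8 : p = 2 := by
                rcases hp.eq_two_or_odd' with h | h
                · exact h
                · exfalso
                  have h9 : Even q := by rw [h7]; exact h.add_one
                  have := (Nat.Prime.even_iff hq).1 h9
                  omega
              apply h12
              have h10 : 4 ∣ Nat.card G := by
                have a1 : p ^ 2 ∣ p ^ d := pow_dvd_pow p hi2
                rw [← hd2] at a1
                have a2 : p ^ 2 ∣ Nat.card G := (a1.trans (Subgroup.index_dvd_card _)).trans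
                  (Subgroup.card_subgroup_dvd_card _)
                have a3 : p ^ 2 = 4 := by rw [h8]; norm_num
                rwa [a3] at a2
              have h11 : 3 ∣ Nat.card G := by
                have : q = 3 := by omega
                exact this ▸ hqG
              exact Nat.Coprime.mul_dvd_of_dvd_of_dvd (by norm_num : Nat.Coprime 4 3) h10 h11
      obtain ⟨K, hKdef⟩ : ∃ K, K = (MonoidHom.transferSylow P hN).ker := ⟨_, rfl⟩
      have hKn : K.Normal := hKdef ▸ inferInstance
      have hK : K.IsComplement' (P : Subgroup G) :=
        hKdef ▸ MonoidHom.ker_transferSylow_isComplement' P hN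
      have hKcard : Nat.card K * Nat.card (P : Subgroup G) = Nat.card G := hK.card_mul_card
      obtain ⟨k, hk⟩ := IsPGroup.iff_card.1 P.2
      have hKidx : K.index = p ^ k := by
        have := K.card_mul_index
        rw [← hKcard, hk] at this
        exact Nat.eq_of_mul_eq_mul_left Nat.card_pos this
      have hpK : ¬ p ∣ Nat.card K := by
        rw [← hK.index_eq_card]
        exact P.not_dvd_index
      have hKG : Nat.card K ∣ Nat.card G := Subgroup.card_subgroup_dvd_card K
      have hKlt : Nat.card K < n := by
        rw [← hcard]
        apply lt_of_le_of_ne (Nat.le_of_dvd Nat.card_pos hKG)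
        intro heq
        exact hpK (heq ▸ hpG)
      have hKsol : Group.IsSolvable K := by
        apply ih _ hKlt K rfl
        · intro r hr hrK hq R
          obtain ⟨q, hq, hqK, hrq⟩ := hq
          have := Fact.mk hr
          have hrp : r ≠ p := by
            rintro rfl
            exact hpK hrK
          have hR' : IsPGroup r ((R : Subgroup K).map K.subtype) := R.2.map _
          have hidx : ¬ r ∣ ((R : Subgroup K).map K.subtype).index := by
            rw [Subgroup.index_map_subtype, hKidx]
            intro hdiv
            rcases (Nat.Prime.dvd_mul hr).1 hdiv with h5 | h5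
            · exact R.not_dvd_index h5
            · exact hrp ((Nat.prime_dvd_prime_iff_eq hr hp).1 (hr.dvd_of_dvd_pow h5))
          have h6 := h r hr (hrK.trans hKG) ⟨q, hq, hqK.trans hKG, hrq⟩ (hR'.toSylow hidx)
          change IsMulCommutative ((R : Subgroup K).map K.subtype) ∧
            Group.rank ((R : Subgroup K).map K.subtype) ≤ 2 at h6
          have e : (R : Subgroup K) ≃* ((R : Subgroup K).map K.subtype) :=
            (R : Subgroup K).equivMapOfInjective K.subtype K.subtype_injective
          refine ⟨⟨⟨fun a b => e.injective ?_⟩⟩, ?_⟩
          · rw [map_mul, map_mul]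
            exact h6.1.is_comm.comm _ _
          · exact (Group.rank_le_of_surjective e.symm.toMonoidHom e.symm.surjective).trans h6.2
        · intro h5
          exact h12 (h5.trans hKG)
      have hQsol : Group.IsSolvable (G ⧸ K) := by
        have : IsPGroup p (G ⧸ K) := IsPGroup.of_card (n := k) hKidx
        have := this.isNilpotent
        infer_instance
      exact Group.isSolvable_of_ker_le_range K.subtype (QuotientGroup.mk' K) (by simp)
    · push Not at hbig
      have hpg : IsPGroup p G := by
        apply IsPGroup.of_card (n := (Nat.card G).primeFactorsList.length)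
        apply Nat.eq_prime_pow_of_unique_prime_dvd Nat.card_pos.ne'
        intro q hq hqG
        exact le_antisymm (hbig q hq hqG) (hpmin q hq hqG)
      have := hpg.isNilpotent
      infer_instance


/-- Let `G` be a finite group such that for every prime `p` dividing its order, other than the largest such prime, the Sylow `p`-subgroups are abelian and generated by at most two elements, and suppose `12` does not divide the order of `G`. Then `G` is solvable. In particular a group of cube-free order not divisible by `12` is solvable. -/
theorem result {G : Type*} [Group G] [Finite G] (h : ∀ p : ℕ, p.Prime → p ∣ Nat.card G → (∃ q : ℕ, q.Prime ∧ q ∣ Nat.card G ∧ p < q) → ∀ P : Sylow p G, IsMulCommutative (P : Subgroup G) ∧ Group.rank (P : Subgroup G) ≤ 2) (h12 : ¬ 12 ∣ Nat.card G) : Group.IsSolvable G := by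
  exact aux _ G rfl h h12

end Cfsg.Agent.S3970
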