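import Mathlib
import Cfsg.Agent.Lib.helper6_FrobTwo
import Cfsg.Statements.S3971

set_option autoImplicit false
open Cfsg

namespace Cfsg.Agent.S3971

/-- Let `G` be a finite group of order `2 ^ a * n` with `n` odd and not divisible by `3`, and suppose `G` has an element of order `2 ^ (a - 1)` (so a Sylow `2`-subgroup has a cyclic subgroup of index at most `2`). Then `G` has a normal subgroup of order `n`. -/
theorem result {G : Type*} [Group G] [Finite G] (a n : ℕ) (hG : Nat.card G = 2 ^ a * n) (hn : Odd n) (h3 : ¬ 3 ∣ n) (hx : ∃ x : G, orderOf x = 2 ^ (a - 1)) : ∃ N : Subgroup G, N.Normal ∧ Nat.card N = n := by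
  classical
  have := Fact.mk Nat.prime_two
  obtain ⟨x, hx⟩ := hx
  have hn0 : n ≠ 0 := by rintro rfl; simp at hn
  have hF : Cfsg.Agent.Lib.Helper1_FrobPNil.FrobHyp 2 G := by
    intro Q hQ g hg hcop
    obtain ⟨S, hQS⟩ := hQ.exists_le_sylow
    have hxp : IsPGroup 2 (Subgroup.zpowers x) :=
      IsPGroup.of_card (n := a - 1) (by rw [Nat.card_zpowers, hx])
    obtain ⟨S', hxS'⟩ := hxp.exists_le_sylow
    obtain ⟨h, hh⟩ := MulAction.exists_smul_eq G S' S
    obtain ⟨c, hc⟩ : ∃ c, c = h * x * h⁻¹ := ⟨_, rfl⟩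
    have hcS : c ∈ (S : Subgroup G) := by
      rw [← hh, Sylow.coe_subgroup_smul, hc]
      exact ⟨x, hxS' (Subgroup.mem_zpowers x), rfl⟩
    have hco : orderOf c = 2 ^ (a - 1) := by
      rw [hc, ← hx]
      exact (MulAut.conj h).orderOf_eq x
    have hScard : Nat.card (S : Subgroup G) = 2 ^ a := by
      rw [S.card_eq_multiplicity, hG, Nat.factorization_mul (by positivity) hn0]
      have h1 : n.factorization 2 = 0 := by
        apply Nat.factorization_eq_zero_of_not_dvd
        rw [← even_iff_two_dvd, Nat.not_even_iff_odd]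
        exact hn
      simp [h1, Nat.Prime.factorization_pow Nat.prime_two]
    have hCS : Subgroup.zpowers c ≤ (S : Subgroup G) := by
      rw [Subgroup.zpowers_le]
      exact hcS
    have hrel : (Subgroup.zpowers c).relIndex (S : Subgroup G) ≤ 2 := by
      have h1 := ((Subgroup.zpowers c).subgroupOf (S : Subgroup G)).index_mul_card
      rw [hScard, Nat.card_congr (Subgroup.subgroupOfEquivOfLe hCS).toEquiv, Nat.card_zpowers,
        hco] at h1
      show ((Subgroup.zpowers c).subgroupOf (S : Subgroup G)).index ≤ 2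
      rcases Nat.eq_zero_or_pos a with rfl | ha
      · simp only [zero_tsub, pow_zero, mul_one] at h1
        rw [h1]
        norm_num
      · have h2 : 2 ^ a = 2 * 2 ^ (a - 1) := by rw [← pow_succ', Nat.sub_add_cancel ha]
        rw [h2] at h1
        exact (Nat.eq_of_mul_eq_mul_right (by positivity) h1).le
    have hrelQ : (Subgroup.zpowers c).relIndex Q ≤ 2 :=
      (Subgroup.relIndex_le_of_le_right hQS
        ((Subgroup.zpowers c).subgroupOf (S : Subgroup G)).index_ne_zero_of_finite).trans hrel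
    obtain ⟨D, hD⟩ : ∃ D : Subgroup Q, D = (Subgroup.zpowers c).subgroupOf Q := ⟨_, rfl⟩
    have hDidx : D.index ≤ 2 := hD ▸ hrelQ
    have hDcyc : IsCyclic D := by
      rw [hD]
      apply isCyclic_of_injective (Q.subtype.subgroupComap (Subgroup.zpowers c))
      intro u v huv
      have := congrArg Subtype.val huv
      exact Subtype.ext (Subtype.ext this)
    obtain ⟨d0, hd0⟩ := hDcyc.exists_generator
    have hπ : Function.Surjective (QuotientGroup.mk' (frattini Q)) :=
      QuotientGroup.mk'_surjective _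
    have h1 : (D.map (QuotientGroup.mk' (frattini Q))).index ≤ 2 :=
      (Nat.le_of_dvd (Nat.pos_of_ne_zero D.index_ne_zero_of_finite)
        (Subgroup.index_map_dvd D hπ)).trans hDidx
    have h2 : Nat.card (D.map (QuotientGroup.mk' (frattini Q))) ≤ 2 := by
      have h3 : D.map (QuotientGroup.mk' (frattini Q)) ≤
          Subgroup.zpowers (QuotientGroup.mk' (frattini Q) (d0 : Q)) := by
        rintro _ ⟨d, hd, rfl⟩
        obtain ⟨j, hj⟩ := Subgroup.mem_zpowers_iff.1 (hd0 ⟨d, hd⟩)
        rw [Subgroup.mem_zpowers_iff]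
        refine ⟨j, ?_⟩
        rw [← map_zpow]
        congr 1
        have := congrArg Subtype.val hj
        simpa using this
      refine (Nat.le_of_dvd Nat.card_pos (Subgroup.card_dvd_of_le h3)).trans ?_
      rw [Nat.card_zpowers]
      apply Nat.le_of_dvd (by norm_num)
      apply orderOf_dvd_of_pow_eq_one
      rw [← map_pow]
      exact (QuotientGroup.eq_one_iff _).2 ((Cfsg.Agent.S0012.result 2 hQ).2 _)
    have h4 : (frattini Q).index ≤ 4 := by
      have h5 := (D.map (QuotientGroup.mk' (frattini Q))).index_mul_card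
      have h6 : (frattini Q).index = Nat.card (Q ⧸ frattini Q) := rfl
      rw [h6, ← h5]
      calc _ ≤ 2 * 2 := Nat.mul_le_mul h1 h2
        _ = 4 := by norm_num
    have h5 : (frattini Q).index ∣ 4 := by
      obtain ⟨k, hk⟩ := IsPGroup.iff_card.1 hQ
      have h6 : (frattini Q).index ∣ 2 ^ k := hk ▸ Subgroup.index_dvd_card _
      obtain ⟨j, _, hj⟩ := (Nat.dvd_prime_pow Nat.prime_two).1 h6
      rw [hj] at h4 ⊢
      have : j ≤ 2 := by
        by_contra h7
        have := Nat.pow_le_pow_right (show 0 < 2 by norm_num) (show 3 ≤ j by omega)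
        omega
      exact pow_dvd_pow 2 this
    have hodd : Odd (orderOf g) := (Nat.coprime_two_right).1 hcop
    rcases Cfsg.Agent.Lib.helper6_FrobTwo.centralizes_or Q hQ g hg hodd
      (h5.trans (by norm_num)) with h | ⟨h6, _⟩ | ⟨_, h8⟩
    · exact h
    · exfalso
      apply h3
      have h7 : 3 ∣ 2 ^ a * n := hG ▸ h6.trans (orderOf_dvd_natCard g)
      exact (Nat.Coprime.dvd_of_dvd_mul_left (Nat.Coprime.pow_right a (by norm_num)) h7)
    · omega
  obtain ⟨N, hN, hcop, k, hk⟩ := Cfsg.Agent.Lib.Helper1_FrobPNil.frobenius hF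
  refine ⟨N, hN, ?_⟩
  have h1 := N.card_mul_index
  rw [hk, hG] at h1
  apply Nat.dvd_antisymm
  · have : Nat.card N ∣ 2 ^ a * n := h1 ▸ Dvd.intro _ rfl
    exact Nat.Coprime.dvd_of_dvd_mul_left (Nat.Coprime.pow_right a hcop) this
  · have : n ∣ Nat.card N * 2 ^ k := h1 ▸ Dvd.intro_left _ rfl
    exact Nat.Coprime.dvd_of_dvd_mul_right
      (Nat.Coprime.pow_right k ((Nat.coprime_two_right).2 hn)) this

end Cfsg.Agent.S3971
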