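import Cfsg.Statements.S3977
import Cfsg.Agent.S0016
import Cfsg.Agent.Lib.Helper1_Quat

set_option autoImplicit false
open Cfsg

namespace Cfsg.Agent.S3977



/-- Let `p` be a prime and `G` a group of order `p ^ m` which has exactly one subgroup of order `p ^ s`, where `1 ≤ s < m`, and where `s ≥ 2` if `p = 2`. Then `G` is cyclic. (For `p = 2` and `s = 1` the generalized quaternion groups also occur; that case is the classical criterion for a unique involution.) -/
theorem result {G : Type*} [Group G] [Finite G] (p m s : ℕ) (hp : p.Prime) (hG : Nat.card G = p ^ m) (hs : 1 ≤ s) (hsm : s < m) (h2 : p ≠ 2 ∨ 2 ≤ s) (huniq : ∀ H K : Subgroup G, Nat.card H = p ^ s → Nat.card K = p ^ s → H = K) : IsCyclic G := by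
  haveI : Fact p.Prime := ⟨hp⟩
  have hGp : IsPGroup p G := IsPGroup.of_card hG
  obtain ⟨N, hN⟩ := Sylow.exists_subgroup_card_pow_prime p
    (show p ^ s ∣ Nat.card G by rw [hG]; exact pow_dvd_pow p hsm.le)
  have key1 : ∀ (H : Subgroup G) (j : ℕ), j ≤ s → Nat.card H = p ^ j → H ≤ N := by
    intro H j hj hH
    obtain ⟨K, hK, hHK⟩ := Sylow.exists_subgroup_card_pow_prime_le p
      (show p ^ s ∣ Nat.card G by rw [hG]; exact pow_dvd_pow p hsm.le) H hH hj
    rw [← huniq K N hK hN]
    exact hHK
  obtain ⟨U, hU, hNU⟩ := Sylow.exists_subgroup_card_pow_prime_le p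
      (show p ^ (s + 1) ∣ Nat.card G by rw [hG]; exact pow_dvd_pow p hsm) N hN (Nat.le_succ s)
  obtain ⟨x, hxU, hxN⟩ : ∃ x ∈ U, x ∉ N := by
    by_contra hcon
    push_neg at hcon
    have h1 : Nat.card U ≤ Nat.card N := Subgroup.card_le_of_le hcon
    rw [hU, hN] at h1
    exact absurd h1 (not_le.2 (Nat.pow_lt_pow_right hp.one_lt (Nat.lt_succ_self s)))
  obtain ⟨j, hj⟩ := (IsPGroup.iff_orderOf.1 hGp) x
  have hjs : s + 1 ≤ j := by
    by_contra hcon
    have h1 : j ≤ s := by omega
    have h2 := key1 (Subgroup.zpowers x) j h1 (by rw [Nat.card_zpowers, hj])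
    exact hxN (h2 (Subgroup.mem_zpowers x))
  have hUx : Subgroup.zpowers x = U := by
    apply Subgroup.eq_of_le_of_card_ge ((Subgroup.zpowers_le).2 hxU)
    rw [Nat.card_zpowers, hj, hU]
    exact Nat.pow_le_pow_right hp.pos hjs
  haveI hUc : IsCyclic U := by
    rw [← hUx]; infer_instance
  have huniq' : ∀ H K : Subgroup G, Nat.card H = p → Nat.card K = p → H = K := by
    have aux : ∀ H K : Subgroup G, Nat.card H = p → Nat.card K = p → H ≤ K := by
      intro H K hH hK a ha
      have hHU : H ≤ U := (key1 H 1 hs (by rw [hH, pow_one])).trans hNU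
      have hKU : K ≤ U := (key1 K 1 hs (by rw [hK, pow_one])).trans hNU
      have h1 : (⟨a, hHU ha⟩ : U) ∈ K.subgroupOf U := by
        apply Cfsg.Agent.Lib.Helper1_Quat.mem_of_pow_card
        rw [Nat.card_congr (Subgroup.subgroupOfEquivOfLe hKU).toEquiv, hK, ← hH]
        apply Subtype.ext
        rw [Subgroup.coe_pow, Subgroup.coe_one]
        exact Cfsg.Agent.Lib.Helper1_Quat.pow_card_of_mem H ha
      exact Subgroup.mem_subgroupOf.1 h1
    intro H K hH hK
    exact le_antisymm (aux H K hH hK) (aux K H hK hH)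
  rcases Cfsg.Agent.S0016.result p hGp huniq' with h | ⟨hp2, n, ⟨e⟩⟩
  · exact h
  · exfalso
    subst hp2
    have hs2 : 2 ≤ s := by
      rcases h2 with h | h
      · exact absurd rfl h
      · exact h
    have h4 : ∀ g : G, g ^ 4 = 1 → g ∈ N := by
      intro g hg
      have h1 : orderOf g ∣ 2 ^ 2 := orderOf_dvd_of_pow_eq_one (by norm_num; exact hg)
      obtain ⟨i, hi, hi2⟩ := (Nat.dvd_prime_pow Nat.prime_two).1 h1
      exact key1 (Subgroup.zpowers g) i (hi.trans hs2) (by rw [Nat.card_zpowers, hi2])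
        (Subgroup.mem_zpowers g)
    have hxa : ∀ i, e.symm (QuaternionGroup.xa i) ∈ N := by
      intro i
      apply h4
      rw [← map_pow, QuaternionGroup.xa_pow_four, map_one]
    have htop : N = ⊤ := by
      rw [eq_top_iff]
      intro g _
      obtain ⟨q, rfl⟩ := e.symm.surjective g
      cases q with
      | a i =>
        have h1 : (QuaternionGroup.a i : QuaternionGroup (2 ^ n)) =
            QuaternionGroup.xa 0 * QuaternionGroup.xa (i - ((2 ^ n : ℕ) : ZMod (2 * 2 ^ n))) := by
          rw [QuaternionGroup.xa_mul_xa]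
          congr 1
          ring
        rw [h1, map_mul]
        exact N.mul_mem (hxa _) (hxa _)
      | xa i => exact hxa i
    rw [htop, Subgroup.card_top, hG] at hN
    have := Nat.pow_right_injective (le_refl 2) hN
    omega

end Cfsg.Agent.S3977
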