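import Cfsg.Statements.S3980
import Cfsg.Agent.Lib.Helper4_Schur
import Cfsg.Agent.Lib.Helper2_EA

set_option autoImplicit false
universe u v w
open Cfsg

namespace Cfsg.Agent.S3980

open scoped commutatorElement in
theorem comm_pow {X Qa : Type*} [Group X] [Group Qa] [Finite Qa] (X₁ : Subgroup X) (ξ₁ : X₁ →* Qa)
    (hs : Function.Surjective ξ₁) (hker : ∀ x ∈ ξ₁.ker, (x : X) ∈ Subgroup.center X) (y : X)
    (hy : ∀ x : X₁, ⁅(x : X), y⁆ ∈ Subgroup.center X) (x : X₁) :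
    ⁅(x : X), y⁆ ^ Nat.card (Abelianization Qa) = 1 := by
  let κ : X₁ →* X := MonoidHom.mk' (fun g => ⁅(g : X), y⁆) (by
    intro g h
    have hk : ∀ t : X, t * ⁅(h : X), y⁆ = ⁅(h : X), y⁆ * t := Subgroup.mem_center_iff.1 (hy h)
    have e1 : ⁅((g * h : X₁) : X), y⁆ = (g : X) * ⁅(h : X), y⁆ * y * (g : X)⁻¹ * y⁻¹ := by
      simp only [commutatorElement_def, Subgroup.coe_mul]; group
    rw [e1, hk (g : X), commutatorElement_def (g : X) y]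
    have e2 : ⁅(h : X), y⁆ * (g : X) * y * (g : X)⁻¹ * y⁻¹ = ⁅(h : X), y⁆ * ((g : X) * y * (g : X)⁻¹ * y⁻¹) := by
      group
    rw [e2, hk])
  have hκ : ∀ g : X₁, κ g = ⁅(g : X), y⁆ := fun g => rfl
  have hκc : commutator X₁ ≤ κ.ker := by
    rw [commutator_def, Subgroup.commutator_le]
    intro a _ b _
    rw [MonoidHom.mem_ker, map_commutatorElement, commutatorElement_eq_one_iff_commute]
    exact ((Subgroup.mem_center_iff.1 (hy a)) (κ b)).symm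
  have hκk : ξ₁.ker ≤ κ.ker := by
    intro k hk
    rw [MonoidHom.mem_ker, hκ, commutatorElement_eq_one_iff_commute]
    exact ((Subgroup.mem_center_iff.1 (hker k hk)) y).symm
  set n := Nat.card (Abelianization Qa) with hn
  have h1 : ξ₁ x ^ n ∈ commutator Qa := by
    have h2 : (Abelianization.of (ξ₁ x)) ^ n = 1 := pow_card_eq_one'
    rw [← map_pow] at h2
    have h3 : ξ₁ x ^ n ∈ (Abelianization.of : Qa →* _).ker := h2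
    rwa [Abelianization.ker_of] at h3
  have hmap : (commutator X₁).map ξ₁ = commutator Qa := by
    rw [commutator_def, Subgroup.map_commutator, Subgroup.map_top_of_surjective ξ₁ hs, ← commutator_def]
  rw [← hmap] at h1
  obtain ⟨d, hd, hdx⟩ := h1
  have h4 : x ^ n * d⁻¹ ∈ ξ₁.ker := by
    rw [MonoidHom.mem_ker, map_mul, map_inv, map_pow, hdx, mul_inv_cancel]
  have h5 : κ (x ^ n) = 1 := by
    have e : x ^ n = (x ^ n * d⁻¹) * d := by group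
    rw [e, map_mul, (MonoidHom.mem_ker).1 (hκk h4), (MonoidHom.mem_ker).1 (hκc hd), one_mul]
  rw [map_pow, hκ] at h5
  exact h5

open scoped commutatorElement in
open Cfsg.Agent.Lib.Helper4_Schur in
theorem part2 {Q₁ : Type u} {Q₂ : Type v} [Group Q₁] [Group Q₂] [Finite Q₁] [Finite Q₂]
    (hcop : Nat.Coprime (Nat.card (Abelianization Q₁)) (Nat.card (Abelianization Q₂)))
    (X : Type (max u v)) [Group X] (ξ : X →* Q₁ × Q₂) (hξ : Cfsg.IsStemExtension ξ) :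
    ∃ π : M Q₁ × M Q₂ →* ξ.ker, Function.Surjective π := by
  set X₁ : Subgroup X := ((MonoidHom.snd Q₁ Q₂).comp ξ).ker with hX₁
  set X₂ : Subgroup X := ((MonoidHom.fst Q₁ Q₂).comp ξ).ker with hX₂
  have hm1 : ∀ x, x ∈ X₁ ↔ (ξ x).2 = 1 := fun x => Iff.rfl
  have hm2 : ∀ x, x ∈ X₂ ↔ (ξ x).1 = 1 := fun x => Iff.rfl
  let ξ₁ : X₁ →* Q₁ := ((MonoidHom.fst Q₁ Q₂).comp ξ).comp X₁.subtype
  let ξ₂ : X₂ →* Q₂ := ((MonoidHom.snd Q₁ Q₂).comp ξ).comp X₂.subtype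
  have hξ₁ : ∀ x : X₁, ξ₁ x = (ξ x).1 := fun x => rfl
  have hξ₂ : ∀ x : X₂, ξ₂ x = (ξ x).2 := fun x => rfl
  have hs1 : Function.Surjective ξ₁ := by
    intro q
    obtain ⟨x, hx⟩ := hξ.1 (q, 1)
    exact ⟨⟨x, by rw [hm1, hx]⟩, by rw [hξ₁]; show (ξ x).1 = q; rw [hx]⟩
  have hs2 : Function.Surjective ξ₂ := by
    intro q
    obtain ⟨x, hx⟩ := hξ.1 (1, q)
    exact ⟨⟨x, by rw [hm2, hx]⟩, by rw [hξ₂]; show (ξ x).2 = q; rw [hx]⟩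
  have hk1 : ∀ x ∈ ξ₁.ker, (x : X) ∈ ξ.ker := by
    intro x hx
    rw [MonoidHom.mem_ker]
    exact Prod.ext hx x.2
  have hk2 : ∀ x ∈ ξ₂.ker, (x : X) ∈ ξ.ker := by
    intro x hx
    rw [MonoidHom.mem_ker]
    exact Prod.ext x.2 hx
  have hcK : ∀ x ∈ X₁, ∀ y ∈ X₂, ⁅x, y⁆ ∈ ξ.ker := by
    intro x hx y hy
    rw [MonoidHom.mem_ker, map_commutatorElement, commutatorElement_eq_one_iff_commute]
    apply Prod.ext
    · show (ξ x).1 * (ξ y).1 = (ξ y).1 * (ξ x).1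
      rw [(hm2 y).1 hy]; simp
    · show (ξ x).2 * (ξ y).2 = (ξ y).2 * (ξ x).2
      rw [(hm1 x).1 hx]; simp
  have hcomm : ∀ x ∈ X₁, ∀ y ∈ X₂, x * y = y * x := by
    intro x hx y hy
    have p1 := comm_pow X₁ ξ₁ hs1 (fun k hk => hξ.2.1 (hk1 k hk)) y
      (fun x' => hξ.2.1 (hcK x' x'.2 y hy)) ⟨x, hx⟩
    have p2 := comm_pow X₂ ξ₂ hs2 (fun k hk => hξ.2.1 (hk2 k hk)) x
      (fun y' => by
        rw [← commutatorElement_inv]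
        exact inv_mem (hξ.2.1 (hcK x hx y' y'.2))) ⟨y, hy⟩
    have p2' : ⁅x, y⁆ ^ Nat.card (Abelianization Q₂) = 1 := by
      rw [← commutatorElement_inv, inv_pow, inv_eq_one]
      exact p2
    have h1 := orderOf_dvd_of_pow_eq_one p1
    have h2 := orderOf_dvd_of_pow_eq_one p2'
    have h3 : orderOf ⁅x, y⁆ = 1 := Nat.eq_one_of_dvd_coprimes hcop h1 h2
    exact (commutatorElement_eq_one_iff_commute.1 (orderOf_eq_one_iff.1 h3)).eq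
  have hdecomp : ∀ x : X, ∃ a ∈ X₁, ∃ b ∈ X₂, x = a * b := by
    intro x
    obtain ⟨a, ha⟩ := hξ.1 ((ξ x).1, 1)
    refine ⟨a, by rw [hm1, ha], a⁻¹ * x, ?_, by group⟩
    rw [hm2, map_mul, map_inv, ha]
    simp
  set D₁ := (commutator X₁).map X₁.subtype with hD₁
  set D₂ := (commutator X₂).map X₂.subtype with hD₂
  have hD₁le : D₁ ≤ X₁ := Subgroup.map_subtype_le _
  have hD₂le : D₂ ≤ X₂ := Subgroup.map_subtype_le _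
  have hcomle : commutator X ≤ D₁ ⊔ D₂ := by
    rw [commutator_def, Subgroup.commutator_le]
    intro x _ y _
    obtain ⟨x₁, hx₁, x₂, hx₂, rfl⟩ := hdecomp x
    obtain ⟨y₁, hy₁, y₂, hy₂, rfl⟩ := hdecomp y
    have e : ⁅x₁ * x₂, y₁ * y₂⁆ = ⁅x₁, y₁⁆ * ⁅x₂, y₂⁆ := by
      have c1 := hcomm y₁ hy₁ x₂ hx₂
      have c2 := hcomm x₁⁻¹ (inv_mem hx₁) x₂⁻¹ (inv_mem hx₂)
      have c3 := hcomm y₁⁻¹ (inv_mem hy₁) y₂⁻¹ (inv_mem hy₂)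
      have c4 := hcomm x₁⁻¹ (inv_mem hx₁) y₂ hy₂
      have c5 := hcomm x₁⁻¹ (inv_mem hx₁) x₂ hx₂
      have c6 := hcomm y₁⁻¹ (inv_mem hy₁) x₂⁻¹ (inv_mem hx₂)
      have c7 := hcomm y₁⁻¹ (inv_mem hy₁) y₂ hy₂
      have c8 := hcomm y₁⁻¹ (inv_mem hy₁) x₂ hx₂
      simp only [commutatorElement_def, mul_inv_rev]
      calc x₁ * x₂ * (y₁ * y₂) * (x₂⁻¹ * x₁⁻¹) * (y₂⁻¹ * y₁⁻¹)
          = x₁ * (x₂ * y₁) * y₂ * (x₂⁻¹ * x₁⁻¹) * (y₂⁻¹ * y₁⁻¹) := by group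
        _ = x₁ * (y₁ * x₂) * y₂ * (x₁⁻¹ * x₂⁻¹) * (y₁⁻¹ * y₂⁻¹) := by rw [c1, c2, c3]
        _ = x₁ * y₁ * x₂ * (y₂ * x₁⁻¹) * x₂⁻¹ * y₁⁻¹ * y₂⁻¹ := by group
        _ = x₁ * y₁ * x₂ * (x₁⁻¹ * y₂) * x₂⁻¹ * y₁⁻¹ * y₂⁻¹ := by rw [c4]
        _ = x₁ * y₁ * (x₂ * x₁⁻¹) * y₂ * (x₂⁻¹ * y₁⁻¹) * y₂⁻¹ := by group
        _ = x₁ * y₁ * (x₁⁻¹ * x₂) * y₂ * (y₁⁻¹ * x₂⁻¹) * y₂⁻¹ := by rw [c5, c6]
        _ = x₁ * y₁ * x₁⁻¹ * x₂ * (y₂ * y₁⁻¹) * x₂⁻¹ * y₂⁻¹ := by group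
        _ = x₁ * y₁ * x₁⁻¹ * x₂ * (y₁⁻¹ * y₂) * x₂⁻¹ * y₂⁻¹ := by rw [c7]
        _ = x₁ * y₁ * x₁⁻¹ * (x₂ * y₁⁻¹) * y₂ * x₂⁻¹ * y₂⁻¹ := by group
        _ = x₁ * y₁ * x₁⁻¹ * (y₁⁻¹ * x₂) * y₂ * x₂⁻¹ * y₂⁻¹ := by rw [c8]
        _ = x₁ * y₁ * x₁⁻¹ * y₁⁻¹ * (x₂ * y₂ * x₂⁻¹ * y₂⁻¹) := by group
    rw [e]
    apply Subgroup.mul_mem_sup
    · exact ⟨⁅(⟨x₁, hx₁⟩ : X₁), ⟨y₁, hy₁⟩⁆,
        Subgroup.commutator_mem_commutator (Subgroup.mem_top _) (Subgroup.mem_top _), rfl⟩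
    · exact ⟨⁅(⟨x₂, hx₂⟩ : X₂), ⟨y₂, hy₂⟩⁆,
        Subgroup.commutator_mem_commutator (Subgroup.mem_top _) (Subgroup.mem_top _), rfl⟩
  have hc1 : ξ₁.ker ≤ Subgroup.center X₁ := by
    intro k hk
    rw [Subgroup.mem_center_iff]
    intro z
    exact Subtype.ext ((Subgroup.mem_center_iff.1 (hξ.2.1 (hk1 k hk))) z.1)
  have hc2 : ξ₂.ker ≤ Subgroup.center X₂ := by
    intro k hk
    rw [Subgroup.mem_center_iff]
    intro z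
    exact Subtype.ext ((Subgroup.mem_center_iff.1 (hξ.2.1 (hk2 k hk))) z.1)
  obtain ⟨ψ₁, hψ₁⟩ := exists_lift ξ₁ hs1 hc1
  obtain ⟨ψ₂, hψ₂⟩ := exists_lift ξ₂ hs2 hc2
  have hM₁ := map_M ξ₁ hc1 ψ₁ hψ₁
  have hM₂ := map_M ξ₂ hc2 ψ₂ hψ₂
  let f₁ : M Q₁ →* ξ.ker := ((X₁.subtype.comp ψ₁).comp (M Q₁).subtype).codRestrict ξ.ker (fun m => by
    apply hk1
    have : ψ₁ m.1 ∈ (M Q₁).map ψ₁ := Subgroup.mem_map_of_mem _ m.2
    rw [hM₁] at this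
    exact this.1)
  let f₂ : M Q₂ →* ξ.ker := ((X₂.subtype.comp ψ₂).comp (M Q₂).subtype).codRestrict ξ.ker (fun m => by
    apply hk2
    have : ψ₂ m.1 ∈ (M Q₂).map ψ₂ := Subgroup.mem_map_of_mem _ m.2
    rw [hM₂] at this
    exact this.1)
  have hf : ∀ (a : M Q₁) (b : M Q₂), Commute (f₁ a) (f₂ b) := by
    intro a b
    apply Subtype.ext
    exact ((Subgroup.mem_center_iff.1 (hξ.2.1 (f₁ a).2)) (f₂ b).1).symm
  refine ⟨MonoidHom.noncommCoprod f₁ f₂ hf, ?_⟩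
  rintro ⟨k, hk⟩
  have hk' := hcomle (hξ.2.2 hk)
  obtain ⟨a, ha, b, hb, hab⟩ := (Cfsg.Agent.Lib.Helper2_EA.mem_sup_of_comm
    (fun a ha b hb => hcomm a (hD₁le ha) b (hD₂le hb))).1 hk'
  have hξab : ξ a * ξ b = 1 := by rw [← map_mul, hab]; exact hk
  have ha2 : (ξ a).2 = 1 := (hm1 a).1 (hD₁le ha)
  have hb1 : (ξ b).1 = 1 := (hm2 b).1 (hD₂le hb)
  have ha1 : (ξ a).1 = 1 := by
    have := congrArg Prod.fst hξab
    simpa [hb1] using this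
  have hb2 : (ξ b).2 = 1 := by
    have := congrArg Prod.snd hξab
    simpa [ha2] using this
  obtain ⟨a', ha', rfl⟩ := ha
  obtain ⟨b', hb', rfl⟩ := hb
  have ha'' : a' ∈ ξ₁.ker ⊓ commutator X₁ := ⟨ha1, ha'⟩
  have hb'' : b' ∈ ξ₂.ker ⊓ commutator X₂ := ⟨hb2, hb'⟩
  rw [← hM₁] at ha''
  rw [← hM₂] at hb''
  obtain ⟨m₁, hm₁, hm₁a⟩ := ha''
  obtain ⟨m₂, hm₂, hm₂b⟩ := hb''
  refine ⟨(⟨m₁, hm₁⟩, ⟨m₂, hm₂⟩), ?_⟩
  apply Subtype.ext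
  show ((ψ₁ m₁ : X₁) : X) * ((ψ₂ m₂ : X₂) : X) = k
  rw [hm₁a, hm₂b]
  exact hab

open Cfsg.Agent.Lib.Helper4_Schur in

/-- Let `Q₁` and `Q₂` be finite groups whose commutator quotients have coprime orders, with Schur multipliers `A` and `B`. Then the Schur multiplier of `Q₁ × Q₂` is isomorphic to `A × B`. -/
theorem result {Q₁ : Type u} {Q₂ : Type v} [Group Q₁] [Group Q₂] [Finite Q₁] [Finite Q₂] {A B : Type w} [CommGroup A] [CommGroup B] (hA : Cfsg.HasSchurMultiplier Q₁ A) (hB : Cfsg.HasSchurMultiplier Q₂ B) (hcop : Nat.Coprime (Nat.card (Abelianization Q₁)) (Nat.card (Abelianization Q₂))) : Cfsg.HasSchurMultiplier (Q₁ × Q₂) (A × B) := by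
  constructor
  · obtain ⟨Γ₁, _, _, σ₁, hσ₁, ⟨e₁⟩⟩ := hA.1
    obtain ⟨Γ₂, _, _, σ₂, hσ₂, ⟨e₂⟩⟩ := hB.1
    refine ⟨Γ₁ × Γ₂, inferInstance, inferInstance, MonoidHom.prodMap σ₁ σ₂, ⟨?_, ?_, ?_⟩, ?_⟩
    · exact Prod.map_surjective.2 ⟨hσ₁.1, hσ₂.1⟩
    · rintro ⟨x, y⟩ hxy
      rw [MonoidHom.ker_prodMap] at hxy
      have hx := Subgroup.mem_center_iff.1 (hσ₁.2.1 hxy.1)
      have hy := Subgroup.mem_center_iff.1 (hσ₂.2.1 hxy.2)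
      rw [Subgroup.mem_center_iff]
      rintro ⟨a, b⟩
      exact Prod.ext (hx a) (hy b)
    · rintro ⟨x, y⟩ hxy
      rw [MonoidHom.ker_prodMap] at hxy
      have hx : x ∈ commutator Γ₁ := hσ₁.2.2 hxy.1
      have hy : y ∈ commutator Γ₂ := hσ₂.2.2 hxy.2
      have h1 : MonoidHom.inl Γ₁ Γ₂ x ∈ (commutator Γ₁).map (MonoidHom.inl Γ₁ Γ₂) :=
        Subgroup.mem_map_of_mem _ hx
      have h2 : MonoidHom.inr Γ₁ Γ₂ y ∈ (commutator Γ₂).map (MonoidHom.inr Γ₁ Γ₂) :=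
        Subgroup.mem_map_of_mem _ hy
      rw [commutator_def, Subgroup.map_commutator] at h1 h2
      have h3 : (x, y) = MonoidHom.inl Γ₁ Γ₂ x * MonoidHom.inr Γ₁ Γ₂ y := by simp
      rw [h3, commutator_def]
      exact mul_mem (Subgroup.commutator_mono le_top le_top h1) (Subgroup.commutator_mono le_top le_top h2)
    · exact ⟨((MulEquiv.subgroupCongr (MonoidHom.ker_prodMap σ₁ σ₂)).trans
        (Subgroup.prodEquiv _ _)).trans (MulEquiv.prodCongr e₁ e₂)⟩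
  · intro X _ _ ξ hξ
    obtain ⟨π, hπ⟩ := part2 hcop X ξ hξ
    obtain ⟨eA⟩ := equiv_M hA
    obtain ⟨eB⟩ := equiv_M hB
    exact ⟨π.comp (MulEquiv.prodCongr eA eB).toMonoidHom, hπ.comp (MulEquiv.prodCongr eA eB).surjective⟩

end Cfsg.Agent.S3980
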