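import Cfsg.Statements.S3994

import Cfsg.Agent.Lib.Helper7_Frobenius
set_option autoImplicit false
open Cfsg

namespace Cfsg.Agent.S3994

open Cfsg.Agent.Lib.Helper7_Frobenius Cfsg.Agent.Lib.Helper7_Class Finset

theorem coprime_part {g n : ℕ} (hg : 0 < g) :
    Nat.Coprime (g / Nat.gcd g (n ^ g)) n := by
  set a := Nat.gcd g (n ^ g) with ha
  have hag : a ∣ g := Nat.gcd_dvd_left _ _
  obtain ⟨k, hk⟩ := hag
  have hapos : 0 < a := Nat.pos_of_ne_zero (by rintro h; rw [h] at hk; omega)
  have hdiv : g / a = k := by rw [hk]; exact Nat.mul_div_cancel_left _ hapos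
  rw [hdiv]
  apply Nat.Coprime.symm
  rw [Nat.coprime_iff_gcd_eq_one]
  by_contra hne
  obtain ⟨q, hq, hqd⟩ := Nat.exists_prime_and_dvd hne
  have hqn : q ∣ n := hqd.trans (Nat.gcd_dvd_left _ _)
  have hqk : q ∣ k := hqd.trans (Nat.gcd_dvd_right _ _)
  obtain ⟨v, g', hg', hgv⟩ := Nat.exists_eq_pow_mul_and_not_dvd hg.ne' q hq.ne_one
  have hg'pos : 0 < g' := Nat.pos_of_ne_zero (by rintro rfl; simp at hg')
  have hvg : v < g := by
    calc v < q ^ v := Nat.lt_pow_self hq.one_lt
      _ ≤ q ^ v * g' := Nat.le_mul_of_pos_right _ hg'pos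
      _ = g := hgv.symm
  have h1 : q ^ v ∣ a := by
    apply Nat.dvd_gcd
    · exact ⟨g', hgv⟩
    · exact (pow_dvd_pow q hvg.le).trans (pow_dvd_pow_of_dvd hqn g)
  obtain ⟨a', ha'⟩ := h1
  have h2 : q ^ v * (a' * k) = q ^ v * g' := by
    rw [← hgv, hk, ha', mul_assoc]
  have h3 : a' * k = g' := Nat.eq_of_mul_eq_mul_left (pow_pos hq.pos v) h2
  exact hg' (h3 ▸ hqk.mul_left a')

/-- Let G be a finite group and n a positive integer. The number of elements of G whose order is divisible by n is either 0 or divisible by the largest divisor of the order of G that is coprime to n. -/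
theorem result {G : Type*} [Group G] [Finite G] (n : ℕ) (hn : 0 < n) :
    Nat.card {g : G // n ∣ orderOf g} = 0 ∨
      (Nat.card G / Nat.gcd (Nat.card G) (n ^ Nat.card G)) ∣ Nat.card {g : G // n ∣ orderOf g} := by
  right
  classical
  haveI := Fintype.ofFinite G
  set g := Nat.card G with hgdef
  have hg : 0 < g := Nat.card_pos
  set a := Nat.gcd g (n ^ g) with ha
  set k := g / a with hk
  have hkn : Nat.Coprime k n := coprime_part hg
  have hak : a * k = g := Nat.mul_div_cancel' (Nat.gcd_dvd_left _ _)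
  have hcop : Nat.Coprime a k :=
    Nat.Coprime.coprime_dvd_left (Nat.gcd_dvd_right g (n ^ g)) (Nat.Coprime.pow_left g hkn.symm)
  obtain ⟨α, hα1, hα0⟩ := Nat.chineseRemainder hcop 1 0
  have hkα : k ∣ α := (Nat.modEq_zero_iff_dvd).1 hα0
  have key : ∀ x : G, n ∣ orderOf x ↔ n ∣ orderOf (x ^ α) := by
    intro x
    constructor
    · intro h
      set m := orderOf (x ^ α) with hm
      have h1 : x ^ (k * α) = x ^ (k * 1) := by
        rw [pow_eq_pow_iff_modEq]
        have h2 : k * α ≡ k * 1 [MOD k * a] := Nat.ModEq.mul_left' k hα1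
        rw [mul_comm k a, hak] at h2
        exact h2.of_dvd (orderOf_dvd_natCard x)
      have h3 : x ^ (k * m) = 1 := by
        rw [mul_comm, pow_mul', ← mul_one k, ← h1, mul_comm k α, pow_mul, ← pow_mul, mul_comm k m,
          pow_mul, hm, pow_orderOf_eq_one, one_pow]
      have h4 : n ∣ k * m := h.trans (orderOf_dvd_of_pow_eq_one h3)
      exact hkn.symm.dvd_of_dvd_mul_left h4
    · intro h
      exact h.trans (orderOf_pow_dvd α)
  have hcount : Nat.card {x : G // n ∣ orderOf x} =
      ∑ y ∈ univ.filter (fun y : G => n ∣ orderOf y), R α y := by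
    rw [Nat.card_eq_fintype_card, Fintype.card_subtype,
      Finset.card_eq_sum_card_fiberwise (f := fun x : G => x ^ α)
      (t := univ.filter (fun y : G => n ∣ orderOf y))
      (fun x hx => by simpa using (key x).1 (by simpa using hx))]
    refine Finset.sum_congr rfl (fun y hy => ?_)
    rw [R_eq_card]
    congr 1
    ext x
    simp only [mem_filter, mem_univ, true_and] at hy ⊢
    constructor
    · exact fun h => h.2
    · intro h
      exact ⟨(key x).2 (h ▸ hy), h⟩
  rw [hcount]
  apply dvd_sum_of_class (R α) (fun c y => R_conj α c y)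
  · intro c y hy
    simp only [mem_filter, mem_univ, true_and] at hy ⊢
    rwa [orderOf_conj]
  · intro y _
    have h1 : Nat.gcd k (Nat.card (Subgroup.centralizer ({y} : Set G))) ∣ R α y :=
      (Nat.gcd_dvd_gcd_of_dvd_left _ hkα).trans (gcd_dvd_R α y)
    have h2 := gcd_dvd_index_mul (i := (Subgroup.centralizer ({y} : Set G)).index) h1
    rw [mul_comm (Subgroup.index _), Subgroup.card_mul_index, ← hgdef,
      Nat.gcd_eq_left (Dvd.intro_left a hak)] at h2
    exact h2

end Cfsg.Agent.S3994
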