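import Cfsg.Statements.S4005
import Cfsg.Agent.Lib.Helper4_Cop
import Cfsg.Agent.Lib.CharBurnside
import Cfsg.Agent.Lib.Helper1_MinNormal
import Cfsg.Agent.Lib.Helper1_FpfAct

set_option autoImplicit false
open Cfsg

namespace Cfsg.Agent.S4005

open Cfsg.Agent.Lib.Helper4_Cop

theorem modN {G : Type*} [Group G] (N : Subgroup G) [N.Normal] {t c : G} (hc : c ∈ N)
    (h2 : t ^ 2 = 1) (h3 : (t * c) ^ 3 = 1) : t ∈ N := by
  rw [← QuotientGroup.eq_one_iff]
  have a : ((t : G) : G ⧸ N) ^ 2 = 1 := by rw [← QuotientGroup.mk_pow, h2]; rfl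
  have e : ((t * c : G) : G ⧸ N) = (t : G ⧸ N) := by
    rw [QuotientGroup.mk_mul, (QuotientGroup.eq_one_iff c).2 hc, mul_one]
  have b : ((t : G) : G ⧸ N) ^ 3 = 1 := by rw [← e, ← QuotientGroup.mk_pow, h3]; rfl
  exact eq_one_of_coprime_pow a b (by norm_num)

theorem case3 {G : Type*} [Group G] [Finite G] (h23 : ∀ g : G, g ^ 2 = 1 ∨ g ^ 3 = 1)
    (no6 : ∀ x y : G, x ^ 2 = 1 → y ^ 3 = 1 → Commute x y → x = 1 ∨ y = 1)
    (t : G) (ht2 : t ^ 2 = 1) (ht1 : t ≠ 1)
    (A : Subgroup G) [hAn : A.Normal] (hAc : IsMulCommutative A) (hA3 : ∀ a ∈ A, a ^ 3 = 1)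
    (a₀ : G) (ha₀ : a₀ ∈ A) (ha₀1 : a₀ ≠ 1) :
    ∃ N : Subgroup G, N.Normal ∧ Cfsg.IsElementaryAbelian 3 N ∧ N.index = 2 := by
  have hcomm : ∀ x ∈ A, ∀ y ∈ A, x * y = y * x := by
    intro x hx y hy
    have := hAc.is_comm.comm ⟨x, hx⟩ ⟨y, hy⟩
    exact congrArg Subtype.val this
  set C := Subgroup.centralizer (A : Set G) with hC
  haveI hCn : C.Normal := Subgroup.normal_centralizer
  have hC3 : ∀ c ∈ C, c ^ 3 = 1 := by
    intro c hc
    rcases h23 c with h | h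
    · have hcm : Commute c a₀ := (Subgroup.mem_centralizer_iff.1 hc a₀ ha₀).symm
      rcases no6 c a₀ h (hA3 a₀ ha₀) hcm with h1 | h1
      · rw [h1, one_pow]
      · exact absurd h1 ha₀1
    · exact h
  have htC : t ∉ C := fun h => ht1 (eq_one_of_coprime_pow ht2 (hC3 t h) (by norm_num))
  have hinv : ∀ s : G, s ^ 2 = 1 → s ≠ 1 → ∀ a ∈ A, s * a * s⁻¹ = a⁻¹ := by
    intro s hs2 hs1 a ha
    have hsa : s * a * s⁻¹ ∈ A := hAn.conj_mem a ha s
    have hss : s * s = 1 := by rw [← sq]; exact hs2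
    have hsi : s⁻¹ = s := inv_eq_of_mul_eq_one_left hss
    have hw : Commute s (a * (s * a * s⁻¹)) := by
      show s * (a * (s * a * s⁻¹)) = a * (s * a * s⁻¹) * s
      calc s * (a * (s * a * s⁻¹)) = (s * a * s⁻¹) * a * s := by
            rw [hsi]; simp only [mul_assoc]
        _ = a * (s * a * s⁻¹) * s := by rw [hcomm _ hsa a ha]
    rcases no6 s _ hs2 (hA3 _ (A.mul_mem ha hsa)) hw with h1 | h1
    · exact absurd h1 hs1
    · exact eq_inv_of_mul_eq_one_right h1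
  have hprod : ∀ s u : G, s ^ 2 = 1 → s ≠ 1 → u ^ 2 = 1 → u ≠ 1 → s * u ∈ C := by
    intro s u hs2 hs1 hu2 hu1
    rw [hC, Subgroup.mem_centralizer_iff]
    intro a ha
    have h1 := hinv u hu2 hu1 a ha
    have h2 := hinv s hs2 hs1 a⁻¹ (A.inv_mem ha)
    rw [inv_inv] at h2
    calc a * (s * u) = (s * a⁻¹ * s⁻¹) * (s * u) := by rw [h2]
      _ = s * (u * a * u⁻¹) * u := by rw [h1]; group
      _ = s * u * a := by group
  have hinvC : ∀ c ∈ C, t * c * t⁻¹ = c⁻¹ := by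
    intro c hc
    rcases h23 (t * c) with h | h
    · have htt : t * t = 1 := by rw [← sq]; exact ht2
      have hti : t⁻¹ = t := inv_eq_of_mul_eq_one_left htt
      rw [hti]
      rw [sq] at h
      exact eq_inv_of_mul_eq_one_left (by simpa [mul_assoc] using h)
    · exact absurd (modN C hc ht2 h) htC
  have hCc : ∀ x ∈ C, ∀ y ∈ C, x * y = y * x := by
    intro x hx y hy
    have h1 := hinvC (x * y) (C.mul_mem hx hy)
    have h2 : t * (x * y) * t⁻¹ = (t * x * t⁻¹) * (t * y * t⁻¹) := by group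
    rw [h2, hinvC x hx, hinvC y hy, ← mul_inv_rev] at h1
    exact (inv_injective h1).symm
  refine ⟨C, hCn, ⟨⟨⟨fun x y => Subtype.ext (hCc x x.2 y y.2)⟩⟩, hC3⟩, ?_⟩
  rw [Subgroup.index_eq_two_iff]
  refine ⟨t, fun b => ?_⟩
  by_cases hb : b ∈ C
  · exact Or.inr ⟨hb, fun h => htC (by have := C.mul_mem (C.inv_mem hb) h; simpa using this)⟩
  · refine Or.inl ⟨?_, hb⟩
    have hb1 : b ≠ 1 := fun h => hb (h ▸ C.one_mem)
    rcases h23 b with hb2 | hb3
    · exact hprod b t hb2 hb1 ht2 ht1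
    · exfalso
      have hs2 : (b * t * b⁻¹) ^ 2 = 1 := by rw [conj_pow, ht2]; group
      have hs1 : b * t * b⁻¹ ≠ 1 := fun h => ht1 (conj_eq_one_iff.1 h)
      have hs := hprod _ _ hs2 hs1 ht2 ht1
      have e1 : ((b : G) : G ⧸ C) * (t : G ⧸ C) * ((b : G) : G ⧸ C)⁻¹ * (t : G ⧸ C) = 1 := by
        rw [← QuotientGroup.mk_inv, ← QuotientGroup.mk_mul, ← QuotientGroup.mk_mul,
          ← QuotientGroup.mk_mul]
        exact (QuotientGroup.eq_one_iff _).2 hs
      have τ2 : ((t : G) : G ⧸ C) ^ 2 = 1 := by rw [← QuotientGroup.mk_pow, ht2]; rfl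
      have β3 : ((b : G) : G ⧸ C) ^ 3 = 1 := by rw [← QuotientGroup.mk_pow, hb3]; rfl
      have hcm : Commute ((b : G) : G ⧸ C) (t : G ⧸ C) := by
        have h2 : (t : G ⧸ C) * (t : G ⧸ C) = 1 := by rw [← sq]; exact τ2
        have h1 : ((b : G) : G ⧸ C) * (t : G ⧸ C) * ((b : G) : G ⧸ C)⁻¹ = (t : G ⧸ C) :=
          mul_right_cancel (e1.trans h2.symm)
        exact mul_inv_eq_iff_eq_mul.1 h1
      rcases h23 (b * t) with h | h
      · have h3 : (((b : G) : G ⧸ C) * (t : G ⧸ C)) ^ 2 = 1 := by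
          rw [← QuotientGroup.mk_mul, ← QuotientGroup.mk_pow, h]; rfl
        rw [hcm.mul_pow, τ2, mul_one] at h3
        exact hb ((QuotientGroup.eq_one_iff b).1 (eq_one_of_coprime_pow h3 β3 (by norm_num)))
      · have h3 : (((b : G) : G ⧸ C) * (t : G ⧸ C)) ^ 3 = 1 := by
          rw [← QuotientGroup.mk_mul, ← QuotientGroup.mk_pow, h]; rfl
        rw [hcm.mul_pow, β3, one_mul] at h3
        exact htC ((QuotientGroup.eq_one_iff t).1 (eq_one_of_coprime_pow τ2 h3 (by norm_num)))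

theorem case2 {G : Type*} [Group G] [Finite G] (h23 : ∀ g : G, g ^ 2 = 1 ∨ g ^ 3 = 1)
    (no6 : ∀ x y : G, x ^ 2 = 1 → y ^ 3 = 1 → Commute x y → x = 1 ∨ y = 1)
    (y : G) (hy : orderOf y = 3)
    (A : Subgroup G) [hAn : A.Normal] (hAc : IsMulCommutative A) (hA2 : ∀ a ∈ A, a ^ 2 = 1)
    (a₀ : G) (ha₀ : a₀ ∈ A) (ha₀1 : a₀ ≠ 1) :
    ∃ N : Subgroup G, N.Normal ∧ Cfsg.IsElementaryAbelian 2 N ∧ N.index = 3 := by
  haveI : Fact (Nat.Prime 3) := ⟨Nat.prime_three⟩
  have hcomm : ∀ x ∈ A, ∀ y ∈ A, x * y = y * x := by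
    intro x hx y hy
    have := hAc.is_comm.comm ⟨x, hx⟩ ⟨y, hy⟩
    exact congrArg Subtype.val this
  set C := Subgroup.centralizer (A : Set G) with hC
  haveI hCn : C.Normal := Subgroup.normal_centralizer
  have hC2 : ∀ c ∈ C, c ^ 2 = 1 := by
    intro c hc
    rcases h23 c with h | h
    · exact h
    · have hcm : Commute a₀ c := Subgroup.mem_centralizer_iff.1 hc a₀ ha₀
      rcases no6 a₀ c (hA2 a₀ ha₀) h hcm with h1 | h1
      · exact absurd h1 ha₀1
      · rw [h1, one_pow]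
  have hinC : ∀ s : G, s ^ 2 = 1 → s ∈ C := by
    intro s hs2
    rw [hC, Subgroup.mem_centralizer_iff]
    intro a ha
    rcases h23 (s * a) with h | h
    · have hss : s * s = 1 := by rw [← sq]; exact hs2
      have haa : a * a = 1 := by rw [← sq]; exact hA2 a ha
      rw [sq] at h
      calc a * s = (s * s) * (a * s) * (a * a) := by rw [hss, haa, one_mul, mul_one]
        _ = s * (s * a * (s * a)) * a := by group
        _ = s * a := by rw [h, mul_one]
    · exact hcomm a ha s (modN A ha hs2 h)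
  have hCc : ∀ x ∈ C, ∀ z ∈ C, x * z = z * x := by
    intro x hx z hz
    have hxx : x * x = 1 := by rw [← sq]; exact hC2 x hx
    have hzz : z * z = 1 := by rw [← sq]; exact hC2 z hz
    have hxz : x * z * (x * z) = 1 := by rw [← sq]; exact hC2 _ (C.mul_mem hx hz)
    symm
    calc z * x = (x * x) * (z * x) * (z * z) := by rw [hxx, hzz, one_mul, mul_one]
      _ = x * (x * z * (x * z)) * z := by group
      _ = x * z := by rw [hxz, mul_one]
  let P3 : Sylow 3 G := default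
  letI : CommGroup ↥C :=
    { (inferInstance : Group ↥C) with mul_comm := fun x z => Subtype.ext (hCc x x.2 z z.2) }
  haveI : Nontrivial ↥C :=
    ⟨⟨⟨a₀, hinC a₀ (hA2 a₀ ha₀)⟩, 1, fun h => ha₀1 (congrArg Subtype.val h)⟩⟩
  let φ : ↥(P3 : Subgroup G) →* MulAut ↥C :=
    (MulAut.conjNormal (H := C)).comp (P3 : Subgroup G).subtype
  have hfpf : ∀ l : ↥(P3 : Subgroup G), l ≠ 1 → ∀ w : ↥C, φ l w = w → w = 1 := by
    intro l hl w hw
    have hl3 : (l : G) ^ 3 = 1 := by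
      rcases h23 (l : G) with h | h
      · exfalso
        obtain ⟨k, hk⟩ := P3.2 l
        have hk' : (l : G) ^ (3 ^ k) = 1 := by exact_mod_cast congrArg Subtype.val hk
        exact hl (Subtype.ext (eq_one_of_coprime_pow h hk'
          (Nat.Coprime.pow_right k (by norm_num))))
      · exact h
    have hcm : Commute (w : G) (l : G) := by
      have h1 : (l : G) * w * (l : G)⁻¹ = w := by
        have := congrArg Subtype.val hw
        simpa [φ, MulAut.conjNormal_apply] using this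
      exact (mul_inv_eq_iff_eq_mul.1 h1).symm
    rcases no6 w l (hC2 w w.2) hl3 hcm with h1 | h1
    · exact Subtype.ext h1
    · exact absurd (Subtype.ext h1) hl
  have hcyc := Cfsg.Agent.Lib.Helper1_FpfAct.pgroup_of_fpf φ hfpf (p := 3)
    (⊤ : Subgroup ↥(P3 : Subgroup G)) (P3.2.to_subgroup ⊤)
  have hle3 : ∀ x : G, orderOf x ≤ 3 := by
    intro x
    rcases h23 x with h | h
    · exact (orderOf_le_of_pow_eq_one (by norm_num) h).trans (by norm_num)
    · exact orderOf_le_of_pow_eq_one (by norm_num) h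
  have hP3 : Nat.card ↥(P3 : Subgroup G) = 3 := by
    rcases hcyc with hcyc | ⟨h, _⟩
    · obtain ⟨g, hg⟩ := IsCyclic.exists_ofOrder_eq_natCard
        (α := ↥(⊤ : Subgroup ↥(P3 : Subgroup G)))
      have h1 : Nat.card ↥(P3 : Subgroup G) ≤ 3 := by
        rw [← Subgroup.card_top (G := ↥(P3 : Subgroup G)), ← hg, ← Subgroup.orderOf_coe,
          ← Subgroup.orderOf_coe]
        exact hle3 _
      have h2 : 3 ∣ Nat.card ↥(P3 : Subgroup G) :=
        P3.dvd_card_of_dvd_card (hy ▸ orderOf_dvd_natCard y)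
      exact le_antisymm h1 (Nat.le_of_dvd Nat.card_pos h2)
    · exact absurd h (by norm_num)
  have hQ : IsPGroup 3 (G ⧸ C) := by
    intro q
    obtain ⟨g, rfl⟩ := QuotientGroup.mk_surjective q
    refine ⟨1, ?_⟩
    rw [pow_one]
    rcases h23 g with h | h
    · rw [(QuotientGroup.eq_one_iff g).2 (hinC g h), one_pow]
    · rw [← QuotientGroup.mk_pow, h]; rfl
  have hCp : IsPGroup 2 ↥C := fun c => ⟨1, by
    rw [pow_one]; exact Subtype.ext (by simpa using hC2 c c.2)⟩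
  obtain ⟨j, hj⟩ := IsPGroup.iff_card.1 hQ
  obtain ⟨k, hk⟩ := IsPGroup.iff_card.1 hCp
  have hidx : C.index = 3 ^ j := hj
  have e1 := C.card_mul_index
  have e2 := (P3 : Subgroup G).card_mul_index
  have hnd := P3.not_dvd_index
  rw [hk, hidx] at e1
  rw [hP3] at e2
  refine ⟨C, hCn, ⟨⟨⟨fun x z => Subtype.ext (hCc x x.2 z z.2)⟩⟩, hC2⟩, ?_⟩
  rw [hidx]
  rcases j with _ | _ | j
  · exfalso
    have h1 : 3 ∣ 2 ^ k := ⟨_, by simpa using e1.trans e2.symm⟩
    have h2 := Nat.Prime.dvd_of_dvd_pow Nat.prime_three h1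
    omega
  · norm_num
  · exfalso
    apply hnd
    have h1 : 3 * (2 ^ k * 3 ^ (j + 1)) = 3 * (P3 : Subgroup G).index := by
      rw [e2, ← e1]; ring
    have h2 := Nat.eq_of_mul_eq_mul_left (by norm_num) h1
    exact ⟨2 ^ k * 3 ^ j, by rw [← h2]; ring⟩

/-- A finite group whose set of element orders is exactly {1, 2, 3} has either a normal elementary abelian 3-subgroup of index 2 or a normal elementary abelian 2-subgroup of index 3. -/
theorem result {G : Type*} [Group G] [Finite G] (h : Set.range (orderOf : G → ℕ) = {k : ℕ | 1 ≤ k ∧ k ≤ 3}) :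
    (∃ N : Subgroup G, N.Normal ∧ Cfsg.IsElementaryAbelian 3 N ∧ N.index = 2) ∨
      (∃ N : Subgroup G, N.Normal ∧ Cfsg.IsElementaryAbelian 2 N ∧ N.index = 3) := by
  have hord : ∀ g : G, 1 ≤ orderOf g ∧ orderOf g ≤ 3 := by
    intro g
    have h1 : orderOf g ∈ Set.range (orderOf : G → ℕ) := Set.mem_range_self g
    rw [h] at h1
    exact h1
  have h23 : ∀ g : G, g ^ 2 = 1 ∨ g ^ 3 = 1 := by
    intro g
    obtain ⟨h1, h2⟩ := hord g
    have hp := pow_orderOf_eq_one g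
    rcases (by omega : orderOf g = 1 ∨ orderOf g = 2 ∨ orderOf g = 3) with ho | ho | ho
    · rw [ho, pow_one] at hp
      left; rw [hp, one_pow]
    · rw [ho] at hp; exact Or.inl hp
    · rw [ho] at hp; exact Or.inr hp
  have no6 : ∀ x y : G, x ^ 2 = 1 → y ^ 3 = 1 → Commute x y → x = 1 ∨ y = 1 := by
    intro x y hx hy hc
    by_contra hcon
    push_neg at hcon
    have ox : orderOf x = 2 := orderOf_eq_prime hx hcon.1
    have oy : orderOf y = 3 := orderOf_eq_prime hy hcon.2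
    have h1 := hc.orderOf_mul_eq_mul_orderOf_of_coprime (by rw [ox, oy]; norm_num)
    rw [ox, oy] at h1
    have h2 := (hord (x * y)).2
    omega
  obtain ⟨t, ht⟩ : (2 : ℕ) ∈ Set.range (orderOf : G → ℕ) := by
    rw [h]; exact ⟨by norm_num, by norm_num⟩
  obtain ⟨y, hy⟩ : (3 : ℕ) ∈ Set.range (orderOf : G → ℕ) := by
    rw [h]; exact ⟨by norm_num, by norm_num⟩
  have ht2 : t ^ 2 = 1 := ht ▸ pow_orderOf_eq_one t
  have ht1 : t ≠ 1 := by
    intro h1
    rw [h1, orderOf_one] at ht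
    omega
  have hprimes : ∀ q : ℕ, q.Prime → q ∣ Nat.card G → q = 2 ∨ q = 3 := by
    intro q hq hd
    haveI := Fact.mk hq
    obtain ⟨g, hg⟩ := exists_prime_orderOf_dvd_card' q hd
    have h1 := hord g
    have h2 := hq.two_le
    omega
  obtain ⟨a, m, hm, e1⟩ := Nat.exists_eq_pow_mul_and_not_dvd (Nat.card_pos (α := G)).ne' 2
    (by norm_num)
  obtain ⟨b, m', hm', e2⟩ := Nat.exists_eq_pow_mul_and_not_dvd (n := m)
    (by rintro rfl; simp at hm) 3 (by norm_num)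
  have hm1 : m' = 1 := by
    by_contra hne
    obtain ⟨q, hq, hqd⟩ := Nat.exists_prime_and_dvd hne
    have hqG : q ∣ Nat.card G := by
      rw [e1, e2]; exact Dvd.dvd.mul_left (Dvd.dvd.mul_left hqd _) _
    rcases hprimes q hq hqG with rfl | rfl
    · exact hm (by rw [e2]; exact Dvd.dvd.mul_left hqd _)
    · exact hm' hqd
  haveI : Group.IsSolvable G := Cfsg.Agent.Lib.CharBurnside.burnside 2 3 a b Nat.prime_two
    Nat.prime_three (by rw [e1, e2, hm1, mul_one])
  haveI : Nontrivial G := ⟨⟨t, 1, ht1⟩⟩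
  obtain ⟨p, M, hp, hMn, hM, hMc, hMp, -⟩ :=
    Cfsg.Agent.Lib.Helper1_MinNormal.exists_normal_elementary_abelian (G := G)
  obtain ⟨a₀, ha₀, ha₀1⟩ : ∃ a ∈ M, a ≠ 1 := by
    by_contra hcon
    push_neg at hcon
    exact hM ((Subgroup.eq_bot_iff_forall M).2 hcon)
  haveI := Fact.mk hp
  have hop : orderOf a₀ = p := orderOf_eq_prime (hMp a₀ ha₀) ha₀1
  have hp23 : p = 2 ∨ p = 3 := by
    have h1 := hord a₀
    have h2 := hp.two_le
    omega
  rcases hp23 with rfl | rfl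
  · right; exact case2 h23 no6 y hy M hMc hMp a₀ ha₀ ha₀1
  · left; exact case3 h23 no6 t ht2 ht1 M hMc hMp a₀ ha₀ ha₀1

end Cfsg.Agent.S4005
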