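import Cfsg.Statements.S4200
import Mathlib

set_option autoImplicit false
open Cfsg

namespace Cfsg.Agent.S4200

open Classical in
/-- a chosen element of the coset `c` commuting with `a` (if any). -/
noncomputable def y0 {X : Type*} [Group X] (N : Subgroup X) (a : X) (c : X ⧸ N) : X :=
  if h : ∃ y : X, (y : X ⧸ N) = c ∧ Commute a y then h.choose else 1

theorem y0_spec {X : Type*} [Group X] (N : Subgroup X) (a y : X) (h : Commute a y) :
    ((y0 N a (y : X ⧸ N) : X) : X ⧸ N) = y ∧ Commute a (y0 N a (y : X ⧸ N)) := by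
  have h' : ∃ z : X, (z : X ⧸ N) = (y : X ⧸ N) ∧ Commute a z := ⟨y, rfl, h⟩
  unfold y0
  rw [dif_pos h']
  exact h'.choose_spec

theorem key {X : Type*} [Group X] (N : Subgroup X) (a y : X) (h : Commute a y) :
    (y0 N a (y : X ⧸ N))⁻¹ * y ∈ N ∧ Commute a ((y0 N a (y : X ⧸ N))⁻¹ * y) := by
  obtain ⟨h1, h2⟩ := y0_spec N a y h
  exact ⟨QuotientGroup.eq.mp h1, h2.inv_right.mul_right h⟩

/-- the injection of commuting pairs. -/
noncomputable def f {X : Type*} [Group X] (N : Subgroup X)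
    (p : {p : X × X // Commute p.1 p.2}) :
    ((X ⧸ N) × (X ⧸ N)) × {r : N × N // Commute r.1 r.2} :=
  (((p.1.1 : X ⧸ N), (p.1.2 : X ⧸ N)),
   ⟨(⟨(y0 N ((y0 N p.1.1 (p.1.2 : X ⧸ N))⁻¹ * p.1.2) (p.1.1 : X ⧸ N))⁻¹ * p.1.1,
        (key N _ _ (key N _ _ p.2).2.symm).1⟩,
     ⟨(y0 N p.1.1 (p.1.2 : X ⧸ N))⁻¹ * p.1.2, (key N _ _ p.2).1⟩), by
      show _ * _ = _ * _
      apply Subtype.ext
      exact ((key N _ _ (key N _ _ p.2).2.symm).2).symm.eq⟩)

theorem f_inj {X : Type*} [Group X] (N : Subgroup X) : Function.Injective (f N) := by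
  rintro ⟨⟨x, y⟩, hxy⟩ ⟨⟨x', y'⟩, hxy'⟩ h
  simp only [f, Prod.mk.injEq, Subtype.mk.injEq] at h
  obtain ⟨⟨h1, h2⟩, h3, h4⟩ := h
  rw [h4, h1] at h3
  have hx : x = x' := mul_left_cancel h3
  subst hx
  rw [h2] at h4
  have hy : y = y' := mul_left_cancel h4
  subst hy
  rfl

theorem f_not_surj {X : Type*} [Group X] (N : Subgroup X) (hN : ¬ N.Normal) :
    ∃ b, b ∉ Set.range (f N) := by
  have h1 : ∃ y ∈ N, ∃ g : X, g * y * g⁻¹ ∉ N := by
    by_contra hcon
    push Not at hcon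
    exact hN ⟨fun n hn g => hcon n hn g⟩
  obtain ⟨y, hy, g, hg⟩ := h1
  refine ⟨((((g⁻¹ : X) : X ⧸ N), ((1 : X) : X ⧸ N)), ⟨((1 : N), (⟨y, hy⟩ : N)), Commute.one_left _⟩), ?_⟩
  rintro ⟨⟨⟨x, y'⟩, hxy⟩, h⟩
  simp only [f, Prod.mk.injEq, Subtype.mk.injEq] at h
  obtain ⟨⟨h1, h2⟩, h3, h4⟩ := h
  have hc : Commute x y := by
    have := (key N x y' hxy).2
    rwa [h4] at this
  have hw : x⁻¹ * g⁻¹ ∈ N := QuotientGroup.eq.mp h1
  apply hg
  have h5 : g * y * g⁻¹ = (x⁻¹ * g⁻¹)⁻¹ * y * (x⁻¹ * g⁻¹) := by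
    have h6 : x * y * x⁻¹ = y := by rw [hc.eq]; group
    calc g * y * g⁻¹ = g * (x * y * x⁻¹) * g⁻¹ := by rw [h6]
      _ = _ := by group
  rw [h5]
  exact N.mul_mem (N.mul_mem (N.inv_mem hw) hy) hw


/-- Let Y be a subgroup of the finite group X, of index m. Then the numbers of conjugacy classes satisfy k(Y) ≤ m·k(X) and k(X) ≤ m·k(Y), and the second inequality is strict unless Y is normal in X. -/
theorem result {X : Type*} [Group X] [Finite X] (Y : Subgroup X) : Nat.card (ConjClasses Y) ≤ Y.index * Nat.card (ConjClasses X) ∧ Nat.card (ConjClasses X) ≤ Y.index * Nat.card (ConjClasses Y) ∧ (¬ Y.Normal → Nat.card (ConjClasses X) < Y.index * Nat.card (ConjClasses Y)) := by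
  have hX : Y.index * Nat.card Y = Nat.card X := Y.index_mul_card
  have hpos : 0 < Y.index * Nat.card Y := by rw [hX]; exact Nat.card_pos
  have hY : 0 < Nat.card Y := Nat.card_pos
  refine ⟨?_, ?_, ?_⟩
  · have h1 : Nat.card {r : Y × Y // Commute r.1 r.2} ≤ Nat.card {p : X × X // Commute p.1 p.2} := by
      refine Nat.card_le_card_of_injective
        (fun r => ⟨((r.1.1 : X), (r.1.2 : X)), by
          have := r.2
          show (r.1.1 : X) * (r.1.2 : X) = (r.1.2 : X) * (r.1.1 : X)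
          exact congrArg Subtype.val this.eq⟩) ?_
      rintro ⟨⟨a, b⟩, hab⟩ ⟨⟨a', b'⟩, hab'⟩ h
      simp only [Subtype.mk.injEq, Prod.mk.injEq] at h
      obtain ⟨h1, h2⟩ := h
      have e1 : a = a' := Subtype.ext h1
      have e2 : b = b' := Subtype.ext h2
      subst e1
      subst e2
      rfl
    rw [card_comm_eq_card_conjClasses_mul_card, card_comm_eq_card_conjClasses_mul_card, ← hX] at h1
    refine Nat.le_of_mul_le_mul_right ?_ hY
    calc _ ≤ _ := h1
      _ = _ := by ring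
  · have h1 := Nat.card_le_card_of_injective (f Y) (f_inj Y)
    rw [Nat.card_prod, Nat.card_prod, card_comm_eq_card_conjClasses_mul_card,
      card_comm_eq_card_conjClasses_mul_card, ← Subgroup.index_eq_card, ← hX] at h1
    refine Nat.le_of_mul_le_mul_right ?_ hpos
    calc _ ≤ _ := h1
      _ = _ := by ring
  · intro hN
    obtain ⟨b, hb⟩ := f_not_surj Y hN
    have := Fintype.ofFinite {p : X × X // Commute p.1 p.2}
    have := Fintype.ofFinite (((X ⧸ Y) × (X ⧸ Y)) × {r : Y × Y // Commute r.1 r.2})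
    have h1 := Fintype.card_lt_of_injective_of_notMem (f Y) (f_inj Y) hb
    rw [← Nat.card_eq_fintype_card, ← Nat.card_eq_fintype_card] at h1
    rw [Nat.card_prod, Nat.card_prod, card_comm_eq_card_conjClasses_mul_card,
      card_comm_eq_card_conjClasses_mul_card, ← Subgroup.index_eq_card, ← hX] at h1
    refine Nat.lt_of_mul_lt_mul_right (a := Y.index * Nat.card Y) ?_
    calc _ < _ := h1
      _ = _ := by ring

end Cfsg.Agent.S4200
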