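import Cfsg.Statements.S4201
import Mathlib

set_option autoImplicit false
open Cfsg

namespace Cfsg.Agent.S4201

open Classical in
/-- a chosen element of the coset `c` commuting with `a` (if any). -/
noncomputable def y0 {X : Type*} [Group X] (N : Subgroup X) [N.Normal] (a : X) (c : X ⧸ N) : X :=
  if h : ∃ y : X, (y : X ⧸ N) = c ∧ Commute a y then h.choose else 1

theorem y0_spec {X : Type*} [Group X] (N : Subgroup X) [N.Normal] (a y : X) (h : Commute a y) :
    ((y0 N a (y : X ⧸ N) : X) : X ⧸ N) = y ∧ Commute a (y0 N a (y : X ⧸ N)) := by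
  have h' : ∃ z : X, (z : X ⧸ N) = (y : X ⧸ N) ∧ Commute a z := ⟨y, rfl, h⟩
  unfold y0
  rw [dif_pos h']
  exact h'.choose_spec

theorem key {X : Type*} [Group X] (N : Subgroup X) [N.Normal] (a y : X) (h : Commute a y) :
    (y0 N a (y : X ⧸ N))⁻¹ * y ∈ N ∧ Commute a ((y0 N a (y : X ⧸ N))⁻¹ * y) := by
  obtain ⟨h1, h2⟩ := y0_spec N a y h
  exact ⟨QuotientGroup.eq.mp h1, h2.inv_right.mul_right h⟩

/-- the injection of commuting pairs. -/
noncomputable def f {X : Type*} [Group X] (N : Subgroup X) [N.Normal]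
    (p : {p : X × X // Commute p.1 p.2}) :
    {q : (X ⧸ N) × (X ⧸ N) // Commute q.1 q.2} × {r : N × N // Commute r.1 r.2} :=
  (⟨((p.1.1 : X ⧸ N), (p.1.2 : X ⧸ N)), by
      have := p.2
      show (p.1.1 : X ⧸ N) * (p.1.2 : X ⧸ N) = (p.1.2 : X ⧸ N) * (p.1.1 : X ⧸ N)
      rw [← QuotientGroup.mk_mul, ← QuotientGroup.mk_mul, this.eq]⟩,
   ⟨(⟨(y0 N ((y0 N p.1.1 (p.1.2 : X ⧸ N))⁻¹ * p.1.2) (p.1.1 : X ⧸ N))⁻¹ * p.1.1,
        (key N _ _ (key N _ _ p.2).2.symm).1⟩,
     ⟨(y0 N p.1.1 (p.1.2 : X ⧸ N))⁻¹ * p.1.2, (key N _ _ p.2).1⟩), by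
      show _ * _ = _ * _
      apply Subtype.ext
      exact ((key N _ _ (key N _ _ p.2).2.symm).2).symm.eq⟩)

theorem f_inj {X : Type*} [Group X] (N : Subgroup X) [N.Normal] : Function.Injective (f N) := by
  rintro ⟨⟨x, y⟩, hxy⟩ ⟨⟨x', y'⟩, hxy'⟩ h
  simp only [f, Prod.mk.injEq, Subtype.mk.injEq] at h
  obtain ⟨⟨h1, h2⟩, h3, h4⟩ := h
  rw [h4, h1] at h3
  have hx : x = x' := mul_left_cancel h3
  subst hx
  rw [h2] at h4
  have hy : y = y' := mul_left_cancel h4
  subst hy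
  rfl


/-- If N is a normal subgroup of the finite group X then k(X) ≤ k(N)·k(X ⧸ N), where k denotes the number of conjugacy classes. -/
theorem result {X : Type*} [Group X] [Finite X] (N : Subgroup X) [N.Normal] : Nat.card (ConjClasses X) ≤ Nat.card (ConjClasses N) * Nat.card (ConjClasses (X ⧸ N)) := by
  have h1 := Nat.card_le_card_of_injective (f N) (f_inj N)
  rw [Nat.card_prod, card_comm_eq_card_conjClasses_mul_card, card_comm_eq_card_conjClasses_mul_card,
    card_comm_eq_card_conjClasses_mul_card, Subgroup.card_eq_card_quotient_mul_card_subgroup N] at h1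
  have hpos : 0 < Nat.card (X ⧸ N) * Nat.card N := Nat.mul_pos Nat.card_pos Nat.card_pos
  refine Nat.le_of_mul_le_mul_right ?_ hpos
  calc _ ≤ _ := h1
    _ = _ := by ring

end Cfsg.Agent.S4201
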