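import Cfsg.Statements.S4204

import Mathlib
import Cfsg.Agent.Lib.Helper7_Comm
set_option autoImplicit false
open Cfsg

namespace Cfsg.Agent.S4204

open Cfsg.Agent.Lib.Helper7_Comm

section aux
variable {G : Type*} [Group G]

theorem comm_le_iff (N : Subgroup G) [N.Normal] (X Y : Subgroup G) :
    ⁅X, Y⁆ ≤ N ↔ X ≤ (Subgroup.centralizer
      ((Y.map (QuotientGroup.mk' N) : Subgroup (G ⧸ N)) : Set (G ⧸ N))).comap
        (QuotientGroup.mk' N) := by
  rw [le_normal_iff_map_eq_bot, Subgroup.map_commutator,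
    Subgroup.commutator_eq_bot_iff_le_centralizer, Subgroup.map_le_iff_le_comap]

theorem comm_sup_right_le (N : Subgroup G) [N.Normal] (X H K : Subgroup G) (h1 : ⁅X, H⁆ ≤ N)
    (h2 : ⁅X, K⁆ ≤ N) : ⁅X, H ⊔ K⁆ ≤ N := by
  rw [Subgroup.commutator_comm] at h1 h2 ⊢
  rw [comm_le_iff] at h1 h2 ⊢
  exact sup_le h1 h2

theorem comm_iSup_left_le {ι : Sort*} (N : Subgroup G) [N.Normal] (X : ι → Subgroup G)
    (Y : Subgroup G) (h : ∀ i, ⁅X i, Y⁆ ≤ N) : ⁅⨆ i, X i, Y⁆ ≤ N := by
  rw [comm_le_iff]
  exact iSup_le (fun i => (comm_le_iff N _ _).1 (h i))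

theorem lcs_normal (H : Subgroup G) [hH : H.Normal] : ∀ i, (H.lowerCentralSeries i).Normal := by
  intro i
  induction i with
  | zero => exact hH
  | succ i ih =>
    rw [Subgroup.lowerCentralSeries_succ]
    haveI := ih
    infer_instance

/-- shifted lower central series with `⊤` in degree zero -/
def shiftLcs (H : Subgroup G) : ℕ → Subgroup G
  | 0 => ⊤
  | (i + 1) => H.lowerCentralSeries i

theorem shiftLcs_normal (H : Subgroup G) [H.Normal] : ∀ i, (shiftLcs H i).Normal
  | 0 => (inferInstance : (⊤ : Subgroup G).Normal)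
  | (i + 1) => lcs_normal H i

theorem comm_shiftLcs_self (H : Subgroup G) [H.Normal] (i : ℕ) :
    ⁅shiftLcs H i, H⁆ ≤ shiftLcs H (i + 1) := by
  cases i with
  | zero => exact Subgroup.commutator_le_right _ _
  | succ i => exact le_rfl

/-- the join of the `γ_a(H) ⊓ γ_b(K)` with `a + b = n` -/
def joinLcs (H K : Subgroup G) (n : ℕ) : Subgroup G :=
  ⨆ (ab : {ab : ℕ × ℕ // ab.1 + ab.2 = n}), shiftLcs H ab.1.1 ⊓ shiftLcs K ab.1.2

theorem joinLcs_normal (H K : Subgroup G) [H.Normal] [K.Normal] (n : ℕ) :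
    (joinLcs H K n).Normal := by
  unfold joinLcs
  haveI : ∀ ab : {ab : ℕ × ℕ // ab.1 + ab.2 = n},
      (shiftLcs H ab.1.1 ⊓ shiftLcs K ab.1.2).Normal := by
    intro ab
    haveI := shiftLcs_normal H ab.1.1
    haveI := shiftLcs_normal K ab.1.2
    infer_instance
  infer_instance

theorem le_joinLcs (H K : Subgroup G) {n : ℕ} (a b : ℕ) (hab : a + b = n) :
    shiftLcs H a ⊓ shiftLcs K b ≤ joinLcs H K n :=
  le_iSup (fun ab : {ab : ℕ × ℕ // ab.1 + ab.2 = n} => shiftLcs H ab.1.1 ⊓ shiftLcs K ab.1.2)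
    ⟨(a, b), hab⟩

theorem lcs_le_joinLcs (H K : Subgroup G) [H.Normal] [K.Normal] :
    ∀ n, (H ⊔ K).lowerCentralSeries n ≤ joinLcs H K (n + 1) := by
  intro n
  induction n with
  | zero =>
    rw [Subgroup.lowerCentralSeries_zero]
    refine sup_le ?_ ?_
    · exact le_trans (le_inf le_rfl le_top) (le_joinLcs H K 1 0 rfl)
    · exact le_trans (le_inf le_top le_rfl) (le_joinLcs H K 0 1 rfl)
  | succ n ih =>
    rw [Subgroup.lowerCentralSeries_succ]
    refine le_trans (Subgroup.commutator_mono ih le_rfl) ?_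
    haveI := joinLcs_normal H K (n + 1 + 1)
    apply comm_iSup_left_le
    rintro ⟨⟨a, b⟩, hab⟩
    simp only at hab ⊢
    haveI := shiftLcs_normal H a
    haveI := shiftLcs_normal K b
    apply comm_sup_right_le
    · refine le_trans (le_inf ?_ ?_) (le_joinLcs H K (a + 1) b (by omega))
      · exact (Subgroup.commutator_mono inf_le_left le_rfl).trans (comm_shiftLcs_self H a)
      · exact (Subgroup.commutator_mono inf_le_right le_rfl).trans
          (Subgroup.commutator_le_left _ _)
    · refine le_trans (le_inf ?_ ?_) (le_joinLcs H K a (b + 1) (by omega))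
      · exact (Subgroup.commutator_mono inf_le_left le_rfl).trans
          (Subgroup.commutator_le_left _ _)
      · exact (Subgroup.commutator_mono inf_le_right le_rfl).trans (comm_shiftLcs_self K b)

end aux

/-- If `H` and `K` are normal subgroups of a finite group with `H` nilpotent of class at most `c` and `K` nilpotent of class at most `d` (the terms with index `c`, respectively `d`, of their lower central series are trivial, indices starting at `0`), then `HK` is nilpotent of class at most `c + d`. -/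
theorem result {G : Type*} [Group G] [Finite G] (H K : Subgroup G) [H.Normal] [K.Normal] (c d : ℕ) (hH : H.lowerCentralSeries c = ⊥) (hK : K.lowerCentralSeries d = ⊥) : (H ⊔ K).lowerCentralSeries (c + d) = ⊥ := by
  rw [eq_bot_iff]
  refine le_trans (lcs_le_joinLcs H K (c + d)) ?_
  apply iSup_le
  rintro ⟨⟨a, b⟩, hab⟩
  simp only at hab ⊢
  by_cases ha : c + 1 ≤ a
  · obtain ⟨a', rfl⟩ : ∃ a', a = a' + 1 := ⟨a - 1, by omega⟩
    refine le_trans inf_le_left ?_
    show H.lowerCentralSeries a' ≤ ⊥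
    rw [← hH]
    exact H.lowerCentralSeries_antitone (by omega)
  · obtain ⟨b', rfl⟩ : ∃ b', b = b' + 1 := ⟨b - 1, by omega⟩
    refine le_trans inf_le_right ?_
    show K.lowerCentralSeries b' ≤ ⊥
    rw [← hK]
    exact K.lowerCentralSeries_antitone (by omega)

end Cfsg.Agent.S4204
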