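import Mathlib
import Cfsg.Agent.Lib.helper6_HallAut
import Cfsg.Agent.S0012
import Cfsg.Statements.S4208

set_option autoImplicit false
open Cfsg

namespace Cfsg.Agent.S4208

/-- Let `P` be a group of order `p^n` whose Frattini subgroup has index `p^r`. Then the order of the automorphism group of `P` divides `p^(r(n-r)) · (p^r - 1)(p^r - p) ⋯ (p^r - p^(r-1))`. -/
theorem result {P : Type*} [Group P] [Finite P] {p n r : ℕ} [Fact p.Prime] (hP : Nat.card P = p ^ n) (hr : (frattini P).index = p ^ r) : Nat.card (MulAut P) ∣ p ^ (r * (n - r)) * ∏ i ∈ Finset.range r, (p ^ r - p ^ i) := by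
  have hpg : IsPGroup p P := IsPGroup.of_card hP
  obtain ⟨h1, h2⟩ := Cfsg.Agent.S0012.result p hpg
  exact Cfsg.Agent.Lib.helper6_HallAut.card_mulAut_dvd_hall hP hr h1 h2

end Cfsg.Agent.S4208
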