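import Cfsg.Statements.S4213

import Cfsg.Agent.Lib.Helper7_Frobenius
import Cfsg.Agent.Lib.Helper7_Lift
import Cfsg.Agent.Lib.Helper1_MinNormal
set_option autoImplicit false
open Cfsg

namespace Cfsg.Agent.S4213

open Cfsg.Agent.Lib.Helper7_Frobenius Cfsg.Agent.Lib.Helper7_Class Cfsg.Agent.Lib.Helper7_Lift

universe u

theorem aux (N : ℕ) : ∀ (G : Type u) [Group G] [Finite G] [Group.IsSolvable G], Nat.card G = N →
    ∀ n : ℕ, n ∣ N → Nat.card {x : G // x ^ n = 1} = n →
    ∃ H : Subgroup G, H.Normal ∧ (H : Set G) = {x : G | x ^ n = 1} := by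
  induction N using Nat.strong_induction_on with
  | _ N ih =>
    intro G _ _ _ hN n hn hcount
    have hNpos : 0 < N := hN ▸ Nat.card_pos
    have hnpos : 0 < n := Nat.pos_of_dvd_of_pos hn hNpos
    by_cases htriv : (⊤ : Subgroup G) = ⊥
    · refine ⟨⊤, inferInstance, ?_⟩
      ext x
      have hx : x = 1 := by
        have : x ∈ (⊤ : Subgroup G) := Subgroup.mem_top x
        rwa [htriv, Subgroup.mem_bot] at this
      simp [hx]
    obtain ⟨K, hKn, hKne, -, hKmin⟩ :=
      Cfsg.Agent.Lib.Helper1_MinNormal.exists_minimal_normal_le (⊤ : Subgroup G) htriv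
    haveI := hKn
    obtain ⟨-, p, hp, hKp⟩ :=
      Cfsg.Agent.Lib.Helper1_MinNormal.minimal_normal_elementary_abelian K hKne hKmin
    haveI : Fact p.Prime := ⟨hp⟩
    have hKpg : IsPGroup p K := fun x => ⟨1, by
      apply Subtype.ext
      rw [pow_one, Subgroup.coe_pow, Subgroup.coe_one]
      exact hKp x x.2⟩
    obtain ⟨i, hi⟩ := IsPGroup.iff_card.1 hKpg
    set q := Nat.card K with hq
    have hqpos : 0 < q := Nat.card_pos
    have hq1 : 1 < q := (Subgroup.one_lt_card_iff_ne_bot K).2 hKne
    have hpq : p ∣ q := by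
      rw [hi]
      apply dvd_pow_self
      rintro rfl
      rw [pow_zero] at hi
      omega
    have hqidx : q * K.index = N := by rw [hq, Subgroup.card_mul_index, hN]
    have hidxpos : 0 < K.index := Nat.pos_of_ne_zero Subgroup.FiniteIndex.index_ne_zero
    have hcardlt : Nat.card (G ⧸ K) < N := by
      show K.index < N
      rw [← hqidx]
      exact lt_mul_of_one_lt_left hidxpos hq1
    set d := Nat.gcd n q with hd
    have hdpos : 0 < d := Nat.gcd_pos_of_pos_left _ hnpos
    obtain ⟨n', hn'⟩ : d ∣ n := Nat.gcd_dvd_left _ _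
    have hn'pos : 0 < n' := Nat.pos_of_ne_zero (by rintro rfl; omega)
    have hlcm : Nat.lcm n q = n' * q := by
      have h1 := Nat.gcd_mul_lcm n q
      rw [← hd] at h1
      have h2 : d * Nat.lcm n q = d * (n' * q) := by rw [h1, hn', mul_assoc]
      exact Nat.eq_of_mul_eq_mul_left hdpos h2
    have hn'idx : n' ∣ Nat.card (G ⧸ K) := by
      show n' ∣ K.index
      have h1 : n' * q ∣ q * K.index := by
        rw [← hlcm, hqidx]
        exact Nat.lcm_dvd hn (Dvd.intro _ hqidx)
      rw [mul_comm n' q] at h1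
      exact Nat.dvd_of_mul_dvd_mul_left hqpos h1
    have hfrob : n' ∣ Nat.card {y : G ⧸ K // y ^ n' = 1} := dvd_card_pow_eq_one n' hn'idx
    have hcpos : 0 < Nat.card {y : G ⧸ K // y ^ n' = 1} := by
      haveI : Nonempty {y : G ⧸ K // y ^ n' = 1} := ⟨⟨1, one_pow _⟩⟩
      exact Nat.card_pos
    have hcge : n' ≤ Nat.card {y : G ⧸ K // y ^ n' = 1} := Nat.le_of_dvd hcpos hfrob
    have hpre : Nat.card {x : G // (x : G ⧸ K) ^ n' = 1} =
        q * Nat.card {y : G ⧸ K // y ^ n' = 1} :=
      QuotientGroup.card_preimage_mk K {y : G ⧸ K | y ^ n' = 1}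
    by_cases hpn : p ∣ n
    · -- case 1
      have hpd : p ∣ d := Nat.dvd_gcd hpn hpq
      have hsub : {x : G | (x : G ⧸ K) ^ n' = 1} ⊆ {x : G | x ^ n = 1} := by
        intro x hx
        have h1 : x ^ n' ∈ K := by
          rw [← QuotientGroup.eq_one_iff]
          exact hx
        have h2 := hKp _ h1
        obtain ⟨d', hd'⟩ := hpd
        show x ^ n = 1
        rw [hn', hd', mul_comm, ← mul_assoc, pow_mul, pow_mul, h2, one_pow]
      have hle : Nat.card {x : G // (x : G ⧸ K) ^ n' = 1} ≤ Nat.card {x : G // x ^ n = 1} :=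
        Nat.card_mono (Set.toFinite _) hsub
      rw [hpre, hcount] at hle
      have hdq : d ≤ q := Nat.le_of_dvd hqpos (Nat.gcd_dvd_right _ _)
      have h3 : q * n' ≤ q * Nat.card {y : G ⧸ K // y ^ n' = 1} := Nat.mul_le_mul_left _ hcge
      have h4 : n ≤ q * n' := by rw [hn']; exact Nat.mul_le_mul_right _ hdq
      have h5 : q * Nat.card {y : G ⧸ K // y ^ n' = 1} = q * n' := by omega
      have h6 : Nat.card {y : G ⧸ K // y ^ n' = 1} = n' := Nat.eq_of_mul_eq_mul_left hqpos h5
      obtain ⟨H, hHn, hH⟩ := ih _ hcardlt (G ⧸ K) rfl n' hn'idx h6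
      refine ⟨H.comap (QuotientGroup.mk' K), inferInstance, ?_⟩
      have h7 : ((H.comap (QuotientGroup.mk' K) : Subgroup G) : Set G) =
          {x : G | (x : G ⧸ K) ^ n' = 1} := by
        ext x
        have : (x : G ⧸ K) ∈ (H : Set (G ⧸ K)) ↔ (x : G ⧸ K) ^ n' = 1 := by rw [hH]; rfl
        exact this
      rw [h7]
      refine Set.eq_of_subset_of_ncard_le hsub ?_ (Set.toFinite _)
      rw [← Nat.card_coe_set_eq, ← Nat.card_coe_set_eq]
      show Nat.card {x : G // x ^ n = 1} ≤ Nat.card {x : G // (x : G ⧸ K) ^ n' = 1}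
      rw [hpre, hcount]
      omega
    · -- case 2
      have hcop : Nat.Coprime n q := by
        rw [hi]
        exact Nat.Coprime.pow_right _ ((Nat.Prime.coprime_iff_not_dvd hp).2 hpn).symm
      have hd1 : d = 1 := hcop
      have hnn' : n' = n := by rw [hn', hd1, one_mul]
      subst hnn'
      have hsurj : Function.Surjective
          (fun x : {x : G // x ^ n' = 1} => (⟨(x.1 : G ⧸ K), by
            rw [← QuotientGroup.mk_pow, x.2]; rfl⟩ : {y : G ⧸ K // y ^ n' = 1})) := by
        rintro ⟨y, hy⟩
        have hoy : orderOf y ∣ n' := orderOf_dvd_of_pow_eq_one hy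
        obtain ⟨x, hx, hox⟩ := exists_lift_orderOf_dvd K y
          (Nat.Coprime.coprime_dvd_right hoy hcop.symm)
        exact ⟨⟨x, orderOf_dvd_iff_pow_eq_one.1 (hox.trans hoy)⟩, Subtype.ext hx⟩
      have hle := Nat.card_le_card_of_surjective _ hsurj
      rw [hcount] at hle
      have h6 : Nat.card {y : G ⧸ K // y ^ n' = 1} = n' := le_antisymm hle hcge
      obtain ⟨H, hHn, hH⟩ := ih _ hcardlt (G ⧸ K) rfl n' hn'idx h6
      set L := H.comap (QuotientGroup.mk' K) with hL
      have hLcard : Nat.card L = q * n' := by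
        rw [← h6, ← hpre]
        apply Nat.card_congr
        apply Equiv.subtypeEquivRight
        intro x
        have : (x : G ⧸ K) ∈ (H : Set (G ⧸ K)) ↔ (x : G ⧸ K) ^ n' = 1 := by rw [hH]; rfl
        exact this
      have hKL : K ≤ L := by
        intro x hx
        show (x : G ⧸ K) ∈ H
        rw [(QuotientGroup.eq_one_iff x).2 hx]
        exact one_mem _
      have hKLcard : Nat.card (K.subgroupOf L) = q := by
        rw [← Subgroup.card_map_of_injective L.subtype_injective,
          Subgroup.map_subgroupOf_eq_of_le hKL]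
      have hKLidx : (K.subgroupOf L).index = n' := by
        have := Subgroup.card_mul_index (K.subgroupOf L)
        rw [hKLcard, hLcard] at this
        exact Nat.eq_of_mul_eq_mul_left hqpos this
      obtain ⟨Q', hQ'⟩ := Subgroup.exists_right_complement'_of_coprime (N := K.subgroupOf L)
        (by rw [hKLcard, hKLidx]; exact hcop.symm)
      have hQ'card : Nat.card Q' = n' := by
        have := hQ'.card_mul_card
        rw [hKLcard, hLcard] at this
        exact Nat.eq_of_mul_eq_mul_left hqpos this
      set Q := Q'.map L.subtype with hQ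
      have hQcard : Nat.card Q = n' := by
        rw [hQ, Subgroup.card_map_of_injective L.subtype_injective, hQ'card]
      have hQset : (Q : Set G) = {x : G | x ^ n' = 1} := by
        refine Set.eq_of_subset_of_ncard_le ?_ ?_ (Set.toFinite _)
        · intro x hx
          have := pow_card_eq_one_of_mem (H := Q) hx
          rwa [hQcard] at this
        · rw [← Nat.card_coe_set_eq, ← Nat.card_coe_set_eq]
          show Nat.card {x : G // x ^ n' = 1} ≤ Nat.card Q
          rw [hcount, hQcard]
      refine ⟨Q, ⟨fun x hx g => ?_⟩, hQset⟩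
      have h1 : x ∈ (Q : Set G) := hx
      rw [hQset] at h1
      have h2 : g * x * g⁻¹ ∈ (Q : Set G) := by
        rw [hQset]
        show (g * x * g⁻¹) ^ n' = 1
        rw [conj_pow, show x ^ n' = 1 from h1]
        simp
      exact h2

/-- If `G` is a finite solvable group and `n` divides the order of `G` and exactly `n` elements `x` of `G` satisfy `x^n = 1`, then these elements form a normal subgroup. -/
theorem result {G : Type*} [Group G] [Finite G] [Group.IsSolvable G] (n : ℕ) (hn : n ∣ Nat.card G) (hcount : Nat.card {x : G // x ^ n = 1} = n) : ∃ H : Subgroup G, H.Normal ∧ (H : Set G) = {x : G | x ^ n = 1} := by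
  exact aux _ G rfl n hn hcount

end Cfsg.Agent.S4213
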