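import Cfsg.Statements.S4217

import Cfsg.Agent.Lib.Helper7_Gaschutz
set_option autoImplicit false
open Cfsg

namespace Cfsg.Agent.S4217


open Cfsg.Agent.Lib.Helper7_Gaschutz

/-- Let `A` be an abelian normal subgroup of the finite group `G`. Then `A` has a complement in `G` if and only if, for every prime `p` dividing the index of `A`, there are a Sylow `p`-subgroup `S` of `G/A` and a subgroup `K` of `G` with `K ∩ A = 1` and `KA` equal to the preimage of `S` (that is, `A` has a complement in the preimage of a Sylow `p`-subgroup of `G/A`). -/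
theorem result {G : Type*} [Group G] [Finite G] (A : Subgroup G) [A.Normal] (hA : IsMulCommutative A) : (∃ K : Subgroup G, K.IsComplement' A) ↔ ∀ p : ℕ, p.Prime → p ∣ A.index → ∃ (S : Sylow p (G ⧸ A)) (K : Subgroup G), K ⊓ A = ⊥ ∧ K ⊔ A = (S : Subgroup (G ⧸ A)).comap (QuotientGroup.mk' A) := by
  constructor
  · rintro ⟨K, hK⟩ p hp _
    haveI := Fact.mk hp
    obtain ⟨S⟩ : Nonempty (Sylow p (G ⧸ A)) := inferInstance
    have hAH : A ≤ (S : Subgroup (G ⧸ A)).comap (QuotientGroup.mk' A) := by
      intro a ha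
      rw [Subgroup.mem_comap]
      have : QuotientGroup.mk' A a = 1 := (QuotientGroup.eq_one_iff a).mpr ha
      rw [this]; exact Subgroup.one_mem _
    refine ⟨S, K ⊓ (S : Subgroup (G ⧸ A)).comap (QuotientGroup.mk' A), ?_, ?_⟩
    · rw [inf_right_comm, hK.disjoint.eq_bot, bot_inf_eq]
    · apply le_antisymm (sup_le inf_le_right hAH)
      intro h hh
      have h1 : h ∈ K ⊔ A := by rw [hK.sup_eq_top]; trivial
      rw [Subgroup.mem_sup_of_normal_right] at h1
      obtain ⟨k, hk, a, ha, rfl⟩ := h1
      refine Subgroup.mul_mem _ (Subgroup.mem_sup_left ⟨hk, ?_⟩) (Subgroup.mem_sup_right ha)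
      have := Subgroup.mul_mem _ hh (Subgroup.inv_mem _ (hAH ha))
      rwa [mul_inv_cancel_right] at this
  · intro h
    by_cases hidx : A.index = 1
    · rw [Subgroup.index_eq_one] at hidx
      subst hidx
      exact ⟨⊥, Subgroup.isComplement'_bot_top⟩
    have key : ∃ c : G → A, IsCross A ⊤ c 1 := by
      apply exists_cross_one_of_family A {m | m ∣ A.index ∧ ∃ c : G → A, IsCross A ⊤ c m}
      · rintro m ⟨-, hm⟩; exact hm
      · have main : ∀ p : ℕ, p.Prime → p ∣ A.index →
            ∃ m ∈ {m | m ∣ A.index ∧ ∃ c : G → A, IsCross A ⊤ c m}, ¬ p ∣ m := by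
          intro p hp hpA
          haveI := Fact.mk hp
          obtain ⟨S, K, hKA, hsup⟩ := h p hp hpA
          have hAH : A ≤ (S : Subgroup (G ⧸ A)).comap (QuotientGroup.mk' A) := hsup ▸ le_sup_right
          obtain ⟨α, hα, -⟩ := exists_cross_of_complement A _ K hKA hsup
          obtain ⟨c, hc⟩ := exists_cores A _ hAH α 1 hα
          rw [one_mul] at hc
          refine ⟨_, ⟨Subgroup.index_dvd_of_le hAH, c, hc⟩, ?_⟩
          rw [Subgroup.index_comap_of_surjective _ (QuotientGroup.mk'_surjective A)]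
          exact S.not_dvd_index
        intro r hr
        by_cases hrA : r ∣ A.index
        · exact main r hr hrA
        · obtain ⟨p, hp, hpA⟩ := Nat.exists_prime_and_dvd hidx
          obtain ⟨m, hm, -⟩ := main p hp hpA
          exact ⟨m, hm, fun hrm => hrA (hrm.trans hm.1)⟩
    obtain ⟨c, hc⟩ := key
    exact ⟨_, (isComplement'_kerCross A c hc).symm⟩

end Cfsg.Agent.S4217
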