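import Cfsg.Statements.S4218
import Cfsg.Agent.Lib.Helper4_PSol2
import Cfsg.Agent.Lib.helper6_HallAut
import Cfsg.Agent.Lib.Helper7_Frat2
import Cfsg.Agent.Lib.Helper3_PComp

set_option autoImplicit false
open Cfsg

namespace Cfsg.Agent.S4218

open scoped commutatorElement in
theorem aux_red {H : Type*} [Group H] [Finite H] {p : ℕ} [hp : Fact p.Prime]
    (hH : Cfsg.IsPSolvable p H) (hred : Cfsg.pPrimeCore p H = ⊥) (h : H) :
    (∀ x ∈ Cfsg.pCore p H, h * x * h⁻¹ * x⁻¹ ∈ (frattini (Cfsg.pCore p H)).map (Cfsg.pCore p H).subtype)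
      ↔ h ∈ Cfsg.pCore p H := by
  set P := Cfsg.pCore p H with hPdef
  have hPn : P.Normal := inferInstance
  have hPp : IsPGroup p P := Cfsg.Agent.Lib.Helper4_Core.pCore_isPGroup p H
  have hcent := Cfsg.Agent.Lib.Helper4_PSol.hall_higman hH hred
  rw [← hPdef] at hcent
  constructor
  · intro hh
    have hΦn : ((frattini P).map P.subtype).Normal := ConjAct.normal_of_characteristic_of_normal
    set Φ := (frattini P).map P.subtype with hΦ
    set C : Subgroup H := (Subgroup.centralizer ((P.map (QuotientGroup.mk' Φ) : Subgroup (H ⧸ Φ)) : Set (H ⧸ Φ))).comap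
      (QuotientGroup.mk' Φ) with hC
    have hPmn : (P.map (QuotientGroup.mk' Φ)).Normal :=
      hPn.map _ (QuotientGroup.mk'_surjective Φ)
    have hCn : C.Normal := by
      rw [hC]; infer_instance
    have hmemC : ∀ c : H, c ∈ C ↔ ∀ x ∈ P, c * x * c⁻¹ * x⁻¹ ∈ Φ := by
      intro c
      rw [hC, Subgroup.mem_comap, Subgroup.mem_centralizer_iff]
      constructor
      · intro h1 x hx
        have h2 := h1 _ (Subgroup.mem_map_of_mem (QuotientGroup.mk' Φ) hx)
        rw [← QuotientGroup.eq_one_iff]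
        have h3 : ((c * x * c⁻¹ * x⁻¹ : H) : H ⧸ Φ) =
          QuotientGroup.mk' Φ c * QuotientGroup.mk' Φ x * (QuotientGroup.mk' Φ c)⁻¹ * (QuotientGroup.mk' Φ x)⁻¹ := rfl
        rw [h3, ← h2]
        group
      · intro h1 y hy
        obtain ⟨x, hx, rfl⟩ := hy
        have h2 := h1 x hx
        rw [← QuotientGroup.eq_one_iff] at h2
        have h3 : ((c * x * c⁻¹ * x⁻¹ : H) : H ⧸ Φ) =
          QuotientGroup.mk' Φ c * QuotientGroup.mk' Φ x * (QuotientGroup.mk' Φ c)⁻¹ * (QuotientGroup.mk' Φ x)⁻¹ := rfl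
        rw [h3] at h2
        have h4 : QuotientGroup.mk' Φ c * QuotientGroup.mk' Φ x = QuotientGroup.mk' Φ x * QuotientGroup.mk' Φ c := by
          have := mul_inv_eq_one.1 h2
          exact mul_inv_eq_iff_eq_mul.1 this
        exact h4.symm
    obtain ⟨n, hn⟩ := (IsPGroup.iff_card).1 hPp
    obtain ⟨r, hr⟩ : ∃ r, (frattini P).index = p ^ r := by
      have h1 : (frattini P).index ∣ p ^ n := by rw [← hn]; exact Subgroup.index_dvd_card _
      obtain ⟨r, _, hr⟩ := (Nat.dvd_prime_pow hp.out).1 h1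
      exact ⟨r, hr⟩
    set A : Subgroup (MulAut P) := C.map (MulAut.conjNormal : H →* MulAut P) with hA
    have hAtriv : ∀ α ∈ A, ∀ x : P, α x * x⁻¹ ∈ frattini P := by
      rintro α ⟨c, hc, rfl⟩ x
      have h1 := (hmemC c).1 hc x.1 x.2
      obtain ⟨y, hy, hyx⟩ := h1
      have h2 : (MulAut.conjNormal c : MulAut P) x * x⁻¹ = y := by
        apply Subtype.ext
        rw [Subgroup.coe_mul, MulAut.conjNormal_apply]
        exact hyx.symm
      rw [h2]
      exact hy
    have hAcard := Cfsg.Agent.Lib.helper6_HallAut.card_dvd_of_trivial_on_frattini hn hr A hAtriv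
    have hCp : IsPGroup p C := by
      rintro ⟨c, hc⟩
      have h1 : (MulAut.conjNormal c : MulAut P) ^ (p ^ (r * (n - r))) = 1 := by
        have h2 : (⟨MulAut.conjNormal c, Subgroup.mem_map_of_mem _ hc⟩ : A) ^ (p ^ (r * (n - r))) = 1 := by
          obtain ⟨k, hk⟩ := hAcard
          rw [hk, pow_mul, pow_card_eq_one', one_pow]
        exact congrArg Subtype.val h2
      rw [← map_pow] at h1
      have h2 : c ^ (p ^ (r * (n - r))) ∈ P := by
        apply hcent
        rw [Subgroup.mem_centralizer_iff]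
        intro x hx
        have h3 := congrArg Subtype.val (DFunLike.congr_fun h1 (⟨x, hx⟩ : P))
        rw [MulAut.conjNormal_apply] at h3
        simp only [MulAut.one_apply] at h3
        exact (mul_inv_eq_iff_eq_mul.1 h3).symm
      obtain ⟨j, hj⟩ := hPp ⟨_, h2⟩
      refine ⟨r * (n - r) + j, ?_⟩
      apply Subtype.ext
      have h4 := congrArg Subtype.val hj
      simp only [Subgroup.coe_pow, Subgroup.coe_one] at h4 ⊢
      rw [pow_add, pow_mul]
      exact h4
    exact Cfsg.Agent.Lib.Helper4_Core.le_pCore hCn hCp ((hmemC h).2 hh)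
  · intro hh x hx
    haveI : Group.IsNilpotent P := hPp.isNilpotent
    have h1 : ⁅(⟨h, hh⟩ : P), ⟨x, hx⟩⁆ ∈ frattini P :=
      Cfsg.Agent.Lib.Helper7_Frat2.commutator_le_frattini_of_nilpotent
        (Subgroup.commutator_mem_commutator (Subgroup.mem_top _) (Subgroup.mem_top _))
    exact ⟨_, h1, rfl⟩

/-- Let `G` be a finite `p`-solvable group, `N₀ = O_{p'}(G)`, `P₁ = O_{p',p}(G)`, and let `F ≤ P₁` be the preimage of the Frattini subgroup of `P₁/N₀`. Then an element `g` of `G` induces the identity on `P₁/F` by conjugation (that is, `g x g⁻¹ x⁻¹ ∈ F` for all `x ∈ P₁`) if and only if `g ∈ P₁`: the group `G/P₁` acts faithfully on `P₁/F`. -/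
theorem result {G : Type*} [Group G] [Finite G] {p : ℕ} [Fact p.Prime] (hG : Cfsg.IsPSolvable p G) (g : G) : (∀ x ∈ Cfsg.pPrimePCore p G, g * x * g⁻¹ * x⁻¹ ∈ ((frattini (↥(Cfsg.pPrimePCore p G) ⧸ (Cfsg.pPrimeCore p G).subgroupOf (Cfsg.pPrimePCore p G))).comap (QuotientGroup.mk' ((Cfsg.pPrimeCore p G).subgroupOf (Cfsg.pPrimePCore p G)))).map (Cfsg.pPrimePCore p G).subtype) ↔ g ∈ Cfsg.pPrimePCore p G := by
  set N₀ := Cfsg.pPrimeCore p G with hN₀
  set P₁ := Cfsg.pPrimePCore p G with hP₁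
  have hred : Cfsg.pPrimeCore p (G ⧸ N₀) = ⊥ := Cfsg.Agent.Lib.Helper3_PComp.pPrimeCore_quotient_eq_bot p G
  have hsol : Cfsg.IsPSolvable p (G ⧸ N₀) :=
    Cfsg.Agent.Lib.Helper4_PSol2.isPSolvable_of_surjective (Fact.out) _ (QuotientGroup.mk'_surjective _) hG
  have key := aux_red hsol hred (QuotientGroup.mk' N₀ g)
  set Pb := Cfsg.pCore p (G ⧸ N₀) with hPb
  have hmemP : ∀ x : G, x ∈ P₁ ↔ QuotientGroup.mk' N₀ x ∈ Pb := fun x => Iff.rfl
  have hP₁n : P₁.Normal := by
    rw [hP₁]; unfold Cfsg.pPrimePCore; infer_instance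
  let θ : P₁ →* Pb := ((QuotientGroup.mk' N₀).comp P₁.subtype).codRestrict Pb (fun x => x.2)
  have hθs : Function.Surjective θ := by
    rintro ⟨y, hy⟩
    obtain ⟨x, rfl⟩ := QuotientGroup.mk'_surjective N₀ y
    exact ⟨⟨x, hy⟩, rfl⟩
  have hθk : θ.ker = N₀.subgroupOf P₁ := by
    ext x
    rw [MonoidHom.mem_ker, Subgroup.mem_subgroupOf, ← QuotientGroup.eq_one_iff]
    constructor
    · intro h; exact congrArg Subtype.val h
    · intro h; exact Subtype.ext h
  let e : (P₁ ⧸ N₀.subgroupOf P₁) ≃* Pb :=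
    (QuotientGroup.quotientMulEquivOfEq hθk.symm).trans (QuotientGroup.quotientKerEquivOfSurjective θ hθs)
  have he : ∀ y : P₁, e (QuotientGroup.mk' _ y) = θ y := fun y => rfl
  have hfr : ∀ y : P₁, QuotientGroup.mk' (N₀.subgroupOf P₁) y ∈ frattini (P₁ ⧸ N₀.subgroupOf P₁) ↔
      θ y ∈ frattini Pb := by
    intro y
    constructor
    · intro h
      have := frattini_le_comap_frattini_of_surjective (φ := e.toMonoidHom) e.surjective h
      exact this
    · intro h
      have := frattini_le_comap_frattini_of_surjective (φ := e.symm.toMonoidHom) e.symm.surjective h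
      rw [Subgroup.mem_comap] at this
      have h2 : e.symm.toMonoidHom (θ y) = QuotientGroup.mk' (N₀.subgroupOf P₁) y := by
        rw [← he]; exact e.symm_apply_apply _
      rwa [h2] at this
  have htr : ∀ w : G, w ∈ ((frattini (P₁ ⧸ N₀.subgroupOf P₁)).comap
      (QuotientGroup.mk' (N₀.subgroupOf P₁))).map P₁.subtype ↔
      QuotientGroup.mk' N₀ w ∈ (frattini Pb).map Pb.subtype := by
    intro w
    constructor
    · rintro ⟨y, hy, rfl⟩
      exact ⟨θ y, (hfr y).1 hy, rfl⟩
    · rintro ⟨z, hz, hzw⟩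
      have hw : w ∈ P₁ := by
        rw [hmemP, ← hzw]; exact z.2
      refine ⟨⟨w, hw⟩, ?_, rfl⟩
      have : θ ⟨w, hw⟩ = z := Subtype.ext hzw.symm
      rw [SetLike.mem_coe, Subgroup.mem_comap, hfr, this]
      exact hz
  rw [hmemP, ← key]
  constructor
  · intro h y hy
    obtain ⟨x, rfl⟩ := QuotientGroup.mk'_surjective N₀ y
    have := (htr _).1 (h x hy)
    simpa using this
  · intro h x hx
    rw [htr]
    have := h _ ((hmemP x).1 hx)
    simpa using this

end Cfsg.Agent.S4218
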