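import Cfsg.Statements.S4219

import Cfsg.Agent.S3760
import Cfsg.Agent.Lib.Helper7_Sub
set_option autoImplicit false
open Cfsg

namespace Cfsg.Agent.S4219


/-- Let a finite group `G` act `t`-fold transitively on a finite set, let `H` be the stabilizer of `t` distinct points and `P` a Sylow `p`-subgroup of `H`. Then the normalizer of `P` in `G` is `t`-fold transitive on the fixed points of `P`: any `t` distinct fixed points of `P` can be carried to any other `t` distinct fixed points of `P` by an element normalizing `P`. -/
theorem result {G : Type*} [Group G] [Finite G] {α : Type*} [Fintype α] [MulAction G α] {t : ℕ} (hG : MulAction.IsMultiplyPretransitive G α t) (x : Fin t ↪ α) {p : ℕ} [Fact p.Prime] (P : Sylow p (MulAction.stabilizer G x)) (a b : Fin t ↪ α) (ha : ∀ i, a i ∈ MulAction.fixedPoints ((P : Subgroup (MulAction.stabilizer G x)).map (MulAction.stabilizer G x).subtype) α) (hb : ∀ i, b i ∈ MulAction.fixedPoints ((P : Subgroup (MulAction.stabilizer G x)).map (MulAction.stabilizer G x).subtype) α) : ∃ g ∈ Subgroup.normalizer ((((P : Subgroup (MulAction.stabilizer G x)).map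 (MulAction.stabilizer G x).subtype) : Subgroup G) : Set G), g • a = b := by
  have htrans : ∀ a b : Fin t ↪ α, ∃ g : G, g • a = b := fun a b => hG.exists_smul_eq a b
  have key := (Cfsg.Agent.S3760.result htrans x
    ((P : Subgroup (MulAction.stabilizer G x)).map (MulAction.stabilizer G x).subtype)
    (Subgroup.map_subtype_le _)).2
    (fun g hg => Cfsg.Agent.Lib.Helper7_Sub.sylow_sub_fusion _ P g hg)
  apply key a b
  · intro k hk
    ext i
    rw [Function.Embedding.smul_apply]
    exact (MulAction.mem_fixedPoints.1 (ha i)) ⟨k, hk⟩
  · intro k hk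
    ext i
    rw [Function.Embedding.smul_apply]
    exact (MulAction.mem_fixedPoints.1 (hb i)) ⟨k, hk⟩

end Cfsg.Agent.S4219
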