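import Cfsg.Statements.S4222

set_option autoImplicit false
open Cfsg

namespace Cfsg.Agent.S4222


/-- If a normal subgroup `N` of a finite group is complete (its centre is trivial and every automorphism of `N` is inner), then the group is the internal direct product of `N` and the centralizer of `N`: the centralizer is a complement to `N`. -/
theorem result {T : Type*} [Group T] [Finite T] (N : Subgroup T) [N.Normal] (hz : Subgroup.center ↥N = ⊥) (ha : Function.Surjective (MulAut.conj : ↥N →* MulAut ↥N)) : (Subgroup.centralizer (N : Set T)).IsComplement' N := by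
  apply Subgroup.isComplement'_of_disjoint_and_mul_eq_univ
  · rw [Subgroup.disjoint_def]
    intro x hxC hxN
    have h1 : (⟨x, hxN⟩ : N) ∈ Subgroup.center N := by
      rw [Subgroup.mem_center_iff]
      intro g
      apply Subtype.ext
      exact (Subgroup.mem_centralizer_iff.1 hxC) g g.2
    rw [hz, Subgroup.mem_bot] at h1
    exact congrArg Subtype.val h1
  · rw [Set.eq_univ_iff_forall]
    intro t
    obtain ⟨n, hn⟩ := ha (MulAut.conjNormal t)
    refine Set.mem_mul.2 ⟨t * (n : T)⁻¹, ?_, n, n.2, by group⟩
    rw [SetLike.mem_coe, Subgroup.mem_centralizer_iff]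
    intro m hm
    have h2 : ∀ m' : N, (n : T) * m' * (n : T)⁻¹ = t * m' * t⁻¹ := by
      intro m'
      have := congrArg (fun φ : MulAut N => ((φ m' : N) : T)) hn
      simpa [MulAut.conj_apply, MulAut.conjNormal_apply] using this
    have hm' : (n:T)⁻¹ * m * n ∈ N := mul_mem (mul_mem (inv_mem n.2) hm) n.2
    have h3 := h2 ⟨_, hm'⟩
    simp only at h3
    have h4 : m = t * ((n:T)⁻¹ * m * n) * t⁻¹ := by rw [← h3]; group
    calc m * (t * (n:T)⁻¹) = (t * ((n:T)⁻¹ * m * n) * t⁻¹) * (t * (n:T)⁻¹) := by rw [← h4]
      _ = t * (n:T)⁻¹ * m := by group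

end Cfsg.Agent.S4222
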