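import Cfsg.Statements.S4300

set_option autoImplicit false
open Cfsg

namespace Cfsg.Agent.S4300


/-- Let G act faithfully and primitively on a set X, and suppose the stabilizer of some point is a simple group. Then either G is simple, or G has a normal subgroup, neither trivial nor the whole group, that acts regularly on X (transitively with trivial point stabilizers). -/
theorem result {G : Type*} [Group G] {X : Type*} [MulAction G X] [FaithfulSMul G X]
    (hprim : MulAction.IsPreprimitive G X) (x : X) (hsimple : IsSimpleGroup (MulAction.stabilizer G x)) :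
    IsSimpleGroup G ∨ ∃ N : Subgroup G, N.Normal ∧ N ≠ ⊥ ∧ N ≠ ⊤ ∧
      MulAction.IsPretransitive N X ∧ ∀ y : X, MulAction.stabilizer N y = ⊥ := by
  haveI := hprim
  by_cases hall : ∀ N : Subgroup G, N.Normal → N = ⊥ ∨ N = ⊤
  · left
    haveI : Nontrivial G := by
      obtain ⟨a, b, hab⟩ := hsimple.toNontrivial
      exact ⟨a.1, b.1, fun h => hab (Subtype.ext h)⟩
    exact ⟨fun N hN => hall N hN⟩
  · right
    push Not at hall
    obtain ⟨N, hN, hbot, htop⟩ := hall
    haveI := hN
    have hfp : MulAction.fixedPoints N X ≠ Set.univ := by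
      intro h
      apply hbot
      rw [eq_bot_iff]
      intro n hn
      rw [Subgroup.mem_bot]
      apply FaithfulSMul.eq_of_smul_eq_smul (α := X)
      intro y
      have : y ∈ MulAction.fixedPoints N X := by rw [h]; trivial
      rw [one_smul]
      exact this ⟨n, hn⟩
    have htr : MulAction.IsPretransitive N X :=
      MulAction.IsQuasiPreprimitive.isPretransitive_of_normal hfp
    have hinf : N ⊓ MulAction.stabilizer G x = ⊥ := by
      have hnorm : (N.subgroupOf (MulAction.stabilizer G x)).Normal := inferInstance
      rcases hsimple.eq_bot_or_eq_top_of_normal _ hnorm with h | h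
      · rw [Subgroup.subgroupOf_eq_bot] at h
        exact disjoint_iff.1 h
      · exfalso
        rw [Subgroup.subgroupOf_eq_top] at h
        apply htop
        rw [eq_top_iff]
        intro g _
        obtain ⟨n, hn⟩ := htr.exists_smul_eq x (g • x)
        have h1 : n.1⁻¹ * g ∈ MulAction.stabilizer G x := by
          rw [MulAction.mem_stabilizer_iff, mul_smul, inv_smul_eq_iff]
          exact hn.symm
        have h2 : g = n.1 * (n.1⁻¹ * g) := by group
        rw [h2]
        exact mul_mem n.2 (h h1)
    refine ⟨N, hN, hbot, htop, htr, ?_⟩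
    intro y
    rw [eq_bot_iff]
    intro n hn
    rw [Subgroup.mem_bot]
    obtain ⟨m, rfl⟩ := htr.exists_smul_eq x y
    have hn' : n.1 • (m.1 • x) = m.1 • x := hn
    have h1 : m.1⁻¹ * n.1 * m.1 ∈ N ⊓ MulAction.stabilizer G x := by
      refine Subgroup.mem_inf.2 ⟨mul_mem (mul_mem (inv_mem m.2) n.2) m.2, ?_⟩
      rw [MulAction.mem_stabilizer_iff, mul_smul, mul_smul, inv_smul_eq_iff]
      exact hn'
    rw [hinf, Subgroup.mem_bot] at h1
    apply Subtype.ext
    have h2 : n.1 = m.1 * (m.1⁻¹ * n.1 * m.1) * m.1⁻¹ := by group
    rw [h2, h1]; simp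

end Cfsg.Agent.S4300
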