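import Cfsg.Statements.S4314
import Cfsg.Agent.Lib.Helper7_Class

set_option autoImplicit false
open Cfsg

namespace Cfsg.Agent.S4314

theorem eq_or_top_of_prime_index {G : Type*} [Group G] {H J : Subgroup G} (hH : H.index.Prime)
    (hle : H ≤ J) : J = H ∨ J = ⊤ := by
  have h1 : J.index ∣ H.index := Subgroup.index_dvd_of_le hle
  rcases (Nat.dvd_prime hH).mp h1 with h2 | h2
  · right
    exact Subgroup.index_eq_one.mp h2
  · left
    have h3 := Subgroup.relIndex_mul_index hle
    rw [h2] at h3
    have h4 : H.relIndex J = 1 := by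
      have h5 : 0 < H.index := hH.pos
      nlinarith
    exact le_antisymm (Subgroup.relIndex_eq_one.mp h4) hle

theorem comm_mem_of_index {G : Type*} [Group G] (N : Subgroup G) [N.Normal]
    (h : N.index = 1 ∨ N.index.Prime) (x y : G) : x * y * x⁻¹ * y⁻¹ ∈ N := by
  rcases h with h | h
  · rw [Subgroup.index_eq_one.mp h]
    exact Subgroup.mem_top _
  · haveI : Fact N.index.Prime := ⟨h⟩
    haveI : IsCyclic (G ⧸ N) := isCyclic_of_prime_card (p := N.index) (Subgroup.index_eq_card N).symm
    have hc : IsMulCommutative (G ⧸ N) := IsCyclic.isMulCommutative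
    have h1 := hc.is_comm.comm (QuotientGroup.mk x : G ⧸ N) (QuotientGroup.mk y)
    rw [← QuotientGroup.eq_one_iff]
    simp only [QuotientGroup.mk_mul, QuotientGroup.mk_inv]
    rw [h1]
    group

theorem class_two {G : Type*} [Group G]
    (h : ∀ x y w : G, w * (x * y * x⁻¹ * y⁻¹) = (x * y * x⁻¹ * y⁻¹) * w) :
    Subgroup.upperCentralSeries G 2 = ⊤ := by
  rw [eq_top_iff]
  intro x _
  rw [show (2 : ℕ) = 1 + 1 from rfl, Subgroup.mem_upperCentralSeries_succ_iff]
  intro y
  rw [Subgroup.upperCentralSeries_one, Subgroup.mem_center_iff]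
  intro w
  exact h x y w

theorem normal_of_quotient_comm {G : Type*} [Group G] (C : Subgroup G)
    (hZ : Subgroup.center G ≤ C) (hc : IsMulCommutative (G ⧸ Subgroup.center G)) : C.Normal := by
  constructor
  intro c hcC g
  have h1 := hc.is_comm.comm (QuotientGroup.mk g : G ⧸ Subgroup.center G) (QuotientGroup.mk c)
  have h2 : g * c * g⁻¹ * c⁻¹ ∈ Subgroup.center G := by
    rw [← QuotientGroup.eq_one_iff]
    simp only [QuotientGroup.mk_mul, QuotientGroup.mk_inv]
    rw [h1]
    group
  have h3 : g * c * g⁻¹ = (g * c * g⁻¹ * c⁻¹) * c := by group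
  rw [h3]
  exact mul_mem (hZ h2) hcC

/-- Let `G` be a finite group every conjugacy class of which has size 1 or a prime. Then either `G` is nilpotent of class at most 2, or `G/Z(G)` is a non-abelian group of order `pq` for distinct primes `p, q` (a Frobenius group of order `pq`). -/
theorem result {G : Type*} [Group G] [Finite G]
    (h : ∀ x : G, (Subgroup.centralizer ({x} : Set G)).index = 1 ∨ ((Subgroup.centralizer ({x} : Set G)).index).Prime) :
    Subgroup.upperCentralSeries G 2 = ⊤ ∨
      ∃ p q : ℕ, p.Prime ∧ q.Prime ∧ p ≠ q ∧ Nat.card (G ⧸ Subgroup.center G) = p * q ∧ ¬ IsMulCommutative (G ⧸ Subgroup.center G) := by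
  classical
  by_cases hall : ∀ x : G, (Subgroup.centralizer ({x} : Set G)).Normal
  · left
    apply class_two
    intro x y w
    haveI := hall w
    have h1 := comm_mem_of_index (Subgroup.centralizer ({w} : Set G)) (h w) x y
    rw [Subgroup.mem_centralizer_singleton_iff] at h1
    exact h1.symm
  right
  push Not at hall
  obtain ⟨x, hx⟩ := hall
  set C := Subgroup.centralizer ({x} : Set G) with hC
  have hq : C.index.Prime := by
    rcases h x with h1 | h1
    · exfalso
      apply hx
      have h2 : C = ⊤ := Subgroup.index_eq_one.mp h1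
      rw [h2]
      infer_instance
    · exact h1
  set q := C.index with hqdef
  haveI : Fact q.Prime := ⟨hq⟩
  set K := C.normalCore with hK
  have hKC : K ≤ C := Subgroup.normalCore_le C
  have hZC : Subgroup.center G ≤ C := by
    intro z hz
    rw [hC, Subgroup.mem_centralizer_singleton_iff]
    exact (Subgroup.mem_center_iff.mp hz x).symm
  have hZK : Subgroup.center G ≤ K := Subgroup.normal_le_normalCore.mpr hZC
  have hprime : ∀ y : G, y ∉ K → (Subgroup.centralizer ({y} : Set G)).index.Prime := by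
    intro y hy
    rcases h y with h1 | h1
    · exfalso
      apply hy
      apply hZK
      rw [Subgroup.mem_center_iff]
      intro g
      have h2 : g ∈ Subgroup.centralizer ({y} : Set G) := by
        rw [Subgroup.index_eq_one.mp h1]; exact Subgroup.mem_top _
      exact Subgroup.mem_centralizer_singleton_iff.mp h2
    · exact h1
  -- step (b)
  have hb : ∀ y : G, y ∉ K → K ≤ Subgroup.centralizer ({y} : Set G) := by
    intro y hy
    rcases eq_or_top_of_prime_index (hprime y hy)
      (le_sup_left : Subgroup.centralizer ({y} : Set G) ≤ Subgroup.centralizer ({y} : Set G) ⊔ K)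
      with h1 | h1
    · rw [← h1]
      exact le_sup_right
    · exfalso
      have hcomm : ∀ g : G, g * y * g⁻¹ * y⁻¹ ∈ K := by
        intro g
        have hg : g ∈ ((Subgroup.centralizer ({y} : Set G) ⊔ K : Subgroup G) : Set G) := by
          rw [h1]; exact Subgroup.mem_top _
        rw [Subgroup.mul_normal] at hg
        obtain ⟨c, hc, k, hk, rfl⟩ := hg
        have hc' : c * y = y * c := Subgroup.mem_centralizer_singleton_iff.mp hc
        have e : c * k * y * (c * k)⁻¹ * y⁻¹ = c * (k * (y * k⁻¹ * y⁻¹)) * c⁻¹ := by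
          have h2 : c⁻¹ * y⁻¹ = y⁻¹ * c⁻¹ := by
            rw [← mul_inv_rev, ← mul_inv_rev, hc']
          calc c * k * y * (c * k)⁻¹ * y⁻¹ = c * k * y * k⁻¹ * (c⁻¹ * y⁻¹) := by group
            _ = c * k * y * k⁻¹ * (y⁻¹ * c⁻¹) := by rw [h2]
            _ = c * (k * (y * k⁻¹ * y⁻¹)) * c⁻¹ := by group
        rw [e]
        have hKn : K.Normal := Subgroup.normalCore_normal C
        exact hKn.conj_mem _ (mul_mem hk (hKn.conj_mem _ (inv_mem hk) y)) c
      by_cases hyC : y ∈ C
      · apply hy
        show ∀ b : G, b * y * b⁻¹ ∈ C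
        intro b
        have e : b * y * b⁻¹ = (b * y * b⁻¹ * y⁻¹) * y := by group
        rw [e]
        exact mul_mem (hKC (hcomm b)) hyC
      · have hyN : y ∈ Subgroup.normalizer (C : Set G) := by
          rw [Subgroup.mem_normalizer_iff]
          intro c
          have h2 : y * c * y⁻¹ * c⁻¹ ∈ C := by
            have h3 := inv_mem (hKC (hcomm c))
            have e : (c * y * c⁻¹ * y⁻¹)⁻¹ = y * c * y⁻¹ * c⁻¹ := by group
            rwa [e] at h3
          constructor
          · intro hc
            have e : y * c * y⁻¹ = (y * c * y⁻¹ * c⁻¹) * c := by group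
            rw [e]
            exact mul_mem h2 hc
          · intro hc
            have e : c = (y * c * y⁻¹ * c⁻¹)⁻¹ * (y * c * y⁻¹) := by group
            rw [e]
            exact mul_mem (inv_mem h2) hc
        rcases eq_or_top_of_prime_index hq (Subgroup.le_normalizer : C ≤ Subgroup.normalizer (C : Set G))
          with h2 | h2
        · rw [h2] at hyN
          exact hyC hyN
        · exact hx (Subgroup.normalizer_eq_top_iff.mp h2)
  -- step (c)
  obtain ⟨y₀, hy₀⟩ : ∃ y₀ : G, y₀ ∉ C := by
    by_contra hcon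
    push Not at hcon
    apply hx
    have : C = ⊤ := eq_top_iff.mpr fun g _ => hcon g
    rw [this]
    infer_instance
  have hy₀K : y₀ ∉ K := fun h => hy₀ (hKC h)
  have hKZ : K ≤ Subgroup.center G := by
    intro k hk
    rw [Subgroup.mem_center_iff]
    intro g
    have h0 : k * y₀ = y₀ * k := Subgroup.mem_centralizer_singleton_iff.mp (hb y₀ hy₀K hk)
    by_cases hg : g ∈ K
    · have h1 : g * y₀ ∉ K := by
        intro h2
        apply hy₀K
        have := mul_mem (inv_mem hg) h2
        simpa using this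
      have h2 : k * (g * y₀) = (g * y₀) * k := Subgroup.mem_centralizer_singleton_iff.mp (hb _ h1 hk)
      have h3 : k * g * y₀ = g * k * y₀ := by
        rw [mul_assoc, h2, mul_assoc, ← h0, mul_assoc]
      exact (mul_right_cancel h3).symm
    · exact (Subgroup.mem_centralizer_singleton_iff.mp (hb g hg hk)).symm
  have hKeq : K = Subgroup.center G := le_antisymm hKZ hZK
  -- step (d)
  obtain ⟨Q₀⟩ : Nonempty (Sylow q G) := inferInstance
  obtain ⟨g, hgQ, hgC⟩ : ∃ g ∈ (Q₀ : Subgroup G), g ∉ C := by
    by_contra hcon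
    push Not at hcon
    have h1 : (Q₀ : Subgroup G) ≤ C := hcon
    exact Q₀.not_dvd_index (Subgroup.index_dvd_of_le h1)
  obtain ⟨k, hk⟩ : ∃ k : ℕ, orderOf g = q ^ k := by
    obtain ⟨k, hk⟩ := IsPGroup.iff_orderOf.mp Q₀.isPGroup' ⟨g, hgQ⟩
    exact ⟨k, by rw [← hk]; exact Subgroup.orderOf_coe (⟨g, hgQ⟩ : ↥(Q₀ : Subgroup G))⟩
  have hpow : ∀ d : ℕ, 0 < d → d < q → g ^ d ∉ C := by
    intro d hd0 hdq hd
    apply hgC
    apply Cfsg.Agent.Lib.Helper7_Class.mem_of_pow_mem_of_coprime C g (a := d) (b := q ^ k) _ hd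
    · rw [← hk, pow_orderOf_eq_one]
      exact one_mem _
    · apply Nat.Coprime.pow_right
      rw [Nat.coprime_comm, Nat.Prime.coprime_iff_not_dvd hq]
      intro hdv
      exact absurd (Nat.le_of_dvd hd0 hdv) (by omega)
  have hpow2 : ∀ i j : ℕ, i < q → j < q → (g ^ i)⁻¹ * g ^ j ∈ C → i = j := by
    intro i j hi hj hmem
    by_contra hne
    rcases Nat.lt_or_gt_of_ne hne with hlt | hlt
    · apply hpow (j - i) (by omega) (by omega)
      have e : g ^ (j - i) = (g ^ i)⁻¹ * g ^ j := by
        rw [eq_inv_mul_iff_mul_eq, ← pow_add]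
        congr 1
        omega
      rw [e]
      exact hmem
    · apply hpow (i - j) (by omega) (by omega)
      have e : g ^ (i - j) = ((g ^ i)⁻¹ * g ^ j)⁻¹ := by
        rw [mul_inv_rev, inv_inv, eq_inv_mul_iff_mul_eq, ← pow_add]
        congr 1
        omega
      rw [e]
      exact inv_mem hmem
  have hinj : Function.Injective (fun i : Fin q => (QuotientGroup.mk (g ^ (i : ℕ)) : G ⧸ C)) := by
    intro i j hij
    apply Fin.ext
    exact hpow2 i j i.2 j.2 (QuotientGroup.eq.mp hij)
  have hsurj := (hinj.bijective_of_nat_card_le (by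
    rw [← Subgroup.index_eq_card, Nat.card_eq_fintype_card, Fintype.card_fin])).2
  set E := Subgroup.centralizer ({g} : Set G) with hE
  have hgK : g ∉ K := fun h => hgC (hKC h)
  have hKE : K ≤ E := hb g hgK
  have hEC : E ⊓ C ≤ K := by
    intro e he
    show ∀ b : G, b * e * b⁻¹ ∈ C
    intro b
    obtain ⟨i, hi⟩ := hsurj (QuotientGroup.mk b⁻¹)
    have h1 : (g ^ (i : ℕ))⁻¹ * b⁻¹ ∈ C := QuotientGroup.eq.mp hi
    have h2 : e * g = g * e := Subgroup.mem_centralizer_singleton_iff.mp he.1
    have h3 : e * g ^ (i : ℕ) = g ^ (i : ℕ) * e := (Commute.pow_right (show Commute e g from h2) _).eq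
    have e1 : b * e * b⁻¹ = ((g ^ (i : ℕ))⁻¹ * b⁻¹)⁻¹ * e * ((g ^ (i : ℕ))⁻¹ * b⁻¹) := by
      have h4 : (g ^ (i : ℕ)) * e * (g ^ (i : ℕ))⁻¹ = e := by
        rw [← h3]; group
      calc b * e * b⁻¹ = b * ((g ^ (i : ℕ)) * e * (g ^ (i : ℕ))⁻¹) * b⁻¹ := by rw [h4]
        _ = _ := by group
    rw [e1]
    exact mul_mem (mul_mem (inv_mem h1) he.2) h1
  have hKinf : K = E ⊓ C := le_antisymm (le_inf hKE hKC) hEC
  have hrel : K.relIndex E = q := by
    rw [hKinf, Subgroup.inf_relIndex_left]
    apply le_antisymm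
    · have := Subgroup.relIndex_le_of_le_right (H := C) (le_top : E ≤ ⊤) (by
        rw [Subgroup.relIndex_top_right]; exact hq.ne_zero)
      rwa [Subgroup.relIndex_top_right] at this
    · have hgE : ∀ i : ℕ, g ^ i ∈ E := fun i => pow_mem (by
        rw [hE, Subgroup.mem_centralizer_singleton_iff]) i
      have hinj2 : Function.Injective (fun i : Fin q =>
          (QuotientGroup.mk (⟨g ^ (i : ℕ), hgE i⟩ : ↥E) : ↥E ⧸ C.subgroupOf E)) := by
        intro i j hij
        apply Fin.ext
        have h1 := QuotientGroup.eq.mp hij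
        rw [Subgroup.mem_subgroupOf] at h1
        exact hpow2 i j i.2 j.2 (by simpa using h1)
      have := Nat.card_le_card_of_injective _ hinj2
      rw [Nat.card_eq_fintype_card, Fintype.card_fin] at this
      exact this
  have hr := hprime g hgK
  have hidx : Nat.card (G ⧸ Subgroup.center G) = q * E.index := by
    rw [← Subgroup.index_eq_card, ← hKeq, ← Subgroup.relIndex_mul_index hKE, hrel]
  have hnc : ¬ IsMulCommutative (G ⧸ Subgroup.center G) := fun hc =>
    hx (normal_of_quotient_comm C hZC hc)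
  refine ⟨q, E.index, hq, hr, ?_, hidx, hnc⟩
  intro e
  apply hnc
  apply IsPGroup.isMulCommutative_of_card_eq_prime_sq (p := q)
  rw [hidx, ← e, sq]

end Cfsg.Agent.S4314
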