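import Cfsg.Statements.S4421

import Cfsg.Agent.Lib.Helper7_Conj
set_option autoImplicit false
open Cfsg

namespace Cfsg.Agent.S4421

open Cfsg.Agent.Lib.Helper7_Conj

/-- A factorization of a normalizer from two-step control of fusion. Let `G` be a finite group and `A ≤ S ≤ H` subgroups of `G` such that: (i) `S` controls the `G`-fusion of `A` in the sense that every `G`-conjugate of `A` lying in `S` is an `S`-conjugate of `A`; (ii) `H` controls the `G`-fusion of `S` in the same sense; (iii) every conjugate of `S` by an element of the normalizer of `A` lies in `H`. Then `N_G(A) = N_H(A) · (N_G(S) ∩ N_G(A))`: every element of the normalizer of `A` is a product of an element of `H` normalizing `A` and an element normalizing both `S` and `A`. -/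
theorem result {G : Type*} [Group G] [Finite G] (A S H : Subgroup G)
    (hAS : A ≤ S) (hSH : S ≤ H)
    (h1 : ∀ g : G, A.map (MulAut.conj g).toMonoidHom ≤ S → ∃ s ∈ S, A.map (MulAut.conj g).toMonoidHom = A.map (MulAut.conj s).toMonoidHom)
    (h2 : ∀ g : G, S.map (MulAut.conj g).toMonoidHom ≤ H → ∃ y ∈ H, S.map (MulAut.conj g).toMonoidHom = S.map (MulAut.conj y).toMonoidHom)
    (h3 : ∀ x ∈ Subgroup.normalizer (A : Set G), S.map (MulAut.conj x).toMonoidHom ≤ H) :
    ∀ x ∈ Subgroup.normalizer (A : Set G), ∃ y ∈ H ⊓ Subgroup.normalizer (A : Set G),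
      ∃ z ∈ Subgroup.normalizer (S : Set G) ⊓ Subgroup.normalizer (A : Set G), x = y * z := by
  intro x hx
  have hxA : A.map (MulAut.conj x).toMonoidHom = A := mem_normalizer_iff_cj.1 hx
  obtain ⟨y0, hy0H, hy0⟩ := h2 x (h3 x hx)
  -- y0⁻¹ A y0 ≤ S
  have h4 : A.map (MulAut.conj y0⁻¹).toMonoidHom ≤ S := by
    rw [cj_le_iff, inv_inv, ← hy0]
    calc A = A.map (MulAut.conj x).toMonoidHom := hxA.symm
      _ ≤ S.map (MulAut.conj x).toMonoidHom := cj_mono hAS
  obtain ⟨s, hsS, hs⟩ := h1 y0⁻¹ h4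
  have hyA : y0 * s ∈ Subgroup.normalizer (A : Set G) := by
    rw [mem_normalizer_iff_cj, cj_mul, ← hs, cj_cj_inv]
  have hwS : y0⁻¹ * x ∈ Subgroup.normalizer (S : Set G) := by
    rw [mem_normalizer_iff_cj, cj_mul, hy0, cj_inv_cj]
  refine ⟨y0 * s, Subgroup.mem_inf.2 ⟨mul_mem hy0H (hSH hsS), hyA⟩, (y0 * s)⁻¹ * x,
    Subgroup.mem_inf.2 ⟨?_, ?_⟩, by group⟩
  · have : (y0 * s)⁻¹ * x = s⁻¹ * (y0⁻¹ * x) := by group
    rw [this]
    exact mul_mem (inv_mem (Subgroup.le_normalizer hsS)) hwS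
  · exact mul_mem (inv_mem hyA) hx

end Cfsg.Agent.S4421
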