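import Cfsg.Statements.S4422

set_option autoImplicit false
open Cfsg

namespace Cfsg.Agent.S4422


/-- Primitive divisors of `q^e - 1` are congruent to 1 modulo `e`. Let `q ≥ 2` and `e ≥ 1` be natural numbers and let `m` be a divisor of `q^e - 1` that is coprime to `q^i - 1` for every `1 ≤ i < e` (so `m` divides the primitive part of `q^e - 1`, the largest such divisor). Then `m ≡ 1 (mod e)`. -/
theorem result (q e m : ℕ) (hq : 2 ≤ q) (he : 1 ≤ e)
    (hm : m ∣ q ^ e - 1) (hcop : ∀ i : ℕ, 1 ≤ i → i < e → Nat.Coprime m (q ^ i - 1)) :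
    m % e = 1 % e := by
  have hqe2 : 2 ≤ q ^ e := by
    calc 2 ≤ q := hq
      _ = q ^ 1 := (pow_one q).symm
      _ ≤ q ^ e := Nat.pow_le_pow_right (by omega) he
  have hm0 : m ≠ 0 := by
    rintro rfl
    have := Nat.eq_zero_of_zero_dvd hm
    omega
  have hprime : ∀ p : ℕ, p.Prime → p ∣ m → p ≡ 1 [MOD e] := by
    intro p hp hpm
    haveI : Fact p.Prime := ⟨hp⟩
    have hpow : ∀ i : ℕ, (q : ZMod p) ^ i = 1 ↔ p ∣ q ^ i - 1 := by
      intro i
      have h1 : 1 ≤ q ^ i := Nat.one_le_pow _ _ (by omega)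
      rw [← (Nat.modEq_iff_dvd' h1), ← ZMod.natCast_eq_natCast_iff]
      push_cast
      exact eq_comm
    have h1 : (q : ZMod p) ^ e = 1 := (hpow e).2 (hpm.trans hm)
    have hq0 : (q : ZMod p) ≠ 0 := by
      intro h
      rw [h, zero_pow (by omega)] at h1
      exact zero_ne_one h1
    have hd : orderOf (q : ZMod p) ∣ e := orderOf_dvd_of_pow_eq_one h1
    have hdpos : 0 < orderOf (q : ZMod p) := Nat.pos_of_dvd_of_pos hd (by omega)
    have hde : orderOf (q : ZMod p) = e := by
      by_contra hne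
      have hlt : orderOf (q : ZMod p) < e := lt_of_le_of_ne (Nat.le_of_dvd (by omega) hd) hne
      have hc := hcop _ hdpos hlt
      have h2 : p ∣ q ^ orderOf (q : ZMod p) - 1 := (hpow _).1 (pow_orderOf_eq_one _)
      have := Nat.dvd_gcd hpm h2
      rw [hc] at this
      exact hp.one_lt.ne' (Nat.dvd_one.1 this)
    have h3 : e ∣ p - 1 := hde ▸ ZMod.orderOf_dvd_card_sub_one hq0
    exact ((Nat.modEq_iff_dvd' hp.one_le).2 h3).symm
  have hgen : ∀ n : ℕ, n ≠ 0 → (∀ p : ℕ, p.Prime → p ∣ n → p ≡ 1 [MOD e]) → n ≡ 1 [MOD e] := by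
    intro n
    induction n using Nat.recOnMul with
    | zero => intro h; exact absurd rfl h
    | one => intro _ _; rfl
    | prime p hp => intro _ h; exact h p hp dvd_rfl
    | mul a b iha ihb =>
      intro hab h
      have ha : a ≠ 0 := fun h => hab (by simp [h])
      have hb : b ≠ 0 := fun h => hab (by simp [h])
      have := (iha ha (fun p hp hpa => h p hp (hpa.mul_right b))).mul
        (ihb hb (fun p hp hpb => h p hp (hpb.mul_left a)))
      simpa using this
  exact hgen m hm0 hprime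

end Cfsg.Agent.S4422
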