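import Cfsg.Statements.S4424
import Cfsg.Agent.Lib.helper8_RegularPart

set_option autoImplicit false
open Cfsg Cfsg.Agent.Lib.CharBasic Cfsg.Agent.Lib.CharOrtho Cfsg.Agent.Lib.CharComplete
  Cfsg.Agent.Lib.CharMore Cfsg.Agent.Lib.CharGen Cfsg.Agent.Lib.helper8_Defect
  Cfsg.Agent.Lib.Helper2_BlockLocal Cfsg.Agent.Lib.Helper2_BlockOm
  Cfsg.Agent.Lib.helper8_BlockSum Cfsg.Agent.Lib.helper8_BlockRank
  Cfsg.Agent.Lib.helper8_RegularPart

namespace Cfsg.Agent.S4424

/-- Let χ be an irreducible character of the finite group G lying in the p-block B (relative to a maximal ideal M of the algebraic integers containing p), and let p^a be the p-part of the order of G. Then the class function that equals p^a · χ on the p-regular elements and vanishes on the p-singular elements is an integer combination of the irreducible characters in B: there are integers a_ψ, zero for ψ outside B, with that function equal to Σ a_ψ ψ. -/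
theorem result {G : Type*} [Group G] [Finite G] (p : ℕ) [Fact p.Prime] (M : Ideal Cfsg.AlgInt) (hM : Cfsg.IsPModular p M) (B : Set (Cfsg.IrrCharacter G)) (hB : Cfsg.IsPBlock M B) (χ : Cfsg.IrrCharacter G) (hχ : χ ∈ B) : ∃ a : Cfsg.IrrCharacter G → ℤ, (∀ ψ, ψ ∉ B → a ψ = 0) ∧ (fun x : G => if p ∣ orderOf x then (0 : ℂ) else ((p ^ (Nat.card G).factorization p : ℕ) : ℂ) * (χ : G → ℂ) x) = fun x => ∑ᶠ ψ : Cfsg.IrrCharacter G, (a ψ : ℂ) * (ψ : G → ℂ) x := by
  classical
  have := Fintype.ofFinite G
  have hp : p.Prime := Fact.out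
  have hgen := isGen_regular hp (isGen_of_isCharacter (isCharacter_of_isIrr χ.2))
  obtain ⟨z, hz, hexp⟩ := exists_int_mult hgen
  refine ⟨z, ?_, ?_⟩
  · intro ψ hψ
    have h1 : classInner (fun x => ((p ^ (Nat.card G).factorization p : ℕ) : ℂ) *
        pRegularPart p (χ : G → ℂ) x) (ψ : G → ℂ) =
        ((p ^ (Nat.card G).factorization p : ℕ) : ℂ) *
          classInner (pRegularPart p (χ : G → ℂ)) (ψ : G → ℂ) := classInner_smul_left _ _ _
    have h2 := hz ψ
    rw [h1, classInner_regular_eq_zero hM hB hχ hψ, mul_zero] at h2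
    exact_mod_cast h2.symm
  · ext x
    have h1 := congrFun hexp x
    rw [finsum_eq_sum_of_fintype]
    rw [Finset.sum_apply] at h1
    simp only [Pi.smul_apply, smul_eq_mul] at h1
    rw [← h1]
    split_ifs with hx
    · rw [pRegularPart_singular _ hx, mul_zero]
    · rw [pRegularPart_regular _ hx]

end Cfsg.Agent.S4424
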