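import Cfsg.Statements.S4425
import Cfsg.Agent.Lib.helper8_RegularPart

set_option autoImplicit false
open Cfsg Cfsg.Agent.Lib.CharBasic Cfsg.Agent.Lib.CharOrtho Cfsg.Agent.Lib.CharComplete
  Cfsg.Agent.Lib.CharMore Cfsg.Agent.Lib.CharGen Cfsg.Agent.Lib.helper8_Defect
  Cfsg.Agent.Lib.Helper2_BlockLocal Cfsg.Agent.Lib.Helper2_BlockOm
  Cfsg.Agent.Lib.helper8_BlockSum Cfsg.Agent.Lib.helper8_BlockRank
  Cfsg.Agent.Lib.helper8_RegularPart

namespace Cfsg.Agent.S4425

/-- Let χ be an irreducible character of the finite group G, p a prime, p^a the p-part of the order of G and p^b the p-part of the degree χ(1). Let χ̃ be the class function equal to p^a · χ on p-regular elements and zero on p-singular elements. Then p^(−b) · χ̃ is a generalized character of G, while p^(−(b+1)) · χ̃ is not. -/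
theorem result {G : Type*} [Group G] [Finite G] (p : ℕ) [Fact p.Prime] (χ : Cfsg.IrrCharacter G) : Cfsg.IsGeneralizedCharacter G (fun x : G => if p ∣ orderOf x then (0 : ℂ) else ((p ^ ((Nat.card G).factorization p - (Cfsg.charDegree (χ : G → ℂ)).factorization p) : ℕ) : ℂ) * (χ : G → ℂ) x) ∧ ¬ Cfsg.IsGeneralizedCharacter G (fun x : G => if p ∣ orderOf x then (0 : ℂ) else ((p ^ (Nat.card G).factorization p : ℕ) : ℂ) / ((p ^ ((Cfsg.charDegree (χ : G → ℂ)).factorization p + 1) : ℕ) : ℂ) * (χ : G → ℂ) x) := by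
  classical
  have := Fintype.ofFinite G
  have hp : p.Prime := Fact.out
  obtain ⟨hd0, hd1, hd2⟩ := irr_charDegree χ.2
  constructor
  · convert isGen_regular_height hp χ using 1
    ext x
    split_ifs with hx
    · rw [pRegularPart_singular _ hx, mul_zero]
    · rw [pRegularPart_regular _ hx]
  · intro hgen
    obtain ⟨α, β, hα, hβ, hθ⟩ := hgen
    obtain ⟨P⟩ : Nonempty (Sylow p G) := inferInstance
    have := Fintype.ofFinite (P : Subgroup G)
    have h1 := sum_pgroup_of_vanish hp (α - β) (by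
      intro y hy
      rw [← hθ]
      simp only [if_pos hy]) (P : Subgroup G) P.2
    obtain ⟨m1, hm1⟩ := sum_subgroup_nat hα (P : Subgroup G)
    obtain ⟨m2, hm2⟩ := sum_subgroup_nat hβ (P : Subgroup G)
    simp only [Pi.sub_apply, Finset.sum_sub_distrib] at h1
    rw [hm1, hm2] at h1
    have h2 := congrFun hθ 1
    have h11 : ¬ p ∣ orderOf (1 : G) := by
      rw [orderOf_one]; exact fun h => hp.one_lt.ne' (Nat.dvd_one.mp h)
    simp only [if_neg h11, Pi.sub_apply] at h2
    rw [← h2, hd1, P.card_eq_multiplicity] at h1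
    set a := (Nat.card G).factorization p
    set d := charDegree (χ : G → ℂ)
    set h := d.factorization p
    have hpa : ((p ^ a : ℕ) : ℂ) ≠ 0 := by exact_mod_cast (pow_pos hp.pos _).ne'
    have hph : ((p ^ (h + 1) : ℕ) : ℂ) ≠ 0 := by exact_mod_cast (pow_pos hp.pos _).ne'
    have h3 : (d : ℂ) = ((p ^ (h + 1) : ℕ) : ℂ) * ((m1 : ℂ) - (m2 : ℂ)) := by
      have h4 : ((p ^ a : ℕ) : ℂ) * ((m1 : ℂ) - (m2 : ℂ)) =
          ((p ^ a : ℕ) : ℂ) * ((d : ℂ) / ((p ^ (h + 1) : ℕ) : ℂ)) := by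
        rw [mul_sub, h1]; ring
      have h5 := mul_left_cancel₀ hpa h4
      rw [h5]; field_simp
    have h4 : (d : ℤ) = ((p ^ (h + 1) : ℕ) : ℤ) * ((m1 : ℤ) - (m2 : ℤ)) := by exact_mod_cast h3
    have h5 : ((p ^ (h + 1) : ℕ) : ℤ) ∣ (d : ℤ) := ⟨_, h4⟩
    have h6 : p ^ (h + 1) ∣ d := by exact_mod_cast h5
    exact Nat.pow_succ_factorization_not_dvd hd0.ne' hp h6

end Cfsg.Agent.S4425
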