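import Cfsg.Statements.S4426
import Cfsg.Agent.Lib.helper8_Height

set_option autoImplicit false
open Cfsg Cfsg.Agent.Lib.helper8_Height Cfsg.Agent.Lib.Helper2_BlockLocal Cfsg.Agent.Lib.helper8_BlockSum
  Cfsg.Agent.Lib.helper8_BlockRank Cfsg.Agent.Lib.Helper2_BlockOm

namespace Cfsg.Agent.S4426

/-- Let χ be an irreducible character in the p-block B of the finite group G (relative to a maximal ideal M of the algebraic integers containing p), let p^a be the p-part of the order of G, and let χ̃ be the class function equal to p^a · χ on p-regular elements and zero elsewhere. For ξ ∈ B the inner product [χ̃, ξ] is an integer. The following are equivalent: (a) χ has height zero in B; (b) for some ξ ∈ B the integer [χ̃, ξ] is nonzero and the exact power of p dividing it equals the exact power of p dividing ξ(1); (c) the same holds for every ξ ∈ B. -/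
theorem result {G : Type*} [Group G] [Fintype G] (p : ℕ) [Fact p.Prime] (M : Ideal Cfsg.AlgInt) (hM : Cfsg.IsPModular p M) (B : Set (Cfsg.IrrCharacter G)) (hB : Cfsg.IsPBlock M B) (χ : Cfsg.IrrCharacter G) (hχ : χ ∈ B) : (Cfsg.blockHeight p B (χ : G → ℂ) = 0 ↔ ∃ ξ ∈ B, ∃ n : ℤ, Cfsg.classInner (fun x : G => if p ∣ orderOf x then (0 : ℂ) else ((p ^ (Nat.card G).factorization p : ℕ) : ℂ) * (χ : G → ℂ) x) (ξ : G → ℂ) = (n : ℂ) ∧ n ≠ 0 ∧ padicValInt p n = (Cfsg.charDegree (ξ : G → ℂ)).factorization p) ∧ (Cfsg.blockHeight p B (χ : G → ℂ) = 0 ↔ ∀ ξ ∈ B, ∃ n : ℤ, Cfsg.classInner (fun x : G => if p ∣ orderOf x then (0 : ℂ) else ((p ^ (Nat.card G).factorization p : ℕ) : ℂ) * (χ : G → ℂ) x) (ξ : G → ℂ) = (n : ℂ) ∧ n ≠ 0 ∧ padicValInt p n = (Cfsg.charDegree (ξ : G → ℂ)).factorization p) := by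
  classical
  have hP := isPrime_of_modular hM
  have hp := hM.1
  set f : G → ℂ := fun x : G => if p ∣ orderOf x then (0 : ℂ) else
    ((p ^ (Nat.card G).factorization p : ℕ) : ℂ) * (χ : G → ℂ) x with hf
  have hfe : ∀ ξ : IrrCharacter G, classInner f (ξ : G → ℂ) = (nn hp χ ξ : ℂ) := by
    intro ξ
    rw [nn_spec, ← Cfsg.Agent.Lib.CharOrtho.classInner_smul_left]
    congr 1
    ext x
    simp only [hf, Pi.smul_apply, smul_eq_mul]
    by_cases hx : p ∣ orderOf x
    · rw [if_pos hx, pRegularPart_singular _ hx, mul_zero]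
    · rw [if_neg hx, pRegularPart_regular _ hx]
  have hPiff : ∀ ξ : IrrCharacter G, (∃ n : ℤ, classInner f (ξ : G → ℂ) = (n : ℂ) ∧ n ≠ 0 ∧
      padicValInt p n = (charDegree (ξ : G → ℂ)).factorization p) ↔
      ¬ (p : ℤ) ^ (ee p ξ + 1) ∣ nn hp χ ξ := by
    intro ξ
    have hd := dvd_nn' hp χ ξ
    rw [padicValInt_dvd_iff] at hd
    rw [padicValInt_dvd_iff]
    constructor
    · rintro ⟨n, hn, hn0, hv⟩
      rw [hfe] at hn
      have : nn hp χ ξ = n := by exact_mod_cast hn
      rw [this]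
      push Not
      refine ⟨hn0, ?_⟩
      rw [hv]
      exact Nat.lt_succ_self _
    · intro h
      push Not at h
      refine ⟨nn hp χ ξ, hfe ξ, h.1, ?_⟩
      have h1 := hd.resolve_left h.1
      have h2 := h.2
      change _ = ee p ξ
      omega
  have hh : blockHeight p B (χ : G → ℂ) = 0 ↔ ∀ ψ ∈ B, ee p χ ≤ ee p ψ := by
    rw [blockHeight_eq]
    constructor
    · intro h ψ hψ
      have := mu_le p hψ
      omega
    · intro h
      obtain ⟨χ0, hχ0, h0⟩ := exists_min hP p hB
      have := h χ0 hχ0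
      omega
  simp only [hPiff]
  constructor
  · rw [hh]
    constructor
    · intro h
      exact ⟨χ, hχ, height_zero_val hM hB hχ hχ h⟩
    · rintro ⟨ξ, hξ, h⟩
      exact height_zero_of_val hM hB hχ hξ h
  · rw [hh]
    constructor
    · intro h ξ hξ
      exact height_zero_val hM hB hχ hξ h
    · intro h
      exact height_zero_of_val hM hB hχ hχ (h χ hχ)

end Cfsg.Agent.S4426
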