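import Cfsg.Statements.S4428
import Cfsg.Agent.Lib.helper8_Height2
import Cfsg.Agent.Lib.Helper2_BlockSection

set_option autoImplicit false
open Cfsg Cfsg.Agent.Lib.helper8_Height Cfsg.Agent.Lib.helper8_Height2 Cfsg.Agent.Lib.Helper2_BlockLocal Cfsg.Agent.Lib.helper8_BlockSum
  Cfsg.Agent.Lib.helper8_BlockRank Cfsg.Agent.Lib.Helper2_BlockOm Cfsg.Agent.Lib.CharBasic Cfsg.Agent.Lib.CharOrtho
  Cfsg.Agent.Lib.CharMore Cfsg.Agent.Lib.helper8_RegularPart Cfsg.Agent.Lib.helper8_Defect
open scoped ComplexConjugate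

namespace Cfsg.Agent.S4428

theorem Om_ideal {G : Type*} [Group G] [Fintype G] {M : Ideal AlgInt} (hP : M.IsPrime) {c : G → ℂ}
    (hc : IsClassFunction G c) (hJ : ∀ g, MemLocalIdeal M (c g)) {χ : G → ℂ}
    (hχ : IsIrrCharacter G χ) : MemLocalIdeal M (Om c χ) := by
  rw [Om_eq_sum_classes hc (isClassFunction_of_isCharacter (isCharacter_of_isIrr hχ))]
  exact ideal_sum hP _ _ fun C _ =>
    ideal_mul_right hP (hJ _) (ring_of_isIntegral hP (centralChar_isIntegral hχ _))

open Classical in
theorem blockPart_apply {G : Type*} [Group G] [Fintype G] (B : Set (IrrCharacter G)) (ϑ : G → ℂ)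
    (g : G) : blockPart B ϑ g = ∑ χ ∈ Finset.univ.filter (fun χ : IrrCharacter G => χ ∈ B),
      classInner ϑ (χ : G → ℂ) * (χ : G → ℂ) g := by
  classical
  unfold blockPart
  rw [finsum_block]
  refine Finset.sum_congr (by congr!) fun χ _ => ?_
  congr!

/-- If the `b`-part of `ϑ` vanishes on the regular elements, `ϑ` is orthogonal to the regular parts
of the members of `b`. -/
theorem inner_eq_zero {H : Type*} [Group H] [Fintype H] {p : ℕ} {M : Ideal AlgInt}
    (hM : IsPModular p M) {b : Set (IrrCharacter H)} (hb : IsPBlock M b) {ψ : IrrCharacter H}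
    (hψ : ψ ∈ b) (ϑ : H → ℂ) (h : ∀ y : H, ¬ p ∣ orderOf y → blockPart b ϑ y = 0) :
    classInner (pRegularPart p (ψ : H → ℂ)) ϑ = 0 := by
  classical
  have hcf := pRegularPart_classFunction p
    (isClassFunction_of_isCharacter (isCharacter_of_isIrr ψ.2))
  have h0 : classInner (pRegularPart p (ψ : H → ℂ)) (blockPart b ϑ) = 0 := by
    unfold classInner
    rw [Finset.sum_eq_zero, mul_zero]
    intro y _
    by_cases hy : p ∣ orderOf y
    · rw [pRegularPart_singular _ hy, zero_mul]
    · rw [h y hy, map_zero, mul_zero]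
  have h1 : blockPart b ϑ = ∑ χ ∈ Finset.univ.filter (fun χ : IrrCharacter H => χ ∈ b),
      classInner ϑ (χ : H → ℂ) • (χ : H → ℂ) := by
    ext g
    rw [blockPart_apply, Finset.sum_apply]
    refine Finset.sum_congr (by congr!) fun χ _ => rfl
  rw [h1, classInner_sum_right] at h0
  rw [classInner_eq_sum _ _ hcf, ← h0, Finset.sum_filter]
  refine Finset.sum_congr rfl fun φ _ => ?_
  split_ifs with hφ
  · rw [classInner_smul_right, mul_comm]
  · rw [classInner_regular_eq_zero hM hb hψ hφ, zero_mul]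

theorem core {G : Type*} [Group G] [Fintype G] (p : ℕ) [Fact p.Prime] (M : Ideal Cfsg.AlgInt)
    (hM : Cfsg.IsPModular p M) (B : Set (Cfsg.IrrCharacter G)) (hB : Cfsg.IsPBlock M B)
    (χ : Cfsg.IrrCharacter G) (hχ : χ ∈ B) (h0 : Cfsg.blockHeight p B (χ : G → ℂ) = 0) (x : G)
    (hx : ∃ k : ℕ, orderOf x = p ^ k) (H : Subgroup G) (hH : H = Subgroup.centralizer ({x} : Set G))
    (b : Set (Cfsg.IrrCharacter H)) (hb : Cfsg.IsInducedBlock M H b B) :
    ∃ y : H, ¬ p ∣ orderOf y ∧
      Cfsg.blockPart b (fun c : H => (χ : G → ℂ) (x * (c : G))) y ≠ 0 := by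
  classical
  have hP := isPrime_of_modular hM
  by_contra hcon
  push Not at hcon
  obtain ⟨ψ, hψ⟩ := block_nonempty hP hb.1
  set ϑ : H → ℂ := fun c => (χ : G → ℂ) (x * (c : G)) with hϑ
  have hχc := isCharacter_of_isIrr χ.2
  have hA := inner_eq_zero hM hb.1 hψ ϑ hcon
  -- the difference function
  set δ : H → ℂ := pRegularPart p (fun h : H => (χ : G → ℂ) (x * (h : G)⁻¹) - (χ : G → ℂ) (h : G)⁻¹)
    with hδ
  have hδc : IsClassFunction H δ := by
    apply pRegularPart_classFunction
    intro h t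
    have ht := Subgroup.mem_centralizer_singleton_iff.mp (by rw [← hH]; exact t.2)
    have hcf := isClassFunction_of_isCharacter hχc
    have e1 : x * ((t * h * t⁻¹ : H) : G)⁻¹ = (t : G) * (x * (h : G)⁻¹) * (t : G)⁻¹ := by
      simp only [Subgroup.coe_mul, Subgroup.coe_inv, mul_inv_rev, inv_inv]
      calc x * ((t : G) * ((h : G)⁻¹ * (t : G)⁻¹)) = (x * (t : G)) * ((h : G)⁻¹ * (t : G)⁻¹) := by
            group
        _ = ((t : G) * x) * ((h : G)⁻¹ * (t : G)⁻¹) := by rw [ht]
        _ = _ := by group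
    have e2 : ((t * h * t⁻¹ : H) : G)⁻¹ = (t : G) * (h : G)⁻¹ * (t : G)⁻¹ := by
      simp only [Subgroup.coe_mul, Subgroup.coe_inv, mul_inv_rev, inv_inv]
      group
    show (χ : G → ℂ) (x * ((t * h * t⁻¹ : H) : G)⁻¹) - (χ : G → ℂ) ((t * h * t⁻¹ : H) : G)⁻¹ = _
    rw [e1, e2, hcf, hcf]
  have hδJ : ∀ h : H, MemLocalIdeal M (δ h) := by
    intro h
    by_cases hh : p ∣ orderOf h
    · rw [hδ, pRegularPart_singular _ hh]; exact ideal_zero hP
    · rw [hδ, pRegularPart_regular _ hh]
      have hc : Commute x (h : G)⁻¹ := by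
        have := Subgroup.mem_centralizer_singleton_iff.mp (by rw [← hH]; exact h.2)
        exact (Commute.inv_right (show Commute x (h : G) from this.symm))
      have := Cfsg.Agent.Lib.Helper2_BlockSection.char_congr_pPart hM hχc hc hx
        (by rw [orderOf_inv, Subgroup.orderOf_coe]; exact hh)
      exact ideal_sub_comm this
  have hOm := Om_ideal hP hδc hδJ ψ.2
  -- `Om δ ψ = - QH`
  have key : Om δ (ψ : H → ℂ) = - QH p H ψ χ := by
    have h1 : ∑ h : H, pRegularPart p ϑ h * conj ((ψ : H → ℂ) h) = 0 := by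
      have h2 := inner_regular_symm (p := p) ϑ (ψ : H → ℂ)
      rw [hA, map_zero] at h2
      unfold classInner at h2
      have hHc : (Nat.card H : ℂ)⁻¹ ≠ 0 := inv_ne_zero (by exact_mod_cast Nat.card_pos.ne')
      exact (mul_eq_zero.mp h2).resolve_left hHc
    unfold QH Om
    rw [← neg_div]
    congr 1
    rw [← Equiv.sum_comp (Equiv.inv H)] at h1
    rw [eq_neg_iff_add_eq_zero, ← Finset.sum_add_distrib, ← h1]
    refine Finset.sum_congr rfl fun h _ => ?_
    simp only [Equiv.inv_apply]
    have ho : orderOf (h⁻¹ : H) = orderOf h := orderOf_inv h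
    have ho' : orderOf (h : G) = orderOf h := Subgroup.orderOf_coe h
    by_cases hh : p ∣ orderOf h
    · rw [hδ, pRegularPart_singular _ hh, pRegularPart_singular _ (by rw [ho']; exact hh),
        pRegularPart_singular _ (by rw [ho]; exact hh)]
      simp
    · rw [hδ, pRegularPart_regular _ hh, pRegularPart_regular _ (by rw [ho']; exact hh),
        pRegularPart_regular _ (by rw [ho]; exact hh),
        inv_of_isCharacter (isCharacter_of_isIrr ψ.2), Complex.conj_conj,
        ← inv_of_isCharacter hχc]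
      simp only [hϑ, Subgroup.coe_inv]
      ring
  rw [key] at hOm
  have := ideal_neg hOm
  rw [neg_neg] at this
  exact QH_unit hM hb hψ hχ h0 this


/-- Let χ be an irreducible character of height zero in the p-block B of the finite group G (relative to a maximal ideal M of the algebraic integers containing p). Let x be a p-element of G with centralizer C, and let b be a block of C that induces B. Form the class function ϑ(c) = χ(x c) on C and its b-part (the sum over ψ ∈ b of the inner product of ϑ with ψ, times ψ). Then the b-part of ϑ does not vanish identically on the p-regular elements of C. (Compare the second main Theorem, which gives vanishing when b does not induce B.) -/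
theorem result {G : Type*} [Group G] [Finite G] (p : ℕ) [Fact p.Prime] (M : Ideal Cfsg.AlgInt) (hM : Cfsg.IsPModular p M) (B : Set (Cfsg.IrrCharacter G)) (hB : Cfsg.IsPBlock M B) (χ : Cfsg.IrrCharacter G) (hχ : χ ∈ B) (h0 : Cfsg.blockHeight p B (χ : G → ℂ) = 0) (x : G) (hx : ∃ k : ℕ, orderOf x = p ^ k) (b : Set (Cfsg.IrrCharacter (Subgroup.centralizer ({x} : Set G)))) (hb : Cfsg.IsInducedBlock M (Subgroup.centralizer ({x} : Set G)) b B) : ∃ y : Subgroup.centralizer ({x} : Set G), ¬ p ∣ orderOf y ∧ Cfsg.blockPart b (fun c : Subgroup.centralizer ({x} : Set G) => (χ : G → ℂ) (x * (c : G))) y ≠ 0 := by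
  have := Fintype.ofFinite G
  exact core p M hM B hB χ hχ h0 x hx _ rfl b hb

end Cfsg.Agent.S4428
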