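import Cfsg.Statements.S4430
import Cfsg.Agent.Lib.helper8_BlockSum
import Cfsg.Agent.Lib.Helper2_BlockInd

set_option autoImplicit false
open Cfsg Cfsg.Agent.Lib.CharBasic Cfsg.Agent.Lib.CharOrtho Cfsg.Agent.Lib.CharComplete
  Cfsg.Agent.Lib.CharMore Cfsg.Agent.Lib.CharInd Cfsg.Agent.Lib.helper8_Defect
  Cfsg.Agent.Lib.Helper2_BlockLocal Cfsg.Agent.Lib.Helper2_BlockOm Cfsg.Agent.Lib.Helper2_BlockOsima
  Cfsg.Agent.Lib.Helper2_BlockBasic Cfsg.Agent.Lib.Helper2_BlockInd Cfsg.Agent.Lib.helper8_BlockSum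

namespace Cfsg.Agent.S4430

theorem split_cast (N p a e : ℕ) (he : N.factorization p = a + e) :
    (N : ℂ) = (p : ℂ) ^ a * ((p : ℂ) ^ e * ((N / p ^ N.factorization p : ℕ) : ℂ)) := by
  have h := Nat.ordProj_mul_ordCompl_eq_self N p
  generalize N / p ^ N.factorization p = c at h ⊢
  rw [he] at h
  rw [← h]; push_cast; rw [pow_add]; ring

theorem val_of_ideal {p : ℕ} {M : Ideal AlgInt} (hM : IsPModular p M) {n N : ℕ} (hN : N ≠ 0)
    (h : MemLocalIdeal M ((n : ℂ) / (N : ℂ))) : n = 0 ∨ N.factorization p < n.factorization p := by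
  have hP := isPrime_of_modular hM
  have hp := hM.1
  by_contra hcon
  push Not at hcon
  obtain ⟨hn, hle⟩ := hcon
  obtain ⟨e, he⟩ := Nat.exists_eq_add_of_le hle
  have h1 : ¬ p ∣ n / p ^ n.factorization p := Nat.not_dvd_ordCompl hp hn
  apply h1
  rw [← ideal_natCast_iff hM]
  have hNC : (N : ℂ) ≠ 0 := by exact_mod_cast hN
  have hp0 : (p : ℂ) ≠ 0 := by exact_mod_cast hp.ne_zero
  have e1 : (n : ℂ) = (p : ℂ) ^ n.factorization p * ((n / p ^ n.factorization p : ℕ) : ℂ) := by
    conv_lhs => rw [← Nat.ordProj_mul_ordCompl_eq_self n p]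
    push_cast; rfl
  have e2 : (N : ℂ) = (p : ℂ) ^ n.factorization p * ((p : ℂ) ^ e *
      ((N / p ^ N.factorization p : ℕ) : ℂ)) := by
    exact split_cast N p _ e he
  have e3 : ((n / p ^ n.factorization p : ℕ) : ℂ) = ((p : ℂ) ^ e *
      ((N / p ^ N.factorization p : ℕ) : ℂ)) * ((n : ℂ) / (N : ℂ)) := by
    have h2 : (p : ℂ) ^ n.factorization p * ((n / p ^ n.factorization p : ℕ) : ℂ) =
        (p : ℂ) ^ n.factorization p * (((p : ℂ) ^ e *
          ((N / p ^ N.factorization p : ℕ) : ℂ)) * ((n : ℂ) / (N : ℂ))) := by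
      rw [← e1, ← mul_assoc, ← e2]; field_simp
    exact mul_left_cancel₀ (pow_ne_zero _ hp0) h2
  rw [e3]
  exact ideal_mul_left hP (ring_mul hP (ring_pow hP (ring_natCast hP p) e) (ring_natCast hP _)) h

theorem val_of_unit {p : ℕ} {M : Ideal AlgInt} (hM : IsPModular p M) {n N : ℕ} (hN : N ≠ 0)
    (h : MemLocalIdeal M ((n : ℂ) / (N : ℂ) - 1)) : n ≠ 0 ∧ n.factorization p = N.factorization p := by
  have hP := isPrime_of_modular hM
  have hp := hM.1
  have hNC : (N : ℂ) ≠ 0 := by exact_mod_cast hN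
  have hn : n ≠ 0 := by
    rintro rfl
    apply not_ideal_one hP
    have := ideal_neg h
    simpa using this
  have hnC : (n : ℂ) ≠ 0 := by exact_mod_cast hn
  refine ⟨hn, ?_⟩
  have hu : ¬ MemLocalIdeal M ((n : ℂ) / (N : ℂ)) := by
    intro h2
    apply not_ideal_one hP
    have := ideal_sub hP h2 h
    simpa using this
  have hr : MemLocalRing M ((n : ℂ) / (N : ℂ)) := by
    have := ring_add hP (ideal_ring h) (ring_one hP)
    simpa using this
  have hu' : ¬ MemLocalIdeal M ((N : ℂ) / (n : ℂ)) := by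
    have := not_ideal_inv hP hr hu
    rwa [inv_div] at this
  have h1 : ¬ N.factorization p < n.factorization p := by
    intro hlt
    apply hu
    -- n / N lies in the ideal
    by_contra hcon
    obtain ⟨e, he⟩ := Nat.exists_eq_add_of_lt hlt
    have hp0 : (p : ℂ) ≠ 0 := by exact_mod_cast hp.ne_zero
    have hN' : ¬ p ∣ N / p ^ N.factorization p := Nat.not_dvd_ordCompl hp hN
    have hN'0 : ((N / p ^ N.factorization p : ℕ) : ℂ) ≠ 0 := by
      intro h0
      have : N / p ^ N.factorization p = 0 := by exact_mod_cast h0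
      exact hN' (this ▸ dvd_zero p)
    apply hcon
    have e1 : (n : ℂ) = (p : ℂ) ^ N.factorization p * ((p : ℂ) ^ (e + 1) *
        ((n / p ^ n.factorization p : ℕ) : ℂ)) := by
      exact split_cast n p _ (e + 1) (by rw [he, add_assoc])
    have e2 : (N : ℂ) = (p : ℂ) ^ N.factorization p * ((N / p ^ N.factorization p : ℕ) : ℂ) := by
      conv_lhs => rw [← Nat.ordProj_mul_ordCompl_eq_self N p]
      push_cast; rfl
    have e3 : (n : ℂ) / (N : ℂ) = (p : ℂ) * ((p : ℂ) ^ e * ((n / p ^ n.factorization p : ℕ) : ℂ) *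
        ((N / p ^ N.factorization p : ℕ) : ℂ)⁻¹) := by
      rw [e1, e2]
      have := pow_ne_zero (N.factorization p) hp0
      field_simp
      ring
    rw [e3]
    exact ideal_mul_right hP ((ideal_natCast_iff hM p).mpr dvd_rfl)
      (ring_mul hP (ring_mul hP (ring_pow hP (ring_natCast hP p) e) (ring_natCast hP _))
        (ring_inv_natCast hM hN'))
  have h2 : ¬ n.factorization p < N.factorization p := by
    intro hlt
    have h3 : ¬ (N = 0 ∨ n.factorization p < N.factorization p) → False := fun h => h (Or.inr hlt)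
    -- N / n lies in the ideal
    apply hu'
    obtain ⟨e, he⟩ := Nat.exists_eq_add_of_lt hlt
    have hp0 : (p : ℂ) ≠ 0 := by exact_mod_cast hp.ne_zero
    have hn' : ¬ p ∣ n / p ^ n.factorization p := Nat.not_dvd_ordCompl hp hn
    have hn'0 : ((n / p ^ n.factorization p : ℕ) : ℂ) ≠ 0 := by
      intro h0
      have : n / p ^ n.factorization p = 0 := by exact_mod_cast h0
      exact hn' (this ▸ dvd_zero p)
    have e1 : (N : ℂ) = (p : ℂ) ^ n.factorization p * ((p : ℂ) ^ (e + 1) *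
        ((N / p ^ N.factorization p : ℕ) : ℂ)) := by
      exact split_cast N p _ (e + 1) (by rw [he, add_assoc])
    have e2 : (n : ℂ) = (p : ℂ) ^ n.factorization p * ((n / p ^ n.factorization p : ℕ) : ℂ) := by
      conv_lhs => rw [← Nat.ordProj_mul_ordCompl_eq_self n p]
      push_cast; rfl
    have e3 : (N : ℂ) / (n : ℂ) = (p : ℂ) * ((p : ℂ) ^ e * ((N / p ^ N.factorization p : ℕ) : ℂ) *
        ((n / p ^ n.factorization p : ℕ) : ℂ)⁻¹) := by
      rw [e1, e2]
      have := pow_ne_zero (n.factorization p) hp0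
      field_simp
      ring
    rw [e3]
    exact ideal_mul_right hP ((ideal_natCast_iff hM p).mpr dvd_rfl)
      (ring_mul hP (ring_mul hP (ring_pow hP (ring_natCast hP p) e) (ring_natCast hP _))
        (ring_inv_natCast hM hn'))
  omega

theorem blockPart_one {G : Type*} [Group G] [Fintype G] (B : Set (IrrCharacter G)) {Φ : G → ℂ}
    (hΦ : IsCharacter G Φ) (h1 : Φ 1 ≠ 0) :
    ∃ n : ℕ, blockPart B Φ 1 = n ∧ Om (blockCoeff B) Φ = (n : ℂ) / Φ 1 := by
  classical
  obtain ⟨m, hm, -⟩ := exists_mult hΦ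
  refine ⟨∑ χ ∈ Finset.univ.filter (fun χ : IrrCharacter G => χ ∈ B),
    m χ * charDegree (χ : G → ℂ), ?_, ?_⟩
  · unfold blockPart
    rw [finsum_block]
    push_cast
    refine Finset.sum_congr (by congr) fun χ _ => ?_
    rw [(irr_charDegree χ.2).2.1, ← hm χ]
    congr!
  · unfold Om
    rw [sum_mul_classFunction _ _ (isClassFunction_of_isCharacter hΦ)]
    congr 1
    push_cast
    rw [Finset.sum_filter]
    refine Finset.sum_congr rfl fun χ _ => ?_
    rw [Om_blockCoeff, hm χ, (irr_charDegree χ.2).2.1]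
    split_ifs <;> ring

/-- Let H be a subgroup of the finite group G, b a block of H whose induced block B₀ in G is defined (relative to a maximal ideal M of the algebraic integers containing p), and ξ ∈ b. For a block B of G let n_B be the value at 1 of the B-part of the induced character ξ^G (a natural number: the sum over χ ∈ B of the multiplicity of χ in ξ^G times χ(1)). Then for B = B₀ the exact power of p dividing n_B equals the exact power of p dividing ξ^G(1), while for every other block B either n_B = 0 or n_B is divisible by a strictly higher power of p than ξ^G(1). -/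
theorem result {G : Type*} [Group G] [Fintype G] (p : ℕ) [Fact p.Prime] (M : Ideal Cfsg.AlgInt) (hM : Cfsg.IsPModular p M) (H : Subgroup G) [Fintype H] (b : Set (Cfsg.IrrCharacter H)) (B₀ : Set (Cfsg.IrrCharacter G)) (hind : Cfsg.IsInducedBlock M H b B₀) (ξ : Cfsg.IrrCharacter H) (hξ : ξ ∈ b) : (∃ n : ℕ, Cfsg.blockPart B₀ (Cfsg.indFun H (ξ : H → ℂ)) 1 = (n : ℂ) ∧ n ≠ 0 ∧ n.factorization p = (Cfsg.charDegree (Cfsg.indFun H (ξ : H → ℂ))).factorization p) ∧ ∀ B : Set (Cfsg.IrrCharacter G), Cfsg.IsPBlock M B → B ≠ B₀ → ∃ n : ℕ, Cfsg.blockPart B (Cfsg.indFun H (ξ : H → ℂ)) 1 = (n : ℂ) ∧ (n = 0 ∨ (Cfsg.charDegree (Cfsg.indFun H (ξ : H → ℂ))).factorization p < n.factorization p) := by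
  classical
  have hp : p.Prime := Fact.out
  have hPr := isPrime_of_modular hM
  set Φ := indFun H (ξ : H → ℂ) with hΦdef
  have hΦ : IsCharacter G Φ := isCharacter_indFun H _ (isCharacter_of_isIrr ξ.2)
  obtain ⟨hd0, hd1, -⟩ := irr_charDegree ξ.2
  have hΦ1 : Φ 1 = ((H.index * charDegree (ξ : H → ℂ) : ℕ) : ℂ) := by
    rw [hΦdef, indFun_one, hd1]; push_cast; rfl
  have hN0 : H.index * charDegree (ξ : H → ℂ) ≠ 0 :=
    Nat.mul_ne_zero Subgroup.index_ne_zero_of_finite hd0.ne'
  have hΦ10 : Φ 1 ≠ 0 := by rw [hΦ1]; exact_mod_cast hN0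
  have hdeg : charDegree Φ = H.index * charDegree (ξ : H → ℂ) := charDegree_of_eq hΦ1
  obtain ⟨χ₀, hχ₀⟩ := block_nonempty hPr hind.2.1
  have hsame := sameBlock_ind_of_induced hind hξ hχ₀
  have hcong : ∀ B : Set (IrrCharacter G), IsPBlock M B →
      MemLocalIdeal M (Om (blockCoeff B) Φ - Om (blockCoeff B) (χ₀ : G → ℂ)) := fun B hB =>
    Om_congr hPr (blockCoeff_classFunction B) (osima_block hPr hB)
      (isClassFunction_of_isCharacter hΦ) (irr_classFunction χ₀) hsame
  constructor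
  · obtain ⟨n, hn, hOm⟩ := blockPart_one B₀ hΦ hΦ10
    have h1 := hcong B₀ hind.2.1
    rw [Om_blockCoeff, if_pos hχ₀, hOm, hΦ1] at h1
    obtain ⟨h2, h3⟩ := val_of_unit hM hN0 h1
    exact ⟨n, hn, h2, by rw [h3, hdeg]⟩
  · intro B hB hne
    obtain ⟨n, hn, hOm⟩ := blockPart_one B hΦ hΦ10
    have hχB : χ₀ ∉ B := by
      intro h
      apply hne
      rw [block_eq_blockOf hPr hB h, block_eq_blockOf hPr hind.2.1 hχ₀]
    have h1 := hcong B hB
    rw [Om_blockCoeff, if_neg hχB, sub_zero, hOm, hΦ1] at h1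
    refine ⟨n, hn, ?_⟩
    rw [hdeg]
    exact val_of_ideal hM hN0 h1

end Cfsg.Agent.S4430
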