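import Cfsg.Statements.S4431
import Cfsg.Agent.Lib.helper8_Height2

set_option autoImplicit false
open Cfsg Cfsg.Agent.Lib.helper8_Height Cfsg.Agent.Lib.helper8_Height2 Cfsg.Agent.Lib.Helper2_BlockLocal Cfsg.Agent.Lib.helper8_BlockSum
  Cfsg.Agent.Lib.helper8_BlockRank Cfsg.Agent.Lib.Helper2_BlockOm

namespace Cfsg.Agent.S4431

/-- Let H be a subgroup of the finite group G and b a block of H whose induced block B₀ in G is defined (relative to a maximal ideal M of the algebraic integers containing p). Let χ be an irreducible character of G, ψ ∈ b, and let η be the class function on H equal to p^a · χ on the p-regular elements of H and zero elsewhere, p^a being the p-part of the order of H. Then (a) if χ ∉ B₀, the number [η, ψ]/ψ(1) lies in the local ideal at M; (b) if χ ∈ B₀ has height zero, it does not. -/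
theorem result {G : Type*} [Group G] [Fintype G] (p : ℕ) [Fact p.Prime] (M : Ideal Cfsg.AlgInt) (hM : Cfsg.IsPModular p M) (H : Subgroup G) [Fintype H] (b : Set (Cfsg.IrrCharacter H)) (B₀ : Set (Cfsg.IrrCharacter G)) (hind : Cfsg.IsInducedBlock M H b B₀) (χ : Cfsg.IrrCharacter G) (ψ : Cfsg.IrrCharacter H) (hψ : ψ ∈ b) : (χ ∉ B₀ → Cfsg.MemLocalIdeal M (Cfsg.classInner (fun h : H => if p ∣ orderOf h then (0 : ℂ) else ((p ^ (Nat.card H).factorization p : ℕ) : ℂ) * (χ : G → ℂ) h) (ψ : H → ℂ) / (ψ : H → ℂ) 1)) ∧ (χ ∈ B₀ → Cfsg.blockHeight p B₀ (χ : G → ℂ) = 0 → ¬ Cfsg.MemLocalIdeal M (Cfsg.classInner (fun h : H => if p ∣ orderOf h then (0 : ℂ) else ((p ^ (Nat.card H).factorization p : ℕ) : ℂ) * (χ : G → ℂ) h) (ψ : H → ℂ) / (ψ : H → ℂ) 1)) := by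
  classical
  have hP := isPrime_of_modular hM
  have hp := hM.1
  set q := classInner (fun h : H => if p ∣ orderOf h then (0 : ℂ) else
    ((p ^ (Nat.card H).factorization p : ℕ) : ℂ) * (χ : G → ℂ) h) (ψ : H → ℂ) / (ψ : H → ℂ) 1 with hq
  set m := Nat.card H / p ^ (Nat.card H).factorization p with hm
  have hmp : ¬ p ∣ m := Nat.not_dvd_ordCompl hp Nat.card_pos.ne'
  have hm0 : (m : ℂ) ≠ 0 := by
    intro h0
    have : m = 0 := by exact_mod_cast h0
    exact hmp (this ▸ dvd_zero p)
  have key : QH p H ψ χ = (m : ℂ) * q := by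
    rw [QH_eq, hq]
    have e1 : (fun h : H => if p ∣ orderOf h then (0 : ℂ) else
        ((p ^ (Nat.card H).factorization p : ℕ) : ℂ) * (χ : G → ℂ) h) =
        ((p ^ (Nat.card H).factorization p : ℕ) : ℂ) •
          pRegularPart p (fun h : H => (χ : G → ℂ) h) := by
      ext h
      simp only [Pi.smul_apply, smul_eq_mul]
      by_cases hx : p ∣ orderOf h
      · rw [if_pos hx, pRegularPart_singular _ hx, mul_zero]
      · rw [if_neg hx, pRegularPart_regular _ hx]
    rw [e1, Cfsg.Agent.Lib.CharOrtho.classInner_smul_left]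
    have e2 : (Nat.card H : ℂ) = (m : ℂ) * ((p ^ (Nat.card H).factorization p : ℕ) : ℂ) := by
      rw [← Nat.cast_mul, hm, mul_comm, Nat.ordProj_mul_ordCompl_eq_self]
    rw [e2]
    ring
  constructor
  · intro hχ
    have h1 := QH_ideal hM hind hψ hχ
    have h2 : q = (m : ℂ)⁻¹ * QH p H ψ χ := by
      rw [key]; field_simp
    rw [h2]
    exact ideal_mul_left hP (ring_inv_natCast hM hmp) h1
  · intro hχ h0 hcon
    apply QH_unit hM hind hψ hχ h0
    rw [key]
    exact ideal_mul_left hP (ring_natCast hP m) hcon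

end Cfsg.Agent.S4431
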