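import Cfsg.Statements.S4433
import Mathlib
import Mathlib
import Cfsg.Agent.Lib.Helper2_BlockMinMax
import Cfsg.Agent.Lib.Helper2_BlockDefect
import Cfsg.Agent.Lib.Helper2_BlockFMT
import Cfsg.Agent.Lib.CharQuot


set_option autoImplicit false
open Cfsg

namespace Cfsg.Agent.S4433

open Cfsg Cfsg.Agent.Lib.Helper2_BlockLocal Cfsg.Agent.Lib.Helper2_BlockOm
  Cfsg.Agent.Lib.Helper2_BlockBasic Cfsg.Agent.Lib.Helper2_BlockMinMax
  Cfsg.Agent.Lib.Helper2_BlockDefect Cfsg.Agent.Lib.Helper2_BlockFMT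
  Cfsg.Agent.Lib.CharBasic Cfsg.Agent.Lib.CharOrtho
  Cfsg.Agent.Lib.CharComplete Cfsg.Agent.Lib.CharIntegral Cfsg.Agent.Lib.CharMore
  Cfsg.Agent.Lib.CharQuot
open scoped ComplexConjugate Pointwise

/-- Let N be a normal subgroup of the finite group G and write Ḡ = G/N; fix a maximal ideal M of the algebraic integers containing p. Let B̄ be a block of Ḡ contained in the block B of G, in the sense that the inflation of every member of B̄ lies in B, and let D̄ be a defect group of B̄. Then B has a defect group P whose image in Ḡ contains D̄. -/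
theorem result {G : Type*} [Group G] [Finite G] (p : ℕ) [Fact p.Prime] (M : Ideal Cfsg.AlgInt) (hM : Cfsg.IsPModular p M) (N : Subgroup G) [N.Normal] (Bbar : Set (Cfsg.IrrCharacter (G ⧸ N))) (hBbar : Cfsg.IsPBlock M Bbar) (B : Set (Cfsg.IrrCharacter G)) (hB : Cfsg.IsPBlock M B) (hsub : ∀ χ ∈ Bbar, ∀ ψ : Cfsg.IrrCharacter G, (ψ : G → ℂ) = (χ : G ⧸ N → ℂ) ∘ QuotientGroup.mk → ψ ∈ B) (Dbar : Subgroup (G ⧸ N)) (hDbar : Cfsg.IsDefectGroup p M Bbar Dbar) : ∃ P : Subgroup G, Cfsg.IsDefectGroup p M B P ∧ Dbar ≤ P.map (QuotientGroup.mk' N) := by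
  classical
  haveI : Fintype G := Fintype.ofFinite G
  haveI : Fintype (G ⧸ N) := Fintype.ofFinite _
  have hPr := isPrime_of_modular hM
  have hp : p.Prime := Fact.out
  obtain ⟨x, hx⟩ := exists_defectClass hPr hB
  obtain ⟨ybar, hybar, Sbar, rfl⟩ := hDbar
  set xb : G ⧸ N := QuotientGroup.mk x with hxb
  set C := Subgroup.centralizer ({x} : Set G) with hC
  set Cb := Subgroup.centralizer ({xb} : Set (G ⧸ N)) with hCb
  set C' := Cb.comap (QuotientGroup.mk' N) with hC'
  have hCC' : C ≤ C' := by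
    intro g hg
    rw [hC', Subgroup.mem_comap, hCb, Subgroup.mem_centralizer_singleton_iff]
    rw [hC, Subgroup.mem_centralizer_singleton_iff] at hg
    have := congrArg (QuotientGroup.mk' N) hg
    simpa using this
  have hidx' : C'.index = Cb.index :=
    Subgroup.index_comap_of_surjective _ (QuotientGroup.mk'_surjective N)
  set r := C.relIndex C' with hr
  have hrel : r * Cb.index = C.index := by
    rw [← hidx']; exact Subgroup.relIndex_mul_index hCC'
  -- central characters
  have hcc : ∀ χb : IrrCharacter (G ⧸ N),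
      centralChar (fun g : G => (χb : G ⧸ N → ℂ) (QuotientGroup.mk g)) x =
        (r : ℂ) * centralChar (χb : G ⧸ N → ℂ) xb := by
    intro χb
    unfold centralChar
    rw [← hC, ← hCb, ← hrel]
    push_cast
    have : (χb : G ⧸ N → ℂ) (QuotientGroup.mk (1 : G)) = (χb : G ⧸ N → ℂ) 1 := rfl
    rw [this]
    ring
  have hunit : ∀ χb ∈ Bbar, ¬ MemLocalIdeal M
      (centralChar (fun g : G => (χb : G ⧸ N → ℂ) (QuotientGroup.mk g)) x) := by
    intro χb hχb
    exact hx.2.2 ⟨fun g : G => (χb : G ⧸ N → ℂ) (QuotientGroup.mk g), isIrr_inflate N χb.2⟩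
      (hsub χb hχb _ rfl)
  have hk : ∀ χb ∈ Bbar, ¬ MemLocalIdeal M (centralChar (χb : G ⧸ N → ℂ) xb) := by
    intro χb hχb h
    apply hunit χb hχb
    rw [hcc]
    exact ideal_mul_left hPr (ring_natCast hPr r) h
  have hpr : ¬ p ∣ r := by
    intro h
    obtain ⟨χb, hχb⟩ := block_nonempty hPr hBbar
    apply hunit χb hχb
    rw [hcc]
    exact ideal_mul_right hPr ((ideal_natCast_iff hM r).2 h) (centralChar_ring hPr χb xb)
  -- the Sylow subgroup
  obtain ⟨S₀⟩ : Nonempty (Sylow p C) := inferInstance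
  set P₀ := (S₀ : Subgroup C).map C.subtype with hP₀
  have hP₀D : IsDefectGroup p M B P₀ := ⟨x, hx, S₀, rfl⟩
  obtain ⟨hP₀C, hP₀card⟩ := (exists_sylow_map_iff (p := p) C P₀).1 ⟨S₀, rfl⟩
  have hcard : Nat.card C' = Nat.card C * r := by
    have h1 := Subgroup.card_mul_index C
    have h2 := Subgroup.card_mul_index C'
    rw [← hrel, ← hidx'] at h1
    have h3 : Nat.card C' * C'.index = (Nat.card C * r) * C'.index := by
      rw [h2, ← h1]; ring
    exact Nat.eq_of_mul_eq_mul_right (Nat.pos_of_ne_zero Subgroup.index_ne_zero_of_finite) h3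
  have hfac : (Nat.card C').factorization p = (Nat.card C).factorization p := by
    have hr0 : r ≠ 0 := by
      intro h0; apply hpr; rw [h0]; exact dvd_zero p
    rw [hcard, Nat.factorization_mul Nat.card_pos.ne' hr0, Finsupp.add_apply,
      Nat.factorization_eq_zero_of_not_dvd hpr, add_zero]
  obtain ⟨S', hS'⟩ := (exists_sylow_map_iff (p := p) C' P₀).2
    ⟨hP₀C.trans hCC', by rw [hfac]; exact hP₀card⟩
  have hf : Function.Surjective ((QuotientGroup.mk' N).subgroupComap Cb) :=
    MonoidHom.subgroupComap_surjective_of_surjective _ _ (QuotientGroup.mk'_surjective N)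
  obtain ⟨cb, hcb⟩ := minmax_a hM hBbar xb ybar hk hybar.2.1 (S'.mapSurjective hf)
    ((Sbar : Subgroup _).map (Subgroup.centralizer ({ybar} : Set (G ⧸ N))).subtype)
    (Sbar.2.map _) (by rintro _ ⟨a, -, rfl⟩; exact a.2)
  obtain ⟨c, rfl⟩ := QuotientGroup.mk_surjective cb
  refine ⟨P₀.map (MulAut.conj c).toMonoidHom, isDefectGroup_conj hP₀D c, ?_⟩
  refine hcb.trans (le_of_eq ?_)
  rw [Sylow.coe_mapSurjective, hS', Subgroup.map_map, Subgroup.map_map, Subgroup.map_map,
    Subgroup.map_map]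
  congr 1

end Cfsg.Agent.S4433
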