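import Cfsg.Statements.S4434
import Mathlib
import Mathlib
import Cfsg.Agent.Lib.Helper2_BlockMinMax
import Cfsg.Agent.Lib.Helper2_BlockDefect
import Cfsg.Agent.Lib.Helper2_BlockFMT
import Cfsg.Agent.Lib.Helper2_BlockBrauer
import Cfsg.Agent.Lib.Helper2_BlockSection
import Cfsg.Agent.Lib.BlockPC
import Cfsg.Agent.Lib.CharQuot


set_option autoImplicit false
open Cfsg

namespace Cfsg.Agent.S4434

open Cfsg Cfsg.Agent.Lib.Helper2_BlockLocal Cfsg.Agent.Lib.Helper2_BlockOm
  Cfsg.Agent.Lib.Helper2_BlockOsima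
  Cfsg.Agent.Lib.Helper2_BlockBasic Cfsg.Agent.Lib.Helper2_BlockMinMax
  Cfsg.Agent.Lib.Helper2_BlockDefect Cfsg.Agent.Lib.Helper2_BlockFMT
  Cfsg.Agent.Lib.Helper2_BlockBrauer Cfsg.Agent.Lib.Helper2_BlockPCore
  Cfsg.Agent.Lib.Helper2_BlockDefOrder Cfsg.Agent.Lib.Helper2_BlockSection
  Cfsg.Agent.Lib.BlockPC
  Cfsg.Agent.Lib.CharBasic Cfsg.Agent.Lib.CharOrtho
  Cfsg.Agent.Lib.CharComplete Cfsg.Agent.Lib.CharIntegral Cfsg.Agent.Lib.CharMore
  Cfsg.Agent.Lib.CharQuot
open scoped ComplexConjugate Pointwise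

noncomputable def infl {G : Type*} [Group G] [Finite G] (N : Subgroup G) [N.Normal]
    (ψ : IrrCharacter (G ⧸ N)) : IrrCharacter G :=
  ⟨fun g => (ψ : G ⧸ N → ℂ) (QuotientGroup.mk g), isIrr_inflate N ψ.2⟩

lemma defect_conj_eq {G : Type*} [Group G] [Finite G] {p : ℕ} [Fact p.Prime] {M : Ideal AlgInt}
    (hM : IsPModular p M) {B : Set (IrrCharacter G)} (hB : IsPBlock M B) {D D' : Subgroup G}
    (hD : IsDefectGroup p M B D) (hD' : IsDefectGroup p M B D') :
    ∃ c : G, D' = D.map (MulAut.conj c).toMonoidHom := by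
  obtain ⟨c, hc⟩ := defect_le_conj hM hB hD hD'
  refine ⟨c, Subgroup.eq_of_le_of_card_ge hc ?_⟩
  rw [card_defect_eq hM hB (isDefectGroup_conj hD c) hD']

lemma map_conj_mk {G : Type*} [Group G] (N : Subgroup G) [N.Normal] (P : Subgroup G) (c : G) :
    (P.map (MulAut.conj c).toMonoidHom).map (QuotientGroup.mk' N) =
      (P.map (QuotientGroup.mk' N)).map (MulAut.conj (QuotientGroup.mk c : G ⧸ N)).toMonoidHom := by
  rw [Subgroup.map_map, Subgroup.map_map]
  congr 1

lemma not_ideal_sum_of_single {M : Ideal AlgInt} (hPr : M.IsPrime) {ι : Type*} (s : Finset ι)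
    (f : ι → ℂ) (a : ι) (ha : a ∈ s) (hfa : ¬ MemLocalIdeal M (f a))
    (h : ∀ i ∈ s, i ≠ a → MemLocalIdeal M (f i)) : ¬ MemLocalIdeal M (∑ i ∈ s, f i) := by
  classical
  rw [← Finset.add_sum_erase s f ha]
  intro h1
  apply hfa
  have h2 : MemLocalIdeal M (∑ i ∈ s.erase a, f i) :=
    ideal_sum hPr _ _ fun i hi => h i (Finset.mem_erase.1 hi).2 (Finset.mem_erase.1 hi).1
  have h3 := ideal_sub hPr h1 h2
  rwa [add_sub_cancel_right] at h3

open scoped Classical in
/-- the image of a block idempotent in the quotient -/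
lemma push_blockCoeff {G : Type*} [Group G] [Fintype G] {p : ℕ} {M : Ideal AlgInt}
    (hM : IsPModular p M) (N : Subgroup G) [N.Normal] [Fintype (G ⧸ N)]
    {B : Set (IrrCharacter G)} (hB : IsPBlock M B) :
    push N (blockCoeff B) = ∑ b ∈ (blocks M (G ⧸ N)).filter
      (fun b => ∀ ψ ∈ b, infl N ψ ∈ B), blockCoeff b := by
  have hPr := isPrime_of_modular hM
  apply eq_of_Om_eq (push_classFunction N (blockCoeff_classFunction B))
    (classFunction_sum _ _ fun b _ => blockCoeff_classFunction b)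
  intro ψ
  rw [← Om_push, Om_sum]
  have e1 : Om (blockCoeff B) (fun g : G => (ψ : G ⧸ N → ℂ) (QuotientGroup.mk g)) =
      if infl N ψ ∈ B then 1 else 0 := Om_blockCoeff B (infl N ψ)
  rw [e1]
  simp only [Om_blockCoeff]
  by_cases h : infl N ψ ∈ B
  · rw [if_pos h, Finset.sum_eq_single (blockOf M (ψ : G ⧸ N → ℂ))]
    · rw [if_pos (self_mem_blockOf hPr ψ)]
    · intro b hb hne
      rw [if_neg]
      intro h2
      exact hne (block_eq_blockOf hPr (mem_blocks.mp (Finset.mem_filter.1 hb).1) h2)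
    · intro h2
      exfalso
      apply h2
      refine Finset.mem_filter.2 ⟨mem_blocks.mpr ⟨ψ, rfl⟩, ?_⟩
      intro φ hφ
      have h3 : SameBlock M (ψ : G ⧸ N → ℂ) (φ : G ⧸ N → ℂ) := hφ
      have h4 := sameBlock_inflate N hM (irr_classFunction ψ) (irr_classFunction φ) h3
      rw [block_eq_blockOf hPr hB h]
      exact h4
  · rw [if_neg h]
    symm
    apply Finset.sum_eq_zero
    intro b hb
    rw [if_neg]
    intro h2
    exact h ((Finset.mem_filter.1 hb).2 ψ h2)

/-- Let N be a normal p-subgroup of the finite group G and write Ḡ = G/N; fix a maximal ideal M of the algebraic integers containing p. Then every block B of G contains a block B̄ of Ḡ (the inflation of every member of B̄ lies in B) whose defect groups are exactly the images in Ḡ of the defect groups of B. -/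
theorem result {G : Type*} [Group G] [Finite G] (p : ℕ) [Fact p.Prime] (M : Ideal Cfsg.AlgInt) (hM : Cfsg.IsPModular p M) (N : Subgroup G) [N.Normal] (hN : IsPGroup p N) (B : Set (Cfsg.IrrCharacter G)) (hB : Cfsg.IsPBlock M B) : ∃ Bbar : Set (Cfsg.IrrCharacter (G ⧸ N)), Cfsg.IsPBlock M Bbar ∧ (∀ χ ∈ Bbar, ∀ ψ : Cfsg.IrrCharacter G, (ψ : G → ℂ) = (χ : G ⧸ N → ℂ) ∘ QuotientGroup.mk → ψ ∈ B) ∧ ∀ Dbar : Subgroup (G ⧸ N), Cfsg.IsDefectGroup p M Bbar Dbar ↔ ∃ P : Subgroup G, Cfsg.IsDefectGroup p M B P ∧ Dbar = P.map (QuotientGroup.mk' N) := by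
  classical
  haveI : Fintype G := Fintype.ofFinite G
  haveI : Fintype (G ⧸ N) := Fintype.ofFinite _
  have hPr := isPrime_of_modular hM
  have hp : p.Prime := Fact.out
  obtain ⟨x, hx⟩ := exists_defectClass hPr hB
  have hxreg : ¬ p ∣ orderOf x := regular_of_coeff hM hB hx.2.1
  set xb : G ⧸ N := QuotientGroup.mk x with hxb
  set C := Subgroup.centralizer ({x} : Set G) with hC
  set Cb := Subgroup.centralizer ({xb} : Set (G ⧸ N)) with hCb
  set C' := Cb.comap (QuotientGroup.mk' N) with hC'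
  obtain ⟨S₀⟩ : Nonempty (Sylow p C) := inferInstance
  set P₀ := (S₀ : Subgroup C).map C.subtype with hP₀
  have hP₀D : IsDefectGroup p M B P₀ := ⟨x, hx, S₀, rfl⟩
  obtain ⟨hP₀C, hP₀card⟩ := (exists_sylow_map_iff (p := p) C P₀).1 ⟨S₀, rfl⟩
  have hNP₀ : N ≤ P₀ := normal_pGroup_le_defect hM hB hP₀D N inferInstance hN
  have hxc : x ∈ Subgroup.centralizer (N : Set G) := by
    rw [Subgroup.mem_centralizer_iff]
    intro n hn
    have := hP₀C (hNP₀ hn)
    rw [hC, Subgroup.mem_centralizer_singleton_iff] at this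
    exact this
  have hC'eq : C' = C := comap_centralizer N hp hN hxc hxreg
  -- the push of the idempotent at the image of x
  have hpx : ¬ MemLocalIdeal M (push N (blockCoeff B) xb) := by
    unfold push
    refine not_ideal_sum_of_single hPr _ _ x ?_ hx.2.1 ?_
    · exact Finset.mem_filter.2 ⟨Finset.mem_univ x, rfl⟩
    intro g hg hne
    by_contra hcon
    have hgreg := regular_of_coeff hM hB hcon
    have hmk := (Finset.mem_filter.1 hg).2
    exact hne (regular_inj N hp hN hxc hxreg hgreg hmk.symm).symm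
  rw [push_blockCoeff hM N hB, Finset.sum_apply] at hpx
  obtain ⟨Bb, hBbF, hBbx⟩ : ∃ b ∈ (blocks M (G ⧸ N)).filter
      (fun b => ∀ ψ ∈ b, infl N ψ ∈ B), ¬ MemLocalIdeal M (blockCoeff b xb) := by
    by_contra hcon
    push Not at hcon
    exact hpx (ideal_sum hPr _ _ hcon)
  have hBb : IsPBlock M Bb := mem_blocks.mp (Finset.mem_filter.1 hBbF).1
  have hBbA : ∀ ψ ∈ Bb, infl N ψ ∈ B := (Finset.mem_filter.1 hBbF).2
  have hdc : IsDefectClass M Bb xb := by
    refine ⟨osima_block hPr hBb xb, hBbx, fun χb hχb => ?_⟩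
    rw [hxb, ← centralChar_inflate N hp hN hxc hxreg]
    exact hx.2.2 (infl N χb) (hBbA χb hχb)
  obtain ⟨S', hS'⟩ := (exists_sylow_map_iff (p := p) C' P₀).2
    ⟨by rw [hC'eq]; exact hP₀C, by rw [hC'eq]; exact hP₀card⟩
  have hf : Function.Surjective ((QuotientGroup.mk' N).subgroupComap Cb) :=
    MonoidHom.subgroupComap_surjective_of_surjective _ _ (QuotientGroup.mk'_surjective N)
  have hPb : IsDefectGroup p M Bb (P₀.map (QuotientGroup.mk' N)) := by
    have h1 : IsDefectGroup p M Bb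
        (((S'.mapSurjective hf : Sylow p Cb) : Subgroup Cb).map Cb.subtype) := ⟨xb, hdc, _, rfl⟩
    convert h1 using 1
    rw [Sylow.coe_mapSurjective, hS', Subgroup.map_map, Subgroup.map_map]
    congr 1
  refine ⟨Bb, hBb, ?_, ?_⟩
  · intro χ hχ ψ hψ
    have : ψ = infl N χ := Subtype.ext hψ
    rw [this]
    exact hBbA χ hχ
  · intro Dbar
    constructor
    · intro hD
      obtain ⟨cb, hcb⟩ := defect_conj_eq hM hBb hPb hD
      obtain ⟨c, rfl⟩ := QuotientGroup.mk_surjective cb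
      refine ⟨P₀.map (MulAut.conj c).toMonoidHom, isDefectGroup_conj hP₀D c, ?_⟩
      rw [hcb, map_conj_mk]
    · rintro ⟨P, hP, rfl⟩
      obtain ⟨c, rfl⟩ := defect_conj_eq hM hB hP₀D hP
      have h1 := isDefectGroup_conj hPb (QuotientGroup.mk c : G ⧸ N)
      rw [map_conj_mk]
      exact h1

end Cfsg.Agent.S4434
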