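import Cfsg.Statements.S4435
import Cfsg.Agent.Lib.BlockFR

set_option autoImplicit false
open Cfsg

namespace Cfsg.Agent.S4435

open Cfsg.Agent.Lib.Helper2_BlockLocal Cfsg.Agent.Lib.Helper2_BlockOm Cfsg.Agent.Lib.Helper2_BlockCover2 Cfsg.Agent.Lib.Helper2_BlockFMT Cfsg.Agent.Lib.BlockFR

/-- Let N be a normal subgroup of the finite group G, b a block of N (relative to a maximal ideal M of the algebraic integers containing p), and T the stabilizer of b in G (the elements g such that conjugating any member of b by g gives a member of b); N ≤ T. Say that a block of T (or of G) covers b when some member has a constituent in b on restriction to N. Then: (i) every block B′ of T covering b induces a block B of G, B covers b, every ψ ∈ B′ induces to an irreducible character of G, and B consists exactly of the characters induced from members of B′; (ii) distinct blocks of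 T covering b induce distinct blocks of G; (iii) every block of G covering b is induced by some block of T covering b. -/
theorem result {G : Type*} [Group G] [Fintype G] (p : ℕ) [Fact p.Prime] (M : Ideal Cfsg.AlgInt) (hM : Cfsg.IsPModular p M) (N : Subgroup G) [hN : N.Normal] [Fintype N] (b : Set (Cfsg.IrrCharacter N)) (hb : Cfsg.IsPBlock M b) (T : Subgroup G) [Fintype T] (hT : ∀ g : G, g ∈ T ↔ ∀ θ ∈ b, ∀ θ' : Cfsg.IrrCharacter N, (∀ n : N, (θ' : N → ℂ) n = (θ : N → ℂ) ⟨g * n * g⁻¹, hN.conj_mem n n.2 g⟩) → θ' ∈ b) (hNT : N ≤ T) : (∀ B' : Set (Cfsg.IrrCharacter T), Cfsg.IsPBlock M B' → (∃ ψ ∈ B', ∃ θ ∈ b, Cfsg.classInner (fun n : N => (ψ : T → ℂ) ⟨(n : G), hNT n.2⟩) (θ : N → ℂ) ≠ 0) → ∃ B : Set (Cfsg.IrrCharacter G), Cfsg.IsInducedBlock M T B' B ∧ (∃ χ ∈ B, ∃ θ ∈ b, Cfsg.classInner (fun n : N => (χ : G → ℂ) n) (θ : N → ℂ) ≠ 0) ∧ (∀ ψ ∈ B', Cfsg.IsIrrCharacter G (Cfsg.indFun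 T (ψ : T → ℂ))) ∧ ∀ χ : Cfsg.IrrCharacter G, χ ∈ B ↔ ∃ ψ ∈ B', (χ : G → ℂ) = Cfsg.indFun T (ψ : T → ℂ)) ∧ (∀ B'₁ B'₂ : Set (Cfsg.IrrCharacter T), Cfsg.IsPBlock M B'₁ → Cfsg.IsPBlock M B'₂ → (∃ ψ ∈ B'₁, ∃ θ ∈ b, Cfsg.classInner (fun n : N => (ψ : T → ℂ) ⟨(n : G), hNT n.2⟩) (θ : N → ℂ) ≠ 0) → (∃ ψ ∈ B'₂, ∃ θ ∈ b, Cfsg.classInner (fun n : N => (ψ : T → ℂ) ⟨(n : G), hNT n.2⟩) (θ : N → ℂ) ≠ 0) → ∀ B : Set (Cfsg.IrrCharacter G), Cfsg.IsInducedBlock M T B'₁ B → Cfsg.IsInducedBlock M T B'₂ B → B'₁ = B'₂) ∧ (∀ B : Set (Cfsg.IrrCharacter G), Cfsg.IsPBlock M B → (∃ χ ∈ B, ∃ θ ∈ b, Cfsg.classInner (fun n : N => (χ : G → ℂ) n) (θ : N → ℂ) ≠ 0) → ∃ B' : Set (Cfsg.IrrCharacter T), Cfsg.IsPBlock M B' ∧ (∃ ψ ∈ B', ∃ θ ∈ b, Cfsg.classInner (fun n : N => (ψ : T → ℂ) ⟨(n : G), hNT n.2⟩) (θ : N → ℂ) ≠ 0) ∧ Cfsg.IsInducedBlock M T B' B) := by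
  have hPr := isPrime_of_modular hM
  have hT' : ∀ g : G, g ∈ T ↔ ∀ θ ∈ b, conjIrr N hN g θ ∈ b := by
    intro g
    rw [hT g]
    constructor
    · intro h θ hθ
      exact h θ hθ (conjIrr N hN g θ) (fun n => rfl)
    · intro h θ hθ θ' hθ'
      have : θ' = conjIrr N hN g θ := Subtype.ext (funext hθ')
      rw [this]; exact h θ hθ
  have hcov : ∀ B' : Set (IrrCharacter T), (∃ ψ ∈ B', ∃ θ ∈ b, classInner (fun n : N => (ψ : T → ℂ) ⟨(n : G), hNT n.2⟩) (θ : N → ℂ) ≠ 0) → ∃ ψ ∈ B', OverB N b (ψ : T → ℂ) := by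
    rintro B' ⟨ψ, hψ, h⟩
    exact ⟨ψ, hψ, (overB_iff N hN hT' hNT ψ).mpr h⟩
  refine ⟨?_, ?_, ?_⟩
  · intro B' hB' hc
    obtain ⟨ψ0, hψ0, hov0⟩ := hcov B' hc
    have hall : ∀ ψ ∈ B', OverB N b (ψ : T → ℂ) := fun ψ hψ =>
      overB_of_sameBlock N hN hT' hNT hPr hb hov0 (sameBlock_of_mem hPr hB' hψ0 hψ)
    set χ0 : IrrCharacter G := ⟨indFun T (ψ0 : T → ℂ), irr_ind N hN hT' hNT hPr hb hov0⟩ with hχ0
    have hB'e := block_eq_blockOf hPr hB' hψ0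
    obtain ⟨θ0, hθ0, h0⟩ := over_ind N hN hT' hNT hPr hb hov0
    refine ⟨blockOf M (χ0 : G → ℂ), ?_, ⟨χ0, self_mem_blockOf hPr χ0, θ0, hθ0, h0⟩,
      fun ψ hψ => irr_ind N hN hT' hNT hPr hb (hall ψ hψ), ?_⟩
    · rw [hB'e]
      exact induced_blockOf hPr ψ0 χ0 rfl
    · intro χ
      constructor
      · intro hχ
        obtain ⟨δ, hδ, he⟩ := exists_ind_of_covers N hN hT' hNT hPr hb (χ0 := χ0) hχ hθ0 h0
        refine ⟨δ, ?_, he⟩
        rw [hB'e]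
        apply sameBlock_of_ind N hN hT' hNT hPr hb hov0 hδ
        rw [← he]
        exact hχ
      · rintro ⟨ψ, hψ, he⟩
        change SameBlock M (χ0 : G → ℂ) (χ : G → ℂ)
        rw [he]
        exact sameBlock_ind hPr (sameBlock_of_mem hPr hB' hψ0 hψ)
  · intro B1 B2 hB1 hB2 hc1 hc2 B hi1 hi2
    obtain ⟨ψ1, hψ1, hov1⟩ := hcov B1 hc1
    obtain ⟨ψ2, hψ2, hov2⟩ := hcov B2 hc2
    obtain ⟨χ, hχ⟩ := block_nonempty hPr hi1.2.1
    have h1 := sameBlock_of_induced hi1 hψ1 hχ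
    have h2 := sameBlock_of_induced hi2 hψ2 hχ
    have h3 : SameBlock M (indFun T (ψ1 : T → ℂ)) (indFun T (ψ2 : T → ℂ)) :=
      sameBlock_trans hPr h1 (sameBlock_symm h2)
    have h4 := sameBlock_of_ind N hN hT' hNT hPr hb hov1 hov2 h3
    have h5 : ψ2 ∈ B1 := by
      rw [block_eq_blockOf hPr hB1 hψ1]; exact h4
    exact block_eq_of_mem hPr hB1 hB2 h5 hψ2
  · rintro B hB ⟨χ, hχ, θ, hθ, h⟩
    obtain ⟨δ, hδ, he⟩ := ind_surj N hN hT' hNT hPr hb χ hθ h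
    refine ⟨blockOf M (δ : T → ℂ), ⟨δ, rfl⟩,
      ⟨δ, self_mem_blockOf hPr δ, (overB_iff N hN hT' hNT δ).mp hδ⟩, ?_⟩
    rw [block_eq_blockOf hPr hB hχ]
    exact induced_blockOf hPr δ χ he

end Cfsg.Agent.S4435
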