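import Cfsg.Statements.S4436
import Cfsg.Agent.Lib.BlockFR

set_option autoImplicit false
open Cfsg

namespace Cfsg.Agent.S4436

open Cfsg.Agent.Lib.Helper2_BlockLocal Cfsg.Agent.Lib.Helper2_BlockOm Cfsg.Agent.Lib.Helper2_BlockCover2 Cfsg.Agent.Lib.Helper2_BlockFMT Cfsg.Agent.Lib.Helper2_BlockDefect Cfsg.Agent.Lib.Helper2_BlockDefOrder Cfsg.Agent.Lib.BlockFR Cfsg.Agent.Lib.CharInd Cfsg.Agent.Lib.CharThompson Cfsg.Agent.Lib.CharMore Cfsg.Agent.Lib.CharBasic

/-- Let N be a normal subgroup of the finite group G, b a block of N (relative to a maximal ideal M of the algebraic integers containing p), T the stabilizer of b in G, N ≤ T, and B′ a block of T covering b (some member of B′ has a constituent in b on restriction to N) that induces the block B of G. Then every defect group of B′ is a defect group of B, and for every ψ ∈ B′ the induced character ψ^G is an irreducible character of G lying in B with the same height as ψ. -/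
theorem result {G : Type*} [Group G] [Fintype G] (p : ℕ) [Fact p.Prime] (M : Ideal Cfsg.AlgInt) (hM : Cfsg.IsPModular p M) (N : Subgroup G) [hN : N.Normal] [Fintype N] (b : Set (Cfsg.IrrCharacter N)) (hb : Cfsg.IsPBlock M b) (T : Subgroup G) [Fintype T] (hT : ∀ g : G, g ∈ T ↔ ∀ θ ∈ b, ∀ θ' : Cfsg.IrrCharacter N, (∀ n : N, (θ' : N → ℂ) n = (θ : N → ℂ) ⟨g * n * g⁻¹, hN.conj_mem n n.2 g⟩) → θ' ∈ b) (hNT : N ≤ T) (B' : Set (Cfsg.IrrCharacter T)) (hB' : Cfsg.IsPBlock M B') (hcov : (∃ ψ ∈ B', ∃ θ ∈ b, Cfsg.classInner (fun n : N => (ψ : T → ℂ) ⟨(n : G), hNT n.2⟩) (θ : N → ℂ) ≠ 0)) (B : Set (Cfsg.IrrCharacter G)) (hind : Cfsg.IsInducedBlock M T B' B) : (∀ D : Subgroup T, Cfsg.IsDefectGroup p M B' D → Cfsg.IsDefectGroup p M B (D.map T.subtype)) ∧ ∀ ψ ∈ B', ∃ χ ∈ B, (χ : G → ℂ) = Cfsg.indFun T (ψ : T → ℂ) ∧ Cfsg.blockHeight p B (χ : G → ℂ) = Cfsg.blockHeight p B' (ψ : T → ℂ) := by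
  have hPr := isPrime_of_modular hM
  have hp : p.Prime := Fact.out
  have hT' : ∀ g : G, g ∈ T ↔ ∀ θ ∈ b, conjIrr N hN g θ ∈ b := by
    intro g
    rw [hT g]
    constructor
    · intro h θ hθ
      exact h θ hθ (conjIrr N hN g θ) (fun n => rfl)
    · intro h θ hθ θ' hθ'
      have : θ' = conjIrr N hN g θ := Subtype.ext (funext hθ')
      rw [this]; exact h θ hθ
  have hB := hind.2.1
  obtain ⟨ψ0, hψ0, hc0⟩ := hcov
  have hov0 : OverB N b (ψ0 : T → ℂ) := (overB_iff N hN hT' hNT ψ0).mpr hc0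
  have hall : ∀ ψ ∈ B', OverB N b (ψ : T → ℂ) := fun ψ hψ =>
    overB_of_sameBlock N hN hT' hNT hPr hb hov0 (sameBlock_of_mem hPr hB' hψ0 hψ)
  have hup : ∀ ψ ∈ B', ∃ χ ∈ B, (χ : G → ℂ) = indFun T (ψ : T → ℂ) := by
    intro ψ hψ
    refine ⟨⟨indFun T (ψ : T → ℂ), irr_ind N hN hT' hNT hPr hb (hall ψ hψ)⟩, ?_, rfl⟩
    obtain ⟨χ, hχ⟩ := block_nonempty hPr hB
    rw [block_eq_blockOf hPr hB hχ]
    exact sameBlock_symm (sameBlock_of_induced hind hψ hχ)
  have hdown : ∀ χ ∈ B, ∃ ψ ∈ B', (χ : G → ℂ) = indFun T (ψ : T → ℂ) := by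
    intro χ hχ
    obtain ⟨χ0, hχ0, he0⟩ := hup ψ0 hψ0
    obtain ⟨θ0, hθ0, h0⟩ := over_ind N hN hT' hNT hPr hb hov0
    rw [← he0] at h0
    obtain ⟨δ, hδ, he⟩ := exists_ind_of_covers N hN hT' hNT hPr hb
      (sameBlock_of_mem hPr hB hχ0 hχ) hθ0 h0
    refine ⟨δ, ?_, he⟩
    rw [block_eq_blockOf hPr hB' hψ0]
    apply sameBlock_of_ind N hN hT' hNT hPr hb hov0 hδ
    rw [← he, ← he0]
    exact sameBlock_of_mem hPr hB hχ0 hχ
  set c := T.index.factorization p with hc
  have hidx : T.index ≠ 0 := Subgroup.index_ne_zero_of_finite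
  have hdeg : ∀ (χ : IrrCharacter G) (ψ : IrrCharacter T), (χ : G → ℂ) = indFun T (ψ : T → ℂ) →
      (charDegree (χ : G → ℂ)).factorization p = c + (charDegree (ψ : T → ℂ)).factorization p := by
    intro χ ψ he
    have h1 : (χ : G → ℂ) 1 = ((T.index * charDegree (ψ : T → ℂ) : ℕ) : ℂ) := by
      rw [he, indFun_one, charDegree_spec ψ.2]; push_cast; ring
    rw [charDegree_eq h1]
    have hd : charDegree (ψ : T → ℂ) ≠ 0 := by
      intro h
      have := charDegree_spec ψ.2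
      rw [h] at this
      exact irr_degree_ne_zero ψ.2 (by simpa using this)
    rw [Nat.factorization_mul hidx hd, Finsupp.add_apply]
  have hne' : ((fun ψ : IrrCharacter T => (charDegree (ψ : T → ℂ)).factorization p) '' B').Nonempty :=
    ⟨_, ψ0, hψ0, rfl⟩
  have hne : ((fun χ : IrrCharacter G => (charDegree (χ : G → ℂ)).factorization p) '' B).Nonempty := by
    obtain ⟨χ, hχ⟩ := block_nonempty hPr hB
    exact ⟨_, χ, hχ, rfl⟩
  have hinf : sInf ((fun χ : IrrCharacter G => (charDegree (χ : G → ℂ)).factorization p) '' B) =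
      c + sInf ((fun ψ : IrrCharacter T => (charDegree (ψ : T → ℂ)).factorization p) '' B') := by
    apply le_antisymm
    · obtain ⟨ψm, hψm, hm⟩ := Nat.sInf_mem hne'
      obtain ⟨χ, hχ, he⟩ := hup ψm hψm
      rw [← hm]
      simp only
      rw [← hdeg χ ψm he]
      exact Nat.sInf_le ⟨χ, hχ, rfl⟩
    · obtain ⟨χm, hχm, hm⟩ := Nat.sInf_mem hne
      obtain ⟨ψ, hψ, he⟩ := hdown χm hχm
      rw [← hm]
      simp only
      rw [hdeg χm ψ he]
      have h7 : sInf ((fun ψ : IrrCharacter T => (charDegree (ψ : T → ℂ)).factorization p) '' B') ≤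
          (charDegree (ψ : T → ℂ)).factorization p := Nat.sInf_le ⟨ψ, hψ, rfl⟩
      omega
  have hcard : (Nat.card G).factorization p = (Nat.card T).factorization p + c := by
    rw [← T.card_mul_index, Nat.factorization_mul Nat.card_pos.ne' hidx, Finsupp.add_apply]
  have hdef : blockDefect p B = blockDefect p B' := by
    unfold blockDefect
    rw [hinf, hcard]
    omega
  constructor
  · intro D hD
    obtain ⟨E, hE, hle⟩ := defect_le_of_induced hM hind hD
    have : D.map T.subtype = E := by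
      apply Subgroup.eq_of_le_of_card_ge hle
      rw [Subgroup.card_map_of_injective (Subgroup.subtype_injective _), card_defectGroup hM hB hE,
        card_defectGroup hM hB' hD, hdef]
    rw [this]; exact hE
  · intro ψ hψ
    obtain ⟨χ, hχ, he⟩ := hup ψ hψ
    refine ⟨χ, hχ, he, ?_⟩
    unfold blockHeight
    rw [hinf, hdeg χ ψ he]
    omega

end Cfsg.Agent.S4436
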