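import Cfsg.Statements.S4437
import Mathlib
import Mathlib
import Cfsg.Agent.Lib.Helper2_MaxPair


set_option autoImplicit false
open Cfsg

namespace Cfsg.Agent.S4437

/-- Let P be a p-subgroup of the finite group G, H = P·C_G(P), and b a block of H (relative to a maximal ideal M of the algebraic integers containing p) having P as a defect group; let B be the block of G induced by b. Let T be the stabilizer of b in N_G(P): the elements g of N_G(P) such that the g-conjugate of every member of b is again a member of b. Then B has defect group P if and only if p does not divide the index of H in T. -/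
theorem result {G : Type*} [Group G] [Fintype G] (p : ℕ) [Fact p.Prime] (M : Ideal Cfsg.AlgInt) (hM : Cfsg.IsPModular p M) (P : Subgroup G) (hP : IsPGroup p P) (H : Subgroup G) [Fintype H] (hH : H = P ⊔ Subgroup.centralizer (P : Set G)) (b : Set (Cfsg.IrrCharacter H)) (hb : Cfsg.IsPBlock M b) (hbP : Cfsg.IsDefectGroup p M b (P.subgroupOf H)) (B : Set (Cfsg.IrrCharacter G)) (hind : Cfsg.IsInducedBlock M H b B) (T : Subgroup G) (hT : ∀ g : G, g ∈ T ↔ (g ∈ Subgroup.normalizer (P : Set G) ∧ ∀ θ ∈ b, ∀ θ' : Cfsg.IrrCharacter H, (∀ h h' : H, (h' : G) = g * h * g⁻¹ → (θ' : H → ℂ) h' = (θ : H → ℂ) h) → θ' ∈ b)) : Cfsg.IsDefectGroup p M B P ↔ ¬ p ∣ H.relIndex T := by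
  classical
  have hPr := Cfsg.Agent.Lib.Helper2_BlockLocal.isPrime_of_modular hM
  subst hH
  have hPL : P ≤ P ⊔ Subgroup.centralizer (P : Set G) := le_sup_left
  have hKL : Subgroup.centralizer (P : Set G) ≤ P ⊔ Subgroup.centralizer (P : Set G) := le_sup_right
  have hLN : P ⊔ Subgroup.centralizer (P : Set G) ≤ Subgroup.normalizer (P : Set G) :=
    sup_le Subgroup.le_normalizer (Cfsg.Agent.Lib.Helper2_BlockFMT.centralizer_le_normalizer' P)
  obtain ⟨e, he, hbe, ξ, hξ, ζ, hζ, hOm⟩ :=
    Cfsg.Agent.Lib.Helper2_ExtFMT.exists_block_centralizer hM hP hPL hKL hLN le_rfl hb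
  have hBe := Cfsg.Agent.Lib.Helper2_ExtFMT.pairOf_of_induced hM hP hPL hLN hind he hξ hζ hOm
  have hsbc : subgroupBlockCoeff (P ⊔ Subgroup.centralizer (P : Set G)) b =
      subgroupBlockCoeff (Subgroup.centralizer (P : Set G)) e := by
    funext g
    by_cases hg : g ∈ P ⊔ Subgroup.centralizer (P : Set G)
    · have h1 := Cfsg.Agent.Lib.Helper2_BP1.sbc_coe _ b ⟨g, hg⟩
      simp only at h1
      rw [h1, hbe]
    · rw [Cfsg.Agent.Lib.Helper2_BP1.sbc_not_mem _ _ hg,
        Cfsg.Agent.Lib.Helper2_BP1.sbc_not_mem _ _ (fun h => hg (hKL h))]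
  have hTs : Cfsg.Agent.Lib.Helper2_BP13.IsStab P e T := by
    intro y
    rw [hT y]
    constructor
    · rintro ⟨h1, h2⟩
      have h3 := Cfsg.Agent.Lib.Helper2_ExtFMT.normalizer_le_normalizer_sup P h1
      rw [Cfsg.Agent.Lib.Helper2_MaxPair.stab_univ_iff h3,
        Cfsg.Agent.Lib.Helper2_BP2.stabilizes_iff_inv, hsbc] at h2
      refine ⟨h1, ?_⟩
      rw [Cfsg.Agent.Lib.Helper2_BP2.stabilizes_iff_inv]
      exact ⟨Cfsg.Agent.Lib.Helper2_BP2.normalizer_le_normalizer_centralizer P h1, h2.2⟩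
    · rintro ⟨h1, h2⟩
      have h3 := Cfsg.Agent.Lib.Helper2_ExtFMT.normalizer_le_normalizer_sup P h1
      refine ⟨h1, ?_⟩
      rw [Cfsg.Agent.Lib.Helper2_MaxPair.stab_univ_iff h3,
        Cfsg.Agent.Lib.Helper2_BP2.stabilizes_iff_inv, hsbc]
      rw [Cfsg.Agent.Lib.Helper2_BP2.stabilizes_iff_inv] at h2
      exact ⟨h3, h2.2⟩
  obtain ⟨hPT, hKT, hTN, hinv⟩ := Cfsg.Agent.Lib.Helper2_BP13.stab_facts hTs
  have hLT : P ⊔ Subgroup.centralizer (P : Set G) ≤ T := sup_le hPT hKT
  have hp : p.Prime := Fact.out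
  have hrel : (P ⊔ Subgroup.centralizer (P : Set G)).relIndex T *
      Nat.card (P ⊔ Subgroup.centralizer (P : Set G) : Subgroup G) = Nat.card T := by
    have := Subgroup.relIndex_mul_relIndex ⊥ _ T bot_le hLT
    rw [Subgroup.relIndex_bot_left, Subgroup.relIndex_bot_left] at this
    rw [mul_comm]
    exact this
  have hrel0 : (P ⊔ Subgroup.centralizer (P : Set G)).relIndex T ≠ 0 := by
    intro h
    rw [h, zero_mul] at hrel
    exact Nat.card_pos.ne' hrel.symm
  have hval : ((P ⊔ Subgroup.centralizer (P : Set G)).relIndex T).factorization p +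
      (Nat.card (P ⊔ Subgroup.centralizer (P : Set G) : Subgroup G)).factorization p =
      (Nat.card T).factorization p := by
    rw [← hrel, Nat.factorization_mul hrel0 Nat.card_pos.ne', Finsupp.add_apply]
  have hiff : ¬ p ∣ (P ⊔ Subgroup.centralizer (P : Set G)).relIndex T ↔
      (Nat.card T).factorization p ≤
        (Nat.card (P ⊔ Subgroup.centralizer (P : Set G) : Subgroup G)).factorization p := by
    constructor
    · intro h
      have := Nat.factorization_eq_zero_of_not_dvd h
      omega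
    · intro h hd
      have := (hp.dvd_iff_one_le_factorization hrel0).mp hd
      omega
  rw [hiff]
  constructor
  · intro hD
    exact Cfsg.Agent.Lib.Helper2_MaxPair.val_stab_le_of_noExt hM hBe.1
      (Cfsg.Agent.Lib.Helper2_ExtFMT.noExt_of_defect hM hBe hD) hTs
  · intro hv
    exact Cfsg.Agent.Lib.Helper2_BP8.defect_of_noExt hM hBe
      (Cfsg.Agent.Lib.Helper2_MaxPair.noExt_of_val hM hTs rfl hb hbe hbP hv)

end Cfsg.Agent.S4437
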