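import Cfsg.Statements.S4444
import Cfsg.Agent.Lib.GlaubP

set_option autoImplicit false
open Cfsg

namespace Cfsg.Agent.S4444

open Cfsg.Agent.Lib.GlaubP Cfsg.Agent.Lib.CharOrtho Cfsg.Agent.Lib.CharBasic

/-- The Glauberman correspondence for a p-group of operators. Inside a finite group Γ let S normalise G with the orders of G and S coprime, S a p-group, and let C = G ⊓ C(S) be the fixed points. Call an irreducible character χ of G S-invariant when χ(s g s⁻¹) = χ(g) for s ∈ S, g ∈ G. Then: (i) for every S-invariant χ there is exactly one irreducible character β of C whose multiplicity [χ_C, β] in the restriction of χ is not divisible by p; (ii) that multiplicity is ≡ 1 or ≡ −1 (mod p); (iii) distinct S-invariant χ give distinct β; (iv) every irreducible character of C arises in this way. So χ ↦ β is a bijection from the S-invariant irreducible characters of G onto the irreducible characters of C.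 -/
theorem result {Γ : Type*} [Group Γ] [Fintype Γ] (G S : Subgroup Γ) [Fintype G] (hnorm : ∀ s ∈ S, ∀ g ∈ G, s * g * s⁻¹ ∈ G) (hcop : (Nat.card G).Coprime (Nat.card S)) (p : ℕ) (hp : p.Prime) (hS : IsPGroup p S) (C : Subgroup Γ) [Fintype C] (hC : C = G ⊓ Subgroup.centralizer (S : Set Γ)) (hCG : C ≤ G) : (∀ χ : Cfsg.IrrCharacter G, (∀ s ∈ S, ∀ g g' : G, (g' : Γ) = s * g * s⁻¹ → (χ : G → ℂ) g' = (χ : G → ℂ) g) → ∃! β : Cfsg.IrrCharacter C, ∃ m : ℕ, Cfsg.classInner (fun c : C => (χ : G → ℂ) ⟨c, hCG c.2⟩) (β : C → ℂ) = (m : ℂ) ∧ ¬ p ∣ m) ∧ (∀ χ : Cfsg.IrrCharacter G, (∀ s ∈ S, ∀ g g' : G, (g' : Γ) = s * g * s⁻¹ → (χ : G → ℂ) g' = (χ : G → ℂ) g) → ∀ β : Cfsg.IrrCharacter C, ∀ m : ℕ, Cfsg.classInner (fun c : C => (χ : G → ℂ) ⟨c, hCG c.2⟩) (β : C → ℂ) = (m : ℂ) → ¬ p ∣ m → ((m : ℤ) ≡ 1 [ZMOD p] ∨ (m : ℤ) ≡ -1 [ZMOD p])) ∧ (∀ χ χ' : Cfsg.IrrCharacter G, (∀ s ∈ S, ∀ g g' : G, (g' : Γ) = s * g * s⁻¹ → (χ :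 G → ℂ) g' = (χ : G → ℂ) g) → (∀ s ∈ S, ∀ g g' : G, (g' : Γ) = s * g * s⁻¹ → (χ' : G → ℂ) g' = (χ' : G → ℂ) g) → ∀ β : Cfsg.IrrCharacter C, ∀ m m' : ℕ, Cfsg.classInner (fun c : C => (χ : G → ℂ) ⟨c, hCG c.2⟩) (β : C → ℂ) = (m : ℂ) → ¬ p ∣ m → Cfsg.classInner (fun c : C => (χ' : G → ℂ) ⟨c, hCG c.2⟩) (β : C → ℂ) = (m' : ℂ) → ¬ p ∣ m' → χ = χ') ∧ (∀ β : Cfsg.IrrCharacter C, ∃ χ : Cfsg.IrrCharacter G, (∀ s ∈ S, ∀ g g' : G, (g' : Γ) = s * g * s⁻¹ → (χ : G → ℂ) g' = (χ : G → ℂ) g) ∧ ∃ m : ℕ, Cfsg.classInner (fun c : C => (χ : G → ℂ) ⟨c, hCG c.2⟩) (β : C → ℂ) = (m : ℂ) ∧ ¬ p ∣ m) := by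
  classical
  haveI : Fact p.Prime := ⟨hp⟩
  by_cases hpG : p ∣ Nat.card G
  · -- then `S` is trivial
    obtain ⟨k, hk⟩ := IsPGroup.iff_card.mp hS
    have hk0 : k = 0 := by
      by_contra hk0
      have h1 : p ∣ Nat.card S := by rw [hk]; exact dvd_pow_self p hk0
      have h2 := Nat.dvd_gcd hpG h1
      rw [hcop] at h2
      exact hp.one_lt.ne' (Nat.dvd_one.mp h2)
    rw [hk0, pow_zero] at hk
    have hSbot : S = ⊥ := Subgroup.card_eq_one.mp hk
    have hCG' : C = G := by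
      rw [hC, hSbot]
      simp only [Subgroup.coe_bot, inf_eq_left]
      intro g _
      rw [Subgroup.mem_centralizer_iff]
      intro x hx
      rw [Set.mem_singleton_iff.mp hx]; simp
    subst hCG'
    have key : ∀ (I : Fintype C) (χ β : Cfsg.IrrCharacter C) (m : ℕ),
        @Cfsg.classInner C _ I (fun c : C => (χ : C → ℂ) ⟨c, hCG c.2⟩) (β : C → ℂ) = (m : ℂ) →
        ¬ p ∣ m → χ = β ∧ m = 1 := by
      intro I χ β m hm hpm
      have h1 : @Cfsg.classInner C _ I (fun c : C => (χ : C → ℂ) ⟨c, hCG c.2⟩) (β : C → ℂ) =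
          if (χ : C → ℂ) = β then 1 else 0 := @classInner_irr C _ I _ _ χ.2 β.2
      rw [h1] at hm
      split_ifs at hm with e
      · exact ⟨Subtype.ext e, by exact_mod_cast hm.symm⟩
      · exfalso
        apply hpm
        have : m = 0 := by exact_mod_cast hm.symm
        rw [this]; exact dvd_zero p
    have key2 : ∀ (I : Fintype C) (χ : Cfsg.IrrCharacter C),
        @Cfsg.classInner C _ I (fun c : C => (χ : C → ℂ) ⟨c, hCG c.2⟩) (χ : C → ℂ) =
          ((1 : ℕ) : ℂ) := by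
      intro I χ
      have h1 : @Cfsg.classInner C _ I (fun c : C => (χ : C → ℂ) ⟨c, hCG c.2⟩) (χ : C → ℂ) =
          if (χ : C → ℂ) = χ then 1 else 0 := @classInner_irr C _ I _ _ χ.2 χ.2
      rw [h1, if_pos rfl, Nat.cast_one]
    have hp1 : ¬ p ∣ 1 := fun h => hp.one_lt.ne' (Nat.dvd_one.mp h)
    refine ⟨?_, ?_, ?_, ?_⟩
    · intro χ _
      refine ⟨χ, ⟨1, key2 _ χ, hp1⟩, ?_⟩
      rintro β ⟨m, hm, hpm⟩
      exact (key _ χ β m hm hpm).1.symm
    · intro χ _ β m hm hpm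
      left
      rw [(key _ χ β m hm hpm).2]
      rfl
    · intro χ χ' _ _ β m m' hm hpm hm' hpm'
      rw [(key _ χ β m hm hpm).1, (key _ χ' β m' hm' hpm').1]
    · intro β
      refine ⟨β, ?_, 1, key2 _ β, hp1⟩
      intro s hs g g' e
      rw [hSbot, Subgroup.mem_bot] at hs
      rw [hs] at e
      have e2 : g' = g := Subtype.ext (by simpa using e)
      rw [e2]
  · have h := setup_concrete G S C hnorm hS hpG hC hCG
    obtain ⟨m1, m2, m3, m4⟩ := main hp h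
    refine ⟨?_, ?_, ?_, ?_⟩
    · intro χ hχ
      exact m1 χ ((inv_iff G S hnorm _).mp hχ)
    · intro χ hχ β m hm hpm
      exact m2 χ ((inv_iff G S hnorm _).mp hχ) β m hm hpm
    · intro χ χ' hχ hχ' β m m' hm hpm hm' hpm'
      exact m3 χ χ' ((inv_iff G S hnorm _).mp hχ) ((inv_iff G S hnorm _).mp hχ') β m m' hm hpm
        hm' hpm'
    · intro β
      obtain ⟨χ, hχ, hm⟩ := m4 β
      exact ⟨χ, (inv_iff G S hnorm _).mpr hχ, hm⟩

end Cfsg.Agent.S4444
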