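import Cfsg.Statements.S4447
import Mathlib
import Cfsg.Agent.Lib.GlaubP
import Cfsg.Agent.Lib.Helper1_Coprime
import Cfsg.Agent.Lib.CharIndTrans
import Cfsg.Agent.Lib.CharClifford
import Cfsg.Agent.Lib.CharPerm


set_option autoImplicit false
open Cfsg

namespace Cfsg.Agent.S4447

open Cfsg.Agent.Lib.CharBasic Cfsg.Agent.Lib.CharOrtho
  Cfsg.Agent.Lib.CharComplete Cfsg.Agent.Lib.CharMore
  Cfsg.Agent.Lib.CharInd Cfsg.Agent.Lib.CharClifford Cfsg.Agent.Lib.CharIndTrans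
  Cfsg.Agent.Lib.GlaubP Cfsg.Agent.Lib.Helper2_BP2 Cfsg.Agent.Lib.Helper1_Coprime
  Cfsg.Agent.Lib.CharPerm
open scoped ComplexConjugate

/-- Inside a finite group Γ let S normalise G and also normalise a normal subgroup N of G, with the order of S coprime to the index of N in G and S or G/N solvable. Then for every S-invariant irreducible character χ of G, the restriction of χ to N has an S-invariant irreducible constituent. -/
theorem result {Γ : Type*} [Group Γ] [Fintype Γ] (G S N : Subgroup Γ) [Fintype G] [Fintype N] (hnorm : ∀ s ∈ S, ∀ g ∈ G, s * g * s⁻¹ ∈ G) (hNG : N ≤ G) [hNn : (N.subgroupOf G).Normal] (hNS : ∀ s ∈ S, ∀ n ∈ N, s * n * s⁻¹ ∈ N) (hcop : (N.relIndex G).Coprime (Nat.card S)) (hsolv : Group.IsSolvable S ∨ Group.IsSolvable (G ⧸ N.subgroupOf G)) (χ : Cfsg.IrrCharacter G) (hinv : (∀ s ∈ S, ∀ g g' : G, (g' : Γ) = s * g * s⁻¹ → (χ : G → ℂ) g' = (χ : G → ℂ) g)) : ∃ θ : Cfsg.IrrCharacter N, Cfsg.classInner (fun n : N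 => (χ : G → ℂ) ⟨n, hNG n.2⟩) (θ : N → ℂ) ≠ 0 ∧ (∀ s ∈ S, ∀ g g' : N, (g' : Γ) = s * g * s⁻¹ → (θ : N → ℂ) g' = (θ : N → ℂ) g) := by
  classical
  set M : Subgroup Γ := Subgroup.normalizer (N : Set Γ) with hM
  have hmemM : ∀ m : Γ, (∀ n ∈ N, m * n * m⁻¹ ∈ N) → (∀ n ∈ N, m⁻¹ * n * m ∈ N) → m ∈ M := by
    intro m h1 h2
    rw [hM, Subgroup.mem_normalizer_iff]
    intro n
    constructor
    · exact h1 n
    · intro h
      have := h2 _ h
      simpa [mul_assoc] using this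
  have hSM : S ≤ M := fun s hs => hmemM s (hNS s hs)
    (fun n hn => by simpa using hNS s⁻¹ (S.inv_mem hs) n hn)
  have hGN : ∀ g ∈ G, ∀ n ∈ N, g * n * g⁻¹ ∈ N := by
    intro g hg n hn
    exact Subgroup.mem_subgroupOf.mp
      (hNn.conj_mem ⟨n, hNG hn⟩ (Subgroup.mem_subgroupOf.mpr hn) ⟨g, hg⟩)
  have hGM : G ≤ M := fun g hg => hmemM g (hGN g hg)
    (fun n hn => by simpa using hGN g⁻¹ (G.inv_mem hg) n hn)
  have hMN : ∀ m ∈ M, ∀ n ∈ N, m * n * m⁻¹ ∈ N :=
    fun m hm n hn => (Subgroup.mem_normalizer_iff.mp hm n).mp hn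
  let φ : M →* MulAut N := conjHom N M hMN
  let N' : Subgroup M := N.subgroupOf M
  haveI hN'n : N'.Normal := Subgroup.normal_in_normalizer
  letI act : MulAction M (IrrCharacter N) := actIrr φ
  let ρ : M →* Equiv.Perm (IrrCharacter N) := MulAction.toPermHom M (IrrCharacter N)
  have hρ : ∀ x ∈ N', ρ x = 1 := by
    intro x hx
    apply Equiv.ext; intro θ
    apply Subtype.ext
    funext n
    show (θ : N → ℂ) ((φ x).symm n) = (θ : N → ℂ) n
    have hcf := isClassFunction_of_isCharacter (isCharacter_of_isIrr θ.2)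
    have := hcf n (⟨x, hx⟩ : N)⁻¹
    rw [← this]
    refine congrArg (θ : N → ℂ) (Subtype.ext ?_)
    show ((x : Γ))⁻¹ * (n : Γ) * (x : Γ) = (x : Γ)⁻¹ * (n : Γ) * ((x : Γ)⁻¹)⁻¹
    rw [inv_inv]
  let ρ' : (M ⧸ N') →* Equiv.Perm (IrrCharacter N) := QuotientGroup.lift N' ρ hρ
  letI actΛ : MulAction (M ⧸ N') (IrrCharacter N) := MulAction.compHom (IrrCharacter N) ρ'
  have hsmul : ∀ (m : M) (θ : IrrCharacter N),
      ((QuotientGroup.mk m : M ⧸ N') • θ) = mapIrr (φ m) θ := fun m θ => rfl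
  let π : M →* (M ⧸ N') := QuotientGroup.mk' N'
  let A : Subgroup (M ⧸ N') := (S.subgroupOf M).map π
  let K : Subgroup (M ⧸ N') := (G.subgroupOf M).map π
  let χN : N → ℂ := fun n => (χ : G → ℂ) ⟨n, hNG n.2⟩
  let Y : Set (IrrCharacter N) := {θ | classInner χN (θ : N → ℂ) ≠ 0}
  have hstab : ∀ m : M, (∀ n : N, χN (φ m n) = χN n) → ∀ θ ∈ Y, mapIrr (φ m) θ ∈ Y := by
    intro m hm θ hθ
    show classInner χN ((mapIrr (φ m) θ : IrrCharacter N) : N → ℂ) ≠ 0
    rw [mapIrr_coe]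
    have h1 : χN = χN ∘ (φ m).symm := by
      funext n
      have := hm ((φ m).symm n)
      rw [MulEquiv.apply_symm_apply] at this
      exact this
    rw [h1, classInner_comp_equiv]
    exact hθ
  have hχcf := isClassFunction_of_isCharacter (isCharacter_of_isIrr χ.2)
  have hA : ∀ a ∈ A, ∀ y ∈ Y, a • y ∈ Y := by
    rintro _ ⟨m, hm, rfl⟩ y hy
    refine hstab m (fun n => ?_) y hy
    exact hinv m hm ⟨n, hNG n.2⟩ ⟨(φ m n : N), hNG (φ m n).2⟩ rfl
  have hK : ∀ k ∈ K, ∀ y ∈ Y, k • y ∈ Y := by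
    rintro _ ⟨m, hm, rfl⟩ y hy
    refine hstab m (fun n => ?_) y hy
    exact hχcf ⟨n, hNG n.2⟩ ⟨m, hm⟩
  have hYne : Y.Nonempty := by
    have hchar : IsCharacter N χN :=
      isCharacter_comp (Subgroup.inclusion hNG) (isCharacter_of_isIrr χ.2)
    obtain ⟨θ, hθ⟩ := exists_constituent hchar (by
      intro h
      have := congrFun h 1
      exact irr_degree_ne_zero χ.2 this)
    exact ⟨θ, hθ⟩
  have htrans : ∀ y ∈ Y, ∀ z ∈ Y, ∃ k ∈ K, k • y = z := by
    intro y hy z hz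
    let e := Subgroup.subgroupOfEquivOfLe hNG
    haveI : Fintype (N.subgroupOf G) := Fintype.ofFinite _
    have hfun : (fun n : N.subgroupOf G => (χ : G → ℂ) n) = χN ∘ e := by
      funext n
      rfl
    have h1 : classInner (fun n : N.subgroupOf G => (χ : G → ℂ) n) ((y : N → ℂ) ∘ e) ≠ 0 := by
      rw [hfun, classInner_comp_equiv]; exact hy
    have h2 : classInner (fun n : N.subgroupOf G => (χ : G → ℂ) n) ((z : N → ℂ) ∘ e) ≠ 0 := by
      rw [hfun, classInner_comp_equiv]; exact hz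
    obtain ⟨g, hg⟩ := clifford_conj (N.subgroupOf G) hNn χ.2 (isIrr_comp_mulEquiv e y.2)
      (isIrr_comp_mulEquiv e z.2) h1 h2
    refine ⟨π ⟨(g : Γ)⁻¹, hGM (G.inv_mem g.2)⟩, ⟨_, ?_, rfl⟩, ?_⟩
    · exact Subgroup.mem_subgroupOf.mpr (G.inv_mem g.2)
    · apply Subtype.ext
      funext n
      have h3 := congrFun hg ⟨⟨n, hNG n.2⟩, Subgroup.mem_subgroupOf.mpr n.2⟩
      rw [conjFun_apply] at h3
      have h4 : (z : N → ℂ) n = _ := h3
      rw [h4]
      show (y : N → ℂ) ((φ ⟨(g : Γ)⁻¹, hGM (G.inv_mem g.2)⟩).symm n) = _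
      refine congrArg (y : N → ℂ) (Subtype.ext ?_)
      show ((g : Γ)⁻¹)⁻¹ * (n : Γ) * (g : Γ)⁻¹ = (g : Γ) * (n : Γ) * (g : Γ)⁻¹
      rw [inv_inv]
  have hAK : A ≤ Subgroup.normalizer (K : Set (M ⧸ N')) := by
    refine le_trans (Subgroup.map_mono ?_) (Subgroup.le_normalizer_map π)
    intro s hs
    rw [Subgroup.mem_normalizer_iff]
    intro h
    constructor
    · intro hh
      exact Subgroup.mem_subgroupOf.mpr (hnorm s hs h hh)
    · intro hh
      have := hnorm (s : Γ)⁻¹ (S.inv_mem hs) _ (Subgroup.mem_subgroupOf.mp hh)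
      have h5 : (s : Γ)⁻¹ * ((s * h * s⁻¹ : M) : Γ) * ((s : Γ)⁻¹)⁻¹ = h := by
        push_cast
        group
      rw [h5] at this
      exact Subgroup.mem_subgroupOf.mpr this
  have hcardK : Nat.card K = N.relIndex G := by
    have h1 := Subgroup.relIndex_ker (K := G.subgroupOf M) π
    rw [QuotientGroup.ker_mk'] at h1
    rw [← h1]
    exact Subgroup.relIndex_subgroupOf hGM
  have hcardA : Nat.card A ∣ Nat.card S := by
    have h1 := Subgroup.card_map_dvd (H := S.subgroupOf M) π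
    rwa [Nat.card_congr (Subgroup.subgroupOfEquivOfLe hSM).toEquiv] at h1
  have hcop' : (Nat.card A).Coprime (Nat.card K) := by
    rw [hcardK]
    exact (Nat.Coprime.coprime_dvd_right hcardA hcop).symm
  have hsolv' : Group.IsSolvable A ∨ Group.IsSolvable K := by
    rcases hsolv with h | h
    · left
      haveI := h
      haveI : Group.IsSolvable (S.subgroupOf M) :=
        Group.isSolvable_of_isSolvable_injective (f := (Subgroup.subgroupOfEquivOfLe hSM).toMonoidHom)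
          (Subgroup.subgroupOfEquivOfLe hSM).injective
      exact Group.isSolvable_of_surjective (π.subgroupMap_surjective (S.subgroupOf M))
    · right
      haveI := h
      let f : G →* (M ⧸ N') := π.comp (Subgroup.inclusion hGM)
      have hf : ∀ x ∈ N.subgroupOf G, f x = 1 := by
        intro x hx
        show π (Subgroup.inclusion hGM x) = 1
        rw [QuotientGroup.mk'_apply, QuotientGroup.eq_one_iff]
        exact hx
      let F : (G ⧸ N.subgroupOf G) →* (M ⧸ N') := QuotientGroup.lift (N.subgroupOf G) f hf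
      haveI : Group.IsSolvable F.range := Group.isSolvable_of_surjective F.rangeRestrict_surjective
      have hle : K ≤ F.range := by
        rintro _ ⟨m, hm, rfl⟩
        exact ⟨QuotientGroup.mk ⟨m, hm⟩, rfl⟩
      exact Group.isSolvable_of_isSolvable_injective (Subgroup.inclusion_injective hle)
  obtain ⟨⟨y, hyY, hy⟩, -⟩ := glauberman (G := M ⧸ N') (X := IrrCharacter N) (A := A) (K := K)
    hAK hcop' hsolv' Y hYne hA hK htrans
  refine ⟨y, hyY, ?_⟩
  intro s hs g g' hgg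
  have h1 := hy (π ⟨s, hSM hs⟩) ⟨_, Subgroup.mem_subgroupOf.mpr hs, rfl⟩
  have h2 : mapIrr (φ ⟨s, hSM hs⟩) y = y := h1
  have h3 := mapIrr_apply (φ ⟨s, hSM hs⟩) y g
  rw [h2] at h3
  rw [← h3]
  exact congrArg (y : N → ℂ) (Subtype.ext hgg)

end Cfsg.Agent.S4447
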