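import Cfsg.Statements.S4449
import Cfsg.Agent.Lib.GlaubOver

set_option autoImplicit false
open Cfsg

namespace Cfsg.Agent.S4449

open Cfsg.Agent.Lib.GlaubP Cfsg.Agent.Lib.GlaubCount Cfsg.Agent.Lib.GlaubOver Cfsg.Agent.Lib.Helper2_BP2

/-- Inside a finite group Γ let the solvable subgroup S normalise G with the orders of G and S coprime, and let N be a normal subgroup of G normalised by S. Then for every S-invariant irreducible character ϑ of N, the induced character ϑ^G has an S-invariant irreducible constituent. -/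
theorem result {Γ : Type*} [Group Γ] [Fintype Γ] (G S N : Subgroup Γ) [Fintype G] [Fintype N] (hnorm : ∀ s ∈ S, ∀ g ∈ G, s * g * s⁻¹ ∈ G) (hNG : N ≤ G) (hNnormal : ∀ g ∈ G, ∀ n ∈ N, g * n * g⁻¹ ∈ N) (hNS : ∀ s ∈ S, ∀ n ∈ N, s * n * s⁻¹ ∈ N) (hcop : (Nat.card G).Coprime (Nat.card S)) (hsolv : Group.IsSolvable S) (θ : Cfsg.IrrCharacter N) (hinv : (∀ s ∈ S, ∀ g g' : N, (g' : Γ) = s * g * s⁻¹ → (θ : N → ℂ) g' = (θ : N → ℂ) g)) : ∃ χ : Cfsg.IrrCharacter G, Cfsg.classInner (fun n : N => (χ : G → ℂ) ⟨n, hNG n.2⟩) (θ : N → ℂ) ≠ 0 ∧ (∀ s ∈ S, ∀ g g' : G, (g' : Γ) = s * g * s⁻¹ → (χ : G → ℂ) g' = (χ : G → ℂ) g) := by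
  classical
  haveI : (N.subgroupOf G).Normal := by
    constructor
    intro n hn g
    exact Subgroup.mem_subgroupOf.mpr (hNnormal g g.2 n (Subgroup.mem_subgroupOf.mp hn))
  haveI : Fintype (N.subgroupOf G) := Fintype.ofFinite _
  set φ := conjHom G S hnorm with hφ
  set e := Subgroup.subgroupOfEquivOfLe hNG with he
  have hN' : ∀ a : S, ∀ g ∈ N.subgroupOf G, φ a g ∈ N.subgroupOf G := by
    intro a g hg
    exact Subgroup.mem_subgroupOf.mpr (hNS a a.2 g (Subgroup.mem_subgroupOf.mp hg))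
  have hθ' : Inv (restrictHom φ (N.subgroupOf G) hN')
      ((mapIrr e.symm θ : Cfsg.IrrCharacter (N.subgroupOf G)) : N.subgroupOf G → ℂ) := by
    intro s x
    rw [mapIrr_coe]
    exact hinv s s.2 (e x) (e (restrictHom φ (N.subgroupOf G) hN' s x)) rfl
  obtain ⟨χ, hχ, hne⟩ := exists_inv_over_aux _ G S φ (N.subgroupOf G) hN' (mapIrr e.symm θ) le_rfl
    hcop hθ'
  refine ⟨χ, ?_, (inv_iff G S hnorm _).mpr hχ⟩
  intro h0
  apply hne
  unfold Cfsg.classInner at h0 ⊢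
  rw [Nat.card_congr e.toEquiv, ← h0]
  congr 1
  rw [← Equiv.sum_comp e.toEquiv]
  rfl

end Cfsg.Agent.S4449
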