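import Cfsg.Statements.S4470
import Cfsg.Agent.Lib.JordanArc

set_option autoImplicit false
open Cfsg

namespace Cfsg.Agent.S4470

/-- Let the finite group G have a faithful character of degree n. Then G has an abelian normal subgroup A such that every abelian subgroup H of G satisfies [H : H ⊓ A] ≤ 12^n. -/
theorem result {G : Type*} [Group G] [Finite G] (χ : G → ℂ) (hχ : Cfsg.IsCharacter G χ) (hfaith : ∀ g : G, χ g = χ 1 → g = 1) (n : ℕ) (hn : Cfsg.charDegree χ = n) : ∃ A : Subgroup G, A.Normal ∧ (∀ x ∈ A, ∀ y ∈ A, x * y = y * x) ∧ ∀ H : Subgroup G, (∀ x ∈ H, ∀ y ∈ H, x * y = y * x) → (A.subgroupOf H).index ≤ 12 ^ n := by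
  obtain ⟨m, ρ, rfl⟩ := hχ
  have h1 : ρ.character 1 = (m : ℂ) := by
    rw [Representation.char_one]
    simp
  have hm : m = n := by
    rw [← hn]
    simp [Cfsg.charDegree, h1]
  subst hm
  set A : G →* Matrix (Fin m) (Fin m) ℂ :=
    (LinearMap.toMatrixAlgEquiv' (R := ℂ) (n := Fin m)).toAlgHom.toRingHom.toMonoidHom.comp ρ with hA
  apply Cfsg.Agent.Lib.JordanArc.matrix_main A
  intro g hg
  apply hfaith
  have h2 : ρ g = 1 := by
    apply (LinearMap.toMatrixAlgEquiv' (R := ℂ) (n := Fin m)).injective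
    rw [map_one]
    exact hg
  unfold Representation.character
  rw [h2, map_one ρ]

end Cfsg.Agent.S4470
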