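import Cfsg.Statements.S4475
import Cfsg.Agent.Lib.CharFS

open Cfsg.Agent.Lib.CharBasic Cfsg.Agent.Lib.CharOrtho Cfsg.Agent.Lib.CharComplete Cfsg.Agent.Lib.CharMore Cfsg.Agent.Lib.CharFS

set_option autoImplicit false
open Cfsg

namespace Cfsg.Agent.S4475

open Module

/-- On a one-dimensional space of invariant matrices, transposition acts as the indicator. -/
lemma tr_eq_smul {G : Type*} [Group G] [Fintype G] {n : ℕ} (A : G →* Matrix (Fin n) (Fin n) ℂ)
    (h : finrank ℂ (sqRep A).invariants = 1) (M : Matrix (Fin n) (Fin n) ℂ)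
    (hM : M ∈ (sqRep A).invariants) :
    M.transpose = ((Nat.card G : ℂ)⁻¹ * ∑ g : G, (A (g * g)).trace) • M := by
  rw [← trace_avg_tr]
  obtain ⟨⟨M0, hM0⟩, hne, hspan⟩ := finrank_eq_one_iff'.mp h
  have htr : tr M0 ∈ (sqRep A).invariants := by
    intro g
    rw [← tr_comm, hM0 g]
  obtain ⟨ε, hε⟩ := hspan ⟨tr M0, htr⟩
  have hε' : ε • M0 = tr M0 := congrArg Subtype.val hε
  have hcomp : avg A ∘ₗ tr = ε • avg A := by
    ext1 M
    rw [LinearMap.comp_apply, ← tr_avg, LinearMap.smul_apply]
    obtain ⟨c, hc⟩ := hspan ⟨avg A M, avg_mem A M⟩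
    have hc' : c • M0 = avg A M := congrArg Subtype.val hc
    rw [← hc', map_smul, ← hε', smul_comm]
  rw [hcomp, map_smul, trace_avg, h, Nat.cast_one, smul_eq_mul, mul_one]
  obtain ⟨c, hc⟩ := hspan ⟨M, hM⟩
  have hc' : c • M0 = M := congrArg Subtype.val hc
  rw [← tr_apply, ← hc', map_smul, ← hε', smul_comm]


/-- Let ρ be an irreducible representation of the finite group G on the coordinate space Fin n → ℂ whose character χ is real-valued, and let ν be the Frobenius–Schur indicator of χ (the average of χ(s²)). Writing X(g) for the matrix of ρ(g), there is a nonzero matrix M with X(g)ᵀ M X(g) = M for all g ∈ G; and every such M (zero or not) satisfies Mᵀ = ν·M. -/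
theorem result {G : Type*} [Group G] [Fintype G] (n : ℕ) (ρ : Representation ℂ G (Fin n → ℂ)) (hirr : ρ.IsIrreducible) (hreal : ∀ g : G, (ρ.character g).im = 0) : (∃ M : Matrix (Fin n) (Fin n) ℂ, M ≠ 0 ∧ ∀ g : G, (LinearMap.toMatrix' (ρ g)).transpose * M * LinearMap.toMatrix' (ρ g) = M) ∧ ∀ M : Matrix (Fin n) (Fin n) ℂ, (∀ g : G, (LinearMap.toMatrix' (ρ g)).transpose * M * LinearMap.toMatrix' (ρ g) = M) → M.transpose = ((Nat.card G : ℂ)⁻¹ * ∑ s : G, ρ.character (s * s)) • M := by
  classical
  let A' : G →* Matrix (Fin n) (Fin n) ℂ :=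
    { toFun := fun g => (matHom ρ g⁻¹).transpose
      map_one' := by simp
      map_mul' := by
        intro a b
        rw [mul_inv_rev, map_mul, Matrix.transpose_mul] }
  have hA'def : ∀ g, A' g = (matHom ρ g⁻¹).transpose := fun g => rfl
  have hconj : ∀ g, (starRingEnd ℂ) (ρ.character g) = ρ.character g := fun g =>
    Complex.conj_eq_iff_im.2 (hreal g)
  have hA' : ∀ g, (A' g).trace = ρ.character g := by
    intro g
    rw [hA'def, Matrix.trace_transpose, matHom_trace, char_inv, hconj]
  have h1 := finrank_inv ρ hirr A' hA'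
  rw [if_pos hconj] at h1
  have hmem : ∀ M : Matrix (Fin n) (Fin n) ℂ, M ∈ (sqRep A').invariants ↔
      ∀ g : G, (LinearMap.toMatrix' (ρ g)).transpose * M * LinearMap.toMatrix' (ρ g) = M := by
    intro M
    constructor
    · intro h g
      have := h g⁻¹
      rw [sqRep_apply, hA'def, inv_inv, Matrix.transpose_transpose] at this
      exact this
    · intro h g
      rw [sqRep_apply, hA'def, Matrix.transpose_transpose]
      exact h g⁻¹
  constructor
  · obtain ⟨⟨M0, hM0⟩, hne, -⟩ := finrank_eq_one_iff'.mp h1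
    exact ⟨M0, fun h0 => hne (Subtype.ext h0), (hmem M0).1 hM0⟩
  · intro M hM
    have := tr_eq_smul A' h1 M ((hmem M).2 hM)
    simp only [hA'] at this
    exact this

end Cfsg.Agent.S4475
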