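import Cfsg.Statements.S4476
import Cfsg.Agent.Lib.helper8_FS

open Cfsg.Agent.Lib.CharBasic Cfsg.Agent.Lib.CharOrtho Cfsg.Agent.Lib.CharComplete Cfsg.Agent.Lib.CharMore Cfsg.Agent.Lib.CharIntegral Cfsg.Agent.Lib.CharFS Cfsg.Agent.Lib.helper8_FS Cfsg.Agent.Lib.helper8_Defect Cfsg.Agent.Lib.helper8_Codegree

set_option autoImplicit false
open Cfsg

namespace Cfsg.Agent.S4476

/-- Let G be a finite group of even order g with exactly t involutions, and put α = (g − 1)/t (a rational number). Then (a) some non-identity element x of G has at most α² conjugates; and (b) some non-principal real-valued irreducible character of G has degree at most α. -/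
theorem result {G : Type*} [Group G] [Fintype G] (heven : Even (Nat.card G)) (t : ℕ) (ht : Nat.card {x : G // orderOf x = 2} = t) : (∃ x : G, x ≠ 1 ∧ ((Subgroup.centralizer ({x} : Set G)).index : ℚ) ≤ (((Nat.card G : ℚ) - 1) / t) ^ 2) ∧ ∃ χ : Cfsg.IrrCharacter G, (χ : G → ℂ) ≠ (fun _ => 1) ∧ (∀ g : G, ((χ : G → ℂ) g).im = 0) ∧ (Cfsg.charDegree (χ : G → ℂ) : ℚ) ≤ ((Nat.card G : ℚ) - 1) / t := by
  classical
  subst ht
  set t := Nat.card {x : G // orderOf x = 2} with ht
  set n := Nat.card G with hn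
  have hn0 : 0 < n := Nat.card_pos
  have ht0 : 0 < t := by
    have : Fact (Nat.Prime 2) := ⟨Nat.prime_two⟩
    obtain ⟨x, hx⟩ := exists_prime_orderOf_dvd_card' 2 (even_iff_two_dvd.1 heven)
    have : Nonempty {x : G // orderOf x = 2} := ⟨⟨x, hx⟩⟩
    exact Nat.card_pos
  set R := Finset.univ.filter (fun χ : IrrCharacter G =>
        (χ : G → ℂ) ≠ 1 ∧ ∀ g, ((χ : G → ℂ) g).im = 0) with hR
  have hS1 : t ≤ ∑ χ ∈ R, charDegree (χ : G → ℂ) := involutions_le
  have hRsub : R ⊆ Finset.univ.erase (⟨1, isIrr_one⟩ : IrrCharacter G) := by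
    intro χ hχ
    rw [hR, Finset.mem_filter] at hχ
    exact Finset.mem_erase.2 ⟨fun h => hχ.2.1 (congrArg Subtype.val h), Finset.mem_univ _⟩
  have hS2 : ∑ χ ∈ R, charDegree (χ : G → ℂ) ^ 2 + 1 ≤ n := by
    have h2 : charDegree (1 : G → ℂ) = 1 := charDegree_of_eq (by simp)
    have h1 : 1 + ∑ χ ∈ Finset.univ.erase (⟨1, isIrr_one⟩ : IrrCharacter G),
        charDegree (χ : G → ℂ) ^ 2 = n := by
      have h0 := sum_sq_charDegree (G := G)
      rw [← Finset.add_sum_erase Finset.univ _
        (Finset.mem_univ (⟨1, isIrr_one⟩ : IrrCharacter G))] at h0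
      simp only [h2, one_pow] at h0
      exact h0
    have h3 : ∑ χ ∈ R, charDegree (χ : G → ℂ) ^ 2 ≤
        ∑ χ ∈ Finset.univ.erase (⟨1, isIrr_one⟩ : IrrCharacter G), charDegree (χ : G → ℂ) ^ 2 :=
      Finset.sum_le_sum_of_subset hRsub
    omega
  have hRcard : R.card + 1 ≤ Fintype.card (IrrCharacter G) := by
    have h1 := Finset.card_le_card hRsub
    rw [Finset.card_erase_of_mem (Finset.mem_univ _), Finset.card_univ] at h1
    have h2 : 0 < Fintype.card (IrrCharacter G) := Fintype.card_pos_iff.2 ⟨⟨1, isIrr_one⟩⟩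
    omega
  have hnQ : ((n - 1 : ℕ) : ℚ) = (n : ℚ) - 1 := by
    rw [Nat.cast_sub hn0]; simp
  have htQ : (0 : ℚ) < t := by exact_mod_cast ht0
  constructor
  · -- part (a)
    have key : ∃ x : G, x ≠ 1 ∧ (Subgroup.centralizer ({x} : Set G)).index * t ^ 2 ≤ (n - 1) ^ 2 := by
      by_contra hcon
      push Not at hcon
      have hcl := Group.sum_card_conj_classes_eq_card G
      rw [finsum_eq_sum_of_fintype] at hcl
      rw [← Finset.add_sum_erase Finset.univ _ (Finset.mem_univ (ConjClasses.mk (1 : G)))] at hcl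
      have hnc : ∀ x : G, (ConjClasses.mk x).carrier.ncard =
          (Subgroup.centralizer ({x} : Set G)).index := by
        intro x
        rw [← card_class_eq_index x]
        have : (ConjClasses.mk x).carrier = ↑(Finset.univ.filter (IsConj x)) := by
          ext a
          rw [ConjClasses.mem_carrier_iff_mk_eq, ConjClasses.mk_eq_mk_iff_isConj, isConj_comm]
          simp
        rw [this, Set.ncard_coe_finset]
      have h1 : (ConjClasses.mk (1 : G)).carrier.ncard = 1 := by
        rw [hnc]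
        have : Subgroup.centralizer ({1} : Set G) = ⊤ := by
          ext a; simp [Subgroup.mem_centralizer_singleton_iff]
        rw [this, Subgroup.index_top]
      rw [h1] at hcl
      have h2 : ∀ C ∈ Finset.univ.erase (ConjClasses.mk (1 : G)),
          (n - 1) ^ 2 + 1 ≤ C.carrier.ncard * t ^ 2 := by
        intro C hC
        obtain ⟨x, rfl⟩ := ConjClasses.exists_rep C
        have hx : x ≠ 1 := by
          intro h
          exact (Finset.mem_erase.1 hC).1 (by rw [h])
        rw [hnc]
        exact hcon x hx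
      have h3 := Finset.card_nsmul_le_sum _ _ _ h2
      rw [← Finset.sum_mul, Finset.card_erase_of_mem (Finset.mem_univ _), Finset.card_univ,
        smul_eq_mul] at h3
      have h4 : Fintype.card (ConjClasses G) = Fintype.card (IrrCharacter G) := by
        have := card_irr_eq_card_conjClasses (G := G)
        rw [Nat.card_eq_fintype_card, Nat.card_eq_fintype_card] at this
        exact this.symm
      rw [h4] at h3
      have h5 : ∑ C ∈ Finset.univ.erase (ConjClasses.mk (1 : G)), C.carrier.ncard = n - 1 := by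
        omega
      rw [h5] at h3
      have h6 : (∑ χ ∈ R, charDegree (χ : G → ℂ)) ^ 2 ≤
          R.card * ∑ χ ∈ R, charDegree (χ : G → ℂ) ^ 2 := sq_sum_le_card_mul_sum_sq
      have h7 : t ^ 2 ≤ (Fintype.card (IrrCharacter G) - 1) * (n - 1) := by
        calc t ^ 2 ≤ (∑ χ ∈ R, charDegree (χ : G → ℂ)) ^ 2 := Nat.pow_le_pow_left hS1 2
          _ ≤ R.card * ∑ χ ∈ R, charDegree (χ : G → ℂ) ^ 2 := h6
          _ ≤ (Fintype.card (IrrCharacter G) - 1) * (n - 1) :=
            Nat.mul_le_mul (by omega) (by omega)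
      have h8 : 0 < Fintype.card (IrrCharacter G) - 1 := by
        by_contra h0
        have h9 : Fintype.card (IrrCharacter G) - 1 = 0 := by omega
        rw [h9, zero_mul] at h7
        have : 0 < t ^ 2 := by positivity
        omega
      generalize Fintype.card (IrrCharacter G) - 1 = k at h3 h7 h8
      generalize n - 1 = m at h3 h7
      nlinarith
    obtain ⟨x, hx, hle⟩ := key
    refine ⟨x, hx, ?_⟩
    rw [div_pow, le_div_iff₀ (by positivity), ← hnQ]
    exact_mod_cast hle
  · -- part (b)
    have key : ∃ χ ∈ R, charDegree (χ : G → ℂ) * t ≤ n - 1 := by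
      by_contra hcon
      push Not at hcon
      have h1 : ∑ χ ∈ R, n * charDegree (χ : G → ℂ) ≤
          ∑ χ ∈ R, t * charDegree (χ : G → ℂ) ^ 2 := by
        refine Finset.sum_le_sum fun χ hχ => ?_
        have h2 := hcon χ hχ
        have h3 : n ≤ charDegree (χ : G → ℂ) * t := by omega
        calc n * charDegree (χ : G → ℂ) ≤ charDegree (χ : G → ℂ) * t * charDegree (χ : G → ℂ) :=
              Nat.mul_le_mul_right _ h3
          _ = t * charDegree (χ : G → ℂ) ^ 2 := by ring
      rw [← Finset.mul_sum, ← Finset.mul_sum] at h1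
      generalize ∑ χ ∈ R, charDegree (χ : G → ℂ) = S1 at h1 hS1
      generalize ∑ χ ∈ R, charDegree (χ : G → ℂ) ^ 2 = S2 at h1 hS2
      nlinarith
    obtain ⟨χ, hχ, hle⟩ := key
    rw [hR, Finset.mem_filter] at hχ
    refine ⟨χ, hχ.2.1, hχ.2.2, ?_⟩
    rw [le_div_iff₀ htQ, ← hnQ]
    exact_mod_cast hle

end Cfsg.Agent.S4476
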