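import Cfsg.Statements.S4477
import Mathlib
import Cfsg.Agent.Lib.helper8_FS
import Cfsg.Agent.Lib.CharCover2
import Cfsg.Agent.Lib.CharFS2
import Cfsg.Agent.Lib.CharLinear
import Cfsg.Agent.Lib.CharKer

set_option autoImplicit false
open Cfsg

namespace Cfsg.Agent.S4477

open Cfsg.Agent.Lib.CharBasic Cfsg.Agent.Lib.CharOrtho Cfsg.Agent.Lib.CharComplete
  Cfsg.Agent.Lib.CharMore Cfsg.Agent.Lib.CharLinear Cfsg.Agent.Lib.CharFS Cfsg.Agent.Lib.CharFS2
  Cfsg.Agent.Lib.CharCover2 Cfsg.Agent.Lib.CharKer Cfsg.Agent.Lib.helper8_FS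
open scoped ComplexConjugate

universe u

theorem exists_two_index_two {G : Type*} [Group G] [Finite G] (hG : IsPGroup 2 G)
    (hc : ¬ IsCyclic G) : ∃ M1 M2 : Subgroup G, M1.index = 2 ∧ M2.index = 2 ∧ M1 ≠ M2 := by
  have : Fact (Nat.Prime 2) := ⟨Nat.prime_two⟩
  obtain ⟨n, hn⟩ := IsPGroup.iff_card.mp hG
  have hn0 : n ≠ 0 := by
    rintro rfl
    rw [pow_zero] at hn
    have : Subsingleton G := (Nat.card_eq_one_iff_unique.mp hn).1
    exact hc inferInstance
  obtain ⟨m, rfl⟩ : ∃ m, n = m + 1 := Nat.exists_eq_succ_of_ne_zero hn0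
  have hdvd : 2 ^ m ∣ Nat.card G := by rw [hn]; exact pow_dvd_pow 2 (Nat.le_succ m)
  have hidx : ∀ K : Subgroup G, Nat.card K = 2 ^ m → K.index = 2 := by
    intro K hK
    have := K.card_mul_index
    rw [hK, hn, pow_succ] at this
    exact Nat.eq_of_mul_eq_mul_left (by positivity) this
  obtain ⟨M1, hM1, -⟩ := Sylow.exists_subgroup_card_pow_prime_le 2 hdvd ⊥ (n := 0) (by simp)
    (Nat.zero_le m)
  have hM1i := hidx M1 hM1
  obtain ⟨x, hx⟩ : ∃ x, x ∉ M1 := by
    by_contra hcon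
    push Not at hcon
    have : M1 = ⊤ := (Subgroup.eq_top_iff' M1).mpr hcon
    rw [this, Subgroup.index_top] at hM1i
    omega
  obtain ⟨j, hj⟩ := IsPGroup.iff_card.mp (hG.to_subgroup (Subgroup.zpowers x))
  have hjm : j ≤ m := by
    have h1 : 2 ^ j ∣ 2 ^ (m+1) := by rw [← hj, ← hn]; exact Subgroup.card_subgroup_dvd_card _
    have h2 : j ≤ m + 1 := (Nat.pow_dvd_pow_iff_le_right (by norm_num)).mp h1
    rcases Nat.lt_or_ge j (m+1) with h | h
    · omega
    · exfalso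
      have h3 : j = m + 1 := le_antisymm h2 h
      have h4 : Subgroup.zpowers x = ⊤ := Subgroup.eq_top_of_card_eq _ (by rw [hj, hn, h3])
      exact hc (isCyclic_iff_exists_zpowers_eq_top.mpr ⟨x, h4⟩)
  obtain ⟨M2, hM2, hle⟩ :=
    Sylow.exists_subgroup_card_pow_prime_le 2 hdvd (Subgroup.zpowers x) hj hjm
  refine ⟨M1, M2, hM1i, hidx M2 hM2, ?_⟩
  intro h
  exact hx (h ▸ hle (Subgroup.mem_zpowers x))

theorem index_inf_four {G : Type*} [Group G] [Finite G] (M1 M2 : Subgroup G) (h1 : M1.index = 2)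
    (h2 : M2.index = 2) (hne : M1 ≠ M2) : (M1 ⊓ M2).index = 4 := by
  have hle : (M1 ⊓ M2).index ≤ 4 := by
    have := Subgroup.index_inf_le (H := M1) (K := M2)
    rw [h1, h2] at this; exact this
  have e1 := Subgroup.relIndex_mul_index (inf_le_left : M1 ⊓ M2 ≤ M1)
  have e2 := Subgroup.relIndex_mul_index (inf_le_right : M1 ⊓ M2 ≤ M2)
  rw [h1] at e1; rw [h2] at e2
  have hpos : (M1 ⊓ M2).index ≠ 0 := Subgroup.index_ne_zero_of_finite
  have hr1 : (M1 ⊓ M2).relIndex M1 ≠ 1 ∨ (M1 ⊓ M2).relIndex M2 ≠ 1 := by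
    by_contra hcon
    push Not at hcon
    have a1 : M1 ≤ M1 ⊓ M2 := Subgroup.relIndex_eq_one.mp hcon.1
    have a2 : M2 ≤ M1 ⊓ M2 := Subgroup.relIndex_eq_one.mp hcon.2
    exact hne (le_antisymm (a1.trans inf_le_right) (a2.trans inf_le_left))
  rcases hr1 with h | h <;> omega

open Classical in
/-- the sign character of a subgroup of index two. -/
noncomputable def sgn {G : Type*} [Group G] (M : Subgroup G) (h : M.index = 2) : G →* ℂˣ :=
  MonoidHom.mk' (fun g => if g ∈ M then 1 else -1) (by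
    intro a b
    have := Subgroup.mul_mem_iff_of_index_two h (a := a) (b := b)
    by_cases ha : a ∈ M <;> by_cases hb : b ∈ M <;> simp [this, ha, hb])

theorem sgn_mem {G : Type*} [Group G] (M : Subgroup G) (h : M.index = 2) {g : G} (hg : g ∈ M) :
    sgn M h g = 1 := by
  classical
  exact if_pos hg

theorem sgn_not_mem {G : Type*} [Group G] (M : Subgroup G) (h : M.index = 2) {g : G}
    (hg : g ∉ M) : sgn M h g = -1 := by
  classical
  exact if_neg hg

theorem inv_step {α : Type*} [DecidableEq α] (S : Finset α) (σ : α → α) (f : α → ZMod 4)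
    (hσS : ∀ x ∈ S, σ x ∈ S) (hσσ : ∀ x ∈ S, σ (σ x) = x) (hf : ∀ x ∈ S, f x + f (σ x) = 0) :
    ∑ x ∈ S, f x = ∑ x ∈ S.filter (fun x => σ x = x), f x := by
  rw [← Finset.sum_filter_add_sum_filter_not S (fun x => σ x = x)]
  have : ∑ x ∈ S.filter (fun x => ¬ σ x = x), f x = 0 := by
    refine Finset.sum_involution (fun x _ => σ x) ?_ ?_ ?_ ?_
    · intro x hx; exact hf x (Finset.mem_filter.mp hx).1
    · intro x hx _; exact (Finset.mem_filter.mp hx).2
    · intro x hx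
      obtain ⟨h1, h2⟩ := Finset.mem_filter.mp hx
      refine Finset.mem_filter.mpr ⟨hσS x h1, ?_⟩
      rw [hσσ x h1]; intro h; exact h2 h.symm
    · intro x hx; exact hσσ x (Finset.mem_filter.mp hx).1
  rw [this, add_zero]

theorem halving {α : Type*} [DecidableEq α] (S : Finset α) (σ : α → α) (P : α → Prop)
    [DecidablePred P] (hσS : ∀ x ∈ S, σ x ∈ S) (hσσ : ∀ x ∈ S, σ (σ x) = x)
    (hP : ∀ x ∈ S, P (σ x) ↔ ¬ P x) : S.card = 2 * (S.filter P).card := by
  rw [← Finset.card_filter_add_card_filter_not (s := S) P]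
  have : (S.filter (fun x => ¬ P x)).card = (S.filter P).card := by
    refine Finset.card_bij (fun x _ => σ x) ?_ ?_ ?_
    · intro x hx
      obtain ⟨h1, h2⟩ := Finset.mem_filter.mp hx
      exact Finset.mem_filter.mpr ⟨hσS x h1, (hP x h1).mpr h2⟩
    · intro x hx y hy h
      rw [← hσσ x (Finset.mem_filter.mp hx).1, ← hσσ y (Finset.mem_filter.mp hy).1, h]
    · intro y hy
      obtain ⟨h1, h2⟩ := Finset.mem_filter.mp hy
      refine ⟨σ y, Finset.mem_filter.mpr ⟨hσS y h1, ?_⟩, hσσ y h1⟩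
      intro h3; exact ((hP y h1).mp h3) h2
  omega

theorem exists_mu {G : Type u} [Group G] [Finite G] (hG : IsPGroup 2 G) (N : Subgroup G)
    (hN : commutator G ≤ N) (hne : commutator G ≠ N) :
    ∃ μ : G →* ℂˣ, (∃ g ∈ N, μ g ≠ 1) ∧ ∀ g ∈ N, μ g * μ g = 1 := by
  classical
  obtain ⟨x, hxN, hx⟩ : ∃ x ∈ N, x ∉ commutator G := by
    by_contra hcon
    push Not at hcon
    exact hne (le_antisymm hN hcon)
  have : NeZero (Monoid.exponent (Abelianization G) : ℂ) :=
    ⟨by exact_mod_cast Monoid.exponent_ne_zero_of_finite⟩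
  have hx1 : Abelianization.of x ≠ 1 := by
    intro h
    exact hx ((QuotientGroup.eq_one_iff x).mp h)
  obtain ⟨φ, hφ⟩ := CommGroup.exists_apply_ne_one_of_hasEnoughRootsOfUnity (Abelianization G) ℂ hx1
  set μ0 : G →* ℂˣ := φ.comp Abelianization.of with hμ0
  obtain ⟨n, hn⟩ := IsPGroup.iff_card.mp hG
  have hP : ∃ k : ℕ, ∀ g ∈ N, (μ0 g) ^ (2 ^ k) = 1 := by
    refine ⟨n, fun g _ => ?_⟩
    rw [← map_pow, ← hn, pow_card_eq_one', map_one]
  set k0 := Nat.find hP with hk0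
  have hk0spec := Nat.find_spec hP
  have hk0pos : k0 ≠ 0 := by
    intro h0
    have := hk0spec x hxN
    rw [← hk0, h0, pow_zero, pow_one] at this
    exact hφ this
  obtain ⟨k1, hk1⟩ := Nat.exists_eq_succ_of_ne_zero hk0pos
  have hmin := Nat.find_min hP (m := k1) (by rw [← hk0, hk1]; exact Nat.lt_succ_self k1)
  push Not at hmin
  obtain ⟨g, hgN, hg⟩ := hmin
  refine ⟨μ0 ^ (2 ^ k1), ⟨g, hgN, ?_⟩, ?_⟩
  · rw [MonoidHom.pow_apply]; exact hg
  · intro g' hg'
    rw [MonoidHom.pow_apply, ← pow_add, ← two_mul, ← pow_succ']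
    have := hk0spec g' hg'
    rw [← hk0, hk1] at this
    exact this

section tw

variable {G : Type u} [Group G] [Fintype G]

/-- twisting by a linear character. -/
noncomputable def tw (lam : G →* ℂˣ) (χ : IrrCharacter G) : IrrCharacter G :=
  ⟨(fun g => ((lam g : ℂˣ) : ℂ)) * χ.1, isIrr_hom_mul lam χ.2⟩

theorem tw_apply (lam : G →* ℂˣ) (χ : IrrCharacter G) (g : G) :
    (tw lam χ : G → ℂ) g = ((lam g : ℂˣ) : ℂ) * (χ : G → ℂ) g := rfl

theorem tw_comm (a b : G →* ℂˣ) (χ : IrrCharacter G) : tw a (tw b χ) = tw b (tw a χ) := by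
  apply Subtype.ext
  funext g
  simp only [tw_apply]
  ring

end tw

theorem main {G : Type u} [Group G] [Fintype G] (hG : IsPGroup 2 G)
    (ht : Nat.card {x : G // orderOf x = 2} % 4 = 1) (hc : ¬ IsCyclic G)
    (h4 : (commutator G).index ≠ 4) : False := by
  classical
  obtain ⟨M1, M2, hM1, hM2, hne⟩ := exists_two_index_two hG hc
  have hN4 := index_inf_four M1 M2 hM1 hM2 hne
  choose ε hε1 hε2 hε3 using fun χ : IrrCharacter G => fsInd_int χ.2
  choose d hd0 hd1 hd2 using fun χ : IrrCharacter G => irr_degree χ.2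
  obtain ⟨n, hn⟩ := IsPGroup.iff_card.mp hG
  have h40 : (4 : ZMod 4) = 0 := by decide
  have h4dvd : ∀ a : ℤ, (4 : ℤ) ∣ a → (a : ZMod 4) = 0 := by
    rintro a ⟨c, rfl⟩
    push_cast
    rw [h40, zero_mul]
  have hFS : ((1 + Nat.card {x : G // orderOf x = 2} : ℕ) : ℤ) =
      ∑ χ : IrrCharacter G, ε χ * d χ := by
    have h1 := sqrt_count (1 : G)
    rw [card_sq_eq_one] at h1
    have h2 : (((1 + Nat.card {x : G // orderOf x = 2} : ℕ) : ℤ) : ℂ) =
        ((∑ χ : IrrCharacter G, ε χ * d χ : ℤ) : ℂ) := by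
      rw [Int.cast_natCast, h1]
      push_cast
      exact Finset.sum_congr rfl fun χ _ => by rw [hε1, hd1]
    exact_mod_cast h2
  set f : IrrCharacter G → ZMod 4 := fun χ => ((ε χ * d χ : ℤ) : ZMod 4) with hf
  have hsum : ∑ χ : IrrCharacter G, f χ = 2 := by
    have h1 : ((∑ χ : IrrCharacter G, ε χ * d χ : ℤ) : ZMod 4) = 2 := by
      rw [← hFS, Int.cast_natCast]
      have h2 : ((1 + Nat.card {x : G // orderOf x = 2} : ℕ) : ZMod 4) = ((2 : ℕ) : ZMod 4) := by
        rw [ZMod.natCast_eq_natCast_iff']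
        omega
      rw [h2]; rfl
    rw [← h1, Int.cast_sum]
  have hdpow : ∀ χ, d χ = 1 ∨ d χ = 2 ∨ 4 ∣ d χ := by
    intro χ
    have h1 := hd2 χ
    rw [hn] at h1
    obtain ⟨j, -, hj⟩ := (Nat.dvd_prime_pow Nat.prime_two).mp h1
    rw [hj]
    rcases j with _ | _ | j
    · left; rfl
    · right; left; rfl
    · right; right; exact ⟨2 ^ j, by ring⟩
  have hdtw : ∀ (lam : G →* ℂˣ) χ, d (tw lam χ) = d χ := by
    intro lam χ
    have h1 : ((d (tw lam χ) : ℕ) : ℂ) = d χ := by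
      rw [← hd1, ← hd1, tw_apply, map_one]; simp
    exact_mod_cast h1
  have hεtw : ∀ (lam : G →* ℂˣ), (∀ s, lam (s * s) = 1) → ∀ χ, ε (tw lam χ) = ε χ := by
    intro lam hl χ
    have h1 : ((ε (tw lam χ) : ℤ) : ℂ) = ε χ := by
      rw [← hε1, ← hε1]
      unfold fsInd
      congr 1
      exact Finset.sum_congr rfl fun s _ => by rw [tw_apply, hl]; simp
    exact_mod_cast h1
  have hsq : ∀ (M : Subgroup G) (h : M.index = 2) (s : G), sgn M h (s * s) = 1 := by
    intro M h s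
    rw [map_mul]
    by_cases hs : s ∈ M
    · rw [sgn_mem M h hs]; simp
    · rw [sgn_not_mem M h hs]; simp
  have htwtw : ∀ (M : Subgroup G) (h : M.index = 2) χ, tw (sgn M h) (tw (sgn M h) χ) = χ := by
    intro M h χ
    apply Subtype.ext; funext g
    rw [tw_apply, tw_apply, ← mul_assoc, ← Units.val_mul, ← map_mul, hsq]; simp
  have hftw : ∀ (M : Subgroup G) (h : M.index = 2) χ, f (tw (sgn M h) χ) = f χ := by
    intro M h χ
    simp only [hf]; rw [hdtw, hεtw _ (hsq M h)]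
  have hcomm : ∀ (M : Subgroup G) (h : M.index = 2), commutator G ≤ M := by
    intro M h x hx
    have h1 : sgn M h x = 1 := Abelianization.commutator_subset_ker (sgn M h) hx
    by_contra hxM
    rw [sgn_not_mem M h hxM] at h1
    have h2 : ((-1 : ℂˣ) : ℂ) = 1 := by rw [h1]; rfl
    norm_num at h2
  obtain ⟨μ, ⟨g0, hg0N, hg0⟩, hμ2⟩ := exists_mu hG (M1 ⊓ M2) (le_inf (hcomm M1 hM1) (hcomm M2 hM2))
    (fun h => h4 (by rw [h]; exact hN4))
  -- the nonlinear part
  set S0 := Finset.univ.filter (fun χ : IrrCharacter G => ¬ d χ = 1) with hS0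
  have h2f : ∀ χ ∈ S0, f χ + f χ = 0 := by
    intro χ hχ
    have h1 : ¬ d χ = 1 := (Finset.mem_filter.mp hχ).2
    have h2 : (2 : ℕ) ∣ d χ := by
      rcases hdpow χ with h | h | h
      · exact absurd h h1
      · rw [h]
      · exact dvd_trans (by norm_num) h
    obtain ⟨c, hc'⟩ := h2
    simp only [hf]
    rw [← Int.cast_add]
    exact h4dvd _ ⟨ε χ * c, by rw [hc']; push_cast; ring⟩
  have st1 := inv_step S0 (tw (sgn M1 hM1)) f
    (fun χ hχ => Finset.mem_filter.mpr ⟨Finset.mem_univ _, by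
      rw [hdtw]; exact (Finset.mem_filter.mp hχ).2⟩)
    (fun χ _ => htwtw M1 hM1 χ) (fun χ hχ => by rw [hftw]; exact h2f χ hχ)
  set S1 := S0.filter (fun χ => tw (sgn M1 hM1) χ = χ) with hS1
  have st2 := inv_step S1 (tw (sgn M2 hM2)) f
    (fun χ hχ => by
      obtain ⟨h1, h2⟩ := Finset.mem_filter.mp hχ
      refine Finset.mem_filter.mpr ⟨Finset.mem_filter.mpr ⟨Finset.mem_univ _, by
        rw [hdtw]; exact (Finset.mem_filter.mp h1).2⟩, ?_⟩
      rw [tw_comm, h2])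
    (fun χ _ => htwtw M2 hM2 χ)
    (fun χ hχ => by rw [hftw]; exact h2f χ (Finset.mem_filter.mp hχ).1)
  set S2 := S1.filter (fun χ => tw (sgn M2 hM2) χ = χ) with hS2
  have hS2mem : ∀ χ, χ ∈ S2 ↔ (¬ d χ = 1 ∧ tw (sgn M1 hM1) χ = χ ∧ tw (sgn M2 hM2) χ = χ) := by
    intro χ
    simp only [hS2, hS1, hS0, Finset.mem_filter, Finset.mem_univ, true_and, and_assoc]
  have hvan1 : ∀ (M : Subgroup G) (h : M.index = 2) (χ : IrrCharacter G), tw (sgn M h) χ = χ →
      ∀ g, g ∉ M → (χ : G → ℂ) g = 0 := by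
    intro M h χ hχ g hg
    have h1 := congrFun (congrArg Subtype.val hχ) g
    have h2 : ((sgn M h g : ℂˣ) : ℂ) * (χ : G → ℂ) g = (χ : G → ℂ) g := h1
    rw [sgn_not_mem M h hg] at h2
    have h3 : (-1 : ℂ) * (χ : G → ℂ) g = (χ : G → ℂ) g := by simpa using h2
    have h5 : (2 : ℂ) * (χ : G → ℂ) g = 0 := by linear_combination -h3
    simpa using h5
  have hvan : ∀ χ ∈ S2, ∀ g, g ∉ M1 ⊓ M2 → (χ : G → ℂ) g = 0 := by
    intro χ hχ g hg
    obtain ⟨-, h1, h2⟩ := (hS2mem χ).mp hχ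
    by_cases hg1 : g ∈ M1
    · exact hvan1 M2 hM2 χ h2 g (fun hg2 => hg ⟨hg1, hg2⟩)
    · exact hvan1 M1 hM1 χ h1 g hg1
  have hnv : ∀ χ ∈ S2, d χ = 2 → ∀ g ∈ M1 ⊓ M2, (χ : G → ℂ) g ≠ 0 := by
    intro χ hχ hd g hg
    have h1 := classInner_irr_self χ.2
    unfold classInner at h1
    have hGne : (Nat.card G : ℂ) ≠ 0 := by exact_mod_cast Nat.card_pos.ne'
    have h2 : ∑ x : G, (χ : G → ℂ) x * conj ((χ : G → ℂ) x) = (Nat.card G : ℂ) := by
      field_simp at h1
      exact h1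
    have h3 : ∀ x : G, (χ : G → ℂ) x * conj ((χ : G → ℂ) x) =
        ((‖(χ : G → ℂ) x‖ ^ 2 : ℝ) : ℂ) := by
      intro x; rw [Complex.mul_conj']; push_cast; rfl
    simp only [h3] at h2
    have h5 : ∑ x : G, ‖(χ : G → ℂ) x‖ ^ 2 = (Nat.card G : ℝ) := by exact_mod_cast h2
    have hcardN : ((Finset.univ.filter (fun x : G => x ∈ M1 ⊓ M2)).card : ℝ) =
        (Nat.card ↥(M1 ⊓ M2) : ℝ) := by
      congr 1
      rw [Nat.card_eq_fintype_card]
      exact (Fintype.card_of_subtype _ (by simp)).symm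
    have h6 : ∑ x : G, (if x ∈ M1 ⊓ M2 then (4 : ℝ) else 0) = (Nat.card G : ℝ) := by
      rw [← Finset.sum_filter, Finset.sum_const, nsmul_eq_mul, hcardN,
        ← (M1 ⊓ M2).card_mul_index, hN4]
      push_cast; ring
    have h7 : ∀ x ∈ (Finset.univ : Finset G),
        0 ≤ (if x ∈ M1 ⊓ M2 then (4 : ℝ) else 0) - ‖(χ : G → ℂ) x‖ ^ 2 := by
      intro x _
      by_cases hx : x ∈ M1 ⊓ M2
      · rw [if_pos hx]
        have h8 := norm_le_degree (isCharacter_of_isIrr χ.2) x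
        rw [hd1, hd] at h8
        have h9 : ‖(χ : G → ℂ) x‖ ≤ 2 := by simpa using h8
        nlinarith [norm_nonneg ((χ : G → ℂ) x)]
      · rw [if_neg hx, hvan χ hχ x hx]; simp
    have h8 : ∑ x : G, ((if x ∈ M1 ⊓ M2 then (4 : ℝ) else 0) - ‖(χ : G → ℂ) x‖ ^ 2) = 0 := by
      rw [Finset.sum_sub_distrib, h5, h6, sub_self]
    have h9 := (Finset.sum_eq_zero_iff_of_nonneg h7).mp h8 g (Finset.mem_univ g)
    rw [if_pos hg] at h9
    intro h0
    rw [h0] at h9
    norm_num at h9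
  have hmemμ : ∀ χ ∈ S2, tw μ χ ∈ S2 := by
    intro χ hχ
    obtain ⟨h0, h1, h2⟩ := (hS2mem χ).mp hχ
    refine (hS2mem _).mpr ⟨by rw [hdtw]; exact h0, by rw [tw_comm, h1], by rw [tw_comm, h2]⟩
  have hbackμ : ∀ χ ∈ S2, tw μ (tw μ χ) = χ := by
    intro χ hχ
    apply Subtype.ext; funext g
    rw [tw_apply, tw_apply]
    by_cases hg : g ∈ M1 ⊓ M2
    · rw [← mul_assoc, ← Units.val_mul, hμ2 g hg]; simp
    · rw [hvan χ hχ g hg]; simp
  have hreal_tw : ∀ χ ∈ S2, ε χ ≠ 0 → ε (tw μ χ) ≠ 0 := by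
    intro χ hχ he
    have him := hε3 χ he
    have hreal : ∀ g, conj ((tw μ χ : G → ℂ) g) = (tw μ χ : G → ℂ) g := by
      intro g
      rw [tw_apply]
      by_cases hg : g ∈ M1 ⊓ M2
      · have h1 : ((μ g : ℂˣ) : ℂ) * ((μ g : ℂˣ) : ℂ) = 1 := by
          rw [← Units.val_mul, hμ2 g hg]; rfl
        have h2 : ((μ g : ℂˣ) : ℂ) = 1 ∨ ((μ g : ℂˣ) : ℂ) = -1 := mul_self_eq_one_iff.mp h1
        have h3 : conj ((χ : G → ℂ) g) = (χ : G → ℂ) g := Complex.conj_eq_iff_im.2 (him g)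
        rcases h2 with h | h <;> rw [h] <;> simp [h3]
      · rw [hvan χ hχ g hg]; simp
    have h5 := fsInd_real (tw μ χ).2 hreal
    intro h0
    have h6 := hε1 (tw μ χ)
    rw [h0] at h6
    rcases h5 with h | h <;> rw [h] at h6 <;> norm_num at h6
  have hS2sum : ∑ χ ∈ S2, f χ = 0 := by
    refine Finset.sum_involution (fun χ _ => tw μ χ) ?_ ?_ ?_ ?_
    · intro χ hχ
      have hnl := ((hS2mem χ).mp hχ).1
      simp only [hf]
      rw [hdtw, ← Int.cast_add]
      apply h4dvd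
      rcases hdpow χ with h | h | h
      · exact absurd h hnl
      · rw [h]
        by_cases he : ε χ = 0
        · have he' : ε (tw μ χ) = 0 := by
            by_contra h'
            have := hreal_tw (tw μ χ) (hmemμ χ hχ) h'
            rw [hbackμ χ hχ] at this
            exact this he
          rw [he, he']; simp
        · have he' := hreal_tw χ hχ he
          rcases hε2 χ with a | a | a <;> rcases hε2 (tw μ χ) with b | b | b <;>
            first
              | exact absurd a he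
              | exact absurd b he'
              | (rw [a, b]; norm_num)
      · obtain ⟨c, hc'⟩ := h
        rw [hc']
        exact ⟨(ε χ + ε (tw μ χ)) * c, by push_cast; ring⟩
    · intro χ hχ hfne heq
      have hnl := ((hS2mem χ).mp hχ).1
      have hd2' : d χ = 2 := by
        rcases hdpow χ with h | h | h
        · exact absurd h hnl
        · exact h
        · exfalso
          apply hfne
          obtain ⟨c, hc'⟩ := h
          simp only [hf]
          exact h4dvd _ ⟨ε χ * c, by rw [hc']; push_cast; ring⟩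
      have h1 : ((μ g0 : ℂˣ) : ℂ) * (χ : G → ℂ) g0 = (χ : G → ℂ) g0 :=
        congrFun (congrArg Subtype.val heq) g0
      have h2 := hnv χ hχ hd2' g0 hg0N
      have h3 : ((μ g0 : ℂˣ) : ℂ) = 1 := mul_right_cancel₀ h2 (by rw [h1, one_mul])
      exact hg0 (Units.ext h3)
    · intro χ hχ; exact hmemμ χ hχ
    · intro χ hχ; exact hbackμ χ hχ
  -- the linear part
  obtain ⟨g1, hg1M2, hg1M1⟩ : ∃ g1 ∈ M2, g1 ∉ M1 := by
    by_contra hcon
    push Not at hcon
    have : M1 ⊓ M2 = M2 := inf_eq_right.mpr hcon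
    rw [this, hM2] at hN4
    omega
  obtain ⟨g2, hg2M1, hg2M2⟩ : ∃ g2 ∈ M1, g2 ∉ M2 := by
    by_contra hcon
    push Not at hcon
    have : M1 ⊓ M2 = M1 := inf_eq_left.mpr hcon
    rw [this, hM1] at hN4
    omega
  set L := Finset.univ.filter (fun χ : IrrCharacter G => d χ = 1) with hL
  set LR := L.filter (fun χ => ε χ ≠ 0) with hLR
  have hLRmem : ∀ χ, χ ∈ LR ↔ (d χ = 1 ∧ ε χ ≠ 0) := by
    intro χ
    simp only [hLR, hL, Finset.mem_filter, Finset.mem_univ, true_and]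
  have hLsum : ∑ χ ∈ L, f χ = (LR.card : ZMod 4) := by
    rw [hLR, ← Finset.sum_boole]
    refine Finset.sum_congr rfl fun χ hχ => ?_
    have hd' : d χ = 1 := (Finset.mem_filter.mp hχ).2
    by_cases he : ε χ = 0
    · rw [if_neg (by simpa using he)]
      simp only [hf]; rw [he]; simp
    · rw [if_pos he]
      have hreal : ∀ g, conj ((χ : G → ℂ) g) = (χ : G → ℂ) g :=
        fun g => Complex.conj_eq_iff_im.2 (hε3 χ he g)
      have h1 := fsInd_odd χ.2 hreal (hd1 χ) (by rw [hd']; exact odd_one)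
      rw [hε1] at h1
      have h2 : ε χ = 1 := by exact_mod_cast h1
      simp only [hf]; rw [h2, hd']; simp
  have hre : ∀ χ ∈ LR, ∀ g, ((χ : G → ℂ) g).re ≠ 0 := by
    intro χ hχ g h0
    obtain ⟨hd', he⟩ := (hLRmem χ).mp hχ
    have h1 : (χ : G → ℂ) 1 = 1 := by rw [hd1, hd']; simp
    have h2 := char_mul_of_degree_one (isCharacter_of_isIrr χ.2) h1 g g⁻¹
    have h3 : (χ : G → ℂ) g = 0 := Complex.ext h0 (hε3 χ he g)
    rw [mul_inv_cancel, h1, h3, zero_mul] at h2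
    exact one_ne_zero h2
  have hLRtw : ∀ (M : Subgroup G) (h : M.index = 2), ∀ χ ∈ LR, tw (sgn M h) χ ∈ LR := by
    intro M h χ hχ
    obtain ⟨hd', he⟩ := (hLRmem χ).mp hχ
    exact (hLRmem _).mpr ⟨by rw [hdtw]; exact hd', by rw [hεtw _ (hsq M h)]; exact he⟩
  have hflip : ∀ (M : Subgroup G) (h : M.index = 2) (g : G), g ∉ M → ∀ χ ∈ LR,
      (0 < ((tw (sgn M h) χ : G → ℂ) g).re ↔ ¬ 0 < ((χ : G → ℂ) g).re) := by
    intro M h g hg χ hχ
    rw [tw_apply, sgn_not_mem M h hg]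
    have h1 := hre χ hχ g
    have h2 : ((((-1 : ℂˣ) : ℂˣ) : ℂ) * (χ : G → ℂ) g).re = - ((χ : G → ℂ) g).re := by simp
    rw [h2]
    constructor
    · intro h3 h4; linarith
    · intro h3
      rcases lt_or_gt_of_ne h1 with h4 | h4
      · linarith
      · exact absurd h4 h3
  have hv1 := halving LR (tw (sgn M1 hM1)) (fun χ : IrrCharacter G => 0 < ((χ : G → ℂ) g1).re)
    (hLRtw M1 hM1) (fun χ _ => htwtw M1 hM1 χ) (hflip M1 hM1 g1 hg1M1)
  have hv2 := halving (LR.filter (fun χ : IrrCharacter G => 0 < ((χ : G → ℂ) g1).re))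
    (tw (sgn M2 hM2)) (fun χ : IrrCharacter G => 0 < ((χ : G → ℂ) g2).re)
    (fun χ hχ => by
      obtain ⟨h1, h2⟩ := Finset.mem_filter.mp hχ
      refine Finset.mem_filter.mpr ⟨hLRtw M2 hM2 χ h1, ?_⟩
      rw [tw_apply, sgn_mem M2 hM2 hg1M2]
      simpa using h2)
    (fun χ _ => htwtw M2 hM2 χ)
    (fun χ hχ => hflip M2 hM2 g2 hg2M2 χ (Finset.mem_filter.mp hχ).1)
  have hLR0 : (LR.card : ZMod 4) = 0 := by
    rw [hv1, hv2]
    push_cast
    rw [← mul_assoc]
    have : (2 : ZMod 4) * 2 = 0 := by decide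
    rw [this, zero_mul]
  have hsplit := Finset.sum_filter_add_sum_filter_not (Finset.univ : Finset (IrrCharacter G))
    (fun χ => d χ = 1) f
  rw [hsum, ← hL, ← hS0, hLsum, hLR0, st1, st2, hS2sum] at hsplit
  exact absurd hsplit (by decide)


/-- Let G be a finite 2-group whose number of involutions is congruent to 1 modulo 4. Then G is cyclic or its commutator subgroup has index 4. -/
theorem result {G : Type*} [Group G] [Finite G] (hG : IsPGroup 2 G) (ht : Nat.card {x : G // orderOf x = 2} % 4 = 1) : IsCyclic G ∨ (commutator G).index = 4 := by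
  have := Fintype.ofFinite G
  by_contra hcon
  push Not at hcon
  exact main hG ht hcon.1 hcon.2

end Cfsg.Agent.S4477
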