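import Cfsg.Statements.S4478
import Cfsg.Agent.Lib.helper8_DefectZero
import Cfsg.Agent.Lib.helper8_FS

set_option autoImplicit false
open Cfsg Cfsg.Agent.Lib.CharBasic Cfsg.Agent.Lib.CharOrtho Cfsg.Agent.Lib.CharComplete
  Cfsg.Agent.Lib.CharMore Cfsg.Agent.Lib.CharIntegral Cfsg.Agent.Lib.CharFS Cfsg.Agent.Lib.helper8_Defect
  Cfsg.Agent.Lib.helper8_FS Cfsg.Agent.Lib.helper8_DefectZero

namespace Cfsg.Agent.S4478

theorem not_dvd_div {n d p : ℕ} (hp : p.Prime) (hn : n ≠ 0) (hd : d ∣ n)
    (h : p ^ n.factorization p ∣ d) : ¬ p ∣ n / d := by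
  intro h1
  obtain ⟨m, rfl⟩ := hd
  have hd0 : 0 < d := Nat.pos_of_ne_zero (fun h0 => hn (by rw [h0, zero_mul]))
  rw [Nat.mul_div_cancel_left _ hd0] at h1
  exact Nat.pow_succ_factorization_not_dvd hn hp (by rw [pow_succ]; exact mul_dvd_mul h h1)

theorem sq_injOn {G : Type*} [Group G] {g h : G} (hg : Odd (orderOf g)) (hh : Odd (orderOf h))
    (e : g * g = h * h) : g = h := by
  have e2 : g ^ 2 = h ^ 2 := by rw [sq, sq, e]
  have h1 : orderOf (g ^ 2) = orderOf g :=
    Nat.Coprime.orderOf_pow (Nat.Coprime.symm (Nat.coprime_two_left.mpr hg))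
  have h2 : orderOf (h ^ 2) = orderOf h :=
    Nat.Coprime.orderOf_pow (Nat.Coprime.symm (Nat.coprime_two_left.mpr hh))
  have h3 : orderOf g = orderOf h := by rw [← h1, ← h2, e2]
  obtain ⟨k, hk⟩ := hg
  have h4 : g = (g ^ 2) ^ (k + 1) := by
    rw [← pow_mul]
    have : 2 * (k + 1) = orderOf g + 1 := by omega
    rw [this, pow_succ, pow_orderOf_eq_one, one_mul]
  have h5 : h = (h ^ 2) ^ (k + 1) := by
    rw [← pow_mul]
    have : 2 * (k + 1) = orderOf h + 1 := by omega
    rw [this, pow_succ, pow_orderOf_eq_one, one_mul]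
  rw [h4, h5, e2]

/-- Let G be a finite group of even order and χ an irreducible character of G whose degree x is divisible by the full power of 2 dividing the order of G and, for every odd prime p such that G has an element of order 2p, by the full power of p dividing the order of G. Then all involutions of G are conjugate, the centralizer of every involution has order exactly x with x coprime to its index, and the Frobenius–Schur indicator of χ equals 1. -/
theorem result {G : Type*} [Group G] [Fintype G] (heven : Even (Nat.card G)) (χ : Cfsg.IrrCharacter G) (h2 : 2 ^ (Nat.card G).factorization 2 ∣ Cfsg.charDegree (χ : G → ℂ)) (hp : ∀ p : ℕ, p.Prime → p ≠ 2 → (∃ g : G, orderOf g = 2 * p) → p ^ (Nat.card G).factorization p ∣ Cfsg.charDegree (χ : G → ℂ)) : (∀ s t : G, orderOf s = 2 → orderOf t = 2 → IsConj s t) ∧ (∀ s : G, orderOf s = 2 → Nat.card (Subgroup.centralizer ({s} : Set G)) = Cfsg.charDegree (χ : G → ℂ) ∧ (Nat.card (Subgroup.centralizer ({s} : Set G))).Coprime (Subgroup.centralizer ({s}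 : Set G)).index) ∧ (Nat.card G : ℂ)⁻¹ * ∑ g : G, (χ : G → ℂ) (g * g) = 1 := by
  classical
  obtain ⟨hd0, hd1, hd2⟩ := irr_charDegree χ.2
  set d := charDegree (χ : G → ℂ) with hd
  have hG0 : Nat.card G ≠ 0 := Nat.card_pos.ne'
  have hGC : (Nat.card G : ℂ) ≠ 0 := by exact_mod_cast hG0
  have V2 : ∀ y : G, 2 ∣ orderOf y → (χ : G → ℂ) y = 0 := fun y hy =>
    vanish_of_defect_zero Nat.prime_two χ (not_dvd_div Nat.prime_two hG0 hd2 h2) hy
  have Vp : ∀ p : ℕ, p.Prime → p ≠ 2 → (∃ g : G, orderOf g = 2 * p) → ∀ y : G, p ∣ orderOf y →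
      (χ : G → ℂ) y = 0 := fun p hpp hp2 hex y hy =>
    vanish_of_defect_zero hpp χ (not_dvd_div hpp hG0 hd2 (hp p hpp hp2 hex)) hy
  have h2G : 2 ∣ Nat.card G := heven.two_dvd
  have hd_even : 2 ∣ d := by
    refine dvd_trans ?_ h2
    exact dvd_pow_self 2 (Nat.Prime.factorization_pos_of_dvd Nat.prime_two hG0 h2G).ne'
  have hne1 : (χ : G → ℂ) ≠ 1 := by
    intro h
    have h1 : (d : ℂ) = 1 := by rw [← hd1, h]; rfl
    have h3 : d = 1 := by exact_mod_cast h1
    omega
  -- even order elements
  have hE : ∀ g : G, ¬ Odd (orderOf g) →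
      (χ : G → ℂ) (g * g) = if orderOf g = 2 then (d : ℂ) else 0 := by
    intro g hg
    rw [Nat.not_odd_iff_even] at hg
    obtain ⟨n, hn⟩ := hg.two_dvd
    have hn0 : 0 < n := by
      have := orderOf_pos g
      omega
    have ho : orderOf (g ^ 2) = n := by
      rw [orderOf_pow_of_dvd (by norm_num) hg.two_dvd, hn, Nat.mul_div_cancel_left _ (by norm_num)]
    rw [← sq]
    split_ifs with h
    · have : g ^ 2 = 1 := by rw [← h]; exact pow_orderOf_eq_one g
      rw [this, hd1]
    · have hn1 : n ≠ 1 := by omega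
      obtain ⟨q, hq, hqn⟩ := Nat.exists_prime_and_dvd hn1
      by_cases hq2 : q = 2
      · exact V2 _ (by rw [ho, ← hq2]; exact hqn)
      · refine Vp q hq hq2 ?_ _ (by rw [ho]; exact hqn)
        obtain ⟨m, hm⟩ := hqn
        refine ⟨g ^ m, ?_⟩
        have hm0 : m ≠ 0 := by
          rintro rfl
          omega
        rw [orderOf_pow_of_dvd hm0 ⟨2 * q, by rw [hn, hm]; ring⟩, hn, hm]
        have : 2 * (q * m) = (2 * q) * m := by ring
        rw [this, Nat.mul_div_cancel _ (Nat.pos_of_ne_zero hm0)]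
  -- odd order elements
  set S := Finset.univ.filter (fun g : G => Odd (orderOf g)) with hS
  have himg : S.image (fun g => g * g) = S := by
    apply Finset.eq_of_subset_of_card_le
    · intro x hx
      obtain ⟨g, hg, rfl⟩ := Finset.mem_image.mp hx
      rw [hS, Finset.mem_filter] at hg ⊢
      refine ⟨Finset.mem_univ _, ?_⟩
      rw [← sq, Nat.Coprime.orderOf_pow (Nat.Coprime.symm (Nat.coprime_two_left.mpr hg.2))]
      exact hg.2
    · rw [Finset.card_image_of_injOn]
      intro g hg h hh e
      have hg' := (Finset.mem_filter.mp hg).2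
      have hh' := (Finset.mem_filter.mp hh).2
      exact sq_injOn hg' hh' e
  have hO : ∑ g ∈ S, (χ : G → ℂ) (g * g) = 0 := by
    have h1 : ∑ g ∈ S, (χ : G → ℂ) (g * g) = ∑ x ∈ S.image (fun g => g * g), (χ : G → ℂ) x := by
      rw [Finset.sum_image]
      intro g hg h hh e
      have hg' := (Finset.mem_filter.mp hg).2
      have hh' := (Finset.mem_filter.mp hh).2
      exact sq_injOn hg' hh' e
    rw [h1, himg]
    have h3 : ∑ x ∈ S, (χ : G → ℂ) x = ∑ x : G, (χ : G → ℂ) x := by
      rw [hS, Finset.sum_filter]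
      refine Finset.sum_congr rfl fun x _ => ?_
      split_ifs with h
      · rfl
      · rw [Nat.not_odd_iff_even] at h
        exact (V2 x h.two_dvd).symm
    rw [h3]
    have h4 := classInner_irr_ne χ.2 isIrr_one hne1
    rw [classInner] at h4
    have h5 := (mul_eq_zero.mp h4).resolve_left (inv_ne_zero hGC)
    simpa using h5
  set T := Finset.univ.filter (fun g : G => orderOf g = 2) with hT
  have hsum : ∑ g : G, (χ : G → ℂ) (g * g) = (T.card : ℂ) * d := by
    rw [← Finset.sum_filter_add_sum_filter_not Finset.univ (fun g : G => Odd (orderOf g)), ← hS, hO,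
      zero_add]
    have h1 : ∑ g ∈ Finset.univ.filter (fun g : G => ¬ Odd (orderOf g)), (χ : G → ℂ) (g * g) =
        ∑ g ∈ Finset.univ.filter (fun g : G => ¬ Odd (orderOf g)),
          if orderOf g = 2 then (d : ℂ) else 0 :=
      Finset.sum_congr rfl fun g hg => hE g (Finset.mem_filter.mp hg).2
    rw [h1, ← Finset.sum_filter, Finset.filter_filter, Finset.sum_const, nsmul_eq_mul]
    congr 2
    rw [hT]
    congr 1
    ext g
    simp only [Finset.mem_filter, Finset.mem_univ, true_and]
    constructor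
    · exact fun h => h.2
    · intro h
      exact ⟨by rw [h]; decide, h⟩
  have hTpos : 0 < T.card := by
    obtain ⟨y, hy⟩ := exists_prime_orderOf_dvd_card' 2 h2G (hp := ⟨Nat.prime_two⟩)
    exact Finset.card_pos.mpr ⟨y, by rw [hT]; simp [hy]⟩
  obtain ⟨ε, hε, hε01, -⟩ := fsInd_int χ.2
  have hfs : (T.card : ℂ) * d = ε * (Nat.card G : ℂ) := by
    rw [← hε, fsInd, hsum]
    field_simp
  have hfsZ : (T.card : ℤ) * d = ε * (Nat.card G : ℤ) := by exact_mod_cast hfs
  have hpos : (0 : ℤ) < (T.card : ℤ) * d := by positivity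
  have hε1 : ε = 1 := by
    rcases hε01 with h | h | h
    · rw [h] at hfsZ; omega
    · exact h
    · rw [h] at hfsZ
      have : (0 : ℤ) < (Nat.card G : ℤ) := by exact_mod_cast Nat.card_pos
      omega
  have hTd : T.card * d = Nat.card G := by
    rw [hε1, one_mul] at hfsZ
    exact_mod_cast hfsZ
  -- full powers
  have hfull : ∀ s : G, orderOf s = 2 → ∀ p : ℕ, p.Prime →
      p ∣ Nat.card (Subgroup.centralizer ({s} : Set G)) → p ^ (Nat.card G).factorization p ∣ d := by
    intro s hs p hpp hpC
    by_cases hp2 : p = 2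
    · rw [hp2]; exact h2
    · refine hp p hpp hp2 ?_
      obtain ⟨u, hu⟩ := exists_prime_orderOf_dvd_card' p hpC (hp := ⟨hpp⟩)
      refine ⟨s * (u : G), ?_⟩
      have hcomm : Commute s (u : G) := by
        have := Subgroup.mem_centralizer_singleton_iff.mp u.2
        exact this.symm
      have hu' : orderOf (u : G) = p := by rw [Subgroup.orderOf_coe, hu]
      rw [hcomm.orderOf_mul_eq_mul_orderOf_of_coprime, hs, hu']
      rw [hs, hu']
      exact (Nat.coprime_primes Nat.prime_two hpp).mpr (Ne.symm hp2)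
  have hCd : ∀ s : G, orderOf s = 2 → Nat.card (Subgroup.centralizer ({s} : Set G)) ∣ d := by
    intro s hs
    rw [← Nat.factorization_prime_le_iff_dvd Nat.card_pos.ne' hd0.ne']
    intro p hpp
    by_cases hpC : p ∣ Nat.card (Subgroup.centralizer ({s} : Set G))
    · have h1 := hfull s hs p hpp hpC
      have h3 := (hpp.pow_dvd_iff_le_factorization hd0.ne').mp h1
      have h4 : (Nat.card (Subgroup.centralizer ({s} : Set G))).factorization p ≤
          (Nat.card G).factorization p :=
        (Nat.factorization_le_iff_dvd Nat.card_pos.ne' hG0).mpr (Subgroup.card_subgroup_dvd_card _) p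
      exact h4.trans h3
    · rw [Nat.factorization_eq_zero_of_not_dvd hpC]
      exact Nat.zero_le _
  have hsub : ∀ s : G, orderOf s = 2 → Finset.univ.filter (IsConj s) ⊆ T := by
    intro s hs x hx
    obtain ⟨c, hc⟩ := isConj_iff.mp (Finset.mem_filter.mp hx).2
    rw [hT, Finset.mem_filter]
    refine ⟨Finset.mem_univ _, ?_⟩
    rw [← hc, ← hs]
    have := (MulAut.conj c).orderOf_eq s
    simpa using this
  have hmain : ∀ s : G, orderOf s = 2 →
      Nat.card (Subgroup.centralizer ({s} : Set G)) = d ∧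
        (Subgroup.centralizer ({s} : Set G)).index = T.card := by
    intro s hs
    have h1 := Finset.card_le_card (hsub s hs)
    rw [card_class_eq_index] at h1
    have h3 := (Subgroup.centralizer ({s} : Set G)).card_mul_index
    have h4 := Nat.le_of_dvd hd0 (hCd s hs)
    rw [← hTd] at h3
    generalize Nat.card (Subgroup.centralizer ({s} : Set G)) = c at *
    generalize (Subgroup.centralizer ({s} : Set G)).index = i at *
    generalize T.card = t at *
    have h5 : c * i ≤ d * i := Nat.mul_le_mul_right _ h4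
    have h6 : d * i ≤ d * t := Nat.mul_le_mul_left _ h1
    have h7 : d * i = d * t := by nlinarith
    have h8 : i = t := Nat.eq_of_mul_eq_mul_left hd0 h7
    subst h8
    refine ⟨?_, rfl⟩
    have : c * i = d * i := by rw [h3, mul_comm]
    exact Nat.eq_of_mul_eq_mul_right hTpos this
  refine ⟨?_, ?_, ?_⟩
  · intro s t hs ht
    have h1 : Finset.univ.filter (IsConj s) = T := by
      apply Finset.eq_of_subset_of_card_le (hsub s hs)
      rw [card_class_eq_index, (hmain s hs).2]
    have h3 : t ∈ T := by rw [hT]; simp [ht]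
    rw [← h1] at h3
    exact (Finset.mem_filter.mp h3).2
  · intro s hs
    refine ⟨(hmain s hs).1, ?_⟩
    by_contra hnc
    obtain ⟨p, hpp, hp1, hp3⟩ := Nat.Prime.not_coprime_iff_dvd.mp hnc
    have h1 := hfull s hs p hpp hp1
    rw [(hmain s hs).2] at hp3
    apply Nat.pow_succ_factorization_not_dvd hG0 hpp
    have h5 : p ^ (Nat.card G).factorization p * p ∣ d * T.card := mul_dvd_mul h1 hp3
    rw [mul_comm d, hTd] at h5
    rw [pow_succ]
    exact h5
  · have := hε
    rw [fsInd, hε1] at this
    simpa using this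

end Cfsg.Agent.S4478
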