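import Cfsg.Statements.S4479
import Cfsg.Agent.Lib.helper8_Klein2

set_option autoImplicit false
open Cfsg

namespace Cfsg.Agent.S4479

/-- An order formula from the principal 2-block. Let G be a finite group of order 4·g₀ with g₀ odd having no normal 2-complement (no normal subgroup of order g₀); let P be a Sylow 2-subgroup, J an involution of P, and fix a maximal ideal M of the algebraic integers containing 2. Suppose the principal 2-block consists of the principal character and three further distinct characters χ₁, χ₂, χ₃ of degrees x₁, x₂, x₃, with χ_i(J) = ε_i = ±1. Then, writing c(J) and c(P) for the orders of the centralizers of J and of P, the order of G equals 8·α·c(J)³/c(P)² with α = x₁x₂x₃ / ((x₁ + ε₁)(x₂ + ε₂)(x₃ + ε₃)). -/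
theorem result {G : Type*} [Group G] [Finite G] (M : Ideal Cfsg.AlgInt) (hM : Cfsg.IsPModular 2 M) (g₀ : ℕ) (hg₀ : Odd g₀) (hG : Nat.card G = 4 * g₀) (hnc : ¬ ∃ N : Subgroup G, N.Normal ∧ Nat.card N = g₀) (P : Sylow 2 G) (J : G) (hJ : J ∈ (P : Subgroup G)) (hJ2 : orderOf J = 2) (χ₁ χ₂ χ₃ : Cfsg.IrrCharacter G) (ε₁ ε₂ ε₃ : ℤ) (hB : Cfsg.principalBlock M G = {χ : Cfsg.IrrCharacter G | (χ : G → ℂ) = (fun _ => 1) ∨ χ = χ₁ ∨ χ = χ₂ ∨ χ = χ₃}) (hdist : (χ₁ : G → ℂ) ≠ (fun _ => 1) ∧ (χ₂ : G → ℂ) ≠ (fun _ => 1) ∧ (χ₃ : G → ℂ) ≠ (fun _ => 1) ∧ χ₁ ≠ χ₂ ∧ χ₁ ≠ χ₃ ∧ χ₂ ≠ χ₃) (hε : (ε₁ = 1 ∨ ε₁ = -1) ∧ (ε₂ = 1 ∨ ε₂ = -1) ∧ (ε₃ = 1 ∨ ε₃ = -1)) (hval : (χ₁ : G → ℂ) J = ε₁ ∧ (χ₂ : G → ℂ) J = ε₂ ∧ (χ₃ : G → ℂ) J = ε₃) : (Nat.card G : ℚ) = 8 * (((Cfsg.charDegree (χ₁ : G → ℂ) : ℚ) * Cfsg.charDegree (χ₂ : G → ℂ) * Cfsg.charDegree (χ₃ : G → ℂ)) / ((Cfsg.charDegree (χ₁ : G → ℂ) + ε₁)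 * (Cfsg.charDegree (χ₂ : G → ℂ) + ε₂) * (Cfsg.charDegree (χ₃ : G → ℂ) + ε₃))) * (Nat.card (Subgroup.centralizer ({J} : Set G)) : ℚ) ^ 3 / (Nat.card (Subgroup.centralizer ((P : Subgroup G) : Set G)) : ℚ) ^ 2 := by
  classical
  have := Fintype.ofFinite G
  obtain ⟨hd1, hd2, hd3, h12, h13, h23⟩ := hdist
  obtain ⟨hv1, hv2, hv3⟩ := hval
  set χ₀ : IrrCharacter G := ⟨1, Cfsg.Agent.Lib.CharMore.isIrr_one⟩ with hχ₀
  have h0f : (χ₀ : G → ℂ) = fun _ => 1 := rfl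
  have hsum : ∀ F : IrrCharacter G → ℂ,
      ∑ χ : IrrCharacter G, (if χ ∈ principalBlock M G then F χ else 0) =
        F χ₀ + F χ₁ + F χ₂ + F χ₃ := by
    intro F
    rw [← Finset.sum_filter]
    have hf : Finset.univ.filter (fun χ : IrrCharacter G => χ ∈ principalBlock M G) =
        {χ₀, χ₁, χ₂, χ₃} := by
      ext χ
      simp only [Finset.mem_filter, Finset.mem_univ, true_and, hB, Set.mem_ofPred_eq,
        Finset.mem_insert, Finset.mem_singleton]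
      constructor
      · rintro (h | h | h | h)
        · exact Or.inl (Subtype.ext h)
        · exact Or.inr (Or.inl h)
        · exact Or.inr (Or.inr (Or.inl h))
        · exact Or.inr (Or.inr (Or.inr h))
      · rintro (h | h | h | h)
        · exact Or.inl (by rw [h, h0f])
        · exact Or.inr (Or.inl h)
        · exact Or.inr (Or.inr (Or.inl h))
        · exact Or.inr (Or.inr (Or.inr h))
    have n1 : χ₀ ≠ χ₁ := fun h => hd1 (by rw [← h, h0f])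
    have n2 : χ₀ ≠ χ₂ := fun h => hd2 (by rw [← h, h0f])
    have n3 : χ₀ ≠ χ₃ := fun h => hd3 (by rw [← h, h0f])
    rw [hf, Finset.sum_insert (by simp [n1, n2, n3]), Finset.sum_insert (by simp [h12, h13]),
      Finset.sum_insert (by simp [h23]), Finset.sum_singleton]
    ring
  obtain ⟨p1, e1, -⟩ := Cfsg.Agent.Lib.helper8_Defect.irr_charDegree χ₁.2
  obtain ⟨p2, e2, -⟩ := Cfsg.Agent.Lib.helper8_Defect.irr_charDegree χ₂.2
  obtain ⟨p3, e3, -⟩ := Cfsg.Agent.Lib.helper8_Defect.irr_charDegree χ₃.2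
  set f₁ := charDegree (χ₁ : G → ℂ) with hf₁
  set f₂ := charDegree (χ₂ : G → ℂ) with hf₂
  set f₃ := charDegree (χ₃ : G → ℂ) with hf₃
  have q1 : (f₁ : ℂ) ≠ 0 := by exact_mod_cast p1.ne'
  have q2 : (f₂ : ℂ) ≠ 0 := by exact_mod_cast p2.ne'
  have q3 : (f₃ : ℂ) ≠ 0 := by exact_mod_cast p3.ne'
  have s1 : ((ε₁ : ℤ) : ℂ) * ε₁ = 1 := by rcases hε.1 with h | h <;> rw [h] <;> norm_num
  have s2 : ((ε₂ : ℤ) : ℂ) * ε₂ = 1 := by rcases hε.2.1 with h | h <;> rw [h] <;> norm_num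
  have s3 : ((ε₃ : ℤ) : ℂ) * ε₃ = 1 := by rcases hε.2.2 with h | h <;> rw [h] <;> norm_num
  have c1 : (starRingEnd ℂ) ((ε₁ : ℤ) : ℂ) = ε₁ := map_intCast _ _
  have c2 : (starRingEnd ℂ) ((ε₂ : ℤ) : ℂ) = ε₂ := map_intCast _ _
  have c3 : (starRingEnd ℂ) ((ε₃ : ℤ) : ℂ) = ε₃ := map_intCast _ _
  have h4 : ∑ χ : IrrCharacter G, (if χ ∈ principalBlock M G then (χ : G → ℂ) J else 0) *
        (starRingEnd ℂ) ((χ : G → ℂ) J) = 4 := by
    simp only [ite_mul, zero_mul]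
    rw [hsum, hv1, hv2, hv3, c1, c2, c3, s1, s2, s3, h0f]
    norm_num
  have hT := Cfsg.Agent.Lib.helper8_Klein2.T_value hM hg₀ hG hnc P hJ hJ2 h4
  simp only [ite_mul, zero_mul] at hT
  rw [hsum, hv1, hv2, hv3, e1, e2, e3, h0f] at hT
  have hO : (1 : ℂ) + f₁ * ε₁ + f₂ * ε₂ + f₃ * ε₃ = 0 := by
    have h := Cfsg.Agent.Lib.Helper2_BlockOrtho.blockCoeff_singular hM
      (Cfsg.Agent.Lib.Helper2_BlockThird.principalBlock_isPBlock M G) (y := J) (by rw [hJ2])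
    unfold blockCoeff at h
    rw [Cfsg.Agent.Lib.helper8_BlockSum.finsum_block, Finset.sum_filter, hsum, hv1, hv2, hv3, e1,
      e2, e3, c1, c2, c3, h0f] at h
    have hG0 : (Nat.card G : ℂ)⁻¹ ≠ 0 := by
      apply inv_ne_zero
      exact_mod_cast Nat.card_pos.ne'
    rcases mul_eq_zero.mp h with h | h
    · exact absurd h hG0
    · simpa using h
  set nH : ℂ := (Nat.card (Subgroup.centralizer ({J} : Set G)) : ℂ) with hnH
  set nC : ℂ := (Nat.card (Subgroup.centralizer ((P : Subgroup G) : Set G)) : ℂ) with hnC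
  set nG : ℂ := (Nat.card G : ℂ) with hnG
  have hH0 : nH ≠ 0 := by rw [hnH]; exact_mod_cast Nat.card_pos.ne'
  have hC0 : nC ≠ 0 := by rw [hnC]; exact_mod_cast Nat.card_pos.ne'
  have hG0 : nG ≠ 0 := by rw [hnG]; exact_mod_cast Nat.card_pos.ne'
  have hT' : (f₁ : ℂ) * f₂ * f₃ + ε₁ * f₂ * f₃ + ε₂ * f₁ * f₃ + ε₃ * f₁ * f₂ =
      f₁ * f₂ * f₃ * (8 * nH ^ 3 / (nG * nC ^ 2)) := by
    rw [← hT, s1, s2, s3]
    field_simp
  have hPi : ((f₁ : ℂ) + ε₁) * (f₂ + ε₂) * (f₃ + ε₃) =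
      f₁ * f₂ * f₃ * (8 * nH ^ 3 / (nG * nC ^ 2)) := by
    rw [← hT']
    linear_combination ((ε₁ : ℂ) * ε₂ * ε₃) * hO - (f₁ : ℂ) * ε₂ * ε₃ * s1 - (f₂ : ℂ) * ε₁ * ε₃ * s2
      - (f₃ : ℂ) * ε₁ * ε₂ * s3
  apply Rat.cast_injective (α := ℂ)
  push_cast
  rw [hPi, ← hnH, ← hnC, ← hnG]
  field_simp

end Cfsg.Agent.S4479
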