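import Cfsg.Statements.S4480
import Cfsg.Agent.Lib.helper8_Klein3
import Cfsg.Agent.Lib.helper8_ModP
import Cfsg.Agent.Lib.Helper2_Necklace2
import Cfsg.Agent.S4479

set_option autoImplicit false
open Cfsg

namespace Cfsg.Agent.S4480

theorem arith {g c e x f idx : ℕ} (hf : Odd f) (hx : x = 2 * f + 1) (hc0 : 0 < c) (he : e ∣ c)
    (hidx : c * idx = g) (hxi : x ∣ idx) (key : g * (f + 1) ^ 2 * e ^ 2 = 4 * f * x * c ^ 3) :
    ∃ m : ℕ, 4 * c = m * e * (x + 1) ∧ 8 * g = m ^ 3 * e * (x ^ 3 - x) := by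
  obtain ⟨r, rfl⟩ := he
  obtain ⟨t, rfl⟩ := hxi
  obtain ⟨j, hj⟩ := hf
  set y := j + 1 with hy
  have hfy : f + 1 = 2 * y := by omega
  have he0 : 0 < e := Nat.pos_of_mul_pos_right hc0
  have hx0 : 0 < x := by omega
  have hy0 : 0 < y := by omega
  have h1 : t * y ^ 2 = f * r ^ 2 := by
    subst hidx
    rw [hfy] at key
    have h2 : (4 * x * e ^ 3 * r) * (t * y ^ 2) = (4 * x * e ^ 3 * r) * (f * r ^ 2) := by
      calc (4 * x * e ^ 3 * r) * (t * y ^ 2) = e * r * (x * t) * (2 * y) ^ 2 * e ^ 2 := by ring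
        _ = 4 * f * x * (e * r) ^ 3 := key
        _ = _ := by ring
    have hr0 : 0 < r := Nat.pos_of_mul_pos_left hc0
    exact Nat.eq_of_mul_eq_mul_left (by positivity) h2
  have hcop : Nat.Coprime (y ^ 2) f := by
    apply Nat.Coprime.pow_left
    have h3 : Nat.Coprime (f + 1) f := by simp
    exact Nat.Coprime.coprime_dvd_left ⟨2, by rw [hfy]; ring⟩ h3
  have h4 : y ^ 2 ∣ r ^ 2 := hcop.dvd_of_dvd_mul_left ⟨t, by rw [← h1]; ring⟩
  obtain ⟨m, rfl⟩ := (Nat.pow_dvd_pow_iff two_ne_zero).mp h4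
  have h5 : t = f * m ^ 2 := by
    have : y ^ 2 * t = y ^ 2 * (f * m ^ 2) := by
      calc y ^ 2 * t = t * y ^ 2 := by ring
        _ = f * (y * m) ^ 2 := h1
        _ = _ := by ring
    exact Nat.eq_of_mul_eq_mul_left (by positivity) this
  refine ⟨m, ?_, ?_⟩
  · have : x + 1 = 4 * y := by omega
    rw [this]; ring
  · have h6 : x ^ 3 - x = 8 * x * f * y := by
      apply Nat.sub_eq_of_eq_add
      have : 8 * x * f * y = 4 * x * f * (f + 1) := by rw [hfy]; ring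
      rw [this, hx]; ring
    rw [h6, ← hidx, h5]
    ring

/-- Same setting as the Klein-four order formula: G of order 4·g₀ (g₀ odd) with no normal 2-complement, P a Sylow 2-subgroup, J an involution of P, M over 2, principal 2-block {1, χ₁, χ₂, χ₃} with χ_i(J) = ε_i = ±1. Suppose ε₁ε₂ε₃ = −1 and ε₃ = −1, and put q = x₃ = χ₃(1). Then there is a natural number m with 4·c(J) = m·c(P)·(q + 1), and the order of G equals (m³·c(P)/4)·(q³ − q)/2, that is 8·#G = m³·c(P)·(q³ − q). -/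
theorem result {G : Type*} [Group G] [Finite G] (M : Ideal Cfsg.AlgInt) (hM : Cfsg.IsPModular 2 M) (g₀ : ℕ) (hg₀ : Odd g₀) (hG : Nat.card G = 4 * g₀) (hnc : ¬ ∃ N : Subgroup G, N.Normal ∧ Nat.card N = g₀) (P : Sylow 2 G) (J : G) (hJ : J ∈ (P : Subgroup G)) (hJ2 : orderOf J = 2) (χ₁ χ₂ χ₃ : Cfsg.IrrCharacter G) (ε₁ ε₂ ε₃ : ℤ) (hB : Cfsg.principalBlock M G = {χ : Cfsg.IrrCharacter G | (χ : G → ℂ) = (fun _ => 1) ∨ χ = χ₁ ∨ χ = χ₂ ∨ χ = χ₃}) (hdist : (χ₁ : G → ℂ) ≠ (fun _ => 1) ∧ (χ₂ : G → ℂ) ≠ (fun _ => 1) ∧ (χ₃ : G → ℂ) ≠ (fun _ => 1) ∧ χ₁ ≠ χ₂ ∧ χ₁ ≠ χ₃ ∧ χ₂ ≠ χ₃) (hε : (ε₁ = 1 ∨ ε₁ = -1) ∧ (ε₂ = 1 ∨ ε₂ = -1) ∧ (ε₃ = 1 ∨ ε₃ = -1)) (hval : (χ₁ : G → ℂ) J = ε₁ ∧ (χ₂ : G → ℂ) J = ε₂ ∧ (χ₃ : G → ℂ) J = ε₃) (hprod : ε₁ * ε₂ * ε₃ = -1) (hε₃ : ε₃ = -1) : ∃ m : ℕ, 4 * Nat.card (Subgroup.centralizer ({J} : Set G)) = m * Nat.card (Subgroup.centralizer ((P : Subgroup G) : Set G)) * (Cfsg.charDegree (χ₃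 : G → ℂ) + 1) ∧ 8 * Nat.card G = m ^ 3 * Nat.card (Subgroup.centralizer ((P : Subgroup G) : Set G)) * (Cfsg.charDegree (χ₃ : G → ℂ) ^ 3 - Cfsg.charDegree (χ₃ : G → ℂ)) := by
  classical
  have := Fintype.ofFinite G
  have key0 := Cfsg.Agent.S4479.result M hM g₀ hg₀ hG hnc P J hJ hJ2 χ₁ χ₂ χ₃ ε₁ ε₂ ε₃ hB hdist hε hval
  obtain ⟨hd1, hd2, hd3, h12, h13, h23⟩ := hdist
  obtain ⟨hv1, hv2, hv3⟩ := hval
  set χ₀ : IrrCharacter G := ⟨1, Cfsg.Agent.Lib.CharMore.isIrr_one⟩ with hχ₀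
  have h0f : (χ₀ : G → ℂ) = fun _ => 1 := rfl
  have hsum : ∀ F : IrrCharacter G → ℂ,
      ∑ χ : IrrCharacter G, (if χ ∈ principalBlock M G then F χ else 0) =
        F χ₀ + F χ₁ + F χ₂ + F χ₃ := by
    intro F
    rw [← Finset.sum_filter]
    have hf : Finset.univ.filter (fun χ : IrrCharacter G => χ ∈ principalBlock M G) =
        {χ₀, χ₁, χ₂, χ₃} := by
      ext χ
      simp only [Finset.mem_filter, Finset.mem_univ, true_and, hB, Set.mem_ofPred_eq,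
        Finset.mem_insert, Finset.mem_singleton]
      constructor
      · rintro (h | h | h | h)
        · exact Or.inl (Subtype.ext h)
        · exact Or.inr (Or.inl h)
        · exact Or.inr (Or.inr (Or.inl h))
        · exact Or.inr (Or.inr (Or.inr h))
      · rintro (h | h | h | h)
        · exact Or.inl (by rw [h, h0f])
        · exact Or.inr (Or.inl h)
        · exact Or.inr (Or.inr (Or.inl h))
        · exact Or.inr (Or.inr (Or.inr h))
    have n1 : χ₀ ≠ χ₁ := fun h => hd1 (by rw [← h, h0f])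
    have n2 : χ₀ ≠ χ₂ := fun h => hd2 (by rw [← h, h0f])
    have n3 : χ₀ ≠ χ₃ := fun h => hd3 (by rw [← h, h0f])
    rw [hf, Finset.sum_insert (by simp [n1, n2, n3]), Finset.sum_insert (by simp [h12, h13]),
      Finset.sum_insert (by simp [h23]), Finset.sum_singleton]
    ring
  obtain ⟨p1, e1, -⟩ := Cfsg.Agent.Lib.helper8_Defect.irr_charDegree χ₁.2
  obtain ⟨p2, e2, -⟩ := Cfsg.Agent.Lib.helper8_Defect.irr_charDegree χ₂.2
  obtain ⟨p3, e3, -⟩ := Cfsg.Agent.Lib.helper8_Defect.irr_charDegree χ₃.2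
  set f₁ := charDegree (χ₁ : G → ℂ) with hf₁
  set f₂ := charDegree (χ₂ : G → ℂ) with hf₂
  set f₃ := charDegree (χ₃ : G → ℂ) with hf₃
  have c1 : (starRingEnd ℂ) ((ε₁ : ℤ) : ℂ) = ε₁ := map_intCast _ _
  have c2 : (starRingEnd ℂ) ((ε₂ : ℤ) : ℂ) = ε₂ := map_intCast _ _
  have c3 : (starRingEnd ℂ) ((ε₃ : ℤ) : ℂ) = ε₃ := map_intCast _ _
  have hO : (1 : ℂ) + f₁ * ε₁ + f₂ * ε₂ + f₃ * ε₃ = 0 := by
    have h := Cfsg.Agent.Lib.Helper2_BlockOrtho.blockCoeff_singular hM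
      (Cfsg.Agent.Lib.Helper2_BlockThird.principalBlock_isPBlock M G) (y := J) (by rw [hJ2])
    unfold blockCoeff at h
    rw [Cfsg.Agent.Lib.helper8_BlockSum.finsum_block, Finset.sum_filter, hsum, hv1, hv2, hv3, e1,
      e2, e3, c1, c2, c3, h0f] at h
    have hG0 : (Nat.card G : ℂ)⁻¹ ≠ 0 := by
      apply inv_ne_zero
      exact_mod_cast Nat.card_pos.ne'
    rcases mul_eq_zero.mp h with h | h
    · exact absurd h hG0
    · simpa using h
  have hOz : (1 : ℤ) + f₁ * ε₁ + f₂ * ε₂ + f₃ * ε₃ = 0 := by exact_mod_cast hO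
  subst hε₃
  have he12 : ε₁ = 1 ∧ ε₂ = 1 := by
    rcases hε.1 with h1 | h1 <;> rcases hε.2.1 with h2 | h2 <;> subst h1 <;> subst h2
    · exact ⟨rfl, rfl⟩
    · norm_num at hprod
    · norm_num at hprod
    · exfalso
      have q1 : (1 : ℤ) ≤ f₁ := by exact_mod_cast p1
      have q2 : (1 : ℤ) ≤ f₂ := by exact_mod_cast p2
      have q3 : (1 : ℤ) ≤ f₃ := by exact_mod_cast p3
      linarith
  obtain ⟨rfl, rfl⟩ := he12
  have hf3 : f₃ = 1 + f₁ + f₂ := by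
    have : (f₃ : ℤ) = 1 + f₁ + f₂ := by linarith
    exact_mod_cast this
  have hJJ := Cfsg.Agent.Lib.Helper2_Basic.sq_eq_one_of_orderOf_two hJ2
  have hJ1 := Cfsg.Agent.Lib.Helper2_Basic.ne_one_of_orderOf_two hJ2
  -- oddness
  have hodd : ∀ (χ : IrrCharacter G) (ε : ℤ), (ε = 1 ∨ ε = -1) → (χ : G → ℂ) J = ε →
      Odd (charDegree (χ : G → ℂ)) := by
    intro χ ε hε' hv
    obtain ⟨-, e, -⟩ := Cfsg.Agent.Lib.helper8_Defect.irr_charDegree χ.2
    have h := Cfsg.Agent.Lib.helper8_ModP.char_congr_one hM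
      (Cfsg.Agent.Lib.CharBasic.isCharacter_of_isIrr χ.2) J (j := 1) (by rw [pow_one, pow_two, hJJ])
    rw [e, hv] at h
    have h2 : MemLocalIdeal M (((charDegree (χ : G → ℂ) : ℤ) - ε : ℤ) : ℂ) := by
      push_cast; exact h
    rw [Cfsg.Agent.Lib.Helper2_Necklace2.ideal_intCast_iff hM] at h2
    have h3 : Odd (charDegree (χ : G → ℂ) : ℤ) := by
      obtain ⟨q, hq⟩ := h2
      rcases hε' with rfl | rfl
      · exact ⟨q, by push_cast at hq; linarith⟩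
      · exact ⟨q - 1, by push_cast at hq; linarith⟩
    exact_mod_cast h3
  have o1 : Odd f₁ := hodd χ₁ 1 (Or.inl rfl) hv1
  have o2 : Odd f₂ := hodd χ₂ 1 (Or.inl rfl) hv2
  -- structure of P
  obtain ⟨a, haP, haa, ha1, haJ, -, -⟩ :=
    Cfsg.Agent.Lib.helper8_Klein.exists_fusion hg₀ hG hnc P hJ hJ1 hJJ
  have hPc := Cfsg.Agent.Lib.helper8_Klein.card_sylow hg₀ hG P
  have hel := Cfsg.Agent.Lib.helper8_Klein.four_elements hPc hJ haP hJ1 ha1 haJ hJJ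
  have hPsq : ∀ w ∈ (P : Subgroup G), w * w = 1 := by
    intro w hw
    rcases hel w hw with rfl | rfl | rfl | rfl
    · simp
    · exact hJJ
    · exact haa
    · have hc := Cfsg.Agent.Lib.helper8_Klein.sylow_comm hPc haP hJ
      calc (J * a) * (J * a) = J * (a * J) * a := by group
        _ = (J * J) * (a * a) := by rw [hc.eq]; group
        _ = 1 := by rw [hJJ, haa, one_mul]
  have hfs := Cfsg.Agent.Lib.helper8_Klein3.fs_sum_zero hM P hPsq hJ2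
  rw [hsum, hv1, hv2, hv3] at hfs
  have hfs0 : Cfsg.Agent.Lib.CharFS.fsInd (χ₀ : G → ℂ) = 1 := Cfsg.Agent.Lib.helper8_FS.fsInd_one
  rw [hfs0, h0f] at hfs
  simp only [mul_one] at hfs
  obtain ⟨ν₃, hν₃, hν₃', -⟩ := Cfsg.Agent.Lib.helper8_FS.fsInd_int χ₃.2
  have hnr : ¬ ∀ g, (starRingEnd ℂ) ((χ₁ : G → ℂ) g) = (χ₁ : G → ℂ) g := by
    intro hr
    have h1 := Cfsg.Agent.Lib.CharFS2.fsInd_odd χ₁.2 hr e1 o1
    by_cases hr2 : ∀ g, (starRingEnd ℂ) ((χ₂ : G → ℂ) g) = (χ₂ : G → ℂ) g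
    · have h2 := Cfsg.Agent.Lib.CharFS2.fsInd_odd χ₂.2 hr2 e2 o2
      rw [h1, h2, hν₃] at hfs
      have : (1 : ℤ) + 1 * 1 + 1 * 1 + ν₃ * (-1) = 0 := by exact_mod_cast hfs
      rcases hν₃' with h | h | h <;> rw [h] at this <;> norm_num at this
    · have h2 := Cfsg.Agent.Lib.CharFS.fsInd_not_real χ₂.2 hr2
      rw [h1, h2, hν₃] at hfs
      have : (1 : ℤ) + 1 * 1 + 0 * 1 + ν₃ * (-1) = 0 := by exact_mod_cast hfs
      rcases hν₃' with h | h | h <;> rw [h] at this <;> norm_num at this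
  have hmem1 : χ₁ ∈ principalBlock M G := by
    rw [hB]; exact Or.inr (Or.inl rfl)
  have hconj := Cfsg.Agent.Lib.helper8_Klein3.conj_mem_principal hmem1
  rw [hB] at hconj
  have hf12 : f₂ = f₁ := by
    rcases hconj with h | h | h | h
    · exfalso
      apply hd1
      ext g
      have := congrFun h g
      rw [Cfsg.Agent.Lib.CharOddIndex.conjIrr_apply] at this
      have h2 := congrArg (starRingEnd ℂ) this
      simpa using h2
    · exfalso
      apply hnr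
      intro g
      rw [← Cfsg.Agent.Lib.CharOddIndex.conjIrr_apply, h]
    · have h2 : (χ₂ : G → ℂ) 1 = (starRingEnd ℂ) ((χ₁ : G → ℂ) 1) := by
        rw [← Cfsg.Agent.Lib.CharOddIndex.conjIrr_apply, h]
      rw [e1, e2, Complex.conj_natCast] at h2
      exact_mod_cast h2
    · exfalso
      have h2 : (χ₃ : G → ℂ) J = (starRingEnd ℂ) ((χ₁ : G → ℂ) J) := by
        rw [← Cfsg.Agent.Lib.CharOddIndex.conjIrr_apply, h]
      rw [hv1, hv3] at h2
      norm_num at h2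
  have hx : f₃ = 2 * f₁ + 1 := by omega
  apply arith (f := f₁) (idx := (Subgroup.centralizer ({J} : Set G)).index) o1 hx Nat.card_pos
  · apply Subgroup.card_dvd_of_le
    intro h hh
    rw [Subgroup.mem_centralizer_singleton_iff]
    exact ((Subgroup.mem_centralizer_iff.mp hh) J hJ).symm
  · exact Subgroup.card_mul_index _
  · apply Cfsg.Agent.Lib.CharIntegral.dvd_of_isIntegral_div p3.ne'
    have h := (Cfsg.Agent.Lib.Helper2_BlockOm.centralChar_isIntegral χ₃.2 J).neg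
    unfold centralChar at h
    rw [hv3, e3] at h
    convert h using 1
    push_cast
    ring
  · rw [hf12, hx] at key0
    have q1 : (f₁ : ℚ) ≠ 0 := by exact_mod_cast p1.ne'
    have q2 : (f₁ : ℚ) + 1 ≠ 0 := by positivity
    have q3 : (Nat.card (Subgroup.centralizer ((P : Subgroup G) : Set G)) : ℚ) ≠ 0 := by
      exact_mod_cast Nat.card_pos.ne'
    have h : (Nat.card G : ℚ) * ((f₁ : ℚ) + 1) ^ 2 *
        (Nat.card (Subgroup.centralizer ((P : Subgroup G) : Set G)) : ℚ) ^ 2 =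
        4 * f₁ * (2 * f₁ + 1) * (Nat.card (Subgroup.centralizer ({J} : Set G)) : ℚ) ^ 3 := by
      rw [key0]
      push_cast
      have : (2 * (f₁ : ℚ) + 1 + -1) = 2 * f₁ := by ring
      rw [this]
      field_simp
      ring
    rw [hx]
    exact_mod_cast h

end Cfsg.Agent.S4480
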