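import Cfsg.Statements.S4482
import Cfsg.Agent.Lib.helper8_Dih9
import Cfsg.Agent.S0206

set_option autoImplicit false
open Cfsg

namespace Cfsg.Agent.S4482

theorem final2 {Gc Hc A x δ : ℂ} (hG : Gc ≠ 0) (hx : x ≠ 0) (hxd : x + δ ≠ 0)
    (hU : 4 * Hc ^ 3 * A ^ 2 / Gc = 2 + 2 * δ / x - 8 * δ / (x + δ)) :
    Gc * (x - δ) ^ 2 = 2 * x * (x + δ) * Hc ^ 3 * A ^ 2 := by
  field_simp at hU
  linear_combination (-1 / 2 : ℂ) * hU

/-- An order formula for groups with dihedral Sylow 2-subgroups and one class of involutions. Let G be a finite group whose Sylow 2-subgroup P = ⟨σ, τ⟩ is dihedral of order 2^n ≥ 8 (σ of order 2^(n−1), τ an involution inverting σ), let J be the central involution σ^(2^(n−2)), and suppose J, τ and στ are conjugate in G. Fix M over 2 and let χ₁ be an irreducible character in the principal 2-block taking one constant value δ₁ = ±1 at every non-identity power of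 σ, with χ₁ ≠ 1. Then, with x₁ = χ₁(1) and c(·) denoting orders of centralizers, x₁ ≠ δ₁ and #G · (x₁ − δ₁)² = 2·x₁(x₁ + δ₁)·c(J)³·(1/c(J, τ) + 1/c(J, στ))², where c(J, y) is the order of the joint centralizer of J and y. -/
theorem result {G : Type*} [Group G] [Finite G] (M : Ideal Cfsg.AlgInt) (hM : Cfsg.IsPModular 2 M) (n : ℕ) (hn : 3 ≤ n) (P : Sylow 2 G) (σ τ : G) (hσ : σ ∈ (P : Subgroup G)) (hτ : τ ∈ (P : Subgroup G)) (hσo : orderOf σ = 2 ^ (n - 1)) (hτo : orderOf τ = 2) (hrel : τ * σ * τ⁻¹ = σ⁻¹) (hgen : Subgroup.closure ({σ, τ} : Set G) = (P : Subgroup G)) (hconj : IsConj (σ ^ (2 ^ (n - 2))) τ ∧ IsConj (σ ^ (2 ^ (n - 2))) (σ * τ)) (χ₁ : Cfsg.IrrCharacter G) (hχ₁ : χ₁ ∈ Cfsg.principalBlock M G) (h1 : (χ₁ : G → ℂ) ≠ (fun _ => 1)) (δ₁ : ℤ) (hδ₁ : δ₁ = 1 ∨ δ₁ = -1) (hval : ∀ l : ℕ, 0 < l → l < 2 ^ (n - 1) → (χ₁ : G → ℂ) (σ ^ l) = δ₁) : (Cfsg.charDegree (χ₁ : G → ℂ) : ℤ) ≠ δ₁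 ∧ (Nat.card G : ℚ) * ((Cfsg.charDegree (χ₁ : G → ℂ) : ℚ) - δ₁) ^ 2 = 2 * (Cfsg.charDegree (χ₁ : G → ℂ) : ℚ) * ((Cfsg.charDegree (χ₁ : G → ℂ) : ℚ) + δ₁) * (Nat.card (Subgroup.centralizer ({σ ^ (2 ^ (n - 2))} : Set G)) : ℚ) ^ 3 * (1 / (Nat.card (Subgroup.centralizer ({σ ^ (2 ^ (n - 2)), τ} : Set G)) : ℚ) + 1 / (Nat.card (Subgroup.centralizer ({σ ^ (2 ^ (n - 2)), σ * τ} : Set G)) : ℚ)) ^ 2 := by
  classical
  have := Fintype.ofFinite G
  obtain ⟨k, rfl⟩ : ∃ k, n = k + 2 := ⟨n - 2, by omega⟩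
  have e1 : k + 2 - 1 = k + 1 := by omega
  have e2 : k + 2 - 2 = k := by omega
  rw [e1] at hσo hval
  rw [e2] at hconj
  simp only [e2]
  have hk : 1 ≤ k := by omega
  have hm : 2 < 2 ^ (k + 1) := by
    calc 2 < 2 ^ 2 := by norm_num
      _ ≤ 2 ^ (k + 1) := Nat.pow_le_pow_right (by norm_num) (by omega)
  have hττ : τ * τ = 1 := Cfsg.Agent.Lib.Helper2_Basic.sq_eq_one_of_orderOf_two hτo
  have hτ1 : τ ≠ 1 := Cfsg.Agent.Lib.Helper2_Basic.ne_one_of_orderOf_two hτo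
  have hτi : τ⁻¹ = τ := inv_eq_of_mul_eq_one_left hττ
  have hσ1 : σ ≠ 1 := by
    rintro rfl
    rw [orderOf_one] at hσo
    omega
  have hστ1 : σ * τ ≠ 1 := by
    intro h
    have h2 : σ = τ⁻¹ := eq_inv_of_mul_eq_one_left h
    rw [h2, orderOf_inv, hτo] at hσo
    omega
  have hστo : orderOf (σ * τ) = 2 := by
    apply orderOf_eq_prime _ hστ1
    rw [pow_two]
    calc σ * τ * (σ * τ) = σ * (τ * σ * τ) := by group
      _ = σ * (τ * σ * τ⁻¹) := by rw [hτi]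
      _ = 1 := by rw [hrel, mul_inv_cancel]
  have hne : σ * τ ≠ τ := by
    intro h
    exact hσ1 (mul_eq_right.mp h)
  obtain ⟨e0⟩ := Cfsg.Agent.S0206.result (σ * τ) τ hστo hτo hne
  have hclo : Subgroup.closure ({σ * τ, τ} : Set G) = (P : Subgroup G) := by
    rw [← hgen]
    apply le_antisymm
    · rw [Subgroup.closure_le]
      rintro x (rfl | rfl)
      · exact Subgroup.mul_mem _ (Subgroup.subset_closure (by simp))
          (Subgroup.subset_closure (by simp))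
      · exact Subgroup.subset_closure (by simp)
    · rw [Subgroup.closure_le]
      rintro x (rfl | rfl)
      · have h1 : x * τ ∈ Subgroup.closure ({x * τ, τ} : Set G) :=
          Subgroup.subset_closure (by simp)
        have h2 : τ ∈ Subgroup.closure ({x * τ, τ} : Set G) := Subgroup.subset_closure (by simp)
        have h3 := Subgroup.mul_mem _ h1 (Subgroup.inv_mem _ h2)
        rwa [mul_inv_cancel_right] at h3
      · exact Subgroup.subset_closure (by simp)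
  have hord : orderOf (σ * τ * τ) = 2 ^ (k + 1) := by rw [mul_assoc, hττ, mul_one, hσo]
  rw [hclo, hord] at e0
  have : NeZero (2 ^ (k + 1)) := ⟨by positivity⟩
  have hS : Nat.card (P : Subgroup G) = 2 ^ (k + 2) := by
    rw [Nat.card_congr e0.toEquiv, DihedralGroup.nat_card]
    ring
  have hall : ∀ (S' : Sylow 2 G) (h : σ ∈ (S' : Subgroup G)),
      Cfsg.Agent.Lib.helper8_Dih1.DLike (⟨σ, h⟩ : (S' : Subgroup G)) :=
    fun S' h => Cfsg.Agent.Lib.helper8_Dih1.dlike_all hm P e0 hσo S' h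
  have gs := Cfsg.Agent.Lib.helper8_Dih8.group_side hM P hk hσ hτ hσo hS hall hττ hτ1 hrel hconj
  obtain ⟨hxd, hU⟩ := Cfsg.Agent.Lib.helper8_Dih9.char_side hM P hk hσ hσo hS hall χ₁ hχ₁ h1 δ₁ hδ₁
    hval
  rw [gs] at hU
  have hx0 := (Cfsg.Agent.Lib.helper8_Defect.irr_charDegree χ₁.2).1
  have hC := final2 (by exact_mod_cast Nat.card_pos.ne') (by exact_mod_cast hx0.ne') hxd hU
  have hC1 : 0 < Nat.card (Subgroup.centralizer ({σ ^ 2 ^ k, τ} : Set G)) := Nat.card_pos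
  have hC2 : 0 < Nat.card (Subgroup.centralizer ({σ ^ 2 ^ k, σ * τ} : Set G)) := Nat.card_pos
  have hH : 0 < Nat.card (Subgroup.centralizer ({σ ^ 2 ^ k} : Set G)) := Nat.card_pos
  generalize Nat.card (Subgroup.centralizer ({σ ^ 2 ^ k, τ} : Set G)) = C₁ at hC hC1 ⊢
  generalize Nat.card (Subgroup.centralizer ({σ ^ 2 ^ k, σ * τ} : Set G)) = C₂ at hC hC2 ⊢
  generalize Nat.card (Subgroup.centralizer ({σ ^ 2 ^ k} : Set G)) = Hc at hC hH ⊢
  generalize Nat.card G = Gc at hC ⊢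
  generalize Cfsg.charDegree (χ₁ : G → ℂ) = x at hC hx0 ⊢
  have hQ : (Gc : ℚ) * ((x : ℚ) - δ₁) ^ 2 = 2 * (x : ℚ) * ((x : ℚ) + δ₁) * (Hc : ℚ) ^ 3 *
      (1 / (C₁ : ℚ) + 1 / (C₂ : ℚ)) ^ 2 := by
    have h : (((Gc : ℚ) * ((x : ℚ) - δ₁) ^ 2 : ℚ) : ℂ) = ((2 * (x : ℚ) * ((x : ℚ) + δ₁) *
        (Hc : ℚ) ^ 3 * (1 / (C₁ : ℚ) + 1 / (C₂ : ℚ)) ^ 2 : ℚ) : ℂ) := by
      push_cast
      exact hC
    exact_mod_cast h
  refine ⟨?_, hQ⟩
  intro hcon
  have hx : (δ₁ : ℚ) = (x : ℚ) := by exact_mod_cast hcon.symm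
  rw [hx, sub_self] at hQ
  have hxp : (0 : ℚ) < x := by exact_mod_cast hx0
  have hHp : (0 : ℚ) < Hc := by exact_mod_cast hH
  have hC1p : (0 : ℚ) < C₁ := by exact_mod_cast hC1
  have hC2p : (0 : ℚ) < C₂ := by exact_mod_cast hC2
  have hpos : 0 < 2 * (x : ℚ) * ((x : ℚ) + x) * (Hc : ℚ) ^ 3 * (1 / (C₁ : ℚ) + 1 / (C₂ : ℚ)) ^ 2 := by
    positivity
  rw [← hQ] at hpos
  norm_num at hpos

end Cfsg.Agent.S4482
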