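import Cfsg.Statements.S4494
import Cfsg.Agent.Lib.helper8_Height

set_option autoImplicit false
open Cfsg Cfsg.Agent.Lib.helper8_Height Cfsg.Agent.Lib.Helper2_BlockLocal Cfsg.Agent.Lib.helper8_BlockSum
  Cfsg.Agent.Lib.helper8_BlockRank Cfsg.Agent.Lib.Helper2_BlockOm

namespace Cfsg.Agent.S4494

/-- The Brauer–Feit bound. Let B be a p-block of the finite group G (relative to a maximal ideal M of the algebraic integers containing p) and let d be its defect. Then the number k(B) of irreducible characters in B satisfies k(B) ≤ p^(2d)/4 + 1, stated here as 4·k(B) ≤ p^(2d) + 4. -/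
theorem result {G : Type*} [Group G] [Finite G] (p : ℕ) [Fact p.Prime] (M : Ideal Cfsg.AlgInt) (hM : Cfsg.IsPModular p M) (B : Set (Cfsg.IrrCharacter G)) (hB : Cfsg.IsPBlock M B) : 4 * Nat.card B ≤ p ^ (2 * Cfsg.blockDefect p B) + 4 := by
  classical
  have := Fintype.ofFinite G
  have hP := isPrime_of_modular hM
  obtain ⟨χ, hχ, h0⟩ := exists_min hP p hB
  obtain ⟨X, hX, hle⟩ := bf_core hM hB hχ h0
  set F := Finset.univ.filter (fun ψ : IrrCharacter G => ψ ∈ B) with hF
  have hcard : Nat.card B = F.card := by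
    rw [Nat.card_eq_fintype_card, hF, Fintype.card_subtype]
  have h1 : ((F.erase χ).card : ℤ) ≤ ∑ ψ ∈ F.erase χ,
      (p : ℤ) ^ (2 * blockHeight p B (ψ : G → ℂ)) := by
    calc ((F.erase χ).card : ℤ) = ∑ ψ ∈ F.erase χ, (1 : ℤ) := by simp
      _ ≤ _ := Finset.sum_le_sum fun ψ _ => by
        have : (0 : ℤ) < (p : ℤ) := by exact_mod_cast hM.1.pos
        exact one_le_pow₀ (by omega)
  have h2 : (F.erase χ).card + 1 = F.card :=
    Finset.card_erase_add_one (Finset.mem_filter.mpr ⟨Finset.mem_univ χ, hχ⟩)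
  have h3 : (4 * (F.card : ℤ)) ≤ (p : ℤ) ^ (2 * blockDefect p B) + 4 := by
    have h4 : (F.card : ℤ) = ((F.erase χ).card : ℤ) + 1 := by exact_mod_cast h2.symm
    rw [h4, mul_comm 2, pow_mul]
    nlinarith [sq_nonneg ((p : ℤ) ^ blockDefect p B - 2 * X)]
  rw [hcard]
  exact_mod_cast h3

end Cfsg.Agent.S4494
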