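import Cfsg.Statements.S4483
import Cfsg.Agent.S4494
import Cfsg.Agent.Lib.Helper2_BlockThird

set_option autoImplicit false
open Cfsg Cfsg.Agent.Lib.Helper2_BlockLocal
  Cfsg.Agent.Lib.Helper2_BlockOm Cfsg.Agent.Lib.CharBasic Cfsg.Agent.Lib.CharOrtho
  Cfsg.Agent.Lib.helper8_Defect Cfsg.Agent.Lib.Helper2_BlockThird
open scoped ComplexConjugate Classical

namespace Cfsg.Agent.S4483

theorem sum_mem {G : Type*} [Group G] [Fintype G] {M : Ideal AlgInt} (hM : IsPModular 2 M)
    (χ : IrrCharacter G) (hreal : ∀ g, (χ : G → ℂ) g⁻¹ = (χ : G → ℂ) g) :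
    MemLocalIdeal M (∑ g : G, if g = 1 then 0 else reg 2 G g * (χ : G → ℂ) g) := by
  have hP := isPrime_of_modular hM
  have hχ := isCharacter_of_isIrr χ.2
  let F : G → AlgInt := fun g => if g = 1 ∨ 2 ∣ orderOf g then 0 else
    ⟨(χ : G → ℂ) g, isIntegral_of_isCharacter hχ g⟩
  have e1 : (∑ g : G, if g = 1 then 0 else reg 2 G g * (χ : G → ℂ) g) =
      ((∑ g : G, F g : AlgInt) : ℂ) := by
    rw [AddSubmonoidClass.coe_finsetSum]
    refine Finset.sum_congr rfl fun g _ => ?_
    simp only [F, reg]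
    by_cases h1 : g = 1
    · simp [h1]
    · by_cases h2 : 2 ∣ orderOf g
      · simp [h1, h2]
      · simp [h1, h2]
  rw [e1, ideal_algInt_iff hP, ← Ideal.Quotient.eq_zero_iff_mem, map_sum]
  have h2 : (Ideal.Quotient.mk M) (2 : AlgInt) = 0 := by
    rw [Ideal.Quotient.eq_zero_iff_mem]
    exact_mod_cast hM.2.2
  refine Finset.sum_involution (fun g _ => g⁻¹) ?_ ?_ ?_ ?_
  · intro g _
    have : F g⁻¹ = F g := by
      simp only [F, inv_eq_one, orderOf_inv]
      split_ifs
      · rfl
      · exact Subtype.ext (hreal g)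
    rw [this, ← map_add, ← two_mul, map_mul, h2, zero_mul]
  · intro g _ hne hinv
    apply hne
    have hg2 : g ^ 2 = 1 := by
      rw [pow_two]
      nth_rewrite 1 [← hinv]
      exact inv_mul_cancel g
    have hd : orderOf g ∣ 2 := orderOf_dvd_of_pow_eq_one hg2
    rcases (Nat.dvd_prime Nat.prime_two).mp hd with h | h
    · have : g = 1 := orderOf_eq_one_iff.mp h
      simp [F, this]
    · simp [F, h]
  · intro g _; exact Finset.mem_univ _
  · intro g _; exact inv_inv g

/-- Let G be a finite group of order 2^n·g₀ with g₀ odd, and M a maximal ideal of the algebraic integers containing 2. Every real-valued irreducible character of G of odd degree lies in the principal 2-block; consequently G has at most 2^(2n) real-valued irreducible characters of odd degree. -/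
theorem result {G : Type*} [Group G] [Finite G] (M : Ideal Cfsg.AlgInt) (hM : Cfsg.IsPModular 2 M) : (∀ χ : Cfsg.IrrCharacter G, (∀ g : G, ((χ : G → ℂ) g).im = 0) → Odd (Cfsg.charDegree (χ : G → ℂ)) → χ ∈ Cfsg.principalBlock M G) ∧ Nat.card {χ : Cfsg.IrrCharacter G // (∀ g : G, ((χ : G → ℂ) g).im = 0) ∧ Odd (Cfsg.charDegree (χ : G → ℂ))} ≤ 2 ^ (2 * (Nat.card G).factorization 2) := by
  have := Fintype.ofFinite G
  have hP := isPrime_of_modular hM
  have : Fact (Nat.Prime 2) := ⟨Nat.prime_two⟩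
  have key : ∀ χ : Cfsg.IrrCharacter G, (∀ g : G, ((χ : G → ℂ) g).im = 0) →
      Odd (Cfsg.charDegree (χ : G → ℂ)) → χ ∈ Cfsg.principalBlock M G := by
    intro χ hre hodd
    have hχ := isCharacter_of_isIrr χ.2
    obtain ⟨hd0, hd1, -⟩ := irr_charDegree χ.2
    have hreal : ∀ g, (χ : G → ℂ) g⁻¹ = (χ : G → ℂ) g := by
      intro g
      rw [inv_of_isCharacter hχ]
      exact Complex.conj_eq_iff_im.mpr (hre g)
    rw [mem_principal_iff hM]
    have hT := sum_mem hM χ hreal
    have hnd : ¬ 2 ∣ charDegree (χ : G → ℂ) := by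
      rw [← even_iff_two_dvd, Nat.not_even_iff_odd]; exact hodd
    have hd0' : (charDegree (χ : G → ℂ) : ℂ) ≠ 0 := by exact_mod_cast hd0.ne'
    have e : Om (reg 2 G) (χ : G → ℂ) - 1 =
        (∑ g : G, if g = 1 then 0 else reg 2 G g * (χ : G → ℂ) g) *
          ((charDegree (χ : G → ℂ) : ℕ) : ℂ)⁻¹ := by
      unfold Om
      have e2 : ∑ g : G, reg 2 G g * (χ : G → ℂ) g =
          (∑ g : G, if g = 1 then 0 else reg 2 G g * (χ : G → ℂ) g) + (χ : G → ℂ) 1 := by
        have e3 : ∀ g : G, reg 2 G g * (χ : G → ℂ) g =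
            (if g = 1 then 0 else reg 2 G g * (χ : G → ℂ) g) +
              (if g = 1 then (χ : G → ℂ) 1 else 0) := by
          intro g
          by_cases h1 : g = 1
          · simp [h1, reg]
          · simp [h1]
        rw [Finset.sum_congr rfl fun g _ => e3 g, Finset.sum_add_distrib]
        simp
      rw [e2, hd1]
      field_simp
      ring
    apply not_ideal_of_sub hP (y := 1) _ (not_ideal_one hP)
    rw [e]
    exact ideal_mul_right hP hT (ring_inv_natCast hM hnd)
  refine ⟨key, ?_⟩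
  have h1 := Cfsg.Agent.S4494.result 2 M hM (principalBlock M G) (principalBlock_isPBlock M G)
  have h2 : Nat.card {χ : Cfsg.IrrCharacter G // (∀ g : G, ((χ : G → ℂ) g).im = 0) ∧
      Odd (Cfsg.charDegree (χ : G → ℂ))} ≤ Nat.card (principalBlock M G) := by
    exact Nat.card_mono (s := {χ : Cfsg.IrrCharacter G | (∀ g : G, ((χ : G → ℂ) g).im = 0) ∧
      Odd (Cfsg.charDegree (χ : G → ℂ))}) (Set.toFinite _) (fun χ hχ => key χ hχ.1 hχ.2)
  have h3 : blockDefect 2 (principalBlock M G) ≤ (Nat.card G).factorization 2 := by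
    unfold blockDefect
    exact Nat.sub_le _ _
  have h4 : 2 ^ (2 * blockDefect 2 (principalBlock M G)) ≤ 2 ^ (2 * (Nat.card G).factorization 2) :=
    Nat.pow_le_pow_right (by norm_num) (by omega)
  set a := (Nat.card G).factorization 2
  rcases Nat.eq_zero_or_pos a with ha | ha
  · rw [ha] at h4 ⊢
    simp only [mul_zero, pow_zero] at h4 ⊢
    omega
  · have h5 : 4 ≤ 2 ^ (2 * a) := by
      calc 4 = 2 ^ 2 := by norm_num
        _ ≤ 2 ^ (2 * a) := Nat.pow_le_pow_right (by norm_num) (by omega)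
    omega

end Cfsg.Agent.S4483
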