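import Cfsg.Statements.S4490
import Cfsg.Agent.Lib.Helper2_BlockThird
import Cfsg.Agent.Lib.Helper2_BlockDefOrder
import Cfsg.Agent.Lib.helper8_Defect
import Cfsg.Agent.Lib.helper8_Height

set_option autoImplicit false
open Cfsg Cfsg.Agent.Lib.Helper2_BlockLocal
  Cfsg.Agent.Lib.Helper2_BlockOm Cfsg.Agent.Lib.CharBasic Cfsg.Agent.Lib.CharOrtho Cfsg.Agent.Lib.CharMore
  Cfsg.Agent.Lib.helper8_Defect Cfsg.Agent.Lib.Helper2_BlockThird Cfsg.Agent.Lib.Helper2_BlockDefOrder
  Cfsg.Agent.Lib.helper8_Height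
open scoped ComplexConjugate Classical

namespace Cfsg.Agent.S4490

/-- The sum of the values of a character over the nontrivial real elements of odd order. -/
theorem sum_real_mem {G : Type*} [Group G] [Fintype G] {M : Ideal AlgInt} (hM : IsPModular 2 M)
    (χ : IrrCharacter G) :
    MemLocalIdeal M (∑ g : G, if g = 1 ∨ 2 ∣ orderOf g ∨ ¬ IsConj g g⁻¹ then 0
      else (χ : G → ℂ) g) := by
  have hP := isPrime_of_modular hM
  have hχ := isCharacter_of_isIrr χ.2
  let F : G → AlgInt := fun g => if g = 1 ∨ 2 ∣ orderOf g ∨ ¬ IsConj g g⁻¹ then 0 else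
    ⟨(χ : G → ℂ) g, isIntegral_of_isCharacter hχ g⟩
  have e1 : (∑ g : G, if g = 1 ∨ 2 ∣ orderOf g ∨ ¬ IsConj g g⁻¹ then 0 else (χ : G → ℂ) g) =
      ((∑ g : G, F g : AlgInt) : ℂ) := by
    rw [AddSubmonoidClass.coe_finsetSum]
    refine Finset.sum_congr rfl fun g _ => ?_
    simp only [F]
    split_ifs <;> simp
  rw [e1, ideal_algInt_iff hP, ← Ideal.Quotient.eq_zero_iff_mem, map_sum]
  have h2 : (Ideal.Quotient.mk M) (2 : AlgInt) = 0 := by
    rw [Ideal.Quotient.eq_zero_iff_mem]
    exact_mod_cast hM.2.2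
  refine Finset.sum_involution (fun g _ => g⁻¹) ?_ ?_ ?_ ?_
  · intro g _
    have : F g⁻¹ = F g := by
      simp only [F, inv_eq_one, orderOf_inv, inv_inv]
      by_cases h : g = 1 ∨ 2 ∣ orderOf g ∨ ¬ IsConj g g⁻¹
      · have h' : g = 1 ∨ 2 ∣ orderOf g ∨ ¬ IsConj g⁻¹ g := by
          rcases h with h | h | h
          · exact Or.inl h
          · exact Or.inr (Or.inl h)
          · exact Or.inr (Or.inr fun hc => h hc.symm)
        rw [if_pos h, if_pos h']
      · have h' : ¬ (g = 1 ∨ 2 ∣ orderOf g ∨ ¬ IsConj g⁻¹ g) := by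
          intro hc
          apply h
          rcases hc with hc | hc | hc
          · exact Or.inl hc
          · exact Or.inr (Or.inl hc)
          · exact Or.inr (Or.inr fun hd => hc hd.symm)
        rw [if_neg h, if_neg h']
        push Not at h
        exact Subtype.ext (classFunction_of_isConj (irr_classFunction χ) h.2.2.symm)
    rw [this, ← map_add, ← two_mul, map_mul, h2, zero_mul]
  · intro g _ hne hinv
    apply hne
    have hg2 : g ^ 2 = 1 := by
      rw [pow_two]
      nth_rewrite 1 [← hinv]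
      exact inv_mul_cancel g
    have hd : orderOf g ∣ 2 := orderOf_dvd_of_pow_eq_one hg2
    rcases (Nat.dvd_prime Nat.prime_two).mp hd with h | h
    · have : g = 1 := orderOf_eq_one_iff.mp h
      simp [F, this]
    · simp [F, h]
  · intro g _; exact Finset.mem_univ _
  · intro g _; exact inv_inv g

theorem mem_principal_of_conj {G : Type*} [Group G] [Fintype G] {M : Ideal AlgInt}
    (hM : IsPModular 2 M) (χ : IrrCharacter G)
    (hsb : SameBlock M (χ : G → ℂ) (fun g => conj ((χ : G → ℂ) g)))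
    (hnd : ¬ 2 ∣ charDegree (χ : G → ℂ)) : χ ∈ principalBlock M G := by
  have hP := isPrime_of_modular hM
  obtain ⟨hd0, hd1, -⟩ := irr_charDegree χ.2
  have hχc := isCharacter_of_isIrr χ.2
  rw [mem_principal_iff hM]
  have hT := sum_real_mem hM χ
  have hd0' : (charDegree (χ : G → ℂ) : ℂ) ≠ 0 := by exact_mod_cast hd0.ne'
  let e := Fintype.equivFin (ConjClasses G)
  let h : G → ℂ := fun g => if e (ConjClasses.mk g) < e (ConjClasses.mk g⁻¹) then 1 else 0
  let c : G → ℂ := fun g => reg 2 G g * h g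
  have hmk : ∀ g y : G, ConjClasses.mk (y * g * y⁻¹) = ConjClasses.mk g := fun g y =>
    ConjClasses.mk_eq_mk_iff_isConj.mpr (isConj_iff.mpr ⟨y, rfl⟩).symm
  have hcl : IsClassFunction G c := by
    intro g y
    simp only [c, h]
    rw [reg_classFunction g y, hmk]
    have : (y * g * y⁻¹)⁻¹ = y * g⁻¹ * y⁻¹ := by group
    rw [this, hmk]
  have hcr : ∀ g, MemLocalRing M (c g) := by
    intro g
    apply ring_mul hP (reg_ring hP g)
    simp only [h]
    split_ifs
    · exact ring_one hP
    · exact ring_zero hP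
  have hbar := isIrr_conj χ.2
  have h1 := Om_congr hP hcl hcr (irr_classFunction χ)
    (isClassFunction_of_isCharacter (isCharacter_of_isIrr hbar)) hsb
  have h2 := Om_ring hP hcl hcr χ.2
  have hpt : ∀ g : G, reg 2 G g * (χ : G → ℂ) g = (if g = 1 then (χ : G → ℂ) 1 else 0) +
      (if g = 1 ∨ 2 ∣ orderOf g ∨ ¬ IsConj g g⁻¹ then 0 else (χ : G → ℂ) g) +
      c g * (χ : G → ℂ) g + reg 2 G g * h g⁻¹ * (χ : G → ℂ) g := by
    intro g
    by_cases g1 : g = 1
    · subst g1
      simp [c, h, reg]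
    by_cases g2 : 2 ∣ orderOf g
    · simp [c, reg, g1, g2]
    by_cases g3 : IsConj g g⁻¹
    · have : ConjClasses.mk g = ConjClasses.mk g⁻¹ := ConjClasses.mk_eq_mk_iff_isConj.mpr g3
      have hmid : ¬ (g = 1 ∨ 2 ∣ orderOf g ∨ ¬ IsConj g g⁻¹) := by
        rintro (hc | hc | hc)
        · exact g1 hc
        · exact g2 hc
        · exact hc g3
      rw [if_neg hmid]
      simp [c, h, reg, g1, g2, this]
    · have hne : e (ConjClasses.mk g) ≠ e (ConjClasses.mk g⁻¹) := by
        intro hc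
        exact g3 (ConjClasses.mk_eq_mk_iff_isConj.mp (e.injective hc))
      rw [if_pos (Or.inr (Or.inr g3))]
      rcases lt_or_gt_of_ne hne with hlt | hlt
      · simp [c, h, reg, g1, g2, hlt, not_lt_of_gt hlt]
      · simp [c, h, reg, g1, g2, hlt, not_lt_of_gt hlt]
  have hre : ∑ g : G, reg 2 G g * h g⁻¹ * (χ : G → ℂ) g =
      ∑ g : G, c g * conj ((χ : G → ℂ) g) := by
    rw [← Equiv.sum_comp (Equiv.inv G)]
    refine Finset.sum_congr rfl fun g _ => ?_
    simp only [Equiv.inv_apply, inv_inv, c]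
    rw [inv_of_isCharacter hχc]
    congr 2
    simp [reg]
  have e : Om (reg 2 G) (χ : G → ℂ) - 1 =
      (∑ g : G, if g = 1 ∨ 2 ∣ orderOf g ∨ ¬ IsConj g g⁻¹ then 0 else (χ : G → ℂ) g) *
        ((charDegree (χ : G → ℂ) : ℕ) : ℂ)⁻¹ + ((2 : ℕ) : ℂ) * Om c (χ : G → ℂ) -
        (Om c (χ : G → ℂ) - Om c (fun g => conj ((χ : G → ℂ) g))) := by
    unfold Om
    rw [Finset.sum_congr rfl fun g _ => hpt g, Finset.sum_add_distrib, Finset.sum_add_distrib,
      Finset.sum_add_distrib, hre]
    simp only [Finset.sum_ite_eq', Finset.mem_univ, if_true]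
    rw [hd1, Complex.conj_natCast]
    field_simp
    ring
  apply not_ideal_of_sub hP (y := 1) _ (not_ideal_one hP)
  rw [e]
  refine ideal_sub hP (ideal_add hP (ideal_mul_right hP hT (ring_inv_natCast hM hnd)) ?_) h1
  exact ideal_mul_right hP ((ideal_natCast_iff hM 2).mpr dvd_rfl) h2

/-- Let G be a finite group and M a maximal ideal of the algebraic integers containing 2. Every 2-block B of G whose defect groups are the Sylow 2-subgroups of G (a block of full defect) and which is not the principal block is different from its complex-conjugate block, the block formed by the complex conjugates of the members of B. -/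
theorem result {G : Type*} [Group G] [Finite G] (M : Ideal Cfsg.AlgInt) (hM : Cfsg.IsPModular 2 M) (B : Set (Cfsg.IrrCharacter G)) (hB : Cfsg.IsPBlock M B) (P : Sylow 2 G) (hfull : Cfsg.IsDefectGroup 2 M B (P : Subgroup G)) (hnp : B ≠ Cfsg.principalBlock M G) : {ψ : Cfsg.IrrCharacter G | ∃ χ ∈ B, (ψ : G → ℂ) = fun g => (starRingEnd ℂ) ((χ : G → ℂ) g)} ≠ B := by
  have := Fintype.ofFinite G
  have hP := isPrime_of_modular hM
  intro hcon
  apply hnp
  haveI : Fact (Nat.Prime 2) := ⟨Nat.prime_two⟩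
  have h1 := card_defectGroup hM hB hfull
  rw [Sylow.card_eq_multiplicity] at h1
  have h2 := Nat.pow_right_injective (le_refl 2) h1
  obtain ⟨χ, hχ, hmin⟩ := exists_min hP 2 hB
  rw [blockDefect_eq'] at h2
  have hle : mu 2 B ≤ (Nat.card G).factorization 2 := by
    rw [← hmin]
    obtain ⟨-, -, hdvd⟩ := irr_charDegree χ.2
    exact (Nat.factorization_le_iff_dvd (irr_charDegree χ.2).1.ne' Nat.card_pos.ne').mpr hdvd 2
  have hmu : mu 2 B = 0 := by omega
  rw [hmu] at hmin
  have hnd : ¬ 2 ∣ charDegree (χ : G → ℂ) := by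
    intro hd
    have := (Nat.Prime.dvd_iff_one_le_factorization Nat.prime_two (irr_charDegree χ.2).1.ne').mp hd
    unfold ee at hmin
    omega
  have hbar : (⟨_, isIrr_conj χ.2⟩ : IrrCharacter G) ∈ B := by
    rw [← hcon]
    exact ⟨χ, hχ, rfl⟩
  have hsb := sameBlock_of_mem hP hB hχ hbar
  have hpr := mem_principal_of_conj hM χ hsb hnd
  rw [block_eq_blockOf hP hB hχ, block_eq_blockOf hP (principalBlock_isPBlock M G) hpr]

end Cfsg.Agent.S4490
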