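import Cfsg.Statements.S4491
import Cfsg.Agent.Lib.helper8_Broue

set_option autoImplicit false
open Cfsg Cfsg.Agent.Lib.helper8_Broue Cfsg.Agent.Lib.helper8_Height Cfsg.Agent.Lib.helper8_BlockSum
  Cfsg.Agent.Lib.Helper2_BlockLocal
open scoped Classical

namespace Cfsg.Agent.S4491

/-- Let B be a p-block of defect d of the finite group G (relative to a maximal ideal M of the algebraic integers containing p), and let p^a be the p-part of the order of G. Then the exact power of p dividing the sum of the squares of the degrees of the irreducible characters in B is p^(2a − d). -/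
theorem result {G : Type*} [Group G] [Finite G] (p : ℕ) [Fact p.Prime] (M : Ideal Cfsg.AlgInt) (hM : Cfsg.IsPModular p M) (B : Set (Cfsg.IrrCharacter G)) (hB : Cfsg.IsPBlock M B) : (∑ᶠ χ ∈ B, Cfsg.charDegree (χ : G → ℂ) ^ 2).factorization p = 2 * (Nat.card G).factorization p - Cfsg.blockDefect p B := by
  have := Fintype.ofFinite G
  have hp := hM.1
  have hP := isPrime_of_modular hM
  obtain ⟨w, hw, hW⟩ := WW_unit hM hB
  have h1 := sum_sq_eq hM hB
  rw [hW] at h1
  have h2 : ∑ χ ∈ Finset.univ.filter (fun χ : IrrCharacter G => χ ∈ B),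
      charDegree (χ : G → ℂ) ^ 2 = p ^ (Nat.card G).factorization p * (p ^ mu p B * w) := by
    exact_mod_cast h1
  rw [finsum_block, h2, ← mul_assoc, ← pow_add]
  have hw0 : w ≠ 0 := by
    rintro rfl
    exact hw (dvd_zero _)
  rw [Nat.factorization_mul (pow_ne_zero _ hp.ne_zero) hw0, Nat.Prime.factorization_pow hp]
  simp only [Finsupp.coe_add, Pi.add_apply, Finsupp.single_eq_same]
  rw [Nat.factorization_eq_zero_of_not_dvd hw, blockDefect_eq']
  obtain ⟨χ, hχ, hmin⟩ := exists_min hP p hB
  have := ee_le p χ
  omega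

end Cfsg.Agent.S4491
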