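import Cfsg.Statements.S4492
import Cfsg.Agent.Lib.BlockFongMain

set_option autoImplicit false
open Cfsg

namespace Cfsg.Agent.S4492

/-- Let G be a finite p-solvable group, N = O_{p'}(G) its largest normal subgroup of order prime to p, and θ an irreducible character of N invariant under conjugation by G; fix a maximal ideal M of the algebraic integers containing p. Then the irreducible characters of G lying over θ (those whose restriction to N contains θ) form a single p-block of G, and the defect groups of that block are exactly the Sylow p-subgroups of G. -/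
theorem result {G : Type*} [Group G] [Fintype G] (p : ℕ) [Fact p.Prime] (M : Ideal Cfsg.AlgInt) (hM : Cfsg.IsPModular p M) (hsolv : Cfsg.IsPSolvable p G) (N : Subgroup G) [hN : N.Normal] [Fintype N] (hNdef : N = Cfsg.pPrimeCore p G) (θ : Cfsg.IrrCharacter N) (hinv : ∀ (g : G) (n : N), (θ : N → ℂ) ⟨g * n * g⁻¹, hN.conj_mem n n.2 g⟩ = (θ : N → ℂ) n) : ∃ B : Set (Cfsg.IrrCharacter G), Cfsg.IsPBlock M B ∧ (∀ χ : Cfsg.IrrCharacter G, χ ∈ B ↔ Cfsg.classInner (fun n : N => (χ : G → ℂ) n) (θ : N → ℂ) ≠ 0) ∧ (∀ P : Sylow p G, Cfsg.IsDefectGroup p M B (P : Subgroup G)) ∧ ∀ D : Subgroup G, Cfsg.IsDefectGroup p M B D → ∃ P : Sylow p G, D = (P : Subgroup G) := by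
  classical
  subst hNdef
  have hNp : ¬ p ∣ Nat.card (Cfsg.pPrimeCore p G) := by
    have h1 := Cfsg.Agent.Lib.Helper4_Core.pPrimeCore_coprime (G := G) p
    intro h
    exact (Nat.Prime.coprime_iff_not_dvd hM.1).mp h1.symm h
  have hsq := Cfsg.Agent.Lib.BlockFongMain.isPSolvable_quotient hM.1 (Cfsg.pPrimeCore p G) hsolv
  have hred := Cfsg.Agent.Lib.Helper3_PComp.pPrimeCore_quotient_eq_bot p G
  have hHH := Cfsg.Agent.Lib.Helper4_PSol.hall_higman hsq hred
  exact Cfsg.Agent.Lib.BlockFongMain.fong_block hM (Cfsg.pPrimeCore p G) hNp θ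
    (fun g => by
      ext n
      rw [Cfsg.Agent.Lib.CharClifford.conjFun_apply]
      exact hinv g n)
    (Cfsg.pCore p (G ⧸ Cfsg.pPrimeCore p G))
    (Cfsg.Agent.Lib.Helper4_Core.pCore_isPGroup p _) hHH

end Cfsg.Agent.S4492
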