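import Cfsg.Statements.S4493
import Cfsg.Agent.Lib.helper8_ItoMichler

open Cfsg.Agent.Lib.helper8_ItoMichler

set_option autoImplicit false
open Cfsg

namespace Cfsg.Agent.S4493

/-- Let G be a finite solvable group and p a prime. Then G has a normal abelian Sylow p-subgroup if and only if no irreducible character degree of G is divisible by p. -/
theorem result {G : Type*} [Group G] [Finite G] (hsolv : Group.IsSolvable G) (p : ℕ) (hp : p.Prime) : (∃ P : Subgroup G, P.Normal ∧ (∀ x ∈ P, ∀ y ∈ P, x * y = y * x) ∧ IsPGroup p P ∧ ¬ p ∣ P.index) ↔ ∀ χ : Cfsg.IrrCharacter G, ¬ p ∣ Cfsg.charDegree (χ : G → ℂ) := by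
  have : Fact p.Prime := ⟨hp⟩
  constructor
  · rintro ⟨P, hPn, hab, -, hidx⟩ χ
    exact degrees_of_normal_abelian P hPn hab hidx χ
  · intro hdeg
    obtain ⟨S⟩ : Nonempty (Sylow p G) := inferInstance
    have hSn := sylow_normal_of_solvable _ G rfl hsolv hdeg S
    refine ⟨S, hSn, ?_, S.2, S.not_dvd_index⟩
    intro x hx y hy
    exact congrArg Subtype.val (sylow_comm_of_normal hdeg S hSn ⟨x, hx⟩ ⟨y, hy⟩)

end Cfsg.Agent.S4493
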