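import Cfsg.Statements.S4498
import Cfsg.Agent.Lib.helper8_DefectZero

set_option autoImplicit false
open Cfsg Cfsg.Agent.Lib.CharBasic Cfsg.Agent.Lib.CharOrtho Cfsg.Agent.Lib.CharComplete
  Cfsg.Agent.Lib.CharMore Cfsg.Agent.Lib.helper8_Defect Cfsg.Agent.Lib.Helper2_BlockOrtho
  Cfsg.Agent.Lib.Helper2_BlockLocal Cfsg.Agent.Lib.Helper2_BlockOm

namespace Cfsg.Agent.S4498

/-- Let p and q be distinct primes dividing the order of the finite group G, and suppose G has no element of order p·q. Fix maximal ideals M_p over p and M_q over q of the algebraic integers. Then the principal p-block and the principal q-block of G have a non-principal irreducible character in common. -/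
theorem result {G : Type*} [Group G] [Finite G] (p q : ℕ) [Fact p.Prime] [Fact q.Prime] (hpq : p ≠ q) (hp : p ∣ Nat.card G) (hq : q ∣ Nat.card G) (hno : ∀ g : G, orderOf g ≠ p * q) (Mp Mq : Ideal Cfsg.AlgInt) (hMp : Cfsg.IsPModular p Mp) (hMq : Cfsg.IsPModular q Mq) : ∃ χ : Cfsg.IrrCharacter G, (χ : G → ℂ) ≠ (fun _ => 1) ∧ χ ∈ Cfsg.principalBlock Mp G ∧ χ ∈ Cfsg.principalBlock Mq G := by
  classical
  have := Fintype.ofFinite G
  have hpp : p.Prime := Fact.out
  have hqq : q.Prime := Fact.out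
  by_contra hcon
  push Not at hcon
  obtain ⟨x, hx⟩ := exists_prime_orderOf_dvd_card' p hp
  obtain ⟨y, hy⟩ := exists_prime_orderOf_dvd_card' q hq
  have hBp : IsPBlock Mp (principalBlock Mp G) := ⟨⟨1, isIrr_one⟩, rfl⟩
  have hBq : IsPBlock Mq (principalBlock Mq G) := ⟨⟨1, isIrr_one⟩, rfl⟩
  set A := Finset.univ.filter (fun χ : IrrCharacter G => χ ∈ principalBlock Mp G) with hA
  set B := Finset.univ.filter (fun χ : IrrCharacter G => χ ∈ principalBlock Mq G) with hB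
  have hGC : (Nat.card G : ℂ) ≠ 0 := by exact_mod_cast Nat.card_pos.ne'
  have hzero : ∀ h : G, (∑ χ ∈ A, (χ : G → ℂ) h * (χ : G → ℂ) x) *
      (∑ ψ ∈ B, (ψ : G → ℂ) h⁻¹ * (ψ : G → ℂ) y) = 0 := by
    intro h
    by_cases hh : p ∣ orderOf h
    · have hq' : ¬ q ∣ orderOf h⁻¹ := by
        rw [orderOf_inv]
        intro hq'
        have h1 : p * q ∣ orderOf h :=
          Nat.Coprime.mul_dvd_of_dvd_of_dvd ((Nat.coprime_primes hpp hqq).mpr hpq) hh hq'
        obtain ⟨m, hm⟩ := h1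
        have hm0 : m ≠ 0 := by
          rintro rfl
          have := orderOf_pos h
          omega
        apply hno (h ^ m)
        rw [orderOf_pow_of_dvd hm0 ⟨p * q, by rw [hm, mul_comm]⟩, hm,
          Nat.mul_div_cancel _ (Nat.pos_of_ne_zero hm0)]
      rw [weak_block_orthogonality hMq hBq hq' (by rw [hy]), mul_zero]
    · rw [weak_block_orthogonality hMp hBp hh (by rw [hx]), zero_mul]
  have hS : ∑ h : G, (∑ χ ∈ A, (χ : G → ℂ) h * (χ : G → ℂ) x) *
      (∑ ψ ∈ B, (ψ : G → ℂ) h⁻¹ * (ψ : G → ℂ) y) = 0 :=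
    Finset.sum_eq_zero fun h _ => hzero h
  have hS2 : ∑ h : G, (∑ χ ∈ A, (χ : G → ℂ) h * (χ : G → ℂ) x) *
      (∑ ψ ∈ B, (ψ : G → ℂ) h⁻¹ * (ψ : G → ℂ) y) =
      (Nat.card G : ℂ) * ∑ χ ∈ A, ∑ ψ ∈ B, (if χ = ψ then (χ : G → ℂ) x * (ψ : G → ℂ) y else 0) := by
    simp only [Finset.sum_mul_sum]
    rw [Finset.sum_comm, Finset.mul_sum]
    refine Finset.sum_congr rfl fun χ _ => ?_
    rw [Finset.sum_comm, Finset.mul_sum]
    refine Finset.sum_congr rfl fun ψ _ => ?_
    have h1 := classInner_irr χ.2 ψ.2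
    rw [classInner] at h1
    have h2 : ∑ h : G, (χ : G → ℂ) h * (starRingEnd ℂ) ((ψ : G → ℂ) h) =
        (Nat.card G : ℂ) * (if (χ : G → ℂ) = (ψ : G → ℂ) then 1 else 0) := by
      rw [← h1]; field_simp
    have h3 : ∑ h : G, (χ : G → ℂ) h * (χ : G → ℂ) x * ((ψ : G → ℂ) h⁻¹ * (ψ : G → ℂ) y) =
        (∑ h : G, (χ : G → ℂ) h * (starRingEnd ℂ) ((ψ : G → ℂ) h)) *
          ((χ : G → ℂ) x * (ψ : G → ℂ) y) := by
      rw [Finset.sum_mul]
      refine Finset.sum_congr rfl fun h _ => ?_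
      rw [inv_of_isCharacter (isCharacter_of_isIrr ψ.2)]
      ring
    rw [h3, h2]
    by_cases hχψ : χ = ψ
    · rw [if_pos hχψ, if_pos (congrArg Subtype.val hχψ)]; ring
    · rw [if_neg hχψ, if_neg (fun h => hχψ (Subtype.ext h))]; ring
  rw [hS2] at hS
  have hS3 := (mul_eq_zero.mp hS).resolve_left hGC
  have h1A : (⟨1, isIrr_one⟩ : IrrCharacter G) ∈ A := by
    rw [hA, Finset.mem_filter]
    exact ⟨Finset.mem_univ _, sameBlock_refl (isPrime_of_modular hMp) _⟩
  have h1B : (⟨1, isIrr_one⟩ : IrrCharacter G) ∈ B := by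
    rw [hB, Finset.mem_filter]
    exact ⟨Finset.mem_univ _, sameBlock_refl (isPrime_of_modular hMq) _⟩
  rw [Finset.sum_eq_single_of_mem _ h1A, Finset.sum_eq_single_of_mem _ h1B] at hS3
  · simp at hS3
  · intro ψ _ hne
    rw [if_neg (Ne.symm hne)]
  · intro χ hχA hne
    refine Finset.sum_eq_zero fun ψ hψB => ?_
    split_ifs with h
    · exfalso
      subst h
      have h1 : (χ : G → ℂ) ≠ fun _ => 1 := fun h => hne (Subtype.ext h)
      exact hcon χ h1 (Finset.mem_filter.mp hχA).2 (Finset.mem_filter.mp hψB).2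
    · rfl

end Cfsg.Agent.S4498
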