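import Cfsg.Statements.S4499
import Cfsg.Agent.Lib.helper8_Height

set_option autoImplicit false
open Cfsg Cfsg.Agent.Lib.helper8_Height Cfsg.Agent.Lib.Helper2_BlockLocal Cfsg.Agent.Lib.helper8_BlockSum
  Cfsg.Agent.Lib.helper8_BlockRank Cfsg.Agent.Lib.Helper2_BlockOm

namespace Cfsg.Agent.S4499

/-- Let G be a finite group whose order has p-part p^a (a ≥ 1), and fix a maximal ideal M of the algebraic integers containing p. If the degree of one irreducible character of a p-block B is divisible by p^(a−1), then the degree of every irreducible character in B is divisible by p^(a−1) (so B has defect at most 1). -/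
theorem result {G : Type*} [Group G] [Finite G] (p : ℕ) [Fact p.Prime] (M : Ideal Cfsg.AlgInt) (hM : Cfsg.IsPModular p M) (hpa : p ∣ Nat.card G) (B : Set (Cfsg.IrrCharacter G)) (hB : Cfsg.IsPBlock M B) (χ : Cfsg.IrrCharacter G) (hχ : χ ∈ B) (hdiv : p ^ ((Nat.card G).factorization p - 1) ∣ Cfsg.charDegree (χ : G → ℂ)) (ψ : Cfsg.IrrCharacter G) (hψ : ψ ∈ B) : p ^ ((Nat.card G).factorization p - 1) ∣ Cfsg.charDegree (ψ : G → ℂ) := by
  classical
  have := Fintype.ofFinite G
  have hP := isPrime_of_modular hM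
  have hp := hM.1
  obtain ⟨hd0, -, -⟩ := Cfsg.Agent.Lib.helper8_Defect.irr_charDegree χ.2
  obtain ⟨hd0', -, -⟩ := Cfsg.Agent.Lib.helper8_Defect.irr_charDegree ψ.2
  have h1 : (Nat.card G).factorization p - 1 ≤ ee p χ :=
    (Nat.Prime.pow_dvd_iff_le_factorization hp hd0.ne').mp hdiv
  rw [Nat.Prime.pow_dvd_iff_le_factorization hp hd0'.ne']
  change _ ≤ ee p ψ
  have h2 := mu_le p hψ
  have h3 := mu_le p hχ
  have h4 := ee_le p χ
  by_cases hh : 0 < blockHeight p B (χ : G → ℂ)
  · have h5 := (pos_height hM hB hχ hh).1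
    rw [blockHeight_eq, blockDefect_eq'] at h5
    omega
  · rw [blockHeight_eq] at hh
    omega

end Cfsg.Agent.S4499
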