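import Mathlib
import Cfsg.Agent.Lib.helper6_SelfCent
import Cfsg.Statements.S4509

set_option autoImplicit false
open Cfsg

namespace Cfsg.Agent.S4509

open Cfsg.Agent.Lib.helper6_SelfCent

/-- Let the finite group G contain an element x of prime order p with C_G(x) = ⟨x⟩; let t be the number of conjugacy classes of elements of order p and 1 + n·p the number of subgroups of order p. Then G has a normal subgroup of order 1 + n·p if and only if either t = p − 1, or t < p − 1 and G″ ≠ G′. Moreover, if t = p − 1 then G′ has order 1 + n·p and G/G′ is cyclic of order p; and if t < p − 1 and G″ ≠ G′ then G″ has order 1 + n·p and G′ has order p·(1 + n·p). -/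
theorem result {G : Type*} [Group G] [Finite G] (p : ℕ) (hp : p.Prime) (x : G) (hx : orderOf x = p) (hC : Subgroup.centralizer ({x} : Set G) = Subgroup.zpowers x) (t : ℕ) (ht : Nat.card {C : ConjClasses G // ∃ g ∈ C.carrier, orderOf g = p} = t) (n : ℕ) (hn : Nat.card {H : Subgroup G // Nat.card H = p} = 1 + n * p) : ((∃ S : Subgroup G, S.Normal ∧ Nat.card S = 1 + n * p) ↔ (t = p - 1 ∨ (t < p - 1 ∧ derivedSeries G 2 ≠ derivedSeries G 1))) ∧ (t = p - 1 → Nat.card (commutator G) = 1 + n * p ∧ IsCyclic (G ⧸ commutator G) ∧ (commutator G).index = p) ∧ (t < p - 1 → derivedSeries G 2 ≠ derivedSeries G 1 → Nat.card (derivedSeries G 2) = 1 + n * p ∧ Nat.card (commutator G) = p * (1 + n * p)) := by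
  have h : SC p x := ⟨hp, hx, hC⟩
  have hc := h.count
  rw [ht] at hc
  rw [h.card_subgroups] at hn
  have hp1 : 0 < p - 1 := Nat.sub_pos_of_lt hp.one_lt
  have hD1 : derivedSeries G 1 = commutator G := derivedSeries_one G
  have hD2 : derivedSeries G 2 = ⁅commutator G, commutator G⁆ := by
    rw [derivedSeries_succ, hD1]
  have he1 : t = p - 1 → eN x = 1 := by
    intro heq
    rw [heq] at hc
    exact Nat.eq_of_mul_eq_mul_left hp1 (by rw [hc, mul_one])
  have he2 : t < p - 1 → eN x ≠ 1 := by
    intro hlt he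
    rw [he, mul_one] at hc
    exact hlt.ne hc
  have hle : t ≤ p - 1 := by
    rw [← hc]
    exact Nat.le_mul_of_pos_right _ (eN_pos x)
  have hnd : ¬ p ∣ 1 + n * p := by
    intro hd
    have : p ∣ 1 := (Nat.dvd_add_left (dvd_mul_left p n)).1 hd
    exact hp.one_lt.ne' (Nat.dvd_one.1 this)
  rw [hD1, hD2]
  refine ⟨⟨?_, ?_⟩, ?_, ?_⟩
  · rintro ⟨S, hSn, hS⟩
    rcases hle.eq_or_lt with h1 | h1
    · exact Or.inl h1
    · refine Or.inr ⟨h1, ?_⟩
      haveI := hSn
      exact h.second_ne (he2 h1) S (by rw [hS]; exact hnd) (by rw [hS, hn])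
  · rintro (h1 | ⟨h1, h2⟩)
    · exact ⟨commutator G, inferInstance, by rw [h.card_commutator_of_one (he1 h1), hn]⟩
    · exact ⟨⁅commutator G, commutator G⁆, inferInstance, by rw [(h.second (he2 h1) h2).1, hn]⟩
  · intro h1
    exact ⟨by rw [h.card_commutator_of_one (he1 h1), hn], h.isCyclic_of_one (he1 h1),
      (h.burnside (he1 h1)).1⟩
  · intro h1 h2
    exact ⟨by rw [(h.second (he2 h1) h2).1, hn], by rw [(h.second (he2 h1) h2).2, hn]⟩
end Cfsg.Agent.S4509
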