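import Cfsg.Statements.S4511
import Cfsg.Agent.Lib.helper8_SubSec

set_option autoImplicit false
open Cfsg Cfsg.Agent.Lib.helper8_SubSec Cfsg.Agent.Lib.Helper2_BlockLocal Cfsg.Agent.Lib.helper8_BlockSum
  Cfsg.Agent.Lib.helper8_BlockRank Cfsg.Agent.Lib.Helper2_BlockOm Cfsg.Agent.Lib.CharBasic Cfsg.Agent.Lib.CharOrtho
  Cfsg.Agent.Lib.CharMore Cfsg.Agent.Lib.helper8_RegularPart Cfsg.Agent.Lib.helper8_Defect
  Cfsg.Agent.Lib.Helper2_BlockBrauer
open scoped ComplexConjugate

namespace Cfsg.Agent.S4511

/-- Brauer's count of the irreducible characters in a block by subsections. Let M be a maximal ideal of the algebraic integers containing the prime p, B a p-block of the finite group G, and X a set of representatives of the conjugacy classes of p-elements of G (elements of p-power order, the identity included: every p-element is conjugate to exactly one member of X). Then the number of irreducible characters in B is the sum, over x ∈ X and over the blocks b of C_G(x) that induce B, of the p-regular rank of b (the number of irreducible Brauer characters of b, here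 the dimension of the span of the restrictions of the members of b to the p-regular elements of C_G(x)). -/
theorem result {G : Type*} [Group G] [Finite G] (p : ℕ) (M : Ideal Cfsg.AlgInt) (hM : Cfsg.IsPModular p M)
    (B : Set (Cfsg.IrrCharacter G)) (hB : Cfsg.IsPBlock M B) (X : Finset G)
    (hX : ∀ x ∈ X, ∃ k : ℕ, orderOf x = p ^ k)
    (hXrep : ∀ g : G, (∃ k : ℕ, orderOf g = p ^ k) → ∃! x, x ∈ X ∧ IsConj g x) :
    Nat.card B = ∑ x ∈ X, ∑ᶠ b ∈ {b : Set (Cfsg.IrrCharacter ↥(Subgroup.centralizer ({x} : Set G))) | Cfsg.IsInducedBlock M (Subgroup.centralizer ({x} : Set G)) b B},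
      Cfsg.blockRank p b := by
  classical
  have := Fintype.ofFinite G
  have hp := hM.1
  have hG : (Nat.card G : ℂ) ≠ 0 := by exact_mod_cast Nat.card_pos.ne'
  -- turn the right hand side into finite sums
  have e0 : ∀ x : G, ∑ᶠ b ∈ {b : Set (Cfsg.IrrCharacter ↥(Subgroup.centralizer ({x} : Set G))) |
      Cfsg.IsInducedBlock M (Subgroup.centralizer ({x} : Set G)) b B}, Cfsg.blockRank p b =
      ∑ b ∈ (blocks M (Subgroup.centralizer ({x} : Set G))).filter
        (fun b => IsInducedBlock M (Subgroup.centralizer ({x} : Set G)) b B), blockRank p b := by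
    intro x
    rw [finsum_mem_eq_finite_toFinset_sum _ (Set.toFinite _)]
    refine Finset.sum_congr ?_ fun _ _ => rfl
    ext b
    simp only [Set.Finite.mem_toFinset, Set.mem_ofPred_eq, Finset.mem_filter, mem_blocks]
    exact ⟨fun h => ⟨h.1, h⟩, fun h => h.2⟩
  simp only [e0]
  have key : (Nat.card B : ℂ) = ((∑ x ∈ X, ∑ b ∈ (blocks M (Subgroup.centralizer ({x} : Set G))).filter
        (fun b => IsInducedBlock M (Subgroup.centralizer ({x} : Set G)) b B), blockRank p b : ℕ) : ℂ) := by
    push_cast
    rw [Finset.sum_congr rfl fun x hx => (local_count hM rfl (hX x hx) hB).symm, Finset.sum_comm]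
    have e1 : (Nat.card B : ℂ) = ∑ χ ∈ Finset.univ.filter (fun χ : IrrCharacter G => χ ∈ B), (1 : ℂ) := by
      rw [Finset.sum_const, nsmul_eq_mul, mul_one, Nat.card_eq_fintype_card, Fintype.card_subtype]
    rw [e1]
    refine Finset.sum_congr rfl fun χ _ => ?_
    rw [← classInner_irr_self χ.2]
    unfold classInner
    have hF : IsClassFunction G (fun g => (χ : G → ℂ) g * conj ((χ : G → ℂ) g)) := by
      intro g h
      simp only [irr_classFunction χ g h]
    rw [sum_sections hp X hXrep hF, Finset.mul_sum]
    refine Finset.sum_congr rfl fun x hx => ?_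
    rw [secSum_eq rfl (hX x hx), ← mul_assoc]
    congr 1
    · have h1 := (Subgroup.centralizer ({x} : Set G)).card_mul_index
      have h2 : (Nat.card (Subgroup.centralizer ({x} : Set G)) : ℂ) *
          ((Subgroup.centralizer ({x} : Set G)).index : ℂ) = (Nat.card G : ℂ) := by exact_mod_cast h1
      have h3 : (Nat.card (Subgroup.centralizer ({x} : Set G)) : ℂ) ≠ 0 := by
        exact_mod_cast Nat.card_pos.ne'
      have h4 : ((Subgroup.centralizer ({x} : Set G)).index : ℂ) ≠ 0 := by
        intro h
        rw [h, mul_zero] at h2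
        exact hG h2.symm
      rw [← h2]
      field_simp
    · refine Finset.sum_congr rfl fun y _ => ?_
      by_cases hy : p ∣ orderOf y
      · simp [pRegularPart_singular _ hy]
      · simp [pRegularPart_regular _ hy, sh_apply]
  exact_mod_cast key

end Cfsg.Agent.S4511
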