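import Cfsg.Statements.S4691
import Cfsg.Agent.S0071
import Cfsg.Agent.Lib.Helper2_BrauerPairs
import Cfsg.Agent.Lib.Helper2_BlockCover2
import Cfsg.Agent.Lib.Helper1_PNil

set_option autoImplicit false
open Cfsg Cfsg.Agent.Lib.Helper2_BlockLocal
  Cfsg.Agent.Lib.Helper2_BlockOm Cfsg.Agent.Lib.Helper2_BlockThird Cfsg.Agent.Lib.Helper2_BrauerPairs
  Cfsg.Agent.Lib.Helper1_PNil Cfsg.Agent.Lib.CharPerm Cfsg.Agent.Lib.Helper2_BlockCover2
open scoped Classical

namespace Cfsg.Agent.S4691

/-- Conjugation by the inverse of a normalizing element. -/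
def conjK {G : Type*} [Group G] (K : Subgroup G) (g : G)
    (hg : g ∈ Subgroup.normalizer (K : Set G)) : K ≃* K where
  toFun k := ⟨g⁻¹ * k * g, by
    have h := (Subgroup.mem_normalizer_iff.mp hg) (g⁻¹ * k * g)
    rw [h]
    have : g * (g⁻¹ * (k : G) * g) * g⁻¹ = k := by group
    rw [this]; exact k.2⟩
  invFun k := ⟨g * k * g⁻¹, (Subgroup.mem_normalizer_iff.mp hg k).mp k.2⟩
  left_inv k := by
    apply Subtype.ext
    show g * (g⁻¹ * (k : G) * g) * g⁻¹ = k
    group
  right_inv k := by
    apply Subtype.ext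
    show g⁻¹ * (g * (k : G) * g⁻¹) * g = k
    group
  map_mul' a b := by
    apply Subtype.ext
    show g⁻¹ * ((a : G) * b) * g = (g⁻¹ * a * g) * (g⁻¹ * b * g)
    group

theorem normalizer_le_normalizer_centralizer {G : Type*} [Group G] (Q : Subgroup G) {g : G}
    (hg : g ∈ Subgroup.normalizer (Q : Set G)) :
    g ∈ Subgroup.normalizer ((Subgroup.centralizer (Q : Set G) : Subgroup G) : Set G) := by
  rw [Subgroup.mem_normalizer_iff]
  intro h
  have hN := Subgroup.mem_normalizer_iff.mp hg
  constructor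
  · intro hh
    rw [Subgroup.mem_centralizer_iff] at hh ⊢
    intro q hq
    have hq' : g⁻¹ * q * g ∈ Q := by
      rw [hN]
      have : g * (g⁻¹ * q * g) * g⁻¹ = q := by group
      rw [this]; exact hq
    have := hh _ hq'
    calc q * (g * h * g⁻¹) = g * ((g⁻¹ * q * g) * h) * g⁻¹ := by group
      _ = g * (h * (g⁻¹ * q * g)) * g⁻¹ := by rw [this]
      _ = g * h * g⁻¹ * q := by group
  · intro hh
    rw [Subgroup.mem_centralizer_iff] at hh ⊢
    intro q hq
    have hq' : g * q * g⁻¹ ∈ Q := (hN q).mp hq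
    have := hh _ hq'
    calc q * h = g⁻¹ * ((g * q * g⁻¹) * (g * h * g⁻¹)) * g := by group
      _ = g⁻¹ * ((g * h * g⁻¹) * (g * q * g⁻¹)) * g := by rw [this]
      _ = h * q := by group

/-- Normalizing elements stabilize the principal block. -/
theorem stabilizes_principal {G : Type*} [Group G] [Finite G] (M : Ideal AlgInt) (K : Subgroup G)
    {g : G} (hg : g ∈ Subgroup.normalizer (K : Set G)) :
    StabilizesBlock K (principalBlock M K) g := by
  have := Fintype.ofFinite K
  refine ⟨hg, fun χ hχ => ?_⟩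
  refine ⟨⟨(χ : K → ℂ) ∘ (conjK K g hg), isIrr_comp_mulEquiv _ χ.2⟩, ?_, ?_⟩
  · exact sameBlock_comp_equiv (conjK K g hg) (θ := fun _ => (1 : ℂ)) hχ
  · intro k k' hk
    show (χ : K → ℂ) (conjK K g hg k') = (χ : K → ℂ) k
    have e : conjK K g hg k' = k := by
      apply Subtype.ext
      show g⁻¹ * (k' : G) * g = k
      rw [hk]; group
    rw [e]

/-- Fix a prime p and a maximal ideal M of the algebraic integers containing p. A finite group G has a normal p-complement if and only if its principal p-block is nilpotent. -/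
theorem result {G : Type*} [Group G] [Fintype G] (p : ℕ) [Fact p.Prime] (M : Ideal Cfsg.AlgInt) (hM : Cfsg.IsPModular p M) : Cfsg.HasNormalPComplement p G ↔ Cfsg.IsNilpotentBlock p M (Cfsg.principalBlock M G) := by
  have hp : p.Prime := Fact.out
  constructor
  · rintro ⟨P, N, hN, hc⟩
    refine ⟨principalBlock_isPBlock M G, ?_⟩
    intro Q e hQe x hxN _ hreg
    obtain ⟨P', hQP'⟩ := hQe.1.1.exists_le_sylow
    have hc' := (isNPC_of_isComplement' hN P hc).isComplement' P'
    exact (Cfsg.Agent.S0071.result P').mp ⟨N, hN, hc'⟩ Q hQP' x hxN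
      ((Nat.Prime.coprime_iff_not_dvd hp).mpr hreg).symm
  · intro h
    obtain ⟨P⟩ : Nonempty (Sylow p G) := inferInstance
    obtain ⟨N, hN, hc⟩ := (Cfsg.Agent.S0071.result P).mpr (by
      intro Q hQP g hgN hcop
      have hQ : IsPGroup p Q := P.2.to_le hQP
      exact h.2 Q (principalBlock M _)
        ((principal_pair_iff hM hQ (principalBlock_isPBlock M _)).mpr rfl) g hgN
        (stabilizes_principal M _ (normalizer_le_normalizer_centralizer Q hgN))
        ((Nat.Prime.coprime_iff_not_dvd hp).mp hcop.symm))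
    exact ⟨P, N, hN, hc⟩

end Cfsg.Agent.S4691
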