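import Cfsg.Statements.S4646
import Cfsg.Agent.S4691
import Cfsg.Agent.S0086
import Cfsg.Agent.S0938
import Cfsg.Agent.S0939
import Cfsg.Agent.Lib.helper8_BlockRank
import Cfsg.Agent.Lib.Helper2_PPart

set_option autoImplicit false
open Cfsg Cfsg.Agent.Lib.Helper2_BlockLocal
  Cfsg.Agent.Lib.Helper2_BlockOm Cfsg.Agent.Lib.Helper2_BlockThird
  Cfsg.Agent.Lib.Helper1_PNil Cfsg.Agent.Lib.helper8_BlockRank Cfsg.Agent.Lib.Helper2_PPart
  Cfsg.Agent.Lib.Helper2_BlockQuot
open scoped Classical

namespace Cfsg.Agent.S4646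

/-- For a finite group G, a prime p and a maximal ideal M of the algebraic integers containing p: the principal block of G is nilpotent if and only if its p-regular rank is 1 (the trivial Brauer character is its only irreducible Brauer character). -/
theorem result {G : Type*} [Group G] [Finite G] (p : ℕ) [Fact p.Prime] (M : Ideal Cfsg.AlgInt) (hM : Cfsg.IsPModular p M) : Cfsg.IsNilpotentBlock p M (Cfsg.principalBlock M G) ↔ Cfsg.blockRank p (Cfsg.principalBlock M G) = 1 := by
  have := Fintype.ofFinite G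
  have hp : p.Prime := Fact.out
  have hPr := isPrime_of_modular hM
  rw [← Cfsg.Agent.S4691.result p M hM]
  have hone : pRegularPart p (fun _ : G => (1 : ℂ)) ≠ 0 := by
    intro h
    have := congrFun h 1
    rw [pRegularPart_regular _ (by rw [orderOf_one]; exact hp.one_lt.ne' ∘ Nat.dvd_one.mp)] at this
    exact one_ne_zero this
  have h1mem := oneIrr_mem_principal hPr G
  have h1coe : ((oneIrr G : IrrCharacter G) : G → ℂ) = fun _ => 1 := rfl
  constructor
  · rintro ⟨P, N, hN, hc⟩
    have hNle : N ≤ pPrimeCore p G := by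
      apply le_sSup
      exact ⟨hN, (isNPC_of_isComplement' hN P hc).2.1⟩
    obtain ⟨k, hk⟩ := (isNPC_of_isComplement' hN P hc).2.2
    have hnc : ∃ k : ℕ, (pPrimeCore p G).index = p ^ k := by
      have h1 : (pPrimeCore p G).index ∣ p ^ k := hk ▸ Subgroup.index_dvd_of_le hNle
      obtain ⟨j, -, hj⟩ := (Nat.dvd_prime_pow hp).mp h1
      exact ⟨j, hj⟩
    have hB0 := Cfsg.Agent.S0939.result p M hM hnc
    have hval : ∀ χ ∈ principalBlock M G, pRegularPart p (χ : G → ℂ) =
        (χ : G → ℂ) 1 • pRegularPart p (fun _ : G => (1 : ℂ)) := by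
      intro χ hχ
      rw [hB0] at hχ
      ext y
      by_cases hy : p ∣ orderOf y
      · simp [pRegularPart_singular _ hy]
      · rw [Pi.smul_apply, pRegularPart_regular _ hy, pRegularPart_regular _ hy, smul_eq_mul, mul_one]
        apply hχ y (hNle _)
        haveI := hN
        rw [Cfsg.Agent.S0086.result P N hc y]
        exact ((Nat.Prime.coprime_iff_not_dvd hp).mpr hy).symm
    unfold blockRank
    have hspan : Submodule.span ℂ ((fun χ : IrrCharacter G => pRegularPart p (χ : G → ℂ)) ''
        principalBlock M G) = Submodule.span ℂ {pRegularPart p (fun _ : G => (1 : ℂ))} := by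
      apply le_antisymm
      · rw [Submodule.span_le]
        rintro _ ⟨χ, hχ, rfl⟩
        show pRegularPart p (χ : G → ℂ) ∈ _
        rw [hval χ hχ]
        exact Submodule.smul_mem _ _ (Submodule.mem_span_singleton_self _)
      · rw [Submodule.span_le, Set.singleton_subset_iff]
        exact Submodule.subset_span ⟨oneIrr G, h1mem, rfl⟩
    rw [hspan]
    exact finrank_span_singleton hone
  · intro hrank
    unfold blockRank at hrank
    set S := Submodule.span ℂ ((fun χ : IrrCharacter G => pRegularPart p (χ : G → ℂ)) ''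
        principalBlock M G) with hS
    have h1S : pRegularPart p (fun _ : G => (1 : ℂ)) ∈ S :=
      Submodule.subset_span ⟨oneIrr G, h1mem, rfl⟩
    have hv : (⟨_, h1S⟩ : S) ≠ 0 := by
      intro h
      exact hone (congrArg Subtype.val h)
    have hall := (finrank_eq_one_iff_of_nonzero' (⟨_, h1S⟩ : S) hv).mp hrank
    have hker : ∀ y : G, ¬ p ∣ orderOf y → y ∈ blockKer (principalBlock M G) := by
      intro y hy χ hχ
      have hχS : pRegularPart p (χ : G → ℂ) ∈ S := Submodule.subset_span ⟨χ, hχ, rfl⟩
      obtain ⟨c, hc⟩ := hall ⟨_, hχS⟩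
      have hc' : c • pRegularPart p (fun _ : G => (1 : ℂ)) = pRegularPart p (χ : G → ℂ) :=
        congrArg Subtype.val hc
      have h1 := congrFun hc' 1
      have h2 := congrFun hc' y
      have ho : ¬ p ∣ orderOf (1 : G) := by
        rw [orderOf_one]; exact hp.one_lt.ne' ∘ Nat.dvd_one.mp
      rw [Pi.smul_apply, pRegularPart_regular _ ho, pRegularPart_regular _ ho] at h1
      rw [Pi.smul_apply, pRegularPart_regular _ hy, pRegularPart_regular _ hy] at h2
      rw [← h1, ← h2]
    obtain ⟨K, hKn, hKeq, hKp, -, -⟩ := Cfsg.Agent.S0938.result p M hM (principalBlock M G)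
      (principalBlock_isPBlock M G) (oneIrr G) h1mem
    rw [hasNormalPComplement_iff]
    refine ⟨K, hKn, ((Nat.Prime.coprime_iff_not_dvd hp).mpr hKp).symm, ?_⟩
    haveI := hKn
    have hpg : IsPGroup p (G ⧸ K) := by
      intro q
      obtain ⟨g, rfl⟩ := QuotientGroup.mk_surjective q
      obtain ⟨a, y, hxy, -, ⟨k, hk⟩, hy⟩ := exists_isPPart hp g
      refine ⟨k, ?_⟩
      have hyK : y ∈ K := by
        have : y ∈ (K : Set G) := by rw [hKeq]; exact hker y hy
        exact this
      have e1 : (QuotientGroup.mk g : G ⧸ K) = QuotientGroup.mk (g ^ a) := by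
        rw [← hxy, QuotientGroup.mk_mul, (QuotientGroup.eq_one_iff y).mpr hyK, mul_one, hxy]
      rw [e1, ← QuotientGroup.mk_pow, ← hk, pow_orderOf_eq_one, QuotientGroup.mk_one]
    obtain ⟨n, hn⟩ := IsPGroup.iff_card.mp hpg
    exact ⟨n, by rw [Subgroup.index_eq_card, hn]⟩

end Cfsg.Agent.S4646
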