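import Cfsg.Statements.S4512
import Cfsg.Agent.Lib.helper8_SubSec
import Cfsg.Agent.Lib.Helper2_PrincipalSection
import Cfsg.Agent.S4494
import Cfsg.Agent.S4646
import Cfsg.Agent.S0071

set_option autoImplicit false
open Cfsg Cfsg.Agent.Lib.CharBasic Cfsg.Agent.Lib.CharOrtho
  Cfsg.Agent.Lib.CharComplete Cfsg.Agent.Lib.CharIntegral Cfsg.Agent.Lib.CharMore
  Cfsg.Agent.Lib.helper8_BlockRank Cfsg.Agent.Lib.helper8_RegularPart
  Cfsg.Agent.Lib.helper8_BlockSum Cfsg.Agent.Lib.helper8_Defect
  Cfsg.Agent.Lib.Helper2_BlockLocal Cfsg.Agent.Lib.Helper2_BlockOm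
  Cfsg.Agent.Lib.helper8_Height Cfsg.Agent.Lib.helper8_Height2
  Cfsg.Agent.Lib.Helper2_PPart Cfsg.Agent.Lib.helper8_SubSec
  Cfsg.Agent.Lib.Helper2_BlockThird Cfsg.Agent.Lib.Helper2_PrincipalSection
  Cfsg.Agent.Lib.Helper2_BlockQuot
open scoped ComplexConjugate Classical

namespace Cfsg.Agent.S4512

theorem sq_odd (x : ℤ) (hx : ¬ (2 : ℤ) ∣ x) : (8 : ℤ) ∣ x ^ 2 - 1 := by
  obtain ⟨m, hm⟩ : ∃ m, x = 2 * m + 1 := ⟨x / 2, by omega⟩
  obtain ⟨c, hc⟩ := Int.even_mul_succ_self m
  refine ⟨c, ?_⟩
  rw [hm]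
  linear_combination 4 * hc

/-- A `2`-block of defect two has exactly four characters. -/
theorem card_of_defect_two {G : Type*} [Group G] [Fintype G] {M : Ideal AlgInt}
    (hM : IsPModular 2 M) {B : Set (IrrCharacter G)} (hB : IsPBlock M B)
    (hd : blockDefect 2 B = 2) : Nat.card B = 4 := by
  have hP := isPrime_of_modular hM
  haveI : Fact (Nat.Prime 2) := ⟨Nat.prime_two⟩
  have hh : ∀ φ ∈ B, ee 2 φ = mu 2 B := by
    intro φ hφ
    by_contra hne
    have h1 : 0 < blockHeight 2 B (φ : G → ℂ) := by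
      rw [blockHeight_eq]
      have := mu_le 2 hφ
      omega
    have := (pos_height hM hB hφ h1).1
    omega
  have ha : (Nat.card G).factorization 2 = mu 2 B + 2 := by
    rw [blockDefect_eq'] at hd
    omega
  obtain ⟨χ, hχ⟩ := block_nonempty hP hB
  obtain ⟨x, hx, hsum, hpos⟩ := exists_xx hM hB hχ
  rw [hh χ hχ, ha, Nat.add_sub_cancel_left] at hsum
  have hodd : ∀ φ ∈ B, ¬ (2 : ℤ) ∣ x φ := by
    intro φ hφ hdv
    apply height_zero_val hM hB hχ hφ (fun ψ hψ => by rw [hh χ hχ, hh ψ hψ])
    rw [hx, hh χ hχ, hh φ hφ, pow_succ]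
    exact mul_dvd_mul_left _ (by exact_mod_cast hdv)
  have h8 : (8 : ℤ) ∣ ∑ ψ ∈ Finset.univ.filter (fun ψ : IrrCharacter G => ψ ∈ B), (x ψ ^ 2 - 1) :=
    Finset.dvd_sum fun ψ hψ => sq_odd _ (hodd ψ (Finset.mem_filter.mp hψ).2)
  rw [Finset.sum_sub_distrib, hsum, Finset.sum_const, nsmul_eq_mul, mul_one] at h8
  have hbf := Cfsg.Agent.S4494.result 2 M hM B hB
  rw [hd] at hbf
  have hcard : Nat.card B = (Finset.univ.filter (fun ψ : IrrCharacter G => ψ ∈ B)).card := by
    rw [Nat.card_eq_fintype_card, Fintype.card_subtype]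
  rw [← hcard] at h8
  have h1 := hodd χ hχ
  generalize Nat.card B = k at h8 hbf ⊢
  have hbf' : 4 * k ≤ 20 := hbf
  push_cast at h8
  omega

/-- The norm of a character when there are only two `2`-sections. -/
theorem norm_eq {G : Type*} [Group G] [Fintype G] (χ : IrrCharacter G) {x : G}
    (hx : orderOf x = 2) (hall : ∀ z : G, (∃ k : ℕ, orderOf z = 2 ^ k) → z = 1 ∨ IsConj x z)
    {H : Subgroup G} (hH : H = Subgroup.centralizer ({x} : Set G)) :
    classInner (pRegularPart 2 (χ : G → ℂ)) (χ : G → ℂ) +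
      classInner (pRegularPart 2 (sh x H (χ : G → ℂ)))
        (pRegularPart 2 (sh x H (χ : G → ℂ))) = 1 := by
  have hG : (Nat.card G : ℂ) ≠ 0 := by exact_mod_cast Nat.card_pos.ne'
  have hHc : (Nat.card H : ℂ) ≠ 0 := by exact_mod_cast Nat.card_pos.ne'
  have hχcf := irr_classFunction χ
  set F : G → ℂ := fun g => (χ : G → ℂ) g * conj ((χ : G → ℂ) g) with hF
  have hFcf : IsClassFunction G F := by
    intro g h
    simp only [hF, hχcf g h]
  have htot : ∑ z, secSum 2 F z = (Nat.card G : ℂ) := by
    rw [sum_secSum Nat.prime_two]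
    have := classInner_irr_self χ.2
    unfold classInner at this
    field_simp at this
    exact this
  have h1 : secSum 2 F 1 = (Nat.card G : ℂ) *
      classInner (pRegularPart 2 (χ : G → ℂ)) (χ : G → ℂ) := by
    unfold secSum classInner
    rw [← mul_assoc, mul_inv_cancel₀ hG, one_mul]
    refine Finset.sum_congr rfl fun g _ => ?_
    by_cases hg : 2 ∣ orderOf g
    · rw [pRegularPart_singular _ hg, zero_mul, if_neg]
      rintro ⟨y, hy, -, -, hy2⟩
      rw [one_mul] at hy
      rw [hy] at hy2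
      exact hy2 hg
    · rw [pRegularPart_regular _ hg, if_pos]
      exact ⟨g, one_mul g, Commute.one_left g, ⟨0, by simp⟩, hg⟩
  have h2 : secSum 2 F x = (Nat.card H : ℂ) * classInner (pRegularPart 2 (sh x H (χ : G → ℂ)))
        (pRegularPart 2 (sh x H (χ : G → ℂ))) := by
    rw [secSum_eq hH ⟨1, by rw [hx, pow_one]⟩ F]
    unfold classInner
    rw [← mul_assoc, mul_inv_cancel₀ hHc, one_mul]
    refine Finset.sum_congr rfl fun y _ => ?_
    by_cases hy : 2 ∣ orderOf y
    · rw [pRegularPart_singular _ hy, pRegularPart_singular _ hy, zero_mul]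
    · rw [pRegularPart_regular _ hy, pRegularPart_regular _ hy]
      rfl
  set A := Finset.univ.filter (IsConj x) with hA
  have h1A : (1 : G) ∉ A := by
    intro h
    have := (Finset.mem_filter.mp h).2
    have hx1 : x = 1 := isConj_one_left.mp this
    rw [hx1, orderOf_one] at hx
    norm_num at hx
  have hsumA : ∑ z ∈ A, secSum 2 F z = (A.card : ℂ) * secSum 2 F x := by
    rw [Finset.sum_congr rfl (fun z hz => by
      rw [← classFunction_of_isConj (secSum_classFunction (p := 2) hFcf) (Finset.mem_filter.mp hz).2]),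
      Finset.sum_const, nsmul_eq_mul]
  have hsub : ∑ z ∈ insert 1 A, secSum 2 F z = ∑ z, secSum 2 F z := by
    apply Finset.sum_subset (Finset.subset_univ _)
    intro z _ hz
    unfold secSum
    refine Finset.sum_eq_zero fun g _ => ?_
    rw [if_neg]
    rintro ⟨y, -, -, hk, -⟩
    apply hz
    rcases hall z hk with rfl | h
    · exact Finset.mem_insert_self _ _
    · exact Finset.mem_insert_of_mem (Finset.mem_filter.mpr ⟨Finset.mem_univ _, h⟩)
  rw [Finset.sum_insert h1A, hsumA, htot, h1, h2, hA, card_class_eq_index, ← mul_assoc] at hsub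
  have hidx : ((Subgroup.centralizer ({x} : Set G)).index : ℂ) * (Nat.card H : ℂ) =
      (Nat.card G : ℂ) := by
    rw [hH, mul_comm]
    exact_mod_cast (Subgroup.centralizer ({x} : Set G)).card_mul_index
  rw [hidx, ← mul_add] at hsub
  exact mul_left_cancel₀ hG (by rw [hsub, mul_one])

theorem four_aux {P : Type*} [Group P] [Finite P] (hP : Nat.card P = 4) (hexp : ∀ x : P, x * x = 1)
    (t : P) (ht : t ≠ 1) (r s : P) (hs1 : s ≠ 1) (hst : s ≠ t) (hr1 : r ≠ 1) (hrt : r ≠ t) :
    r = s ∨ r = t * s := by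
  have hmem : ∀ r : P, r ∈ Subgroup.zpowers t ↔ r = 1 ∨ r = t := by
    intro r
    constructor
    · intro h
      obtain ⟨k, rfl⟩ := Subgroup.mem_zpowers_iff.mp h
      have h2 : t ^ (2 : ℤ) = 1 := by rw [zpow_two]; exact hexp t
      rcases Int.even_or_odd' k with ⟨m, rfl | rfl⟩
      · left; rw [zpow_mul, h2, one_zpow]
      · right; rw [zpow_add, zpow_mul, h2, one_zpow, one_mul, zpow_one]
    · rintro (rfl | rfl)
      · exact one_mem _
      · exact Subgroup.mem_zpowers _
  have ho : orderOf t = 2 := orderOf_eq_prime (by rw [pow_two]; exact hexp t) ht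
  have hidx : (Subgroup.zpowers t).index = 2 := by
    have := (Subgroup.zpowers t).card_mul_index
    rw [Nat.card_zpowers, ho, hP] at this
    omega
  have h1 : r * s ∈ Subgroup.zpowers t := by
    rw [Subgroup.mul_mem_iff_of_index_two hidx, hmem, hmem]
    constructor
    · rintro (h | h)
      · exact absurd h hr1
      · exact absurd h hrt
    · rintro (h | h)
      · exact absurd h hs1
      · exact absurd h hst
  have hsi : s⁻¹ = s := inv_eq_of_mul_eq_one_left (hexp s)
  rcases (hmem _).mp h1 with h | h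
  · left
    rw [← hsi]; exact eq_inv_of_mul_eq_one_left h
  · right
    rw [← h, mul_assoc, hexp s, mul_one]

theorem npc_centralizer {G : Type*} [Group G] [Finite G] (P : Sylow 2 G) (hP : Nat.card P = 4)
    (hexp : ∀ x : P, x * x = 1) (t : G) (htP : t ∈ (P : Subgroup G)) (ht : orderOf t = 2) :
    HasNormalPComplement 2 ↥(Subgroup.centralizer ({t} : Set G)) := by
  haveI : Fact (Nat.Prime 2) := ⟨Nat.prime_two⟩
  have hsq : ∀ a ∈ (P : Subgroup G), a * a = 1 := fun a ha =>
    congrArg Subtype.val (hexp ⟨a, ha⟩)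
  have hinv : ∀ a ∈ (P : Subgroup G), a⁻¹ = a := fun a ha => inv_eq_of_mul_eq_one_left (hsq a ha)
  have hab : ∀ a ∈ (P : Subgroup G), ∀ b ∈ (P : Subgroup G), a * b = b * a := by
    intro a ha b hb
    have h1 := hinv _ (mul_mem ha hb)
    rw [mul_inv_rev, hinv a ha, hinv b hb] at h1
    exact h1.symm
  have hPH : (P : Subgroup G) ≤ Subgroup.centralizer ({t} : Set G) := by
    intro q hq
    rw [Subgroup.mem_centralizer_singleton_iff]
    exact hab q hq t htP
  set H := Subgroup.centralizer ({t} : Set G) with hH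
  set Q : Sylow 2 H := P.subtype hPH with hQ
  have hQmem : ∀ q : H, q ∈ (Q : Subgroup H) ↔ (q : G) ∈ (P : Subgroup G) := by
    intro q
    rw [hQ, Sylow.coe_subtype, Subgroup.mem_subgroupOf]
  have ht1 : t ≠ 1 := by
    rintro rfl
    rw [orderOf_one] at ht
    norm_num at ht
  obtain ⟨N, hN, hc⟩ := (Cfsg.Agent.S0071.result Q).mpr (by
    intro Q' hQ' g hg hcop
    rw [Subgroup.mem_centralizer_iff]
    intro q hq
    have hq' : q ∈ Q' := hq
    have hqP : (q : G) ∈ (P : Subgroup G) := (hQmem q).mp (hQ' hq')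
    have hcQ : g * q * g⁻¹ ∈ Q' := (Subgroup.mem_normalizer_iff.mp hg q).mp hq'
    have hcP : ((g * q * g⁻¹ : H) : G) ∈ (P : Subgroup G) := (hQmem _).mp (hQ' hcQ)
    have hgt : (g : G) * t = t * (g : G) := Subgroup.mem_centralizer_singleton_iff.mp g.2
    -- the conjugate is `q` or `t q`
    have hcase : (g : G) * q * (g : G)⁻¹ = q ∨ (g : G) * q * (g : G)⁻¹ = t * q := by
      by_cases h1 : (q : G) = 1
      · left; rw [h1]; group
      by_cases h2 : (q : G) = t
      · left; rw [h2, hgt]; group
      have h3 := four_aux hP hexp ⟨t, htP⟩ (by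
          intro h; exact ht1 (congrArg Subtype.val h))
        ⟨(g : G) * q * (g : G)⁻¹, hcP⟩ ⟨q, hqP⟩
        (by intro h; exact h1 (congrArg Subtype.val h))
        (by intro h; exact h2 (congrArg Subtype.val h))
        (by
          intro h
          have h4 : (g : G) * q * (g : G)⁻¹ = 1 := congrArg Subtype.val h
          apply h1
          have : (q : G) = (g : G)⁻¹ * ((g : G) * q * (g : G)⁻¹) * (g : G) := by group
          rw [this, h4]; group)
        (by
          intro h
          have h4 : (g : G) * q * (g : G)⁻¹ = t := congrArg Subtype.val h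
          apply h2
          have : (q : G) = (g : G)⁻¹ * ((g : G) * q * (g : G)⁻¹) * (g : G) := by group
          rw [this, h4, mul_assoc, ← hgt]; group)
      rcases h3 with h3 | h3
      · left; exact congrArg Subtype.val h3
      · right; exact congrArg Subtype.val h3
    have hsq2 : Commute ((g : G) ^ 2) (q : G) := by
      have : (g : G) ^ 2 * q * ((g : G) ^ 2)⁻¹ = q := by
        have e : (g : G) ^ 2 * q * ((g : G) ^ 2)⁻¹ =
            (g : G) * ((g : G) * q * (g : G)⁻¹) * (g : G)⁻¹ := by
          rw [pow_two, mul_inv_rev]; simp only [mul_assoc]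
        rw [e]
        rcases hcase with h | h
        · rw [h, h]
        · rw [h]
          have e2 : (g : G) * (t * q) * (g : G)⁻¹ = ((g : G) * t) * q * (g : G)⁻¹ := by group
          rw [e2, hgt]
          have e3 : t * (g : G) * q * (g : G)⁻¹ = t * ((g : G) * q * (g : G)⁻¹) := by group
          rw [e3, h, ← mul_assoc, hsq t htP, one_mul]
      exact (mul_inv_eq_iff_eq_mul.mp this)
    have hodd : Odd (orderOf (g : G)) := by
      rw [Subgroup.orderOf_coe]
      exact (Nat.coprime_two_right.mp hcop)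
    obtain ⟨m, hm⟩ := hodd
    have hgpow : ((g : G) ^ 2) ^ (m + 1) = g := by
      rw [← pow_mul]
      have : 2 * (m + 1) = orderOf (g : G) + 1 := by omega
      rw [this, pow_succ, pow_orderOf_eq_one, one_mul]
    have hfin : Commute (g : G) (q : G) := by
      have := hsq2.pow_left (m + 1)
      rwa [hgpow] at this
    exact Subtype.ext hfin.eq.symm)
  exact ⟨Q, N, hN, hc⟩

/-- If G is a finite group with a Sylow 2-subgroup that is a Klein four-group and a single conjugacy class of involutions, then its principal 2-block (relative to a maximal ideal M of the algebraic integers containing 2) has 2-regular rank 3: the restrictions of its irreducible characters to the elements of odd order span a space of dimension 3 (it has three irreducible Brauer characters). -/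
theorem result {G : Type*} [Group G] [Finite G] (M : Ideal Cfsg.AlgInt) (hM : Cfsg.IsPModular 2 M) (P : Sylow 2 G)
    (hP : Nat.card P = 4) (hexp : ∀ x : P, x * x = 1)
    (hone : ∀ s t : G, orderOf s = 2 → orderOf t = 2 → IsConj s t) :
    Cfsg.blockRank 2 (Cfsg.principalBlock M G) = 3 := by
  have := Fintype.ofFinite G
  have hPr := isPrime_of_modular hM
  haveI : Fact (Nat.Prime 2) := ⟨Nat.prime_two⟩
  obtain ⟨t', ht'⟩ : ∃ t' : P, t' ≠ 1 := by
    haveI : Nontrivial P := (Finite.one_lt_card_iff_nontrivial).mp (by rw [hP]; norm_num)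
    exact exists_ne 1
  have htP : (t' : G) ∈ (P : Subgroup G) := t'.2
  have ht : orderOf (t' : G) = 2 :=
    orderOf_eq_prime (by rw [pow_two]; exact congrArg Subtype.val (hexp t'))
      (by intro h; exact ht' (Subtype.ext h))
  generalize (t' : G) = t at htP ht
  have hall : ∀ z : G, (∃ k : ℕ, orderOf z = 2 ^ k) → z = 1 ∨ IsConj t z := by
    rintro z ⟨k, hk⟩
    have hpg : IsPGroup 2 (Subgroup.zpowers z) :=
      IsPGroup.of_card (n := k) (by rw [Nat.card_zpowers, hk])
    obtain ⟨Q, hQ⟩ := hpg.exists_le_sylow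
    obtain ⟨c, hc⟩ := MulAction.exists_smul_eq G Q P
    have hz : c * z * c⁻¹ ∈ (P : Subgroup G) := by
      rw [← hc, Sylow.coe_subgroup_smul]
      exact Subgroup.smul_mem_pointwise_smul z (MulAut.conj c) _ (hQ (Subgroup.mem_zpowers z))
    have h1 : (c * z * c⁻¹) * (c * z * c⁻¹) = 1 := congrArg Subtype.val (hexp ⟨_, hz⟩)
    have h2 : z * z = 1 := by
      have e : z * z = c⁻¹ * ((c * z * c⁻¹) * (c * z * c⁻¹)) * c := by group
      rw [e, h1]; group
    by_cases hz1 : z = 1
    · exact Or.inl hz1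
    · exact Or.inr (hone t z ht (orderOf_eq_prime (by rw [pow_two]; exact h2) hz1))
  have hB := principalBlock_isPBlock M G
  have hd : blockDefect 2 (principalBlock M G) = 2 := by
    rw [blockDefect_eq']
    have h1 := mu_le 2 (oneIrr_mem_principal hPr G)
    have h2 : ee 2 (oneIrr G) = 0 := by
      have : charDegree (oneIrr G : G → ℂ) = 1 := by simp [charDegree, oneIrr]
      unfold ee
      rw [this]; simp
    have h3 := P.card_eq_multiplicity
    rw [hP] at h3
    have h4 : 2 ^ 2 = 2 ^ (Nat.card G).factorization 2 := by rw [← h3]; norm_num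
    have h5 := Nat.pow_right_injective (le_refl 2) h4
    omega
  have hk := card_of_defect_two hM hB hd
  have hsum : ∑ χ ∈ Finset.univ.filter (fun χ : IrrCharacter G => χ ∈ principalBlock M G),
      (classInner (pRegularPart 2 (χ : G → ℂ)) (χ : G → ℂ) +
      classInner (pRegularPart 2 (sh t (Subgroup.centralizer ({t} : Set G)) (χ : G → ℂ)))
        (pRegularPart 2 (sh t (Subgroup.centralizer ({t} : Set G)) (χ : G → ℂ)))) = 4 := by
    rw [Finset.sum_congr rfl fun χ _ => norm_eq χ ht hall rfl, Finset.sum_const, nsmul_eq_mul,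
      mul_one]
    have hcard : Nat.card (principalBlock M G) =
        (Finset.univ.filter (fun ψ : IrrCharacter G => ψ ∈ principalBlock M G)).card := by
      rw [Nat.card_eq_fintype_card, Fintype.card_subtype]
    rw [← hcard, hk]
    norm_num
  have hx' : ∃ k : ℕ, orderOf t = 2 ^ k := ⟨1, by rw [ht, pow_one]⟩
  rw [Finset.sum_add_distrib, local_count hM rfl hx' hB, filter_principal hM hx',
    Finset.sum_singleton, sum_filter_eq_sum_subtype, ← blockRank_eq_trace hM hB,
    (Cfsg.Agent.S4646.result 2 M hM).mp ((Cfsg.Agent.S4691.result 2 M hM).mp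
      (npc_centralizer P hP hexp t htP ht))] at hsum
  have h3 : ((blockRank 2 (principalBlock M G) + 1 : ℕ) : ℂ) = ((4 : ℕ) : ℂ) := by
    push_cast
    rw [Nat.cast_one] at hsum
    exact hsum
  have h4 : blockRank 2 (principalBlock M G) + 1 = 4 := by exact_mod_cast h3
  omega

end Cfsg.Agent.S4512
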