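import Cfsg.Statements.S4513
import Cfsg.Agent.Lib.helper8_SubSec
import Cfsg.Agent.Lib.helper8_Major
import Cfsg.Agent.Lib.helper8_DefectZero

set_option autoImplicit false
open Cfsg Cfsg.Agent.Lib.CharBasic Cfsg.Agent.Lib.CharOrtho
  Cfsg.Agent.Lib.CharComplete Cfsg.Agent.Lib.CharIntegral Cfsg.Agent.Lib.CharMore
  Cfsg.Agent.Lib.helper8_BlockRank Cfsg.Agent.Lib.helper8_RegularPart
  Cfsg.Agent.Lib.helper8_BlockSum Cfsg.Agent.Lib.helper8_Defect
  Cfsg.Agent.Lib.Helper2_BlockLocal Cfsg.Agent.Lib.Helper2_BlockOm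
  Cfsg.Agent.Lib.helper8_Height Cfsg.Agent.Lib.helper8_Height2
  Cfsg.Agent.Lib.Helper2_PPart Cfsg.Agent.Lib.helper8_SubSec Cfsg.Agent.Lib.helper8_Major
  Cfsg.Agent.Lib.helper8_DefectZero Cfsg.Agent.Lib.Helper2_BlockDefOrder
open scoped ComplexConjugate Classical

namespace Cfsg.Agent.S4513

/-- The structure of a `2`-block of defect one. -/
theorem defect_one {G : Type*} [Group G] [Fintype G] {M : Ideal AlgInt} (hM : IsPModular 2 M)
    {B : Set (IrrCharacter G)} (hB : IsPBlock M B) (hd : blockDefect 2 B = 1)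
    {χ : IrrCharacter G} (hχ : χ ∈ B) :
    ∃ ψ ∈ B, ψ ≠ χ ∧ (∀ φ ∈ B, φ = χ ∨ φ = ψ) ∧
      (∀ g, ¬ 2 ∣ orderOf g → (ψ : G → ℂ) g = (χ : G → ℂ) g) ∧
      (∀ g, 2 ∣ orderOf g → (ψ : G → ℂ) g = - (χ : G → ℂ) g) ∧
      classInner (pRegularPart 2 (χ : G → ℂ)) (χ : G → ℂ) = 1 / 2 := by
  have hP := isPrime_of_modular hM
  have hp := hM.1
  have hh : ∀ φ ∈ B, ee 2 φ = mu 2 B := by
    intro φ hφ
    by_contra hne
    have h1 : 0 < blockHeight 2 B (φ : G → ℂ) := by
      rw [blockHeight_eq]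
      have := mu_le 2 hφ
      omega
    have := (pos_height hM hB hφ h1).1
    omega
  have ha : (Nat.card G).factorization 2 = mu 2 B + 1 := by
    rw [blockDefect_eq'] at hd
    omega
  obtain ⟨x, hx, hsum, hpos⟩ := exists_xx hM hB hχ
  rw [hh χ hχ, ha, Nat.add_sub_cancel_left, pow_one] at hsum
  have hodd : ∀ φ ∈ B, ¬ (2 : ℤ) ∣ x φ := by
    intro φ hφ hdv
    apply height_zero_val hM hB hχ hφ (fun ψ hψ => by rw [hh χ hχ, hh ψ hψ])
    rw [hx, hh χ hχ, hh φ hφ, pow_succ]
    exact mul_dvd_mul_left _ (by exact_mod_cast hdv)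
  have hmem : χ ∈ Finset.univ.filter (fun ψ : IrrCharacter G => ψ ∈ B) :=
    Finset.mem_filter.mpr ⟨Finset.mem_univ _, hχ⟩
  rw [← Finset.add_sum_erase _ _ hmem] at hsum
  set S := (Finset.univ.filter (fun ψ : IrrCharacter G => ψ ∈ B)).erase χ with hS
  have hSB : ∀ φ ∈ S, φ ∈ B := fun φ hφ => (Finset.mem_filter.mp (Finset.mem_of_mem_erase hφ)).2
  have hge : (S.card : ℤ) ≤ ∑ ψ ∈ S, x ψ ^ 2 := by
    have := Finset.card_nsmul_le_sum S (fun ψ => x ψ ^ 2) 1 (fun φ hφ => by
      have h1 := hodd φ (hSB φ hφ)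
      have h2 : x φ ≠ 0 := by
        intro h0; rw [h0] at h1; exact h1 (dvd_zero _)
      have : 0 < x φ ^ 2 := by positivity
      omega)
    simpa using this
  have hx1 : x χ = 1 := by
    have h1 := hodd χ hχ
    have h2 : x χ ≤ 2 := by
      have h3 : (0 : ℤ) ≤ S.card := Int.natCast_nonneg _
      push_cast at hsum
      nlinarith
    omega
  rw [hx1] at hsum
  have hsum' : ∑ ψ ∈ S, x ψ ^ 2 = 1 := by
    push_cast at hsum
    linarith
  have hcard : S.card = 1 := by
    have h1 : S.card ≤ 1 := by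
      rw [hsum'] at hge
      exact_mod_cast hge
    have h2 : S.card ≠ 0 := by
      intro h0
      rw [Finset.card_eq_zero.mp h0] at hsum'
      simp at hsum'
    omega
  obtain ⟨ψ, hψS⟩ := Finset.card_eq_one.mp hcard
  have hψmem : ψ ∈ S := by rw [hψS]; exact Finset.mem_singleton_self _
  rw [hψS, Finset.sum_singleton] at hsum'
  have h2a : ((2 ^ (Nat.card G).factorization 2 : ℕ) : ℂ) = 2 * (2 : ℂ) ^ mu 2 B := by
    rw [ha]; push_cast; ring
  have h2ne : (2 : ℂ) ^ mu 2 B ≠ 0 := pow_ne_zero _ two_ne_zero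
  have hin : ∀ φ : IrrCharacter G, classInner (pRegularPart 2 (χ : G → ℂ)) (φ : G → ℂ) = (x φ : ℂ) / 2 := by
    intro φ
    have h1 := nn_spec hp χ φ
    rw [hx, hh χ hχ, h2a] at h1
    push_cast at h1
    field_simp
    have h3 : (2 : ℂ) ^ mu 2 B * (classInner (pRegularPart 2 (χ : G → ℂ)) (φ : G → ℂ) * 2) =
        (2 : ℂ) ^ mu 2 B * (x φ : ℂ) := by
      rw [h1]; ring
    exact mul_left_cancel₀ h2ne h3
  have hexp : ∀ g, pRegularPart 2 (χ : G → ℂ) g =
      (1 / 2) * (χ : G → ℂ) g + ((x ψ : ℂ) / 2) * (ψ : G → ℂ) g := by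
    intro g
    rw [pRegularPart_expansion hM hB hχ g, ← Finset.add_sum_erase _ _ hmem, ← hS, hψS,
      Finset.sum_singleton, hin, hin, hx1]
    push_cast
    ring
  have hxψ : x ψ = 1 := by
    have h1 := hexp 1
    rw [pRegularPart_regular _ (by rw [orderOf_one]; norm_num)] at h1
    obtain ⟨c0, c1, -⟩ := irr_charDegree χ.2
    obtain ⟨d0, d1, -⟩ := irr_charDegree ψ.2
    rw [c1, d1] at h1
    have h2 : ((charDegree (χ : G → ℂ) : ℤ) : ℂ) = ((x ψ * charDegree (ψ : G → ℂ) : ℤ) : ℂ) := by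
      push_cast
      linear_combination 2 * h1
    have h3 : (charDegree (χ : G → ℂ) : ℤ) = x ψ * charDegree (ψ : G → ℂ) := by exact_mod_cast h2
    have h4 : x ψ = 1 ∨ x ψ = -1 := by
      have : (x ψ - 1) * (x ψ + 1) = 0 := by linear_combination hsum'
      rcases mul_eq_zero.mp this with h | h
      · left; omega
      · right; omega
    rcases h4 with h4 | h4
    · exact h4
    · rw [h4] at h3
      have e1 : (0 : ℤ) < charDegree (χ : G → ℂ) := by exact_mod_cast c0
      have e2 : (0 : ℤ) < charDegree (ψ : G → ℂ) := by exact_mod_cast d0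
      linarith
  rw [hxψ] at hexp
  refine ⟨ψ, hSB ψ hψmem, Finset.ne_of_mem_erase hψmem, ?_, ?_, ?_, ?_⟩
  · intro φ hφ
    by_cases hφχ : φ = χ
    · exact Or.inl hφχ
    · right
      have : φ ∈ S := Finset.mem_erase.mpr ⟨hφχ, Finset.mem_filter.mpr ⟨Finset.mem_univ _, hφ⟩⟩
      rw [hψS] at this
      exact Finset.mem_singleton.mp this
  · intro g hg
    have := hexp g
    rw [pRegularPart_regular _ hg] at this
    push_cast at this
    linear_combination (-2) * this
  · intro g hg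
    have := hexp g
    rw [pRegularPart_singular _ hg] at this
    push_cast at this
    linear_combination (-2) * this
  · rw [hin, hx1]; norm_num

theorem norm_le {G : Type*} [Group G] [Fintype G] (χ : IrrCharacter G) {x : G}
    (hx : orderOf x = 2) {H : Subgroup G} (hH : H = Subgroup.centralizer ({x} : Set G)) :
    (classInner (pRegularPart 2 (χ : G → ℂ)) (χ : G → ℂ)).re +
      (classInner (pRegularPart 2 (sh x H (χ : G → ℂ)))
        (pRegularPart 2 (sh x H (χ : G → ℂ)))).re ≤ 1 := by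
  have hG : (Nat.card G : ℂ) ≠ 0 := by exact_mod_cast Nat.card_pos.ne'
  have hHc : (Nat.card H : ℂ) ≠ 0 := by exact_mod_cast Nat.card_pos.ne'
  have hχcf := irr_classFunction χ
  set F : G → ℂ := fun g => (χ : G → ℂ) g * conj ((χ : G → ℂ) g) with hF
  have hFcf : IsClassFunction G F := by
    intro g h
    simp only [hF, hχcf g h]
  have hnn : ∀ z, 0 ≤ (secSum 2 F z).re := by
    intro z
    unfold secSum
    rw [Complex.re_sum]
    refine Finset.sum_nonneg fun g _ => ?_
    split_ifs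
    · simp only [hF, Complex.mul_conj, Complex.ofReal_re]
      exact Complex.normSq_nonneg _
    · simp
  have htot : ∑ z, secSum 2 F z = (Nat.card G : ℂ) := by
    rw [sum_secSum Nat.prime_two]
    have := classInner_irr_self χ.2
    unfold classInner at this
    field_simp at this
    exact this
  have h1 : secSum 2 F 1 = (Nat.card G : ℂ) *
      classInner (pRegularPart 2 (χ : G → ℂ)) (χ : G → ℂ) := by
    unfold secSum classInner
    rw [← mul_assoc, mul_inv_cancel₀ hG, one_mul]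
    refine Finset.sum_congr rfl fun g _ => ?_
    by_cases hg : 2 ∣ orderOf g
    · rw [pRegularPart_singular _ hg, zero_mul, if_neg]
      rintro ⟨y, hy, -, -, hy2⟩
      rw [one_mul] at hy
      rw [hy] at hy2
      exact hy2 hg
    · rw [pRegularPart_regular _ hg, if_pos]
      exact ⟨g, one_mul g, Commute.one_left g, ⟨0, by simp⟩, hg⟩
  have h2 : secSum 2 F x = (Nat.card H : ℂ) * classInner (pRegularPart 2 (sh x H (χ : G → ℂ)))
        (pRegularPart 2 (sh x H (χ : G → ℂ))) := by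
    rw [secSum_eq hH ⟨1, by rw [hx, pow_one]⟩ F]
    unfold classInner
    rw [← mul_assoc, mul_inv_cancel₀ hHc, one_mul]
    refine Finset.sum_congr rfl fun y _ => ?_
    by_cases hy : 2 ∣ orderOf y
    · rw [pRegularPart_singular _ hy, pRegularPart_singular _ hy, zero_mul]
    · rw [pRegularPart_regular _ hy, pRegularPart_regular _ hy]
      rfl
  set A := Finset.univ.filter (IsConj x) with hA
  have h1A : (1 : G) ∉ A := by
    intro h
    have := (Finset.mem_filter.mp h).2
    have hx1 : x = 1 := isConj_one_left.mp this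
    rw [hx1, orderOf_one] at hx
    norm_num at hx
  have hsumA : ∑ z ∈ A, (secSum 2 F z).re = (A.card : ℝ) * (secSum 2 F x).re := by
    rw [Finset.sum_congr rfl (fun z hz => by
      rw [← classFunction_of_isConj (secSum_classFunction (p := 2) hFcf) (Finset.mem_filter.mp hz).2]),
      Finset.sum_const, nsmul_eq_mul]
  have hle : ∑ z ∈ insert 1 A, (secSum 2 F z).re ≤ ∑ z, (secSum 2 F z).re :=
    Finset.sum_le_sum_of_subset_of_nonneg (Finset.subset_univ _) (fun z _ _ => hnn z)
  rw [Finset.sum_insert h1A, hsumA, ← Complex.re_sum, htot, h1, h2, hA, card_class_eq_index,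
    Complex.natCast_re] at hle
  have hre : ∀ (n : ℕ) (z : ℂ), ((n : ℂ) * z).re = (n : ℝ) * z.re := by
    intro n z
    simp
  rw [hre, hre, ← mul_assoc] at hle
  have hidx : ((Subgroup.centralizer ({x} : Set G)).index : ℝ) * (Nat.card H : ℝ) =
      (Nat.card G : ℝ) := by
    rw [hH, mul_comm]
    exact_mod_cast (Subgroup.centralizer ({x} : Set G)).card_mul_index
  rw [hidx, ← mul_add] at hle
  have hGpos : (0 : ℝ) < (Nat.card G : ℝ) := by exact_mod_cast Nat.card_pos
  nlinarith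

theorem core {G : Type*} [Group G] [Fintype G] (M : Ideal Cfsg.AlgInt) (hM : Cfsg.IsPModular 2 M)
    (x : G) (hx : orderOf x = 2) (B : Set (Cfsg.IrrCharacter G)) (hB : Cfsg.IsPBlock M B)
    (hBD : Cfsg.IsDefectGroup 2 M B (Subgroup.zpowers x)) (H : Subgroup G)
    (hH : H = Subgroup.centralizer ({x} : Set G))
    (b : Set (Cfsg.IrrCharacter H)) (hb : Cfsg.IsInducedBlock M H b B)
    (θ : Cfsg.IrrCharacter H) (hθ : θ ∈ b)
    (hθx : ∀ z : H, (z : G) = x → (θ : H → ℂ) z = (θ : H → ℂ) 1) :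
    Nat.card B = 2 ∧ (∀ χ ∈ B, ∀ ψ ∈ B, ∀ g : G, ¬ 2 ∣ orderOf g →
      (χ : G → ℂ) g = (ψ : G → ℂ) g) ∧
      ∃ χ₁ ∈ B, ∃ χ₂ ∈ B, χ₁ ≠ χ₂ ∧ ∃ ε₁ ε₂ : ℤ, (ε₁ = 1 ∨ ε₁ = -1) ∧ (ε₂ = 1 ∨ ε₂ = -1) ∧
        ε₁ * ε₂ = -1 ∧ ∀ y : H, ¬ 2 ∣ orderOf y →
          (χ₁ : G → ℂ) (x * y) = (ε₁ : ℂ) * (θ : H → ℂ) y ∧
          (χ₂ : G → ℂ) (x * y) = (ε₂ : ℂ) * (θ : H → ℂ) y := by
  have hP := isPrime_of_modular hM
  haveI : Fact (Nat.Prime 2) := ⟨Nat.prime_two⟩
  have hx' : ∃ k : ℕ, orderOf x = 2 ^ k := ⟨1, by rw [hx, pow_one]⟩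
  have hxx : x * x = 1 := by rw [← pow_two, ← hx, pow_orderOf_eq_one]
  have hxi : x⁻¹ = x := inv_eq_of_mul_eq_one_left hxx
  have hdB : blockDefect 2 B = 1 := by
    have h1 := card_defectGroup hM hB hBD
    rw [Nat.card_zpowers, hx] at h1
    have h2 : 2 ^ 1 = 2 ^ blockDefect 2 B := by rw [pow_one]; exact h1
    exact (Nat.pow_right_injective (le_refl 2) h2).symm
  have hxH : x ∈ H := by
    rw [hH, Subgroup.mem_centralizer_singleton_iff]
  have hdb : blockDefect 2 b = 1 := by
    have h1 := defect_le_induced hM hb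
    rw [hdB] at h1
    by_contra hne
    have h0 : blockDefect 2 b = 0 := by omega
    rw [blockDefect_eq'] at h0
    have h2 := mu_le 2 hθ
    have h3 := ee_le 2 θ
    obtain ⟨d0, d1, d2⟩ := irr_charDegree θ.2
    have h4 : ¬ 2 ∣ Nat.card H / charDegree (θ : H → ℂ) := by
      intro hdv
      have h5 : Nat.card H / charDegree (θ : H → ℂ) ≠ 0 :=
        (Nat.div_pos (Nat.le_of_dvd Nat.card_pos d2) d0).ne'
      have h6 := (Nat.Prime.dvd_iff_one_le_factorization Nat.prime_two h5).mp hdv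
      rw [Nat.factorization_div d2] at h6
      simp only [Finsupp.coe_tsub, Pi.sub_apply] at h6
      unfold ee at h2 h3
      omega
    have h7 := vanish_of_defect_zero Nat.prime_two θ h4 (y := ⟨x, hxH⟩)
      (by rw [Subgroup.orderOf_mk, hx])
    rw [hθx ⟨x, hxH⟩ rfl] at h7
    exact irr_degree_ne_zero θ.2 h7
  obtain ⟨χ₁, hχ₁⟩ := block_nonempty hP hB
  obtain ⟨χ₂, hχ₂, hne, hall, hreg, hsing, hin⟩ := defect_one hM hB hdB hχ₁
  obtain ⟨θ', hθ', hne', hall', hreg', hsing', hin'⟩ := defect_one hM hb.1 hdb hθ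
  have hfil : Finset.univ.filter (fun χ : IrrCharacter G => χ ∈ B) = {χ₁, χ₂} := by
    ext φ
    simp only [Finset.mem_filter, Finset.mem_univ, true_and, Finset.mem_insert,
      Finset.mem_singleton]
    constructor
    · exact hall φ
    · rintro (rfl | rfl)
      · exact hχ₁
      · exact hχ₂
  refine ⟨?_, ?_, ?_⟩
  · rw [Nat.card_eq_fintype_card, Fintype.card_subtype]
    show (Finset.univ.filter (fun χ : IrrCharacter G => χ ∈ B)).card = 2
    rw [hfil]
    exact Finset.card_pair hne.symm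
  · intro χ hχ ψ hψ g hg
    rcases hall χ hχ with rfl | rfl <;> rcases hall ψ hψ with rfl | rfl
    · rfl
    · exact (hreg g hg).symm
    · exact hreg g hg
    · rfl
  -- the section of `x`
  have hcomm : ∀ y : H, Commute x (y : G) := by
    intro y
    have := Subgroup.mem_centralizer_singleton_iff.mp (show (y : G) ∈ Subgroup.centralizer {x} by
      rw [← hH]; exact y.2)
    exact this.symm
  have hsingxy : ∀ y : H, ¬ 2 ∣ orderOf y → 2 ∣ orderOf (x * (y : G)) := by
    intro y hy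
    have hcop : Nat.Coprime (orderOf x) (orderOf (y : G)) := by
      rw [hx, Subgroup.orderOf_coe]
      exact (Nat.Prime.coprime_iff_not_dvd Nat.prime_two).mpr hy
    rw [(hcomm y).orderOf_mul_eq_mul_orderOf_of_coprime hcop, hx]
    exact Dvd.intro _ rfl
  set f : H → ℂ := pRegularPart 2 (sh x H (χ₁ : G → ℂ)) with hf
  have hfcf : IsClassFunction H f :=
    pRegularPart_classFunction 2 (sh_classFunction hH (irr_classFunction χ₁))
  have hf2 : pRegularPart 2 (sh x H (χ₂ : G → ℂ)) = - f := by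
    funext y
    rw [Pi.neg_apply, hf]
    by_cases hy : 2 ∣ orderOf y
    · rw [pRegularPart_singular _ hy, pRegularPart_singular _ hy, neg_zero]
    · rw [pRegularPart_regular _ hy, pRegularPart_regular _ hy, sh_apply, sh_apply,
        hsing _ (hsingxy y hy)]
  set α := classInner f (θ : H → ℂ) with hα
  have hα' : classInner f (θ' : H → ℂ) = α := by
    rw [hα]
    unfold classInner
    congr 1
    refine Finset.sum_congr rfl fun y _ => ?_
    by_cases hy : 2 ∣ orderOf y
    · rw [hf, pRegularPart_singular _ hy, zero_mul, zero_mul]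
    · rw [hreg' y hy]
  have hnorm : α * conj α = 1 / 4 := by
    have h1 := sum_block_aa hM hH hx' hB θ
    rw [← block_eq_blockOf hP hb.1 hθ, if_pos hb, hin', hfil, Finset.sum_pair hne.symm] at h1
    unfold aa at h1
    rw [hf2, ← hf, ← hα] at h1
    have h2 : classInner (-f) (θ : H → ℂ) = - α := by
      rw [hα]
      unfold classInner
      simp only [Pi.neg_apply, neg_mul, Finset.sum_neg_distrib, mul_neg]
    rw [h2] at h1
    simp only [map_neg, neg_mul_neg] at h1
    linear_combination h1 / 2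
  have hreal : conj α = α := by
    rw [hα]
    unfold classInner
    rw [map_mul, map_inv₀, Complex.conj_natCast, map_sum]
    congr 1
    rw [← Equiv.sum_comp (Equiv.inv H)]
    refine Finset.sum_congr rfl fun y _ => ?_
    simp only [Equiv.inv_apply, map_mul, Complex.conj_conj]
    rw [inv_of_isCharacter (isCharacter_of_isIrr θ.2)]
    congr 1
    have ho : orderOf (y⁻¹ : H) = orderOf y := orderOf_inv y
    by_cases hy : 2 ∣ orderOf y
    · rw [hf, pRegularPart_singular _ hy, pRegularPart_singular _ (by rw [ho]; exact hy), map_zero]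
    · rw [hf, pRegularPart_regular _ hy, pRegularPart_regular _ (by rw [ho]; exact hy), sh_apply,
        sh_apply, ← inv_of_isCharacter (isCharacter_of_isIrr χ₁.2)]
      rw [Subgroup.coe_inv, mul_inv_rev, inv_inv, hxi, (hcomm y).eq]
  -- the remaining coefficients vanish
  have hle := norm_le χ₁ hx hH
  rw [hin, ← hf, classInner_eq_sum f f hfcf, Complex.re_sum] at hle
  have hterm : ∀ φ : IrrCharacter H, (classInner f (φ : H → ℂ) *
      conj (classInner f (φ : H → ℂ))).re = Complex.normSq (classInner f (φ : H → ℂ)) := by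
    intro φ
    rw [Complex.mul_conj, Complex.ofReal_re]
  rw [Finset.sum_congr rfl fun φ _ => hterm φ] at hle
  have hαn : Complex.normSq α = 1 / 4 := by
    have h1 : ((Complex.normSq α : ℝ) : ℂ) = ((1 / 4 : ℝ) : ℂ) := by
      rw [← Complex.mul_conj, hnorm]; norm_num
    exact_mod_cast h1
  have hzero : ∀ φ : IrrCharacter H, φ ≠ θ → φ ≠ θ' → classInner f (φ : H → ℂ) = 0 := by
    intro φ h1 h2
    by_contra h0
    have hpos : 0 < Complex.normSq (classInner f (φ : H → ℂ)) := Complex.normSq_pos.mpr h0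
    have hsub : ∑ φ' ∈ ({θ, θ', φ} : Finset (IrrCharacter H)),
        Complex.normSq (classInner f (φ' : H → ℂ)) ≤
        ∑ φ' : IrrCharacter H, Complex.normSq (classInner f (φ' : H → ℂ)) :=
      Finset.sum_le_sum_of_subset_of_nonneg (Finset.subset_univ _)
        (fun _ _ _ => Complex.normSq_nonneg _)
    rw [Finset.sum_insert (by
      simp only [Finset.mem_insert, Finset.mem_singleton, not_or]
      exact ⟨hne'.symm, h1.symm⟩), Finset.sum_pair h2.symm, hα', ← hα, hαn] at hsub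
    norm_num at hle
    linarith
  have hfval : ∀ y : H, f y = α * (θ : H → ℂ) y + α * (θ' : H → ℂ) y := by
    intro y
    conv_lhs => rw [classFunction_expansion f hfcf]
    rw [Finset.sum_apply, ← Finset.sum_subset (Finset.subset_univ ({θ, θ'} : Finset (IrrCharacter H)))]
    · rw [Finset.sum_pair hne'.symm, hα', ← hα]
      rfl
    · intro φ _ hφ
      simp only [Finset.mem_insert, Finset.mem_singleton, not_or] at hφ
      rw [hzero φ hφ.1 hφ.2]
      simp
  have hval : ∀ y : H, ¬ 2 ∣ orderOf y → (χ₁ : G → ℂ) (x * y) = 2 * α * (θ : H → ℂ) y := by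
    intro y hy
    have := hfval y
    rw [hf, pRegularPart_regular _ hy, sh_apply, hreg' y hy] at this
    rw [this]; ring
  have hsq : (2 * α - 1) * (2 * α + 1) = 0 := by
    rw [hreal] at hnorm
    linear_combination 4 * hnorm
  refine ⟨χ₁, hχ₁, χ₂, hχ₂, hne.symm, ?_⟩
  rcases mul_eq_zero.mp hsq with h | h
  · have h2α : 2 * α = 1 := by linear_combination h
    refine ⟨1, -1, Or.inl rfl, Or.inr rfl, by norm_num, fun y hy => ⟨?_, ?_⟩⟩
    · rw [hval y hy, h2α]; norm_num
    · rw [hsing _ (hsingxy y hy), hval y hy, h2α]; norm_num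
  · have h2α : 2 * α = -1 := by linear_combination h
    refine ⟨-1, 1, Or.inr rfl, Or.inl rfl, by norm_num, fun y hy => ⟨?_, ?_⟩⟩
    · rw [hval y hy, h2α]; norm_num
    · rw [hsing _ (hsingxy y hy), hval y hy, h2α]; norm_num

/-- Blocks of defect one for p = 2. Let M be a maximal ideal of the algebraic integers containing 2, B a 2-block of the finite group G whose defect group is the subgroup generated by an involution x, C = C_G(x), b a block of C inducing B and θ a member of b taking the same value at x as at 1 (there is exactly one). Then B consists of exactly two irreducible characters, which agree on every element of odd order, and they can be labelled χ₁, χ₂ with signs ε₁, ε₂ = ±1, ε₁ε₂ = −1, such that χᵢ(x y) = εᵢ θ(y) for every element y of C of odd order. -/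
theorem result {G : Type*} [Group G] [Finite G] (M : Ideal Cfsg.AlgInt) (hM : Cfsg.IsPModular 2 M) (x : G) (hx : orderOf x = 2)
    (B : Set (Cfsg.IrrCharacter G)) (hB : Cfsg.IsPBlock M B) (hBD : Cfsg.IsDefectGroup 2 M B (Subgroup.zpowers x))
    (b : Set (Cfsg.IrrCharacter ↥(Subgroup.centralizer ({x} : Set G)))) (hb : Cfsg.IsInducedBlock M (Subgroup.centralizer ({x} : Set G)) b B)
    (θ : Cfsg.IrrCharacter ↥(Subgroup.centralizer ({x} : Set G))) (hθ : θ ∈ b)
    (hθx : ∀ z : ↥(Subgroup.centralizer ({x} : Set G)), (z : G) = x → (θ : ↥(Subgroup.centralizer ({x} : Set G)) → ℂ) z = (θ : ↥(Subgroup.centralizer ({x} : Set G)) → ℂ) 1) :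
    Nat.card B = 2 ∧ (∀ χ ∈ B, ∀ ψ ∈ B, ∀ g : G, ¬ 2 ∣ orderOf g → (χ : G → ℂ) g = (ψ : G → ℂ) g) ∧
      ∃ χ₁ ∈ B, ∃ χ₂ ∈ B, χ₁ ≠ χ₂ ∧ ∃ ε₁ ε₂ : ℤ, (ε₁ = 1 ∨ ε₁ = -1) ∧ (ε₂ = 1 ∨ ε₂ = -1) ∧ ε₁ * ε₂ = -1 ∧
        ∀ y : ↥(Subgroup.centralizer ({x} : Set G)), ¬ 2 ∣ orderOf y →
          (χ₁ : G → ℂ) (x * y) = (ε₁ : ℂ) * (θ : ↥(Subgroup.centralizer ({x} : Set G)) → ℂ) y ∧ (χ₂ : G → ℂ) (x * y) = (ε₂ : ℂ) * (θ : ↥(Subgroup.centralizer ({x} : Set G)) → ℂ) y := by
  have := Fintype.ofFinite G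
  exact core M hM x hx B hB hBD _ rfl b hb θ hθ hθx

end Cfsg.Agent.S4513
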