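import Cfsg.Statements.S4633
import Mathlib
import Mathlib
import Cfsg.Agent.Lib.Helper2_AbDef2
import Cfsg.Agent.Lib.Helper2_CycAut


set_option autoImplicit false
open Cfsg

namespace Cfsg.Agent.S4633

/-- Let B be a block of the finite group G relative to a maximal ideal M of the algebraic integers containing the prime p, with a nontrivial cyclic defect group P. Let c be a block of C_G(P) inducing B and T the stabilizer of c in N_G(P) (the elements of N_G(P) conjugating c to itself); T contains C_G(P). Then T/C_G(P) is cyclic of order dividing p − 1, and it acts freely on the non-identity elements of P: an element of T fixing some non-identity element of P under conjugation lies in C_G(P). -/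
theorem result {G : Type*} [Group G] [Finite G] (p : ℕ) [Fact p.Prime] (M : Ideal Cfsg.AlgInt) (hM : Cfsg.IsPModular p M) (B : Set (Cfsg.IrrCharacter G)) (hB : Cfsg.IsPBlock M B) (P : Subgroup G) (hPD : Cfsg.IsDefectGroup p M B P) (hP1 : P ≠ ⊥) (hcyc : IsCyclic P) (c : Set (Cfsg.IrrCharacter (Subgroup.centralizer (P : Set G)))) (hc : Cfsg.IsInducedBlock M (Subgroup.centralizer (P : Set G)) c B) (T : Subgroup G) (hT : ∀ g : G, g ∈ T ↔ (g ∈ Subgroup.normalizer (P : Set G) ∧ Cfsg.StabilizesBlock (Subgroup.centralizer (P : Set G)) c g)) [hn : ((Subgroup.centralizer (P : Set G)).subgroupOf T).Normal] : IsCyclic (T ⧸ (Subgroup.centralizer (P : Set G)).subgroupOf T) ∧ (Subgroup.centralizer (P : Set G)).relIndex T ∣ p - 1 ∧ ∀ g ∈ T, ∀ x ∈ P, x ≠ 1 → g * x * g⁻¹ = x → g ∈ Subgroup.centralizer (P : Set G) := by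
  classical
  haveI : Fintype G := Fintype.ofFinite G
  have hP := Cfsg.Agent.Lib.Helper2_AbDef2.isPGroup_of_defect hM hB hPD
  have hab : ∀ x ∈ P, ∀ y ∈ P, x * y = y * x := by
    intro x hx y hy
    obtain ⟨z, hz⟩ := hcyc.exists_generator
    obtain ⟨i, hi⟩ := hz ⟨x, hx⟩
    obtain ⟨j, hj⟩ := hz ⟨y, hy⟩
    have h1 : (⟨x, hx⟩ : P) * ⟨y, hy⟩ = ⟨y, hy⟩ * ⟨x, hx⟩ := by
      rw [← hi, ← hj]
      simp only
      rw [← zpow_add, ← zpow_add, add_comm]
    exact congrArg Subtype.val h1
  have hBe := Cfsg.Agent.Lib.Helper2_AbDef2.pairOf_of_induced_abelian hM hP hab hc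
  have hno := Cfsg.Agent.Lib.Helper2_AbDef2.noExt_of_defect hM hBe hPD
  have hm := Cfsg.Agent.Lib.Helper2_AbDef2.not_dvd_relIndex hM hBe hno hab hT
  have hTN : T ≤ Subgroup.normalizer (P : Set G) := fun g hg => ((hT g).mp hg).1
  obtain ⟨h1, h2⟩ := Cfsg.Agent.Lib.Helper2_CycAut.cyc_aut hP hP1 hcyc hTN hm
  exact ⟨h1, h2, fun g hg x hx hx1 hgx =>
    Cfsg.Agent.Lib.Helper2_CycAut.cyc_free hP hcyc hTN hm hg hx hx1 hgx⟩

end Cfsg.Agent.S4633
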