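import Cfsg.Statements.S4636

set_option autoImplicit false
open scoped Pointwise
open Cfsg

namespace Cfsg.Agent.S4636

/-- Let P be a nontrivial cyclic p-subgroup of the finite group G and Z its subgroup of order p. For every x outside N_G(Z), P meets its conjugate xPx⁻¹ trivially; consequently N_G(Q) ≤ N_G(Z) for every nontrivial subgroup Q of P. -/
theorem result {G : Type*} [Group G] [Finite G] (p : ℕ) [Fact p.Prime] (P : Subgroup G) (hP : IsPGroup p P) (hP1 : P ≠ ⊥) (hcyc : IsCyclic P) (Z : Subgroup G) (hZ : Z ≤ P) (hZcard : Nat.card Z = p) : (∀ x : G, x ∉ Subgroup.normalizer (Z : Set G) → P ⊓ MulAut.conj x • P = ⊥) ∧ ∀ Q : Subgroup G, Q ≤ P → Q ≠ ⊥ → Subgroup.normalizer (Q : Set G) ≤ Subgroup.normalizer (Z : Set G) := by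
  classical
  have hpp : p.Prime := Fact.out
  -- elements of P killed by p lie in Z
  have key : ∀ y ∈ P, y ^ p = 1 → y ∈ Z := by
    intro y hy hyp
    have : Fintype P := Fintype.ofFinite P
    have hle := IsCyclic.card_pow_eq_one_le (α := P) (n := p) hpp.pos
    let T : Finset P := Finset.univ.filter (fun a : P => (a : G) ∈ Z)
    have hTcard : T.card = p := by
      rw [← hZcard]
      have e : {a : P // (a : G) ∈ Z} ≃ Z :=
        { toFun := fun a => ⟨a.1.1, a.2⟩
          invFun := fun z => ⟨⟨z.1, hZ z.2⟩, z.2⟩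
          left_inv := fun a => rfl
          right_inv := fun z => rfl }
      rw [← Nat.card_congr e, Nat.card_eq_fintype_card, Fintype.card_subtype]
    have hsub : T ⊆ Finset.univ.filter (fun a : P => a ^ p = 1) := by
      intro a ha
      simp only [T, Finset.mem_filter, Finset.mem_univ, true_and] at ha ⊢
      have : (⟨(a : G), ha⟩ : Z) ^ p = 1 := by
        rw [← hZcard]; exact pow_card_eq_one'
      apply Subtype.ext
      have := congrArg (fun z : Z => (z : G)) this
      simpa using this
    have heq := Finset.eq_of_subset_of_card_le hsub (by rw [hTcard]; exact hle)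
    have : (⟨y, hy⟩ : P) ∈ T := by
      rw [heq]
      simp only [Finset.mem_filter, Finset.mem_univ, true_and]
      apply Subtype.ext
      simpa using hyp
    simpa [T] using this
  have hL : ∀ y ∈ P, orderOf y = p → Subgroup.zpowers y = Z := by
    intro y hy ho
    have hyZ : y ∈ Z := key y hy (by rw [← ho]; exact pow_orderOf_eq_one y)
    have hle : Subgroup.zpowers y ≤ Z := by rwa [Subgroup.zpowers_le]
    apply Subgroup.eq_of_le_of_card_ge hle
    rw [Nat.card_zpowers, ho, hZcard]
  have hex : ∀ Q : Subgroup G, Q ≤ P → Q ≠ ⊥ → ∃ y ∈ Q, orderOf y = p := by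
    intro Q hQ hQ1
    obtain ⟨r, hr, hr1⟩ : ∃ r ∈ Q, r ≠ 1 := by
      by_contra hc
      push Not at hc
      exact hQ1 ((Subgroup.eq_bot_iff_forall Q).mpr hc)
    obtain ⟨k, hk⟩ := (IsPGroup.iff_orderOf.mp hP) ⟨r, hQ hr⟩
    rw [Subgroup.orderOf_mk] at hk
    have hk0 : k ≠ 0 := by
      rintro rfl
      rw [pow_zero, orderOf_eq_one_iff] at hk
      exact hr1 hk
    refine ⟨r ^ (orderOf r / p), Q.pow_mem hr _, ?_⟩
    apply orderOf_pow_orderOf_div
    · rw [hk]; exact pow_ne_zero _ hpp.ne_zero
    · rw [hk]; exact dvd_pow_self p hk0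
  have hconj : ∀ (x y : G), MulAut.conj x • Subgroup.zpowers y = Subgroup.zpowers (x * y * x⁻¹) := by
    intro x y
    change (Subgroup.zpowers y).map (MulAut.conj x).toMonoidHom = _
    rw [MonoidHom.map_zpowers]
    rfl
  have hord : ∀ (x y : G), orderOf (x * y * x⁻¹) = orderOf y := by
    intro x y
    exact orderOf_injective (MulAut.conj x).toMonoidHom (MulAut.conj x).injective y
  constructor
  · intro x hx
    by_contra hne
    obtain ⟨y, hy, ho⟩ := hex _ inf_le_left hne
    apply hx
    have hy1 : y ∈ P := hy.1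
    have hy2 : x⁻¹ * y * x ∈ P := by
      have : y ∈ MulAut.conj x • P := hy.2
      rw [Subgroup.mem_pointwise_smul_iff_inv_smul_mem] at this
      simpa [MulAut.smul_def, MulAut.conj_apply] using this
    have h1 := hL y hy1 ho
    have h2 := hL _ hy2 (by have := hord x⁻¹ y; rw [inv_inv] at this; rw [this, ho])
    have h3 : MulAut.conj x⁻¹ • Z = Z := by
      conv_lhs => rw [← h1]
      rw [hconj, inv_inv, h2]
    have : x⁻¹ ∈ Subgroup.normalizer (Z : Set G) := Subgroup.mem_normalizer_iff_map_conj_eq.mpr h3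
    simpa using Subgroup.inv_mem _ this
  · intro Q hQ hQ1 x hx
    obtain ⟨y, hy, ho⟩ := hex Q hQ hQ1
    have hy2 : x * y * x⁻¹ ∈ Q := (Subgroup.mem_normalizer_iff.mp hx y).mp hy
    have h1 := hL y (hQ hy) ho
    have h2 := hL _ (hQ hy2) (by rw [hord, ho])
    apply Subgroup.mem_normalizer_iff_map_conj_eq.mpr
    change MulAut.conj x • Z = Z
    conv_lhs => rw [← h1]
    rw [hconj, h2]

end Cfsg.Agent.S4636
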