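import Cfsg.Statements.S4650
import Mathlib
import Mathlib
import Cfsg.Agent.Lib.Helper2_AbDef3


set_option autoImplicit false
open Cfsg

namespace Cfsg.Agent.S4650

/-- Let B be a block of the finite group G relative to a maximal ideal M of the algebraic integers containing the prime p, with a nontrivial commutative defect group P; let c be a block of C_G(P) inducing B and T the stabilizer of c in N_G(P). Then T/C_G(P) acts freely on the non-identity elements of P (an element of T fixing a non-identity element of P under conjugation lies in C_G(P)) if and only if, for every nontrivial subgroup Q of P, the block of C_G(Q) induced by c inside C_G(Q) is a nilpotent block of C_G(Q). -/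
theorem result {G : Type*} [Group G] [Finite G] (p : ℕ) [Fact p.Prime] (M : Ideal Cfsg.AlgInt) (hM : Cfsg.IsPModular p M) (B : Set (Cfsg.IrrCharacter G)) (hB : Cfsg.IsPBlock M B) (P : Subgroup G) (hPD : Cfsg.IsDefectGroup p M B P) (hPab : ∀ x ∈ P, ∀ y ∈ P, x * y = y * x) (hP1 : P ≠ ⊥) (c : Set (Cfsg.IrrCharacter (Subgroup.centralizer (P : Set G)))) (hc : Cfsg.IsInducedBlock M (Subgroup.centralizer (P : Set G)) c B) (T : Subgroup G) (hT : ∀ g : G, g ∈ T ↔ (g ∈ Subgroup.normalizer (P : Set G) ∧ Cfsg.StabilizesBlock (Subgroup.centralizer (P : Set G)) c g)) : (∀ g ∈ T, ∀ x ∈ P, x ≠ 1 → g * x * g⁻¹ = x → g ∈ Subgroup.centralizer (P : Set G)) ↔ ∀ Q : Subgroup G, Q ≤ P → Q ≠ ⊥ → ∀ f : Set (Cfsg.IrrCharacter (Subgroup.centralizer (Q : Set G))), Cfsg.IsInducedBlockIn M (Subgroup.centralizer (Q : Set G)) (Subgroup.centralizer (P : Set G)) c f → Cfsg.IsNilpotentBlock p M f := by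
  classical
  haveI : Fintype G := Fintype.ofFinite G
  have hP := Cfsg.Agent.Lib.Helper2_AbDef2.isPGroup_of_defect hM hB hPD
  have hBe := Cfsg.Agent.Lib.Helper2_AbDef2.pairOf_of_induced_abelian hM hP hPab hc
  have hno := Cfsg.Agent.Lib.Helper2_AbDef2.noExt_of_defect hM hBe hPD
  constructor
  · intro h Q hQP hQ1 f hf
    have hns := Cfsg.Agent.Lib.Helper2_AbDef3.normalSubpair_of_in hM hP hQP hPab hf
    rw [Cfsg.Agent.Lib.Helper2_AbDef3.local_nilpotent_iff hM hBe hno hPab hns]
    intro x hx hxN hxS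
    obtain ⟨u, hu1⟩ := (Subgroup.ne_bot_iff_exists_ne_one.mp hQ1)
    have hu1' : (u : G) ≠ 1 := fun h' => hu1 (Subtype.ext h')
    apply h x ((hT x).mpr ⟨hxN, hxS⟩) u (hQP u.2) hu1'
    have := Subgroup.mem_centralizer_iff.mp hx u u.2
    rw [← this]
    group
  · intro h g hg x hx hx1 hgx
    have hQP : Subgroup.zpowers x ≤ P := (Subgroup.zpowers_le).mpr hx
    have hQ1 : Subgroup.zpowers x ≠ ⊥ := by
      intro h'
      exact hx1 (Subgroup.zpowers_eq_bot.mp h')
    obtain ⟨f, hf⟩ := Cfsg.Agent.Lib.Helper2_AbDef3.exists_in hM hP hQP hPab hc.1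
    have hns := Cfsg.Agent.Lib.Helper2_AbDef3.normalSubpair_of_in hM hP hQP hPab hf
    have h1 := (Cfsg.Agent.Lib.Helper2_AbDef3.local_nilpotent_iff hM hBe hno hPab hns).mp
      (h _ hQP hQ1 f hf)
    have hgT := (hT g).mp hg
    apply h1 g _ hgT.1 hgT.2
    have hgx' : g * x = x * g := by
      calc g * x = (g * x * g⁻¹) * g := by group
        _ = x * g := by rw [hgx]
    rw [Subgroup.mem_centralizer_iff]
    rintro _ ⟨i, rfl⟩
    exact ((Commute.zpow_right (show Commute g x from hgx') i).eq).symm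

end Cfsg.Agent.S4650
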