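import Cfsg.Statements.S4652
import Cfsg.Agent.Lib.helper8_BlockSum

set_option autoImplicit false
open Cfsg Cfsg.Agent.Lib.CharBasic Cfsg.Agent.Lib.CharOrtho Cfsg.Agent.Lib.CharComplete
  Cfsg.Agent.Lib.CharMore Cfsg.Agent.Lib.helper8_Defect Cfsg.Agent.Lib.Helper2_BlockOrtho
  Cfsg.Agent.Lib.Helper2_BlockLocal Cfsg.Agent.Lib.Helper2_BlockOm Cfsg.Agent.Lib.Helper2_BlockOsima
  Cfsg.Agent.Lib.Helper2_BlockBasic Cfsg.Agent.Lib.helper8_BlockSum

namespace Cfsg.Agent.S4652

theorem defectClass_conj {G : Type*} [Group G] [Fintype G] {M : Ideal AlgInt}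
    {B : Set (IrrCharacter G)} {g : G} (h : IsDefectClass M B g) (c : G) :
    IsDefectClass M B (c * g * c⁻¹) := by
  obtain ⟨h1, h2, h3⟩ := h
  have e1 : blockCoeff B (c * g * c⁻¹) = blockCoeff B g := blockCoeff_classFunction B g c
  refine ⟨e1 ▸ h1, e1 ▸ h2, fun χ hχ => ?_⟩
  rw [centralChar_conj (irr_classFunction χ) (isConj_iff.mpr ⟨c, rfl⟩ : IsConj g (c * g * c⁻¹)) |>.symm]
  exact h3 χ hχ

theorem index_of_defectClass {G : Type*} [Group G] [Fintype G] {p : ℕ} {M : Ideal AlgInt}
    (hM : IsPModular p M) {g : G} (h : IsDefectClass M (principalBlock M G) g) :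
    ¬ p ∣ (Subgroup.centralizer ({g} : Set G)).index := by
  have h1 := h.2.2 ⟨1, isIrr_one⟩ (sameBlock_refl (isPrime_of_modular hM) _)
  intro hdiv
  apply h1
  have : centralChar ((⟨1, isIrr_one⟩ : IrrCharacter G) : G → ℂ) g =
      ((Subgroup.centralizer ({g} : Set G)).index : ℂ) := by
    simp [centralChar]
  rw [this]
  exact (ideal_natCast_iff hM _).mpr hdiv

/-- Fix a prime p and a maximal ideal M of the algebraic integers containing p. The defect groups of the principal p-block of a finite group G are exactly the Sylow p-subgroups of G: a subgroup D is a defect group of the principal block if and only if D is a Sylow p-subgroup. -/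
theorem result {G : Type*} [Group G] [Fintype G] (p : ℕ) [Fact p.Prime] (M : Ideal Cfsg.AlgInt) (hM : Cfsg.IsPModular p M) (D : Subgroup G) : Cfsg.IsDefectGroup p M (Cfsg.principalBlock M G) D ↔ ∃ S : Sylow p G, (S : Subgroup G) = D := by
  classical
  have hp : p.Prime := Fact.out
  have hP := isPrime_of_modular hM
  have hB : IsPBlock M (principalBlock M G) := ⟨⟨1, isIrr_one⟩, rfl⟩
  have key : ∀ g : G, IsDefectClass M (principalBlock M G) g →
      ∀ P : Sylow p (Subgroup.centralizer ({g} : Set G)),
      Nat.card ((P : Subgroup (Subgroup.centralizer ({g} : Set G))).map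
        (Subgroup.centralizer ({g} : Set G)).subtype) = p ^ (Nat.card G).factorization p := by
    intro g hg P
    rw [Subgroup.card_map_of_injective (Subgroup.subtype_injective _), P.card_eq_multiplicity]
    congr 1
    have h1 := index_of_defectClass hM hg
    have h2 := (Subgroup.centralizer ({g} : Set G)).card_mul_index
    rw [← h2, Nat.factorization_mul Nat.card_pos.ne' Subgroup.index_ne_zero_of_finite]
    simp [Nat.factorization_eq_zero_of_not_dvd h1]
  constructor
  · rintro ⟨g, hg, P, rfl⟩
    exact ⟨Sylow.ofCard _ (key g hg P), rfl⟩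
  · rintro ⟨S, rfl⟩
    obtain ⟨g, hg⟩ := exists_defectClass hP hB
    obtain ⟨P⟩ : Nonempty (Sylow p (Subgroup.centralizer ({g} : Set G))) := inferInstance
    set S0 : Sylow p G := Sylow.ofCard _ (key g hg P) with hS0
    obtain ⟨c, hc⟩ := MulAction.exists_smul_eq G S0 S
    refine ⟨c * g * c⁻¹, defectClass_conj hg c, ?_⟩
    have hle : (S : Subgroup G) ≤ Subgroup.centralizer ({c * g * c⁻¹} : Set G) := by
      intro x hx
      rw [← hc, Sylow.coe_subgroup_smul, Subgroup.mem_pointwise_smul_iff_inv_smul_mem] at hx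
      have hx' : (MulAut.conj c)⁻¹ • x ∈ (P : Subgroup (Subgroup.centralizer ({g} : Set G))).map
        (Subgroup.centralizer ({g} : Set G)).subtype := hx
      obtain ⟨z, -, hz⟩ := Subgroup.mem_map.mp hx'
      have h1 := Subgroup.mem_centralizer_singleton_iff.mp z.2
      have h2 : (z : G) = c⁻¹ * x * c := by
        have : (Subgroup.centralizer ({g} : Set G)).subtype z = (MulAut.conj c)⁻¹ • x := hz
        rw [Subgroup.coe_subtype] at this
        rw [this]
        simp [MulAut.smul_def]
      rw [h2] at h1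
      rw [Subgroup.mem_centralizer_singleton_iff]
      have h3 : x = c * (c⁻¹ * x * c) * c⁻¹ := by group
      calc x * (c * g * c⁻¹) = c * ((c⁻¹ * x * c) * g) * c⁻¹ := by group
        _ = c * (g * (c⁻¹ * x * c)) * c⁻¹ := by rw [h1]
        _ = c * g * c⁻¹ * x := by group
    refine ⟨S.subtype hle, ?_⟩
    rw [Sylow.coe_subtype, Subgroup.map_subgroupOf_eq_of_le hle]

end Cfsg.Agent.S4652
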