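import Cfsg.Statements.S4664
import Mathlib
import Mathlib
import Cfsg.Agent.Lib.Helper2_BlockOrtho
import Cfsg.Agent.Lib.helper8_ModP


set_option autoImplicit false
open Cfsg

namespace Cfsg.Agent.S4664

/-- Fix a prime p and a maximal ideal M of the algebraic integers containing p, and let B be a p-block of the finite group G. Let m be the p'-part of the order of G and η = exp(2πi/m). Then every coefficient of the idempotent of B lies in the cyclotomic field ℚ(η). -/
theorem result {G : Type*} [Group G] [Fintype G] (p : ℕ) [Fact p.Prime] (M : Ideal Cfsg.AlgInt) (hM : Cfsg.IsPModular p M) (B : Set (Cfsg.IrrCharacter G)) (hB : Cfsg.IsPBlock M B) (g : G) : Cfsg.blockCoeff B g ∈ IntermediateField.adjoin ℚ ({Complex.exp (2 * Real.pi * Complex.I / ((Nat.card G / p ^ (Nat.card G).factorization p : ℕ) : ℂ))} : Set ℂ) := by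
  classical
  have hp : p.Prime := Fact.out
  set m := Nat.card G / p ^ (Nat.card G).factorization p with hm
  set K := IntermediateField.adjoin ℚ ({Complex.exp (2 * Real.pi * Complex.I / (m : ℂ))} : Set ℂ)
    with hK
  by_cases hg : p ∣ orderOf g
  · rw [Cfsg.Agent.Lib.Helper2_BlockOrtho.blockCoeff_singular hM hB hg]
    exact K.zero_mem
  have hcard : Nat.card G ≠ 0 := Nat.card_pos.ne'
  have hmpos : m ≠ 0 := by
    rw [hm]
    exact (Nat.div_pos (Nat.le_of_dvd Nat.card_pos (Nat.ordProj_dvd _ _))
      (pow_pos hp.pos _)).ne'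
  have hη : Complex.exp (2 * Real.pi * Complex.I / (m : ℂ)) ∈ K :=
    IntermediateField.subset_adjoin _ _ (Set.mem_singleton _)
  have hprim := Complex.isPrimitiveRoot_exp m hmpos
  haveI : NeZero m := ⟨hmpos⟩
  have hdvd : orderOf g ∣ m := by
    have h1 : orderOf g ∣ Nat.card G := orderOf_dvd_natCard g
    have h2 : Nat.card G = p ^ (Nat.card G).factorization p * m :=
      (Nat.ordProj_mul_ordCompl_eq_self _ _).symm
    rw [h2] at h1
    exact (Nat.Coprime.pow_right _ ((Nat.coprime_comm.mp
      ((Nat.Prime.coprime_iff_not_dvd hp).mpr hg)))).dvd_of_dvd_mul_left h1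
  have hroot : ∀ μ : ℂ, μ ^ orderOf g = 1 → μ ∈ K := by
    intro μ hμ
    have h1 : μ ^ m = 1 := by
      obtain ⟨t, ht⟩ := hdvd
      rw [ht, pow_mul, hμ, one_pow]
    obtain ⟨i, -, hi⟩ := hprim.eq_pow_of_pow_eq_one h1
    rw [← hi]
    exact K.pow_mem hη i
  unfold Cfsg.blockCoeff
  apply K.mul_mem
  · apply K.inv_mem
    exact natCast_mem K _
  · apply finsum_mem_induction (p := fun z => z ∈ K) K.zero_mem (fun _ _ => K.add_mem)
    intro χ _
    have hχ := Cfsg.Agent.Lib.CharBasic.isCharacter_of_isIrr χ.2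
    obtain ⟨n, μ, hμ, hv⟩ := Cfsg.Agent.Lib.helper8_ModP.exists_eigen_pow hχ g⁻¹
    apply K.mul_mem
    · have := hv 0
      simp only [pow_zero, Finset.sum_const, Finset.card_univ, Fintype.card_fin, nsmul_eq_mul,
        mul_one] at this
      rw [this]
      exact natCast_mem K _
    · rw [← Cfsg.Agent.Lib.CharBasic.isCharacter_inv hχ]
      have := hv 1
      simp only [pow_one] at this
      rw [this]
      apply K.sum_mem
      intro i _
      apply hroot
      have := hμ i
      rwa [orderOf_inv] at this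

end Cfsg.Agent.S4664
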