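import Cfsg.Statements.S4665
import Cfsg.Agent.Lib.helper8_BlockSum

set_option autoImplicit false
open Cfsg Cfsg.Agent.Lib.CharBasic Cfsg.Agent.Lib.CharOrtho Cfsg.Agent.Lib.CharComplete
  Cfsg.Agent.Lib.CharMore Cfsg.Agent.Lib.helper8_Defect Cfsg.Agent.Lib.helper8_BlockSum

namespace Cfsg.Agent.S4665

/-- Fix a prime p, a maximal ideal M of the algebraic integers containing p, and a p-block B of the finite group G, and let p^a be the p-part of the order of G. Let χ be an integer combination of the irreducible characters in B. If the function that agrees with χ on p-regular elements and vanishes on p-singular elements is again an integer combination of the irreducible characters in B, then p^a divides χ(1). -/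
theorem result {G : Type*} [Group G] [Fintype G] (p : ℕ) [Fact p.Prime] (M : Ideal Cfsg.AlgInt) (hM : Cfsg.IsPModular p M) (B : Set (Cfsg.IrrCharacter G)) (hB : Cfsg.IsPBlock M B) (χ : G → ℂ) (hχ : (∃ n : Cfsg.IrrCharacter G → ℤ, ∀ g : G, χ g = ∑ᶠ ψ ∈ B, (n ψ : ℂ) * (ψ : G → ℂ) g)) (h0 : (∃ n : Cfsg.IrrCharacter G → ℤ, ∀ g : G, Cfsg.pRegularPart p χ g = ∑ᶠ ψ ∈ B, (n ψ : ℂ) * (ψ : G → ℂ) g)) : ∃ k : ℤ, χ 1 = (p ^ (Nat.card G).factorization p : ℂ) * k := by
  classical
  have hp : p.Prime := Fact.out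
  obtain ⟨n, hn⟩ := h0
  obtain ⟨P⟩ : Nonempty (Sylow p G) := inferInstance
  have := Fintype.ofFinite (P : Subgroup G)
  have h1 := sum_pgroup_of_vanish hp (pRegularPart p χ) (by
    intro y hy
    unfold pRegularPart
    rw [if_neg (fun h : IsPRegular p y => h hy)]) (P : Subgroup G) P.2
  have h2 : pRegularPart p χ 1 = χ 1 := by
    unfold pRegularPart
    rw [if_pos]
    unfold IsPRegular
    rw [orderOf_one]
    exact fun h => hp.one_lt.ne' (Nat.dvd_one.mp h)
  rw [h2] at h1
  choose m hm using fun ψ : IrrCharacter G =>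
    sum_subgroup_nat (isCharacter_of_isIrr ψ.2) (P : Subgroup G)
  refine ⟨∑ ψ ∈ Finset.univ.filter (fun ψ : IrrCharacter G => ψ ∈ B), n ψ * m ψ, ?_⟩
  rw [← h1]
  simp only [hn, finsum_block]
  rw [Finset.sum_comm]
  push_cast
  rw [Finset.mul_sum]
  refine Finset.sum_congr rfl fun ψ _ => ?_
  rw [← Finset.mul_sum, hm ψ, P.card_eq_multiplicity]
  push_cast
  ring

end Cfsg.Agent.S4665
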