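import Cfsg.Statements.S4666
import Cfsg.Agent.Lib.helper8_RegularPart

set_option autoImplicit false
open Cfsg Cfsg.Agent.Lib.CharBasic Cfsg.Agent.Lib.CharOrtho Cfsg.Agent.Lib.CharComplete
  Cfsg.Agent.Lib.CharMore Cfsg.Agent.Lib.CharGen Cfsg.Agent.Lib.helper8_Defect
  Cfsg.Agent.Lib.Helper2_BlockLocal Cfsg.Agent.Lib.Helper2_BlockOm
  Cfsg.Agent.Lib.helper8_BlockSum Cfsg.Agent.Lib.helper8_BlockRank
  Cfsg.Agent.Lib.helper8_RegularPart

namespace Cfsg.Agent.S4666

/-- Fix a prime p and a maximal ideal M of the algebraic integers containing p, and a p-block B of the finite group G of defect d. For every integer combination χ of the irreducible characters in B, p^d times the function that agrees with χ on p-regular elements and vanishes elsewhere is again an integer combination of the irreducible characters in B. -/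
theorem result {G : Type*} [Group G] [Fintype G] (p : ℕ) [Fact p.Prime] (M : Ideal Cfsg.AlgInt) (hM : Cfsg.IsPModular p M) (B : Set (Cfsg.IrrCharacter G)) (hB : Cfsg.IsPBlock M B) (χ : G → ℂ) (hχ : (∃ n : Cfsg.IrrCharacter G → ℤ, ∀ g : G, χ g = ∑ᶠ ψ ∈ B, (n ψ : ℂ) * (ψ : G → ℂ) g)) : (∃ n : Cfsg.IrrCharacter G → ℤ, ∀ g : G, (p ^ Cfsg.blockDefect p B : ℂ) * Cfsg.pRegularPart p χ g = ∑ᶠ ψ ∈ B, (n ψ : ℂ) * (ψ : G → ℂ) g) := by
  classical
  have hp : p.Prime := Fact.out
  obtain ⟨n, hn⟩ := hχ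
  set 𝔅 := Finset.univ.filter (fun ψ : IrrCharacter G => ψ ∈ B) with h𝔅
  have key : ∀ ψ ∈ B, ∃ w : IrrCharacter G → ℤ, ∀ g : G,
      (p ^ blockDefect p B : ℂ) * pRegularPart p (ψ : G → ℂ) g =
        ∑ φ ∈ 𝔅, (w φ : ℂ) * (φ : G → ℂ) g := by
    intro ψ hψ
    obtain ⟨hd0, hd1, hd2⟩ := irr_charDegree ψ.2
    have hgen := isGen_regular_height hp ψ
    obtain ⟨z, hz, hexp⟩ := exists_int_mult hgen
    set a := (Nat.card G).factorization p with ha
    set h := (charDegree (ψ : G → ℂ)).factorization p with hh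
    have hs : sInf ((fun χ : IrrCharacter G => (charDegree (χ : G → ℂ)).factorization p) '' B) ≤ h :=
      Nat.sInf_le ⟨ψ, hψ, rfl⟩
    have hle : a - h ≤ blockDefect p B := by
      unfold blockDefect
      omega
    obtain ⟨e, he⟩ := Nat.exists_eq_add_of_le hle
    refine ⟨fun φ => (p : ℤ) ^ e * z φ, fun g => ?_⟩
    have h1 := congrFun hexp g
    rw [Finset.sum_apply] at h1
    simp only [Pi.smul_apply, smul_eq_mul] at h1
    have h2 : ∑ φ : IrrCharacter G, (z φ : ℂ) * (φ : G → ℂ) g =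
        ∑ φ ∈ 𝔅, (z φ : ℂ) * (φ : G → ℂ) g := by
      rw [h𝔅, Finset.sum_filter]
      refine Finset.sum_congr rfl fun φ _ => ?_
      split_ifs with hφ
      · rfl
      · have h3 : classInner (fun x => ((p ^ (a - h) : ℕ) : ℂ) * pRegularPart p (ψ : G → ℂ) x)
            (φ : G → ℂ) = ((p ^ (a - h) : ℕ) : ℂ) *
              classInner (pRegularPart p (ψ : G → ℂ)) (φ : G → ℂ) := classInner_smul_left _ _ _
        have h4 := hz φ
        rw [h3, classInner_regular_eq_zero hM hB hψ hφ, mul_zero] at h4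
        rw [← h4, zero_mul]
    rw [h2] at h1
    rw [he, pow_add]
    have h5 : (p : ℂ) ^ (a - h) * (p : ℂ) ^ e * pRegularPart p (ψ : G → ℂ) g =
        (p : ℂ) ^ e * (((p ^ (a - h) : ℕ) : ℂ) * pRegularPart p (ψ : G → ℂ) g) := by
      push_cast; ring
    rw [h5, h1, Finset.mul_sum]
    refine Finset.sum_congr rfl fun φ _ => ?_
    push_cast
    ring
  choose! w hw using key
  refine ⟨fun φ => ∑ ψ ∈ 𝔅, n ψ * w ψ φ, fun g => ?_⟩
  rw [finsum_block]
  have h1 : pRegularPart p χ g = ∑ ψ ∈ 𝔅, (n ψ : ℂ) * pRegularPart p (ψ : G → ℂ) g := by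
    by_cases hg : p ∣ orderOf g
    · simp only [pRegularPart_singular _ hg, mul_zero, Finset.sum_const_zero]
    · simp only [pRegularPart_regular _ hg]
      rw [hn g, finsum_block]
  rw [h1, Finset.mul_sum]
  have h2 : ∀ ψ ∈ 𝔅, (p ^ blockDefect p B : ℂ) * ((n ψ : ℂ) * pRegularPart p (ψ : G → ℂ) g) =
      ∑ φ ∈ 𝔅, (n ψ : ℂ) * ((w ψ φ : ℂ) * (φ : G → ℂ) g) := by
    intro ψ hψ
    rw [← Finset.mul_sum, ← hw ψ (Finset.mem_filter.mp hψ).2 g]
    ring
  rw [Finset.sum_congr rfl h2, Finset.sum_comm]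
  refine Finset.sum_congr rfl fun φ _ => ?_
  push_cast
  rw [Finset.sum_mul]
  refine Finset.sum_congr rfl fun ψ _ => ?_
  ring

end Cfsg.Agent.S4666
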