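import Cfsg.Statements.S4667
import Cfsg.Agent.Lib.helper8_BlockRank

set_option autoImplicit false
open Cfsg Cfsg.Agent.Lib.CharBasic Cfsg.Agent.Lib.CharOrtho Cfsg.Agent.Lib.CharComplete
  Cfsg.Agent.Lib.CharMore Cfsg.Agent.Lib.helper8_Defect Cfsg.Agent.Lib.Helper2_BlockOrtho
  Cfsg.Agent.Lib.Helper2_BlockLocal Cfsg.Agent.Lib.Helper2_BlockOm Cfsg.Agent.Lib.Helper2_BlockOsima
  Cfsg.Agent.Lib.Helper2_BlockBasic Cfsg.Agent.Lib.helper8_BlockSum Cfsg.Agent.Lib.helper8_BlockRank
  Cfsg.Agent.Lib.helper8_DefectZero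

namespace Cfsg.Agent.S4667

/-- Fix a prime p and a maximal ideal M of the algebraic integers containing p, and a p-block B of the finite group G. The p-regular rank of B (the number of irreducible Brauer characters in B) times the order of G equals the sum over the p-regular elements x of G of Σ_{χ ∈ B} χ(x) χ(x⁻¹) (written with the restriction of χ to p-regular elements, which vanishes at p-singular x). -/
theorem result {G : Type*} [Group G] [Fintype G] (p : ℕ) [Fact p.Prime] (M : Ideal Cfsg.AlgInt) (hM : Cfsg.IsPModular p M) (B : Set (Cfsg.IrrCharacter G)) (hB : Cfsg.IsPBlock M B) : (Nat.card G : ℂ) * (Cfsg.blockRank p B : ℂ) = ∑ x : G, ∑ᶠ χ ∈ B, Cfsg.pRegularPart p (χ : G → ℂ) x * (χ : G → ℂ) x⁻¹ := by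
  classical
  have hGC : (Nat.card G : ℂ) ≠ 0 := by exact_mod_cast Nat.card_pos.ne'
  rw [blockRank_eq_trace hM hB, ← sum_filter_eq_sum_subtype B
    (fun χ => classInner (pRegularPart p (χ : G → ℂ)) (χ : G → ℂ))]
  simp only [finsum_block]
  rw [Finset.sum_comm, Finset.mul_sum]
  refine Finset.sum_congr rfl fun χ _ => ?_
  unfold classInner
  rw [← mul_assoc, mul_inv_cancel₀ hGC, one_mul]
  refine Finset.sum_congr rfl fun x _ => ?_
  rw [inv_of_isCharacter (isCharacter_of_isIrr χ.2)]

end Cfsg.Agent.S4667
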