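import Cfsg.Statements.S4668
import Cfsg.Agent.Lib.helper8_BlockNormalP
import Cfsg.Agent.S1442

set_option autoImplicit false
open Cfsg Cfsg.Agent.Lib.Helper2_BlockOrtho Cfsg.Agent.Lib.helper8_BlockNormalP

namespace Cfsg.Agent.S4668

/-- Fix a prime p and a maximal ideal M of the algebraic integers containing p. Let Q₀ < Q₁ < ⋯ < Q_m be a strictly increasing chain of p-subgroups of the finite group G and N the intersection of their normalizers. Then every block idempotent of N is supported on C_G(Q_m): for every p-block E of N, the idempotent coefficient of E vanishes at every element of N outside C_G(Q_m). -/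
theorem result {G : Type*} [Group G] [Fintype G] (p : ℕ) [Fact p.Prime] (M : Ideal Cfsg.AlgInt) (hM : Cfsg.IsPModular p M) (m : ℕ) (Q : Fin (m + 1) → Subgroup G) (hQ : StrictMono Q) (hQp : ∀ i, IsPGroup p (Q i)) (N : Subgroup G) (hN : ∀ g : G, g ∈ N ↔ ∀ i, g ∈ Subgroup.normalizer (Q i : Set G)) (E : Set (Cfsg.IrrCharacter N)) (hE : Cfsg.IsPBlock M E) (n : N) (hn : (n : G) ∉ Subgroup.centralizer (Q (Fin.last m) : Set G)) : Cfsg.blockCoeff E n = 0 := by
  classical
  have hp : p.Prime := Fact.out
  by_cases hsing : p ∣ orderOf n
  · exact blockCoeff_singular hM hE hsing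
  have hmono : Monotone Q := hQ.monotone
  -- membership in `N`
  have hself : ∀ (j : Fin (m + 1)) (c : G), c ∈ Q j → c ∈ Subgroup.normalizer (Q j : Set G) :=
    fun j c hc => Subgroup.le_normalizer hc
  have hcent : ∀ (j : Fin (m + 1)) (c : G), c ∈ Subgroup.centralizer (Q j : Set G) →
      c ∈ Subgroup.normalizer (Q j : Set G) := by
    intro j c hc
    rw [Subgroup.mem_normalizer_iff]
    intro h
    constructor
    · intro hh
      have := Subgroup.mem_centralizer_iff.mp hc h hh
      rw [← this, mul_inv_cancel_right]
      exact hh
    · intro hh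
      have h1 := Subgroup.mem_centralizer_iff.mp hc _ hh
      have h2 : c * h * c⁻¹ = h := by
        have : c * h * c⁻¹ * c = c * (c * h * c⁻¹) := h1
        have h3 : c * h = c * (c * h * c⁻¹) := by simpa using this
        exact (mul_left_cancel h3).symm
      rw [← h2]; exact hh
  set R : Subgroup N := (Q (Fin.last m)).subgroupOf N with hR
  have hRn : R.Normal := by
    constructor
    intro x hx g
    rw [hR, Subgroup.mem_subgroupOf] at hx ⊢
    have hg := ((hN g).mp g.2) (Fin.last m)
    have := (Subgroup.mem_normalizer_iff.mp hg (x : G)).mp hx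
    simpa using this
  have hRp : IsPGroup p R :=
    (hQp (Fin.last m)).comap_of_injective N.subtype (Subgroup.subtype_injective N)
  by_cases hnR : n ∈ Subgroup.centralizer (R : Set N)
  · exfalso
    apply hn
    have hnc : ∀ c : G, c ∈ N → c ∈ Q (Fin.last m) → c * (n : G) = (n : G) * c := by
      intro c hcN hcQ
      have := Subgroup.mem_centralizer_iff.mp hnR ⟨c, hcN⟩ (by rw [hR]; exact hcQ)
      exact congrArg Subtype.val this
    have key : ∀ i : ℕ, ∀ h : i < m + 1, (n : G) ∈ Subgroup.centralizer (Q ⟨i, h⟩ : Set G) := by
      intro i
      induction i with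
      | zero =>
        intro h
        rw [Subgroup.mem_centralizer_iff]
        intro c hc
        refine hnc c ?_ (hmono (Fin.le_last _) hc)
        rw [hN]
        intro j
        exact hself j c (hmono (Fin.zero_le j) hc)
      | succ i ih =>
        intro h
        have hi : i < m + 1 := by omega
        have ih' := ih hi
        set H := Q ⟨i + 1, h⟩ with hH
        set A := Subgroup.zpowers (n : G) with hA
        have hCA : ∀ x : G, x ∈ Subgroup.centralizer (A : Set G) ↔ x * (n : G) = (n : G) * x := by
          intro x
          rw [hA, Subgroup.zpowers_eq_closure, Subgroup.centralizer_closure,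
            Subgroup.mem_centralizer_singleton_iff]
        have h1 : A ≤ Subgroup.centralizer (H : Set G) := by
          apply Cfsg.Agent.S1442.result H A
          · exact (hQp _).isNilpotent
          · rw [hA, Subgroup.zpowers_le]
            exact (hN n).mp n.2 _
          · rw [hA, Nat.card_zpowers]
            obtain ⟨k, hk⟩ := IsPGroup.iff_card.mp (hQp ⟨i + 1, h⟩)
            rw [hk]
            apply Nat.Coprime.pow_right
            rw [Subgroup.orderOf_coe]
            exact (Nat.Coprime.symm ((Nat.Prime.coprime_iff_not_dvd hp).mpr hsing))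
          · intro x hx
            obtain ⟨hxH, hxC⟩ := Subgroup.mem_inf.mp hx
            refine Subgroup.mem_inf.mpr ⟨hxH, ?_⟩
            rw [hCA]
            have hle : Q ⟨i, hi⟩ ≤ H := hmono (by
              rw [Fin.le_def]; simp)
            have hxQi : x ∈ Subgroup.centralizer (Q ⟨i, hi⟩ : Set G) := by
              rw [Subgroup.mem_centralizer_iff]
              intro c hc
              apply Subgroup.mem_centralizer_iff.mp hxC c
              refine Subgroup.mem_inf.mpr ⟨hle hc, ?_⟩
              rw [hCA]
              exact Subgroup.mem_centralizer_iff.mp ih' c hc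
            refine hnc x ?_ (hmono (Fin.le_last _) hxH)
            rw [hN]
            intro j
            by_cases hj : (j : ℕ) ≤ i
            · apply hcent
              have hle2 : Q j ≤ Q ⟨i, hi⟩ := hmono (by rw [Fin.le_def]; exact hj)
              exact Subgroup.centralizer_le hle2 hxQi
            · apply hself
              have hle2 : H ≤ Q j := hmono (by rw [Fin.le_def]; simp; omega)
              exact hle2 hxH
        exact h1 (Subgroup.mem_zpowers _)
    exact key m (by omega)
  · exact blockCoeff_eq_zero hM R hRp hE hnR

end Cfsg.Agent.S4668
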