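import Cfsg.Statements.S4669
import Cfsg.Agent.Lib.BlockPC3

set_option autoImplicit false
open Cfsg

namespace Cfsg.Agent.S4669

/-- Fix a prime p and a maximal ideal M of the algebraic integers containing p. If the p-block B of the finite group G has a defect group P contained in the centre of G, then B has p-regular rank one (a single irreducible Brauer character). -/
theorem result {G : Type*} [Group G] [Fintype G] (p : ℕ) [Fact p.Prime] (M : Ideal Cfsg.AlgInt) (hM : Cfsg.IsPModular p M) (B : Set (Cfsg.IrrCharacter G)) (hB : Cfsg.IsPBlock M B) (P : Subgroup G) (hD : Cfsg.IsDefectGroup p M B P) (hPZ : P ≤ Subgroup.center G) : Cfsg.blockRank p B = 1 := by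
  classical
  have hPp : IsPGroup p P := Cfsg.Agent.Lib.Helper2_BlockFMT.isPGroup_of_defect hD
  have hG : P ⊔ Subgroup.centralizer (P : Set G) = ⊤ := by
    have : Subgroup.centralizer (P : Set G) = ⊤ := by
      rw [Subgroup.centralizer_eq_top_iff_subset]
      exact hPZ
    rw [this, sup_top_eq]
  obtain ⟨θ, h⟩ := Cfsg.Agent.Lib.BlockPC2.exists_ctx hM hPp hG hB hD
  exact Cfsg.Agent.Lib.BlockPC3.blockRank_eq_one h

end Cfsg.Agent.S4669
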