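import Cfsg.Statements.S4670
import Cfsg.Agent.Lib.BlockIdemFMT

set_option autoImplicit false
open Cfsg

namespace Cfsg.Agent.S4670

open Cfsg.Agent.Lib.Helper2_BlockLocal Cfsg.Agent.Lib.Helper2_BlockOm
  Cfsg.Agent.Lib.Helper2_BlockOsima Cfsg.Agent.Lib.Helper2_BlockBasic
  Cfsg.Agent.Lib.Helper2_BlockOrtho
  Cfsg.Agent.Lib.Helper2_BlockBrauer Cfsg.Agent.Lib.Helper2_BlockFMT
  Cfsg.Agent.Lib.Helper2_BP1 Cfsg.Agent.Lib.Helper2_BP2 Cfsg.Agent.Lib.Helper2_BP11
  Cfsg.Agent.Lib.BlockIdemFMT

universe u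

variable {G : Type u} [Group G] {M : Ideal AlgInt} {p : ℕ}

/-- `N_G(P) ≃ N_H(P)` when `N_G(P) ≤ H`. -/
noncomputable def nEquiv (P H : Subgroup G) (hH : Subgroup.normalizer (P : Set G) ≤ H) :
    Subgroup.normalizer (P : Set G) ≃*
      Subgroup.normalizer ((P.subgroupOf H : Subgroup H) : Set H) :=
  (Subgroup.subgroupOfEquivOfLe hH).symm.trans
    (MulEquiv.subgroupCongr (Subgroup.subgroupOf_normalizer_eq (Subgroup.le_normalizer.trans hH)))

theorem nEquiv_coe (P H : Subgroup G) (hH : Subgroup.normalizer (P : Set G) ≤ H)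
    (n : Subgroup.normalizer (P : Set G)) : (((nEquiv P H hH n : _) : H) : G) = n := rfl

theorem map_nEquiv (P H : Subgroup G) (hH : Subgroup.normalizer (P : Set G) ≤ H) :
    (P.subgroupOf (Subgroup.normalizer (P : Set G))).map (nEquiv P H hH).toMonoidHom =
      (P.subgroupOf H).subgroupOf (Subgroup.normalizer ((P.subgroupOf H : Subgroup H) : Set H)) := by
  ext m
  constructor
  · rintro ⟨n, hn, rfl⟩
    exact hn
  · intro hm
    refine ⟨(nEquiv P H hH).symm m, ?_, by simp⟩
    obtain ⟨n, rfl⟩ := (nEquiv P H hH).surjective m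
    rw [MulEquiv.symm_apply_apply]
    exact hm

theorem mem_centralizer_sub {P H : Subgroup G} {x : G} (hx : x ∈ Subgroup.centralizer (P : Set G))
    (hxH : x ∈ H) : (⟨x, hxH⟩ : H) ∈ Subgroup.centralizer ((P.subgroupOf H : Subgroup H) : Set H) := by
  rw [Subgroup.mem_centralizer_iff] at hx ⊢
  intro a ha
  exact Subtype.ext (hx a ha)

/-- The common core: blocks of `G` and `H` induced from matching blocks of the normalizers have the
same Brauer image. -/
theorem core [Finite G] [Fact p.Prime] (hM : IsPModular p M) {P H : Subgroup G}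
    (hP : IsPGroup p P) (hH : Subgroup.normalizer (P : Set G) ≤ H)
    {B : Set (IrrCharacter G)} {c : Set (IrrCharacter H)}
    {b : Set (IrrCharacter (Subgroup.normalizer (P : Set G)))}
    (hd : IsDefectGroup p M b (P.subgroupOf (Subgroup.normalizer (P : Set G))))
    (hi : IsInducedBlock M (Subgroup.normalizer (P : Set G)) b B)
    (hi' : IsInducedBlock M (Subgroup.normalizer ((P.subgroupOf H : Subgroup H) : Set H))
      (mapBlock (nEquiv P H hH) b) c)
    {x : G} (hx : x ∈ Subgroup.centralizer (P : Set G)) :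
    MemLocalIdeal M (blockCoeff B x - subgroupBlockCoeff H c x) := by
  have hPr := isPrime_of_modular hM
  have hxN := centralizer_le_normalizer' P hx
  have hxH := hH hxN
  have h1 := fmt_coeff' hM hP hd hi hx
  have hd' := isDefectGroup_mapBlock (p := p) (M := M) (nEquiv P H hH) hd
  rw [map_nEquiv] at hd'
  have h2 := fmt_coeff' hM (hP.comap_subtype (K := H)) hd' hi' (mem_centralizer_sub hx hxH)
  have h3 := blockCoeff_mapBlock (nEquiv P H hH) b ⟨x, hxN⟩
  have h4 : subgroupBlockCoeff H c x = blockCoeff c ⟨x, hxH⟩ := sbc_coe H c ⟨x, hxH⟩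
  rw [h4]
  have h5 : (nEquiv P H hH ⟨x, hxN⟩) =
    ⟨⟨x, hxH⟩, centralizer_le_normalizer' _ (mem_centralizer_sub hx hxH)⟩ := rfl
  rw [h5] at h3
  have h6 : MemLocalIdeal M (blockCoeff c ⟨x, hxH⟩ - blockCoeff b ⟨x, hxN⟩) := by
    rw [← h3]; exact h2
  exact ideal_sub_trans hPr h1 (ideal_sub_comm h6)

theorem exists_unit_of_defect [Finite G] [Fact p.Prime] {B : Set (IrrCharacter G)}
    {D : Subgroup G} (hBD : IsDefectGroup p M B D) :
    ∃ g0 ∈ Subgroup.centralizer (D : Set G), ¬ MemLocalIdeal M (blockCoeff B g0) := by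
  obtain ⟨g0, hg0, hle, -⟩ := isDefectGroup_iff.mp hBD
  refine ⟨g0, ?_, hg0.2.1⟩
  rw [Subgroup.mem_centralizer_iff]
  intro a ha
  exact Subgroup.mem_centralizer_singleton_iff.mp (hle ha)

theorem unique_G [Finite G] [Fact p.Prime] (hM : IsPModular p M) {P : Subgroup G}
    (hP : IsPGroup p P) {B B' : Set (IrrCharacter G)} (hB : IsPBlock M B) (hB' : IsPBlock M B')
    (hBD : IsDefectGroup p M B P)
    (h : ∀ x ∈ Subgroup.centralizer (P : Set G), MemLocalIdeal M (blockCoeff B x - blockCoeff B' x)) :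
    B = B' := by
  haveI : Fintype G := Fintype.ofFinite G
  have hPr := isPrime_of_modular hM
  by_contra hne
  obtain ⟨g0, hg0, hu⟩ := exists_unit_of_defect hBD
  refine hu (brauer_orth hM hP (inv_of_classFunction (blockCoeff_classFunction B) P)
    (inv_of_classFunction (blockCoeff_classFunction B') P) (osima_block hPr hB)
    (osima_block hPr hB') (conv_blockCoeff_self B) (conv_blockCoeff_disjoint ?_) h hg0)
  intro χ hχ hχ'
  exact hne (block_eq_of_mem hPr hB hB' hχ hχ')

theorem unique_H [Finite G] [Fact p.Prime] (hM : IsPModular p M) {P H : Subgroup G}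
    (hP : IsPGroup p P) (hPH : P ≤ H) {c c' : Set (IrrCharacter H)} (hc : IsPBlock M c)
    (hc' : IsPBlock M c') (hcD : IsDefectGroup p M c (P.subgroupOf H))
    (h : ∀ x ∈ Subgroup.centralizer (P : Set G),
      MemLocalIdeal M (subgroupBlockCoeff H c x - subgroupBlockCoeff H c' x)) :
    c = c' := by
  haveI : Fintype G := Fintype.ofFinite G
  have hPr := isPrime_of_modular hM
  by_contra hne
  obtain ⟨g0, hg0, hu⟩ := exists_unit_of_defect hcD
  have hg0' : (g0 : G) ∈ Subgroup.centralizer (P : Set G) := by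
    rw [Subgroup.mem_centralizer_iff] at hg0 ⊢
    intro a ha
    exact congrArg Subtype.val (hg0 ⟨a, hPH ha⟩ ha)
  rw [← sbc_coe] at hu
  refine hu (brauer_orth hM hP (inv_mono hPH (sbc_inv H c)) (inv_mono hPH (sbc_inv H c'))
    (sbc_ring hPr hc) (sbc_ring hPr hc') (sbc_idem H c) (sbc_conv_disjoint H ?_) h hg0')
  intro χ hχ hχ'
  exact hne (block_eq_of_mem hPr hc hc' hχ hχ')

/-- Fix a prime p and a maximal ideal M of the algebraic integers containing p. Let P be a p-subgroup of the finite group G and H a subgroup containing N_G(P). For every p-block B of G with defect group P there is exactly one p-block c of H with defect group P whose idempotent agrees with that of B, modulo the local ideal at M, at every element of C_G(P) (their Brauer-map images at P coincide); and every p-block c of H with defect group P arises in this way from exactly one such B. This is the Brauer correspondence over H. -/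
theorem result {G : Type*} [Group G] [Fintype G] (p : ℕ) [Fact p.Prime] (M : Ideal Cfsg.AlgInt) (hM : Cfsg.IsPModular p M) (P H : Subgroup G) (hP : IsPGroup p P) (hH : Subgroup.normalizer (P : Set G) ≤ H) : (∀ B : Set (Cfsg.IrrCharacter G), Cfsg.IsPBlock M B → Cfsg.IsDefectGroup p M B P → ∃! c : Set (Cfsg.IrrCharacter H), Cfsg.IsPBlock M c ∧ Cfsg.IsDefectGroup p M c (P.subgroupOf H) ∧ ∀ x : G, x ∈ Subgroup.centralizer (P : Set G) → Cfsg.MemLocalIdeal M (Cfsg.blockCoeff B x - Cfsg.subgroupBlockCoeff H c x)) ∧ (∀ c : Set (Cfsg.IrrCharacter H), Cfsg.IsPBlock M c → Cfsg.IsDefectGroup p M c (P.subgroupOf H) → ∃! B : Set (Cfsg.IrrCharacter G), Cfsg.IsPBlock M B ∧ Cfsg.IsDefectGroup p M B P ∧ ∀ x : G, x ∈ Subgroup.centralizer (P : Set G) → Cfsg.MemLocalIdeal M (Cfsg.blockCoeff B x - Cfsg.subgroupBlockCoeff H c x)) := by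
  have hPr := isPrime_of_modular hM
  have hPH : P ≤ H := Subgroup.le_normalizer.trans hH
  constructor
  · intro B hB hBD
    obtain ⟨b, hb, hbD, hbi⟩ := fmt_exists hM hB hBD
    have hd' := isDefectGroup_mapBlock (p := p) (M := M) (nEquiv P H hH) hbD
    rw [map_nEquiv] at hd'
    obtain ⟨c, hc, hcD, hci⟩ := fmt_one hM (hP.comap_subtype (K := H))
      (isPBlock_mapBlock (nEquiv P H hH) hb) hd'
    refine ⟨c, ⟨hc, hcD, fun x hx => core hM hP hH hbD hbi hci hx⟩, ?_⟩
    rintro c' ⟨hc', hcD', h'⟩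
    refine unique_H hM hP hPH hc' hc hcD' fun x hx => ?_
    exact ideal_sub_trans hPr (ideal_sub_comm (h' x hx)) (core hM hP hH hbD hbi hci hx)
  · intro c hc hcD
    obtain ⟨b', hb', hbD', hbi'⟩ := fmt_exists hM hc hcD
    set b := mapBlock (nEquiv P H hH).symm b' with hbdef
    have hbb : mapBlock (nEquiv P H hH) b = b' := by
      rw [hbdef]
      unfold mapBlock
      rw [← Set.image_comp]
      convert Set.image_id b'
      apply Subtype.ext
      funext m
      simp [mapIrr_coe]
    have hb : IsPBlock M b := isPBlock_mapBlock _ hb'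
    have hbD : IsDefectGroup p M b (P.subgroupOf (Subgroup.normalizer (P : Set G))) := by
      have := isDefectGroup_mapBlock (p := p) (M := M) (nEquiv P H hH).symm hbD'
      rw [← map_nEquiv P H hH, Subgroup.map_map] at this
      convert this
      ext n
      simp
    obtain ⟨B, hB, hBD, hBi⟩ := fmt_one hM hP hb hbD
    rw [← hbb] at hbi'
    refine ⟨B, ⟨hB, hBD, fun x hx => core hM hP hH hbD hBi hbi' hx⟩, ?_⟩
    rintro B' ⟨hB', hBD', h'⟩
    refine unique_G hM hP hB' hB hBD' fun x hx => ?_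
    exact ideal_sub_trans hPr (h' x hx) (ideal_sub_comm (core hM hP hH hbD hBi hbi' hx))

end Cfsg.Agent.S4670
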