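import Cfsg.Statements.S4672
import Cfsg.Agent.Lib.BlockFong

set_option autoImplicit false
open Cfsg

namespace Cfsg.Agent.S4672

open Cfsg.Agent.Lib.Helper2_BlockLocal Cfsg.Agent.Lib.Helper2_BlockOm Cfsg.Agent.Lib.Helper2_BlockOsima Cfsg.Agent.Lib.Helper2_BlockBasic Cfsg.Agent.Lib.Helper2_BlockNormal Cfsg.Agent.Lib.Helper2_BlockBrauer Cfsg.Agent.Lib.Helper2_BlockCover Cfsg.Agent.Lib.Helper2_BlockCover2 Cfsg.Agent.Lib.Helper2_BlockDefOrder Cfsg.Agent.Lib.Helper2_BlockFMT Cfsg.Agent.Lib.Helper2_BP1 Cfsg.Agent.Lib.BlockFong Cfsg.Agent.Lib.CharInd Cfsg.Agent.Lib.CharClifford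

/-- Fix a prime p and a maximal ideal M of the algebraic integers containing p. Let N be a normal subgroup of the finite group G of p-power index and c a p-block of N stable under conjugation by G. Then the idempotent of c is a block idempotent of G: there is a p-block B of G whose idempotent coefficients agree with those of c on N and vanish off N; and for every defect group P of such a block B, G = NP and P ∩ N is a defect group of c. -/
theorem result {G : Type*} [Group G] [Fintype G] (p : ℕ) [Fact p.Prime] (M : Ideal Cfsg.AlgInt) (hM : Cfsg.IsPModular p M) (N : Subgroup G) [N.Normal] (hN : ∃ k : ℕ, N.index = p ^ k) (c : Set (Cfsg.IrrCharacter N)) (hc : Cfsg.IsPBlock M c) (hst : ∀ x : G, Cfsg.StabilizesBlock N c x) : (∃ B : Set (Cfsg.IrrCharacter G), Cfsg.IsPBlock M B ∧ ∀ g : G, Cfsg.blockCoeff B g = Cfsg.subgroupBlockCoeff N c g) ∧ ∀ B : Set (Cfsg.IrrCharacter G), Cfsg.IsPBlock M B → (∀ g : G, Cfsg.blockCoeff B g = Cfsg.subgroupBlockCoeff N c g) → ∀ P : Subgroup G, Cfsg.IsDefectGroup p M B P → N ⊔ P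 = ⊤ ∧ Cfsg.IsDefectGroup p M c ((P ⊓ N).subgroupOf N) := by
  classical
  have hPr := isPrime_of_modular hM
  have hp : p.Prime := Fact.out
  have hN' : N.Normal := inferInstance
  haveI : Fintype N := Fintype.ofFinite N
  obtain ⟨k, hk⟩ := hN
  have hst' : Stable N hN' c := by
    intro g θ hθ
    obtain ⟨χ', hχ', hc'⟩ := (hst g⁻¹).2 θ hθ
    have : conjIrr N hN' g θ = χ' := by
      apply Subtype.ext
      funext n
      rw [conjIrr_coe, conjFun_apply]
      symm
      apply hc'
      simp only [inv_inv]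
      group
    rw [this]; exact hχ'
  have hreg : ∀ g : G, ¬ p ∣ orderOf g → g ∈ N := fun g hg => regular_mem_of_index hp N hk hg
  have hsbc : subgroupBlockCoeff N c = extCoeff N c := sbc_eq_ext N c
  constructor
  · obtain ⟨θ0, hθ0⟩ := block_nonempty hPr hc
    obtain ⟨χ0, hχ0⟩ := exists_over N θ0
    refine ⟨blockOf M (χ0 : G → ℂ), ⟨χ0, rfl⟩, fun g => ?_⟩
    rw [hsbc, extCoeff_eq_sum N hN' hPr hc hst']
    have : (blocks M G).filter (fun B => Covers N B c) = {blockOf M (χ0 : G → ℂ)} := by
      ext B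
      rw [Finset.mem_filter, Finset.mem_singleton]
      constructor
      · rintro ⟨hB, χ, hχ, θ, hθ, h⟩
        have hs := sameBlock_of_over hM N hN' hreg χ0 χ θ0 θ hχ0 h (sameBlock_of_mem hPr hc hθ0 hθ)
        exact block_eq_of_mem hPr (mem_blocks.mp hB) ⟨χ0, rfl⟩ hχ hs
      · rintro rfl
        exact ⟨mem_blocks.mpr ⟨χ0, rfl⟩, χ0, self_mem_blockOf hPr χ0, θ0, hθ0, hχ0⟩
    rw [this, Finset.sum_singleton]
  · intro B hB hBc P hP
    have hBe : blockCoeff B = extCoeff N c := by
      funext g; rw [hBc g, hsbc]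
    obtain ⟨g, hg, hle, hcard⟩ := isDefectGroup_iff.mp hP
    have hPp := isPGroup_of_defect hP
    have hgN : g ∈ N := by
      by_contra hx
      apply hg.2.1
      rw [hBe]
      unfold extCoeff
      rw [extendByZero_not_mem N _ hx]
      exact ideal_zero hPr
    set x : N := ⟨g, hgN⟩ with hx
    have hxu : ¬ MemLocalIdeal M (blockCoeff c x) := by
      have := hg.2.1
      rw [hBe] at this
      unfold extCoeff at this
      rwa [extendByZero_mem N _ hgN] at this
    obtain ⟨χ, hχ⟩ := block_nonempty hPr hB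
    obtain ⟨θ, hθ⟩ := exists_under N χ
    have hθc : θ ∈ c := by
      have h1 := Om_blockCoeff B χ
      rw [if_pos hχ, hBe, Om_extCoeff N hN' hst' χ θ hθ] at h1
      by_contra hn
      rw [if_neg hn] at h1
      exact zero_ne_one h1
    obtain ⟨hm, hw⟩ := unit_down N hN' hM hc hst' hθc hθ x (hg.2.2 χ hχ)
    have hdc : IsDefectClass M c x :=
      ⟨osima_block hPr hc _, hxu, fun θ' hθ' =>
        not_ideal_of_sub hPr (sameBlock_of_mem hPr hc hθ' hθc x) hw⟩
    have e3 := card_centralizer_mul N hN' x
    have hxg : ((x : N) : G) = g := rfl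
    rw [hxg] at e3
    have hidx : N.index ≠ 0 := Subgroup.index_ne_zero_of_finite
    have hmm : mm N x ≠ 0 := fun h => hm (h ▸ dvd_zero p)
    have e4 : (Nat.card (Subgroup.centralizer ({g} : Set G))).factorization p =
        (Nat.card (Subgroup.centralizer ({x} : Set N))).factorization p + k := by
      have := congrArg (fun n => n.factorization p) e3
      rw [Nat.factorization_mul Nat.card_pos.ne' hmm, Nat.factorization_mul Nat.card_pos.ne' hidx,
        Finsupp.add_apply, Finsupp.add_apply, Nat.factorization_eq_zero_of_not_dvd hm, add_zero, hk,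
        hp.factorization_pow, Finsupp.single_eq_same] at this
      exact this
    have hAle : (P ⊓ N).subgroupOf N ≤ Subgroup.centralizer ({x} : Set N) := by
      intro a ha
      rw [Subgroup.mem_centralizer_singleton_iff]
      apply Subtype.ext
      exact Subgroup.mem_centralizer_singleton_iff.mp (hle (Subgroup.mem_subgroupOf.mp ha).1)
    have c0 : Nat.card ((P ⊓ N).subgroupOf N) ≤
        p ^ (Nat.card (Subgroup.centralizer ({x} : Set N))).factorization p :=
      card_pGroup_le ((hPp.to_le (inf_le_left : P ⊓ N ≤ P)).comap_subtype (K := N)) hAle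
    have c3 : Nat.card ((P ⊓ N).subgroupOf N) = Nat.card (P ⊓ N : Subgroup G) :=
      Nat.card_congr (Subgroup.subgroupOfEquivOfLe inf_le_right).toEquiv
    have c4 : (P ⊓ N).relIndex P * Nat.card (P ⊓ N : Subgroup G) = Nat.card P := by
      have h := ((P ⊓ N).subgroupOf P).card_mul_index
      rw [Nat.card_congr (Subgroup.subgroupOfEquivOfLe (inf_le_left : P ⊓ N ≤ P)).toEquiv] at h
      rw [mul_comm]; exact h
    rw [Subgroup.inf_relIndex_left] at c4
    have c5 : N.relIndex P ∣ N.index := Subgroup.relIndex_dvd_index_of_normal N P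
    rw [hk] at c5
    obtain ⟨i, hi, hi'⟩ := (Nat.dvd_prime_pow hp).mp c5
    obtain ⟨j, hj⟩ := (IsPGroup.iff_card (p := p)).mp (hPp.to_le (inf_le_left : P ⊓ N ≤ P))
    have c8 : j ≤ (Nat.card (Subgroup.centralizer ({x} : Set N))).factorization p := by
      rw [c3, hj] at c0
      exact (Nat.pow_le_pow_iff_right hp.one_lt).mp c0
    have c9 : i + j = (Nat.card (Subgroup.centralizer ({g} : Set G))).factorization p := by
      rw [hi', hj, hcard, ← pow_add] at c4
      exact Nat.pow_right_injective hp.two_le c4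
    have hi2 : i = k := by omega
    have hj2 : j = (Nat.card (Subgroup.centralizer ({x} : Set N))).factorization p := by omega
    constructor
    · have d1 : N.relIndex (P ⊔ N) * (P ⊔ N).index = N.index :=
        Subgroup.relIndex_mul_index le_sup_right
      rw [Subgroup.relIndex_sup_right, hi', hi2, hk] at d1
      have d2 : (P ⊔ N).index = 1 := by
        have hpos : 0 < p ^ k := pow_pos hp.pos k
        exact Nat.eq_of_mul_eq_mul_left hpos (by rw [d1, mul_one])
      rw [sup_comm]
      exact Subgroup.index_eq_one.mp d2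
    · rw [isDefectGroup_iff]
      exact ⟨x, hdc, hAle, by rw [c3, hj, hj2]⟩

end Cfsg.Agent.S4672
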