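import Cfsg.Statements.S4676
import Cfsg.Agent.Lib.helper8_Height
import Cfsg.Agent.Lib.Helper2_BlockDefOrder

set_option autoImplicit false
open Cfsg Cfsg.Agent.Lib.helper8_Height Cfsg.Agent.Lib.Helper2_BlockLocal Cfsg.Agent.Lib.helper8_BlockSum
  Cfsg.Agent.Lib.helper8_BlockRank Cfsg.Agent.Lib.Helper2_BlockOm

namespace Cfsg.Agent.S4676

/-- Fix a prime p and a maximal ideal M of the algebraic integers containing p. Let B be a p-block of the finite group G with defect group P. For χ in B, let the height of χ be the exponent of p in the degree of χ minus the least such exponent over the members of B. Then the sum over χ in B of p raised to twice the height of χ is at most the integer part of (order of P)²/4, plus 1; in particular B has at most that many irreducible characters. -/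
theorem result {G : Type*} [Group G] [Fintype G] (p : ℕ) [Fact p.Prime] (M : Ideal Cfsg.AlgInt) (hM : Cfsg.IsPModular p M) (B : Set (Cfsg.IrrCharacter G)) (hB : Cfsg.IsPBlock M B) (P : Subgroup G) (hP : Cfsg.IsDefectGroup p M B P) : ∑ᶠ χ ∈ B, p ^ (2 * Cfsg.blockHeight p B (χ : G → ℂ)) ≤ Nat.card P ^ 2 / 4 + 1 := by
  classical
  have hP' := isPrime_of_modular hM
  obtain ⟨χ, hχ, h0⟩ := exists_min hP' p hB
  obtain ⟨X, hX, hle⟩ := bf_core hM hB hχ h0
  rw [Cfsg.Agent.Lib.Helper2_BlockDefOrder.card_defectGroup hM hB hP, finsum_block]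
  set F := Finset.univ.filter (fun ψ : IrrCharacter G => ψ ∈ B) with hF
  set d := blockDefect p B with hd
  have hχF : χ ∈ F := Finset.mem_filter.mpr ⟨Finset.mem_univ χ, hχ⟩
  rw [← Finset.add_sum_erase _ _ hχF]
  have hh0 : blockHeight p B (χ : G → ℂ) = 0 := by rw [blockHeight_eq, h0, Nat.sub_self]
  rw [hh0, mul_zero, pow_zero, add_comm]
  apply Nat.add_le_add_right
  rw [Nat.le_div_iff_mul_le (by norm_num)]
  have h3 : (∑ ψ ∈ F.erase χ, (p : ℤ) ^ (2 * blockHeight p B (ψ : G → ℂ))) * 4 ≤
      ((p : ℤ) ^ d) ^ 2 := by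
    nlinarith [sq_nonneg ((p : ℤ) ^ d - 2 * X)]
  exact_mod_cast h3

end Cfsg.Agent.S4676
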