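import Cfsg.Statements.S4682
import Mathlib
import Mathlib
import Cfsg.Agent.Lib.Helper2_AbDef


set_option autoImplicit false
open Cfsg

namespace Cfsg.Agent.S4682

/-- Fix a prime p and a maximal ideal M of the algebraic integers containing p, a p-block B of the finite group G with maximal Brauer pair (P, e), P abelian, and a Brauer pair (Q, f) ≤ (P, e). Let T_Q be the stabilizer of f in N_G(Q) and T_P the stabilizer of e in N_G(P). Then every element of T_Q is a product of an element of T_P and an element of C_G(Q); and the index of C_G(Q) in T_Q equals the index of T_P ∩ C_G(Q) in T_P ∩ N_G(Q). -/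
theorem result {G : Type*} [Group G] [Fintype G] (p : ℕ) [Fact p.Prime] (M : Ideal Cfsg.AlgInt) (hM : Cfsg.IsPModular p M) (B : Set (Cfsg.IrrCharacter G)) (P : Subgroup G) (e : Set (Cfsg.IrrCharacter (Subgroup.centralizer (P : Set G)))) (hmax : Cfsg.IsMaximalBrauerPair p M B P e) (hab : ∀ x ∈ P, ∀ y ∈ P, x * y = y * x) (Q : Subgroup G) (f : Set (Cfsg.IrrCharacter (Subgroup.centralizer (Q : Set G)))) (hQP : Q ≤ P) (hf : Cfsg.IsPBlock M f) (hle : Cfsg.SubpairLE p M Q f P e) (TQ : Subgroup G) (hTQ : ∀ y : G, y ∈ TQ ↔ y ∈ Subgroup.normalizer (Q : Set G) ∧ Cfsg.StabilizesBlock (Subgroup.centralizer (Q : Set G)) f y) (TP : Subgroup G) (hTP : ∀ y : G, y ∈ TP ↔ y ∈ Subgroup.normalizer (P : Set G) ∧ Cfsg.StabilizesBlock (Subgroup.centralizer (P : Set G)) e y) : (∀ x ∈ TQ, ∃ y ∈ TP, ∃ c ∈ Subgroup.centralizer (Q : Set G), x = y * c) ∧ ((Subgroup.centralizer (Q : Set G)).subgroupOf TQ).index = ((TP ⊓ Subgroup.centralizer (Q : Set G)).subgroupOf (TP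 ⊓ Subgroup.normalizer (Q : Set G))).index := by
  classical
  have hPr := Cfsg.Agent.Lib.Helper2_BlockLocal.isPrime_of_modular hM
  have hno := Cfsg.Agent.Lib.Helper2_BP8.noExt_of_maximal hM hmax
  have hBe := hmax.1
  have hPe := hBe.1
  have hTQ' : ∀ y, y ∈ TQ ↔ Cfsg.Agent.Lib.Helper2_BP9.cjPair y ⟨Q, f⟩ = ⟨Q, f⟩ := by
    intro y
    rw [hTQ y, Cfsg.Agent.Lib.Helper2_AbDef.cjPair_eq_self_iff]
  have hTP' : ∀ y, y ∈ TP ↔ Cfsg.Agent.Lib.Helper2_BP9.cjPair y ⟨P, e⟩ = ⟨P, e⟩ := by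
    intro y
    rw [hTP y, Cfsg.Agent.Lib.Helper2_AbDef.cjPair_eq_self_iff]
  have part1 : ∀ x ∈ TQ, ∃ y ∈ TP, ∃ c ∈ Subgroup.centralizer (Q : Set G), x = y * c := by
    intro x hx
    obtain ⟨y, hy, c, hc, e1⟩ := Cfsg.Agent.Lib.Helper2_AbDef.factor_of_abelian hM hBe hno hle hab
      ((hTQ' x).mp hx)
    exact ⟨y, (hTP' y).mpr hy, c, hc, e1⟩
  refine ⟨part1, ?_⟩
  obtain ⟨hQT, hCT, hTN, -⟩ := Cfsg.Agent.Lib.Helper2_BP13.stab_facts (T := TQ) (f := f) hTQ
  have hCN : Subgroup.centralizer (Q : Set G) ≤ Subgroup.normalizer (Q : Set G) :=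
    Cfsg.Agent.Lib.Helper2_BlockFMT.centralizer_le_normalizer' Q
  have hsup : (TP ⊓ Subgroup.normalizer (Q : Set G)) ⊔ Subgroup.centralizer (Q : Set G) = TQ := by
    apply le_antisymm
    · apply sup_le _ hCT
      intro y hy
      rw [hTQ']
      exact Cfsg.Agent.Lib.Helper2_AbDef.cjPair_sub_eq_self hM (b := ⟨P, e⟩) hPe hle
        ((hTP' y).mp hy.1) hy.2
    · intro x hx
      obtain ⟨y, hy, c, hc, e1⟩ := part1 x hx
      rw [e1]
      apply Subgroup.mul_mem _ (Subgroup.mem_sup_left _) (Subgroup.mem_sup_right hc)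
      refine Subgroup.mem_inf.mpr ⟨hy, ?_⟩
      have : y = x * c⁻¹ := by rw [e1]; group
      rw [this]
      exact Subgroup.mul_mem _ (hTN hx) (Subgroup.inv_mem _ (hCN hc))
  have hinf : (TP ⊓ Subgroup.normalizer (Q : Set G)) ⊓ Subgroup.centralizer (Q : Set G) =
      TP ⊓ Subgroup.centralizer (Q : Set G) := by
    rw [inf_assoc, inf_eq_right.mpr hCN]
  have c1 := Cfsg.Agent.Lib.Helper2_EA.card_sup_mul_card_inf
    (TP ⊓ Subgroup.normalizer (Q : Set G)) (Subgroup.centralizer (Q : Set G))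
    (inf_le_right.trans (Cfsg.Agent.Lib.Helper2_BP2.normalizer_le_normalizer_centralizer Q))
  rw [hsup, hinf] at c1
  have r1 := Subgroup.relIndex_mul_relIndex ⊥ _ TQ bot_le hCT
  have r2 := Subgroup.relIndex_mul_relIndex ⊥ (TP ⊓ Subgroup.centralizer (Q : Set G))
    (TP ⊓ Subgroup.normalizer (Q : Set G)) bot_le (inf_le_inf_left _ hCN)
  rw [Subgroup.relIndex_bot_left, Subgroup.relIndex_bot_left] at r1 r2
  show (Subgroup.centralizer (Q : Set G)).relIndex TQ =
    (TP ⊓ Subgroup.centralizer (Q : Set G)).relIndex (TP ⊓ Subgroup.normalizer (Q : Set G))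
  have hpos : 0 < Nat.card (Subgroup.centralizer (Q : Set G)) *
      Nat.card (TP ⊓ Subgroup.centralizer (Q : Set G) : Subgroup G) :=
    Nat.mul_pos Nat.card_pos Nat.card_pos
  apply Nat.eq_of_mul_eq_mul_left hpos
  calc Nat.card (Subgroup.centralizer (Q : Set G)) *
        Nat.card (TP ⊓ Subgroup.centralizer (Q : Set G) : Subgroup G) *
        (Subgroup.centralizer (Q : Set G)).relIndex TQ
      = (Nat.card (Subgroup.centralizer (Q : Set G)) *
          (Subgroup.centralizer (Q : Set G)).relIndex TQ) *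
        Nat.card (TP ⊓ Subgroup.centralizer (Q : Set G) : Subgroup G) := by ring
    _ = Nat.card TQ * Nat.card (TP ⊓ Subgroup.centralizer (Q : Set G) : Subgroup G) := by rw [r1]
    _ = Nat.card (TP ⊓ Subgroup.normalizer (Q : Set G) : Subgroup G) *
        Nat.card (Subgroup.centralizer (Q : Set G)) := c1
    _ = (Nat.card (TP ⊓ Subgroup.centralizer (Q : Set G) : Subgroup G) *
        (TP ⊓ Subgroup.centralizer (Q : Set G)).relIndex (TP ⊓ Subgroup.normalizer (Q : Set G))) *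
        Nat.card (Subgroup.centralizer (Q : Set G)) := by rw [r2]
    _ = _ := by ring

end Cfsg.Agent.S4682
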