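import Cfsg.Statements.S4683
import Cfsg.Agent.Lib.helper8_SubSec
import Cfsg.Agent.Lib.Helper2_BrauerPairs

set_option autoImplicit false
open Cfsg Cfsg.Agent.Lib.helper8_SubSec Cfsg.Agent.Lib.Helper2_BlockLocal Cfsg.Agent.Lib.helper8_BlockSum
  Cfsg.Agent.Lib.helper8_BlockRank Cfsg.Agent.Lib.Helper2_BlockOm Cfsg.Agent.Lib.CharBasic Cfsg.Agent.Lib.CharOrtho
  Cfsg.Agent.Lib.CharMore Cfsg.Agent.Lib.helper8_RegularPart Cfsg.Agent.Lib.helper8_Defect
  Cfsg.Agent.Lib.Helper2_BlockBrauer Cfsg.Agent.Lib.Helper2_BrauerPairs Cfsg.Agent.Lib.helper8_Height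
  Cfsg.Agent.Lib.helper8_Height2 Cfsg.Agent.Lib.Helper2_BlockFMT Cfsg.Agent.Lib.Helper2_BlockBasic
  Cfsg.Agent.Lib.Helper2_BlockOsima Cfsg.Agent.Lib.Helper2_BlockThird
open scoped ComplexConjugate Classical

namespace Cfsg.Agent.S4683

theorem induced_of_pair {G : Type*} [Group G] [Fintype G] {p : ℕ} {M : Ideal AlgInt}
    (hM : IsPModular p M) {B : Set (IrrCharacter G)} {Q : Subgroup G}
    (hQ : Q ≤ Subgroup.centralizer (Q : Set G))
    {e : Set (IrrCharacter (Subgroup.centralizer (Q : Set G)))}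
    (h : IsBrauerPairOf p M B Q e) : IsInducedBlock M (Subgroup.centralizer (Q : Set G)) e B := by
  have hPr := isPrime_of_modular hM
  obtain ⟨⟨hQp, he⟩, hB, hom⟩ := h
  obtain ⟨B', hB'⟩ := inducedBlockDefined hM hQp hQ le_rfl (centralizer_le_normalizer' Q) he
  obtain ⟨ξ, hξ⟩ := block_nonempty hPr he
  obtain ⟨χ, hχ⟩ := block_nonempty hPr hB'.2.1
  have h1 := Om_restrict_congr hPr hB' hξ hχ (blockCoeff_classFunction B) (osima_block hPr hB)
  have h2 := hom ξ hξ
  rw [brauerOmega_eq_Om, trunc_centralizer] at h2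
  rw [Om_blockCoeff] at h1
  have hmem : χ ∈ B := by
    by_contra hn
    rw [if_neg hn, sub_zero] at h1
    apply not_ideal_one hPr
    have := ideal_sub hPr h1 h2
    simpa using this
  rw [block_eq_of_mem hPr hB hB'.2.1 hmem hχ]
  exact hB'

/-- Inner products of regular parts with block parts. -/
theorem inner_regular_blockPart {G : Type*} [Group G] [Fintype G] {p : ℕ} {M : Ideal AlgInt}
    (hM : IsPModular p M) {b : Set (IrrCharacter G)} (hb : IsPBlock M b)
    (ψ : IrrCharacter G) (ϑ : G → ℂ) :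
    classInner (pRegularPart p (ψ : G → ℂ)) (blockPart b ϑ) =
      if ψ ∈ b then classInner (pRegularPart p (ψ : G → ℂ)) ϑ else 0 := by
  have hcf := pRegularPart_classFunction p
    (isClassFunction_of_isCharacter (isCharacter_of_isIrr ψ.2))
  have h1 : blockPart b ϑ = ∑ χ ∈ Finset.univ.filter (fun χ : IrrCharacter G => χ ∈ b),
      classInner ϑ (χ : G → ℂ) • (χ : G → ℂ) := by
    ext g
    rw [blockPart_apply, Finset.sum_apply]
    rfl
  rw [h1, classInner_sum_right]
  split_ifs with hψ
  · rw [classInner_eq_sum _ _ hcf, Finset.sum_filter]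
    refine Finset.sum_congr rfl fun φ _ => ?_
    split_ifs with hφ
    · rw [classInner_smul_right, mul_comm]
    · rw [classInner_regular_eq_zero hM hb hψ hφ, zero_mul]
  · refine Finset.sum_eq_zero fun φ hφ => ?_
    rw [classInner_smul_right, inner_regular_symm,
      classInner_regular_eq_zero hM hb (Finset.mem_filter.mp hφ).2 hψ, map_zero, mul_zero]

theorem blockPart_classFunction {G : Type*} [Group G] [Fintype G] (b : Set (IrrCharacter G))
    (ϑ : G → ℂ) : IsClassFunction G (blockPart b ϑ) := by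
  intro g h
  rw [blockPart_apply, blockPart_apply]
  refine Finset.sum_congr rfl fun χ _ => ?_
  rw [irr_classFunction χ g h]

theorem core {G : Type*} [Group G] [Fintype G] (p : ℕ) (M : Ideal Cfsg.AlgInt)
    (hM : Cfsg.IsPModular p M) (B : Set (Cfsg.IrrCharacter G)) (u : G)
    (hu : ∃ k : ℕ, orderOf u = p ^ k) (H : Subgroup G)
    (hH : H = Subgroup.centralizer ({u} : Set G)) (e : Set (Cfsg.IrrCharacter H))
    (hind : IsInducedBlock M H e B) :
    ∑ᶠ χ ∈ B, ∑ᶠ s : H, Cfsg.pRegularPart p (Cfsg.blockPart e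
      (fun c : H => (χ : G → ℂ) (u * c))) s *
        Cfsg.blockPart e (fun c : H => (χ : G → ℂ) (u⁻¹ * c)) s⁻¹ =
      (Nat.card H : ℂ) * (Cfsg.blockRank p e : ℂ) := by
  have hPr := isPrime_of_modular hM
  have hHc : (Nat.card H : ℂ) ≠ 0 := by exact_mod_cast Nat.card_pos.ne'
  have he := hind.1
  have hB := hind.2.1
  rw [finsum_block]
  -- the inner sum
  have e1 : ∀ χ : IrrCharacter G, ∑ᶠ s : H, Cfsg.pRegularPart p (Cfsg.blockPart e
      (fun c : H => (χ : G → ℂ) (u * c))) s *
        Cfsg.blockPart e (fun c : H => (χ : G → ℂ) (u⁻¹ * c)) s⁻¹ =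
      (Nat.card H : ℂ) * ∑ φ ∈ Finset.univ.filter (fun φ : IrrCharacter H => φ ∈ e),
        aa p u H χ φ * conj (aa p u H χ φ) := by
    intro χ
    rw [finsum_eq_sum_of_fintype]
    set A := blockPart e (sh u H (χ : G → ℂ)) with hA
    have hconj : ∀ s : H, blockPart e (fun c : H => (χ : G → ℂ) (u⁻¹ * c)) s⁻¹ = conj (A s) := by
      intro s
      rw [hA, blockPart_apply, blockPart_apply, map_sum]
      refine Finset.sum_congr rfl fun φ _ => ?_
      rw [map_mul, ← inv_of_isCharacter (isCharacter_of_isIrr φ.2)]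
      congr 1
      unfold classInner
      rw [map_mul, map_inv₀, Complex.conj_natCast, map_sum, ← Equiv.sum_comp (Equiv.inv H)]
      congr 1
      refine Finset.sum_congr rfl fun c _ => ?_
      rw [map_mul, Complex.conj_conj, Equiv.inv_apply,
        inv_of_isCharacter (isCharacter_of_isIrr φ.2), Complex.conj_conj, sh_apply,
        ← inv_of_isCharacter (isCharacter_of_isIrr χ.2)]
      congr 2
      have hc := Subgroup.mem_centralizer_singleton_iff.mp
        (show (c : G) ∈ Subgroup.centralizer {u} by rw [← hH]; exact c.2)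
      show (χ : G → ℂ) (u⁻¹ * ((c⁻¹ : H) : G)) = _
      rw [Subgroup.coe_inv, ← hc, mul_inv_rev]
    have h2 : ∑ s : H, pRegularPart p A s * blockPart e (fun c : H => (χ : G → ℂ) (u⁻¹ * c)) s⁻¹ =
        (Nat.card H : ℂ) * classInner (pRegularPart p A) (pRegularPart p A) := by
      unfold classInner
      rw [← mul_assoc, mul_inv_cancel₀ hHc, one_mul]
      refine Finset.sum_congr rfl fun s _ => ?_
      rw [hconj]
      by_cases hs : p ∣ orderOf s
      · rw [pRegularPart_singular _ hs, zero_mul, zero_mul]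
      · rw [pRegularPart_regular _ hs]
    have h3 : ∀ φ : IrrCharacter H, classInner (pRegularPart p A) (φ : H → ℂ) =
        if φ ∈ e then aa p u H χ φ else 0 := by
      intro φ
      rw [inner_regular_symm, inner_regular_blockPart hM he]
      split_ifs with hφ
      · rw [← inner_regular_symm]; rfl
      · rw [map_zero]
    show ∑ s : H, pRegularPart p A s * _ = _
    rw [h2, classInner_eq_sum _ _ (pRegularPart_classFunction p (blockPart_classFunction e _)),
      Finset.sum_filter]
    congr 1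
    refine Finset.sum_congr rfl fun φ _ => ?_
    rw [h3]
    split_ifs <;> simp
  simp only [e1]
  rw [← Finset.mul_sum, Finset.sum_comm]
  congr 1
  rw [blockRank_eq_trace hM he, ← sum_filter_eq_sum_subtype e
    (fun φ => classInner (pRegularPart p (φ : H → ℂ)) (φ : H → ℂ))]
  refine Finset.sum_congr rfl fun φ hφ => ?_
  rw [sum_block_aa hM hH hu hB, if_pos]
  rw [← block_eq_blockOf hPr he (Finset.mem_filter.mp hφ).2]
  exact hind

/-- Fix a prime p and a maximal ideal M of the algebraic integers containing p, a p-block B of the finite group G, a p-element u and a p-block e of C = C_G(u) such that (⟨u⟩, e) is a Brauer pair of B (a Brauer element of B). For χ ∈ B let χ_u be the e-part of the class function c ↦ χ(u c) on C and χ_u' the e-part of c ↦ χ(u⁻¹ c). Then the sum over χ ∈ B and over the p-regular elements s of C of χ_u(s)·χ_u'(s⁻¹) equals the order of C times the p-regular rank of e (the number of irreducible Brauer characters of e). -/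
theorem result {G : Type*} [Group G] [Fintype G] (p : ℕ) [Fact p.Prime] (M : Ideal Cfsg.AlgInt) (hM : Cfsg.IsPModular p M) (B : Set (Cfsg.IrrCharacter G)) (u : G) (hu : ∃ k : ℕ, orderOf u = p ^ k) (e : Set (Cfsg.IrrCharacter (Subgroup.centralizer (Subgroup.zpowers u : Set G)))) (hBe : Cfsg.IsBrauerPairOf p M B (Subgroup.zpowers u) e) : ∑ᶠ χ ∈ B, ∑ᶠ s : Subgroup.centralizer (Subgroup.zpowers u : Set G), Cfsg.pRegularPart p (Cfsg.blockPart e (fun c : Subgroup.centralizer (Subgroup.zpowers u : Set G) => (χ : G → ℂ) (u * c))) s * Cfsg.blockPart e (fun c : Subgroup.centralizer (Subgroup.zpowers u : Set G) => (χ : G → ℂ) (u⁻¹ * c)) s⁻¹ = (Nat.card (Subgroup.centralizer (Subgroup.zpowers u : Set G)) : ℂ) * (Cfsg.blockRank p e : ℂ) := by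
  have hz : Subgroup.centralizer ((Subgroup.zpowers u : Subgroup G) : Set G) =
      Subgroup.centralizer ({u} : Set G) := by
    rw [Subgroup.zpowers_eq_closure, Subgroup.centralizer_closure]
  have hQ : Subgroup.zpowers u ≤ Subgroup.centralizer ((Subgroup.zpowers u : Subgroup G) : Set G) := by
    rintro _ ⟨i, rfl⟩
    rw [Subgroup.mem_centralizer_iff]
    rintro _ ⟨j, rfl⟩
    exact zpow_mul_comm u j i
  exact core p M hM B u hu _ hz e (induced_of_pair hM hQ hBe)

end Cfsg.Agent.S4683
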