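import Cfsg.Statements.S4688
import Mathlib
import Mathlib
import Cfsg.Agent.Lib.Helper2_Up


set_option autoImplicit false
open Cfsg

namespace Cfsg.Agent.S4688

/-- Fix a prime p and a maximal ideal M of the algebraic integers containing p, and a nilpotent p-block B of the finite group G with maximal Brauer pair (P, e). Then for every Brauer pair (Q, f) of B, f is a nilpotent block of C_G(Q); and if moreover (Q, f) ≤ (P, e), then C_P(Q) is a defect group of f as a block of C_G(Q). -/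
theorem result {G : Type*} [Group G] [Fintype G] (p : ℕ) [Fact p.Prime] (M : Ideal Cfsg.AlgInt) (hM : Cfsg.IsPModular p M) (B : Set (Cfsg.IrrCharacter G)) (P : Subgroup G) (e : Set (Cfsg.IrrCharacter (Subgroup.centralizer (P : Set G)))) (hmax : Cfsg.IsMaximalBrauerPair p M B P e) (hnil : Cfsg.IsNilpotentBlock p M B) (Q : Subgroup G) (f : Set (Cfsg.IrrCharacter (Subgroup.centralizer (Q : Set G)))) (hQf : Cfsg.IsBrauerPairOf p M B Q f) : Cfsg.IsNilpotentBlock p M f ∧ (Cfsg.SubpairLE p M Q f P e → Cfsg.IsDefectGroup p M f ((P ⊓ Subgroup.centralizer (Q : Set G)).subgroupOf (Subgroup.centralizer (Q : Set G)))) := by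
  classical
  refine ⟨Cfsg.Agent.Lib.Helper2_Up.nilpotent_centralizer hM hnil hQf, fun hle => ?_⟩
  have hF := Cfsg.Agent.Lib.Helper2_BFS1.bfs_isBlockFusionSystemOn hM hmax
  have hin := Cfsg.Agent.Lib.Helper2_Nilp.inner_of_nilpotent hM hF hnil
  rw [← Cfsg.Agent.Lib.Helper2_BP15.fullyCentralized_iff hM hF hle]
  refine ⟨Cfsg.Agent.Lib.Helper2_BP5.rtg_le hle, ?_⟩
  rintro Q' ⟨φ, hφ, rfl⟩
  rw [hin] at hφ
  obtain ⟨-, u, hu, h⟩ := hφ
  rw [Cfsg.Agent.Lib.Helper2_BP15.range_conj h]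
  have hsub : Cfsg.FusionSystem.centralizerIn P (Q.map (MulAut.conj u).toMonoidHom) ≤
      (Cfsg.FusionSystem.centralizerIn P Q).map (MulAut.conj u).toMonoidHom := by
    intro x hx
    rw [Cfsg.Agent.Lib.Helper2_Basic.mem_cj]
    exact Subgroup.mem_inf.mpr ⟨P.mul_mem (P.mul_mem (P.inv_mem hu) hx.1) hu,
      Cfsg.Agent.Lib.Helper2_BP9.conj_mem_centralizer_map'.mp hx.2⟩
  calc Nat.card (Cfsg.FusionSystem.centralizerIn P (Q.map (MulAut.conj u).toMonoidHom))
      ≤ Nat.card ((Cfsg.FusionSystem.centralizerIn P Q).map (MulAut.conj u).toMonoidHom) :=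
        Nat.card_le_card_of_injective _ (Subgroup.inclusion_injective hsub)
    _ = _ := Cfsg.Agent.Lib.Helper2_Basic.card_cj _ _

end Cfsg.Agent.S4688
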