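import Cfsg.Statements.S4693
import Mathlib
import Mathlib
import Cfsg.Agent.Lib.Helper2_Centric


set_option autoImplicit false
open Cfsg

namespace Cfsg.Agent.S4693

/-- Fix a prime p and a maximal ideal M of the algebraic integers containing p, a p-block B of the finite group G with maximal Brauer pair (P, e) and fusion system F on P, and a Brauer pair (Q, f) ≤ (P, e) with Q centric in F. Suppose every element of G normalizes Q and stabilizes f. Then the idempotent of B agrees with that of f modulo M at every element of G, and f is the idempotent of a nilpotent block of Q·C_G(Q): some p-block of Q·C_G(Q) has the idempotent coefficients of f and is nilpotent. -/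
theorem result {G : Type*} [Group G] [Fintype G] (p : ℕ) [Fact p.Prime] (M : Ideal Cfsg.AlgInt) (hM : Cfsg.IsPModular p M) (B : Set (Cfsg.IrrCharacter G)) (P : Subgroup G) (e : Set (Cfsg.IrrCharacter (Subgroup.centralizer (P : Set G)))) (hmax : Cfsg.IsMaximalBrauerPair p M B P e) (F : Cfsg.FusionSystem P) (hF : Cfsg.IsBlockFusionSystemOn p M B P e F) (Q : Subgroup G) (f : Set (Cfsg.IrrCharacter (Subgroup.centralizer (Q : Set G)))) (hQP : Q ≤ P) (hf : Cfsg.IsPBlock M f) (hle : Cfsg.SubpairLE p M Q f P e) (hcen : F.IsCentric Q) (hG : ∀ x : G, x ∈ Subgroup.normalizer (Q : Set G) ∧ Cfsg.StabilizesBlock (Subgroup.centralizer (Q : Set G)) f x) : (∀ g : G, Cfsg.MemLocalIdeal M (Cfsg.blockCoeff B g - Cfsg.subgroupBlockCoeff (Subgroup.centralizer (Q : Set G)) f g)) ∧ ∃ F' : Set (Cfsg.IrrCharacter ↥(Q ⊔ Subgroup.centralizer (Q : Set G))), Cfsg.IsPBlock M F' ∧ (∀ t : ↥(Q ⊔ Subgroup.centralizer (Q : Set G)), Cfsg.blockCoeff F' t = Cfsg.subgroupBlockCoeff (Subgroup.centralizer (Q :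 Set G)) f (t : G)) ∧ Cfsg.IsNilpotentBlock p M F' := by
  classical
  have hPr := Cfsg.Agent.Lib.Helper2_BlockLocal.isPrime_of_modular hM
  have hBe := hmax.1
  have hPe := hBe.1
  have hQf : IsBrauerPair p M Q f := Cfsg.Agent.Lib.Helper2_BP5.rtg_isBrauerPair' hle hPe
  have hBf : IsBrauerPairOf p M B Q f :=
    (Cfsg.Agent.Lib.Helper2_BP5.brauerPairOf_iff_of_le hM hPe hQf hle hBe.2.1).mp hBe
  have hZ := (Cfsg.Agent.Lib.Helper2_BP16.centric_iff hM hF hle).mp hcen
  constructor
  · intro g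
    rw [Cfsg.Agent.Lib.Helper2_Centric.block_eq_of_stable hM hBf hG g, sub_self]
    exact Cfsg.Agent.Lib.Helper2_BlockLocal.ideal_zero hPr
  · obtain ⟨F', hF', hFc⟩ := Cfsg.Agent.Lib.Helper2_BP12.stab_block hM hQf.1 hQf.2
      (T := Q ⊔ Subgroup.centralizer (Q : Set G)) le_sup_left le_sup_right
      (fun x _ => (hG x).1)
      (fun x _ => (Cfsg.Agent.Lib.Helper2_BP2.stabilizes_iff_inv.mp (hG x).2).2)
    exact ⟨F', hF', hFc, Cfsg.Agent.Lib.Helper2_Centric.nilpotent_QC hM hQf hZ rfl hF' hFc⟩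

end Cfsg.Agent.S4693
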