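import Cfsg.Statements.S4708
import Mathlib
import Mathlib
import Cfsg.Agent.Lib.Helper2_BlockThird
import Cfsg.Agent.Lib.Helper2_BlockDefect
import Cfsg.Agent.Lib.Helper2_BlockFMT
import Cfsg.Agent.Lib.Helper2_BlockCover2
import Cfsg.Agent.Lib.helper8_Defect


set_option autoImplicit false
open Cfsg

namespace Cfsg.Agent.S4708

open Cfsg Cfsg.Agent.Lib.Helper2_BlockLocal Cfsg.Agent.Lib.Helper2_BlockOm
  Cfsg.Agent.Lib.Helper2_BlockOsima Cfsg.Agent.Lib.Helper2_BlockBasic
  Cfsg.Agent.Lib.Helper2_BlockInd Cfsg.Agent.Lib.Helper2_BlockThird Cfsg.Agent.Lib.Helper2_BlockQuot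
  Cfsg.Agent.Lib.Helper2_BlockCover2
  Cfsg.Agent.Lib.CharBasic Cfsg.Agent.Lib.CharOrtho
  Cfsg.Agent.Lib.CharComplete Cfsg.Agent.Lib.CharIntegral Cfsg.Agent.Lib.CharMore
  Cfsg.Agent.Lib.CharInd Cfsg.Agent.Lib.CharClifford
open scoped ComplexConjugate Pointwise

lemma sum_sq_le_sq_sum_nat {ι : Type*} (s : Finset ι) (a : ι → ℕ) :
    ∑ i ∈ s, a i ^ 2 ≤ (∑ i ∈ s, a i) ^ 2 := by
  rw [sq, Finset.sum_mul]
  refine Finset.sum_le_sum fun i hi => ?_
  rw [sq]
  exact Nat.mul_le_mul_left _ (Finset.single_le_sum (f := a) (fun _ _ => Nat.zero_le _) hi)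

/-- Let p be a prime, M a maximal ideal of the algebraic integers containing p, G a finite group and H a normal subgroup. Write λ(X) for the sum of the squares of the degrees of the irreducible characters in the principal p-block of a group X. Then λ(H) ≤ λ(G) ≤ [G : H]·λ(H). -/
theorem result {G : Type*} [Group G] [Finite G] (p : ℕ) [Fact p.Prime] (M : Ideal Cfsg.AlgInt) (hM : Cfsg.IsPModular p M) (H : Subgroup G) [H.Normal] : (∑ᶠ θ ∈ Cfsg.principalBlock M H, Cfsg.charDegree (θ : H → ℂ) ^ 2) ≤ (∑ᶠ χ ∈ Cfsg.principalBlock M G, Cfsg.charDegree (χ : G → ℂ) ^ 2) ∧ (∑ᶠ χ ∈ Cfsg.principalBlock M G, Cfsg.charDegree (χ : G → ℂ) ^ 2) ≤ H.index * ∑ᶠ θ ∈ Cfsg.principalBlock M H, Cfsg.charDegree (θ : H → ℂ) ^ 2 := by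
  classical
  haveI : Fintype G := Fintype.ofFinite G
  haveI : Fintype H := Fintype.ofFinite H
  have hPr := isPrime_of_modular hM
  have hN : H.Normal := inferInstance
  choose m hm using fun (χ : IrrCharacter G) (θ : IrrCharacter H) =>
    classInner_char_nat (isCharacter_restrict H (isCharacter_of_isIrr χ.2))
      (isCharacter_of_isIrr θ.2)
  have hd : ∀ χ : IrrCharacter G, (χ : G → ℂ) 1 = (charDegree (χ : G → ℂ) : ℂ) :=
    fun χ => (Cfsg.Agent.Lib.helper8_Defect.irr_charDegree χ.2).2.1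
  have he : ∀ θ : IrrCharacter H, (θ : H → ℂ) 1 = (charDegree (θ : H → ℂ) : ℂ) :=
    fun θ => (Cfsg.Agent.Lib.helper8_Defect.irr_charDegree θ.2).2.1
  have he0 : ∀ θ : IrrCharacter H, 0 < charDegree (θ : H → ℂ) :=
    fun θ => (Cfsg.Agent.Lib.helper8_Defect.irr_charDegree θ.2).1
  have F1 : ∀ χ : IrrCharacter G, charDegree (χ : G → ℂ) =
      ∑ θ : IrrCharacter H, m χ θ * charDegree (θ : H → ℂ) := by
    intro χ
    have h1 := congrFun (char_expansion (isCharacter_restrict H (isCharacter_of_isIrr χ.2))) 1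
    rw [Finset.sum_apply] at h1
    simp only [Pi.smul_apply, smul_eq_mul, hm, he] at h1
    have h2 : (χ : G → ℂ) ((1 : H) : G) = (charDegree (χ : G → ℂ) : ℂ) := hd χ
    rw [h2] at h1
    exact_mod_cast h1
  have hfr : ∀ (θ : IrrCharacter H) (χ : IrrCharacter G),
      classInner (indFun H (θ : H → ℂ)) (χ : G → ℂ) = (m χ θ : ℂ) := by
    intro θ χ
    rw [frobenius_reciprocity H _ _ (irr_classFunction χ), ← classInner_conj_symm, hm]
    simp
  have F2 : ∀ θ : IrrCharacter H, ∑ χ : IrrCharacter G, m χ θ * charDegree (χ : G → ℂ) =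
      H.index * charDegree (θ : H → ℂ) := by
    intro θ
    have h1 := congrFun (char_expansion (isCharacter_indFun H _ (isCharacter_of_isIrr θ.2))) 1
    rw [Finset.sum_apply, indFun_one] at h1
    simp only [Pi.smul_apply, smul_eq_mul, hfr, hd, he] at h1
    exact_mod_cast h1.symm
  have hStable : Stable H hN (principalBlock M H) := by
    intro g θ hθ
    have h1 : SameBlock M (oneIrr H : H → ℂ) (θ : H → ℂ) := hθ
    have h2 := sameBlock_conjFun H hN h1 g
    have h3 : conjFun H hN (oneIrr H : H → ℂ) g = (oneIrr H : H → ℂ) := rfl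
    rw [h3] at h2
    exact h2
  have F3 : ∀ (χ : IrrCharacter G) (θ : IrrCharacter H), χ ∈ principalBlock M G → m χ θ ≠ 0 →
      θ ∈ principalBlock M H := by
    intro χ θ hχ hmne
    refine cover_invariant H hN hPr hStable (blockCoeff_ring_of_closed hPr _ ?_)
      (χ := oneIrr G) (χ' := χ) hχ (θ := oneIrr H) (θ' := θ) ?_ ?_ (oneIrr_mem_principal hPr H)
    · intro ψ hψ
      rw [← block_eq_blockOf hPr (principalBlock_isPBlock M H) hψ]
    · have : (fun n : H => (oneIrr G : G → ℂ) n) = (oneIrr H : H → ℂ) := rfl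
      rw [this, classInner_irr_self (oneIrr H).2]; exact one_ne_zero
    · rw [hm]; exact_mod_cast hmne
  have F4 : ∀ θ : IrrCharacter H, θ ∈ principalBlock M H →
      ∃ χ : IrrCharacter G, χ ∈ principalBlock M G ∧ m χ θ ≠ 0 := by
    intro θ hθ
    by_contra hcon
    push Not at hcon
    have hLunit : ¬ MemLocalIdeal M (Om (fun h : H => reg p G (h : G)) (θ : H → ℂ)) := by
      have e : (fun h : H => reg p G (h : G)) = reg p H := funext fun h => reg_coe H h
      rw [e]
      exact (mem_principal_iff hM θ).1 hθ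
    have hkey : Om (fun h : H => reg p G (h : G)) (θ : H → ℂ) *
        ((H.index * charDegree (θ : H → ℂ) : ℕ) : ℂ) =
        ∑ χ : IrrCharacter G, classInner (indFun H (θ : H → ℂ)) (χ : G → ℂ) *
          ((χ : G → ℂ) 1 * Om (reg p G) (χ : G → ℂ)) := by
      rw [← Cfsg.Agent.Lib.Helper2_BlockDefect.Om_ind H reg_classFunction,
        ← sum_mul_classFunction _ _ (indFun_isClassFunction H _)]
      unfold Om
      rw [indFun_one, he]
      have h0 : ((H.index : ℂ) * (charDegree (θ : H → ℂ) : ℂ)) ≠ 0 := by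
        apply mul_ne_zero
        · exact_mod_cast Subgroup.index_ne_zero_of_finite
        · exact_mod_cast (he0 θ).ne'
      push_cast
      rw [div_mul_cancel₀ _ h0]
    have hR : (∑ χ : IrrCharacter G,
        classInner (indFun H (θ : H → ℂ)) (χ : G → ℂ) *
          ((χ : G → ℂ) 1 * Om (reg p G) (χ : G → ℂ))) = 0 := by
      refine Finset.sum_eq_zero fun χ _ => ?_
      by_cases hχB : χ ∈ principalBlock M G
      · rw [hfr, hcon χ hχB]; simp
      · have h0 : Om (reg p G) (χ : G → ℂ) = 0 := by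
          unfold Om
          rw [sum_reg_eq_zero hM (B := blockOf M (χ : G → ℂ)) ⟨χ, rfl⟩ ?_ (self_mem_blockOf hPr χ),
            zero_div]
          intro h1
          apply hχB
          have h2 : blockOf M (χ : G → ℂ) = principalBlock M G :=
            Cfsg.Agent.Lib.Helper2_BlockFMT.block_eq_of_mem hPr ⟨χ, rfl⟩
              (principalBlock_isPBlock M G) h1 (oneIrr_mem_principal hPr G)
          rw [← h2]
          exact self_mem_blockOf hPr χ
        rw [h0, mul_zero, mul_zero]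
    rw [hR] at hkey
    rcases mul_eq_zero.1 hkey with h | h
    · apply hLunit; rw [h]; exact ideal_zero hPr
    · have h1 : H.index * charDegree (θ : H → ℂ) = 0 := by exact_mod_cast h
      rcases Nat.mul_eq_zero.1 h1 with h2 | h2
      · exact Subgroup.index_ne_zero_of_finite h2
      · exact (he0 θ).ne' h2
  set BG := Finset.univ.filter (fun χ : IrrCharacter G => χ ∈ principalBlock M G) with hBG
  set BH := Finset.univ.filter (fun θ : IrrCharacter H => θ ∈ principalBlock M H) with hBH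
  have eG : (∑ᶠ χ ∈ principalBlock M G, charDegree (χ : G → ℂ) ^ 2) =
      ∑ χ ∈ BG, charDegree (χ : G → ℂ) ^ 2 := by
    rw [finsum_mem_eq_finite_toFinset_sum _ (Set.toFinite _)]
    apply Finset.sum_congr _ (fun _ _ => rfl)
    ext χ; simp [hBG]
  have eH : (∑ᶠ θ ∈ principalBlock M H, charDegree (θ : H → ℂ) ^ 2) =
      ∑ θ ∈ BH, charDegree (θ : H → ℂ) ^ 2 := by
    rw [finsum_mem_eq_finite_toFinset_sum _ (Set.toFinite _)]
    apply Finset.sum_congr _ (fun _ _ => rfl)
    ext χ; simp [hBH]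
  rw [eG, eH]
  have F1' : ∀ χ ∈ BG, charDegree (χ : G → ℂ) =
      ∑ θ ∈ BH, m χ θ * charDegree (θ : H → ℂ) := by
    intro χ hχ
    rw [F1 χ, hBH, Finset.sum_filter]
    refine Finset.sum_congr rfl fun θ _ => ?_
    split_ifs with h
    · rfl
    · have : m χ θ = 0 := by
        by_contra h0
        exact h (F3 χ θ (Finset.mem_filter.1 hχ).2 h0)
      rw [this, zero_mul]
  constructor
  · calc ∑ θ ∈ BH, charDegree (θ : H → ℂ) ^ 2
        ≤ ∑ θ ∈ BH, ∑ χ ∈ BG, (m χ θ * charDegree (θ : H → ℂ)) ^ 2 := by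
          refine Finset.sum_le_sum fun θ hθ => ?_
          obtain ⟨χ, hχ, hne⟩ := F4 θ (Finset.mem_filter.1 hθ).2
          have h1 : charDegree (θ : H → ℂ) ^ 2 ≤ (m χ θ * charDegree (θ : H → ℂ)) ^ 2 :=
            Nat.pow_le_pow_left (Nat.le_mul_of_pos_left _ (Nat.pos_of_ne_zero hne)) 2
          exact h1.trans (Finset.single_le_sum
            (f := fun χ => (m χ θ * charDegree (θ : H → ℂ)) ^ 2) (fun _ _ => Nat.zero_le _)
            (Finset.mem_filter.2 ⟨Finset.mem_univ _, hχ⟩))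
      _ = ∑ χ ∈ BG, ∑ θ ∈ BH, (m χ θ * charDegree (θ : H → ℂ)) ^ 2 := Finset.sum_comm
      _ ≤ ∑ χ ∈ BG, charDegree (χ : G → ℂ) ^ 2 := by
          refine Finset.sum_le_sum fun χ hχ => ?_
          rw [F1' χ hχ]
          exact sum_sq_le_sq_sum_nat _ _
  · calc ∑ χ ∈ BG, charDegree (χ : G → ℂ) ^ 2
        = ∑ χ ∈ BG, ∑ θ ∈ BH, charDegree (χ : G → ℂ) * (m χ θ * charDegree (θ : H → ℂ)) := by
          refine Finset.sum_congr rfl fun χ hχ => ?_
          rw [← Finset.mul_sum, ← F1' χ hχ, sq]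
      _ = ∑ θ ∈ BH, ∑ χ ∈ BG, charDegree (χ : G → ℂ) * (m χ θ * charDegree (θ : H → ℂ)) :=
          Finset.sum_comm
      _ ≤ ∑ θ ∈ BH, H.index * charDegree (θ : H → ℂ) ^ 2 := by
          refine Finset.sum_le_sum fun θ hθ => ?_
          have h1 : ∑ χ ∈ BG, charDegree (χ : G → ℂ) * (m χ θ * charDegree (θ : H → ℂ)) =
              charDegree (θ : H → ℂ) * ∑ χ ∈ BG, m χ θ * charDegree (χ : G → ℂ) := by
            rw [Finset.mul_sum]
            exact Finset.sum_congr rfl fun _ _ => by ring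
          have h2 : ∑ χ ∈ BG, m χ θ * charDegree (χ : G → ℂ) ≤
              ∑ χ : IrrCharacter G, m χ θ * charDegree (χ : G → ℂ) :=
            Finset.sum_le_sum_of_subset (Finset.filter_subset _ _)
          rw [h1]
          calc charDegree (θ : H → ℂ) * ∑ χ ∈ BG, m χ θ * charDegree (χ : G → ℂ)
              ≤ charDegree (θ : H → ℂ) * (H.index * charDegree (θ : H → ℂ)) :=
                Nat.mul_le_mul_left _ (h2.trans (F2 θ).le)
            _ = H.index * charDegree (θ : H → ℂ) ^ 2 := by ring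
      _ = H.index * ∑ θ ∈ BH, charDegree (θ : H → ℂ) ^ 2 := by rw [Finset.mul_sum]

end Cfsg.Agent.S4708
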