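import Cfsg.Statements.S4709
import Cfsg.Agent.Lib.helper8_BL4

set_option autoImplicit false
open Cfsg

namespace Cfsg.Agent.S4709

open Cfsg.Agent.Lib.Helper2_BlockLocal Cfsg.Agent.Lib.Helper2_BlockThird
  Cfsg.Agent.Lib.Helper2_PrincipalSection Cfsg.Agent.Lib.Helper2_BlockQuot
  Cfsg.Agent.Lib.helper6_HomoChar Cfsg.Agent.Lib.helper8_BL2
  Cfsg.Agent.Lib.helper8_BL3 Cfsg.Agent.Lib.helper8_BL4

theorem ne_zero_of_central' {G : Type*} [Group G] [Finite G] {p : ℕ} [Fact p.Prime]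
    {M : Ideal AlgInt} (hM : IsPModular p M) (S : Sylow p G) {z : G}
    (hz : (S : Subgroup G) ≤ Subgroup.centralizer ({z} : Set G)) {χ : IrrCharacter G}
    (hχ : χ ∈ principalBlock M G) : (χ : G → ℂ) z ≠ 0 := by
  intro h0
  have h1 := hχ z
  unfold centralChar at h1
  rw [h0, mul_zero, zero_div, sub_zero, mul_one, div_one, ideal_natCast_iff hM] at h1
  exact S.not_dvd_index (h1.trans (Subgroup.index_dvd_of_le hz))

theorem finsum_mem_fintype {α : Type*} [Fintype α] (S : Set α) [DecidablePred (· ∈ S)]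
    (F : α → ℂ) : ∑ᶠ a ∈ S, F a = ∑ a, if a ∈ S then F a else 0 := by
  rw [finsum_mem_eq_finite_toFinset_sum _ (Set.toFinite S)]
  have : (Set.toFinite S).toFinset = Finset.univ.filter fun a => a ∈ S := by
    ext a; simp
  rw [this, Finset.sum_filter]


/-- Let p be a prime, M a maximal ideal of the algebraic integers containing p, and G a finite group with a nontrivial abelian Sylow p-subgroup P; put N = N_G(P), C = C_G(P). Suppose N/C is cyclic of order m with 1 < m < #P − 1 (C has index m in N and N is generated by C and one element), and C_G(y) ∩ N = C for every non-identity y ∈ P. Put r = (#P − 1)/m. Then there is s ≤ m such that the principal p-block is the disjoint union of a set X of s characters containing the principal character and a set Y of r characters, with integers a_χ ≠ 0 (χ ∈ X), d and a sign δ = ±1, such that: every χ ∈ X takes the value a_χ at every element whose p-part is a non-identity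 element of P; there is a map ζ from the non-principal linear characters ψ of P onto Y, constant on N-conjugacy classes, with ζ_ψ(z) = d + δ·Σ ψ'(y) for every z whose p-part y is a non-identity element of P, the sum running over the N-conjugates ψ' of ψ; (d − δ)^2 + (r − 1) d^2 + Σ_{χ ∈ X} a_χ^2 = m + 1; all members of Y agree on p-regular elements; and (r d − δ) η(g) + Σ_{χ ∈ X} a_χ χ(g) = 0 for every η ∈ Y and every p-regular g. -/
theorem result {G : Type*} [Group G] [Finite G] (p : ℕ) [Fact p.Prime] (M : Ideal Cfsg.AlgInt) (hM : Cfsg.IsPModular p M) (P : Sylow p G) (hab : IsMulCommutative P) (hP1 : Nat.card P ≠ 1) (m : ℕ) (hm1 : 1 < m) (hm2 : m + 1 < Nat.card P) (hCN : (Subgroup.centralizer ((P : Subgroup G) : Set G)).relIndex (Subgroup.normalizer ((P : Subgroup G) : Set G)) = m) (hcyc : ∃ g : G, g ∈ Subgroup.normalizer ((P : Subgroup G) : Set G) ∧ Subgroup.centralizer ((P : Subgroup G) : Set G) ⊔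 Subgroup.zpowers g = Subgroup.normalizer ((P : Subgroup G) : Set G)) (hfrob : ∀ y : G, y ∈ (P : Subgroup G) → y ≠ 1 → Subgroup.centralizer ({y} : Set G) ⊓ Subgroup.normalizer ((P : Subgroup G) : Set G) = Subgroup.centralizer ((P : Subgroup G) : Set G)) : ∃ (s : ℕ) (X Y : Set (Cfsg.IrrCharacter G)), s ≤ m ∧ Cfsg.principalBlock M G = X ∪ Y ∧ Disjoint X Y ∧ Nat.card X = s ∧ Nat.card Y = (Nat.card P - 1) / m ∧ (∃ χ₁ ∈ X, (χ₁ : G → ℂ) = fun _ => 1) ∧ ∃ (a : Cfsg.IrrCharacter G → ℤ) (d δ : ℤ) (ζ : (↥(P : Subgroup G) →* ℂˣ) → Cfsg.IrrCharacter G), (δ = 1 ∨ δ = -1) ∧ (∀ χ ∈ X, a χ ≠ 0 ∧ ∀ z y : G, Cfsg.IsPPart p z y → y ∈ (P : Subgroup G) → y ≠ 1 → (χ : G → ℂ) z = (a χ : ℂ)) ∧ (∀ ψ : ↥(P : Subgroup G) →* ℂˣ, ψ ≠ 1 → ζ ψ ∈ Y) ∧ (∀ η ∈ Y, ∃ ψ : ↥(P : Subgroup G) →* ℂˣ, ψ ≠ 1 ∧ ζ ψ = η) ∧ (∀ ψ ψ' : ↥(P : Subgroup G) →* ℂˣ, ψ ≠ 1 → (∃ n : G, n ∈ Subgroup.normalizer ((P : Subgroup G) : Set G) ∧ ∀ w w' : ↥(P : Subgroup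 G), (w' : G) = n * w * n⁻¹ → ψ' w' = ψ w) → ζ ψ' = ζ ψ) ∧ (∀ ψ : ↥(P : Subgroup G) →* ℂˣ, ψ ≠ 1 → ∀ (z : G) (y : ↥(P : Subgroup G)), Cfsg.IsPPart p z (y : G) → (y : G) ≠ 1 → (ζ ψ : G → ℂ) z = (d : ℂ) + (δ : ℂ) * ∑ᶠ ψ' ∈ {ψ' : ↥(P : Subgroup G) →* ℂˣ | ∃ n : G, n ∈ Subgroup.normalizer ((P : Subgroup G) : Set G) ∧ ∀ w w' : ↥(P : Subgroup G), (w' : G) = n * w * n⁻¹ → ψ' w' = ψ w}, ((ψ' y : ℂˣ) : ℂ)) ∧ ((d - δ) ^ 2 + ((Nat.card P - 1) / m - 1 : ℤ) * d ^ 2 + ∑ᶠ χ ∈ X, a χ ^ 2 = (m : ℤ) + 1) ∧ (∀ η ∈ Y, ∀ η' ∈ Y, ∀ g : G, ¬ p ∣ orderOf g → (η : G → ℂ) g = (η' : G → ℂ) g) ∧ (∀ η ∈ Y, ∀ g : G, ¬ p ∣ orderOf g → ((((Nat.card P - 1) / m : ℕ) : ℂ) * d - δ) * (η : G → ℂ) g + ∑ᶠ χ ∈ X, (a χ : ℂ) * (χ : G → ℂ) g = 0) := by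
  classical
  have : Fintype G := Fintype.ofFinite G
  have hs := setup_of_hyp p P hab m hCN hfrob
  set A := (P : Subgroup G).normalizerMonoidHom.range with hA
  have : Finite A := Nat.finite_of_card_ne_zero (by rw [hs.card]; omega)
  have : Fintype A := Fintype.ofFinite A
  have : Fintype (P : Subgroup G) := Fintype.ofFinite _
  have : Finite ((P : Subgroup G) →* ℂˣ) := dual_finite' hs.comm
  have : Fintype ((P : Subgroup G) →* ℂˣ) := Fintype.ofFinite _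
  obtain ⟨XF, YF, w, d, δ, e, hU, hdisj, hcardY, hone, hδ, hX, heY, hYe, hiff, hYval, hnorm,
    hagree, hrel⟩ := main hs hM hm2
  have hm0 : 0 < m := by omega
  have hr : (Nat.card P - 1) / m = YF.card := by
    rw [← hcardY]; exact Nat.mul_div_cancel _ hm0
  have hmemB : ∀ χ : IrrCharacter G, χ ∈ XF ∪ YF ↔ χ ∈ principalBlock M G := by
    intro χ
    rw [hU]; simp
  have hpp : ∀ χ ∈ principalBlock M G, ∀ z y : G, IsPPart p z y → y ∈ (P : Subgroup G) → y ≠ 1 →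
      (χ : G → ℂ) z = (χ : G → ℂ) y := by
    rintro χ hχ z y ⟨v, hyv, hcomm, hyo, hv⟩ hyP hy1
    obtain ⟨k, hk, hidx, hfac⟩ := hs.core ⟨y, hyP⟩ (fun h => hy1 (congrArg Subtype.val h))
    have hvC : v ∈ Subgroup.centralizer ({y} : Set G) := by
      rw [Subgroup.mem_centralizer_singleton_iff]; exact hcomm.eq.symm
    have hv' : (⟨v, hvC⟩ : Subgroup.centralizer ({y} : Set G)) ∈
        pPrimeCore p (Subgroup.centralizer ({y} : Set G)) :=
      mem_core_of_regular hM.1 hidx (by rw [Subgroup.orderOf_mk]; exact hv)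
    rw [← hyv]
    exact principal_core_invariant hM hyo ⟨⟨v, hvC⟩, hv', rfl⟩ hχ
  have hset : ∀ ψ ψ' : (P : Subgroup G) →* ℂˣ,
      (∃ n : G, n ∈ Subgroup.normalizer ((P : Subgroup G) : Set G) ∧
        ∀ w w' : ↥(P : Subgroup G), (w' : G) = n * w * n⁻¹ → ψ' w' = ψ w) ↔ Rel A ψ ψ' := by
    intro ψ ψ'
    constructor
    · rintro ⟨n, hn, h⟩
      refine ⟨(P : Subgroup G).normalizerMonoidHom ⟨n, hn⟩, ⟨_, rfl⟩, ?_⟩
      ext x
      rw [act_apply, h x _ rfl]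
    · rintro ⟨b, ⟨n, rfl⟩, h⟩
      refine ⟨n, n.2, fun x x' hx => ?_⟩
      have h1 : x' = (P : Subgroup G).normalizerMonoidHom n x := Subtype.ext hx
      rw [h1, h, act_apply]
  obtain ⟨y₀, hy₀⟩ : ∃ y : (P : Subgroup G), y ≠ 1 := by
    by_contra hcon
    push Not at hcon
    apply hP1
    have : Subsingleton (P : Subgroup G) := ⟨fun a b => (hcon a).trans (hcon b).symm⟩
    exact Nat.card_unique
  have hcen : ∀ y : (P : Subgroup G), (P : Subgroup G) ≤ Subgroup.centralizer ({(y : G)} : Set G) := by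
    intro y s hs'
    rw [Subgroup.mem_centralizer_singleton_iff]
    exact congrArg Subtype.val (hs.comm ⟨s, hs'⟩ y)
  have hw0 : ∀ χ ∈ XF, w χ ≠ 0 := by
    intro χ hχ h0
    have h1 := hX χ hχ y₀ hy₀
    rw [h0, Int.cast_zero] at h1
    exact ne_zero_of_central' hM P (hcen y₀)
      ((hmemB χ).mp (Finset.mem_union_left _ hχ)) h1
  have hr2 : 2 ≤ YF.card := by
    by_contra hcon
    have h1 : YF.card ≤ 1 := by omega
    have h2 : YF.card * m ≤ 1 * m := Nat.mul_le_mul_right m h1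
    omega
  have hsm : XF.card ≤ m := by
    have h1 : (XF.card : ℤ) ≤ ∑ χ ∈ XF, w χ ^ 2 := by
      have h2 : (XF.card : ℤ) = ∑ χ ∈ XF, (1 : ℤ) := by simp
      rw [h2]
      apply Finset.sum_le_sum
      intro χ hχ
      have h3 := hw0 χ hχ
      have : 0 < w χ ^ 2 := by positivity
      omega
    have h4 : (1 : ℤ) ≤ (d - δ) ^ 2 + ((YF.card : ℤ) - 1) * d ^ 2 := by
      have hr3 : (1 : ℤ) ≤ (YF.card : ℤ) - 1 := by
        have : (2 : ℤ) ≤ (YF.card : ℤ) := by exact_mod_cast hr2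
        linarith
      by_cases hd0 : d = 0
      · rw [hd0]
        rcases hδ with h | h <;> rw [h] <;> norm_num
      · have h5 : 0 < d ^ 2 := by positivity
        have h6 : 0 ≤ (d - δ) ^ 2 := sq_nonneg _
        nlinarith
    have : (XF.card : ℤ) ≤ (m : ℤ) := by linarith
    exact_mod_cast this
  have hrZ : ((Nat.card P : ℤ) - 1) / (m : ℤ) = (YF.card : ℤ) := by
    have h1 : 1 ≤ Nat.card P := by omega
    have h2 : ((Nat.card P : ℤ) - 1) = (YF.card : ℤ) * (m : ℤ) := by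
      have : ((YF.card * m : ℕ) : ℤ) = ((Nat.card P - 1 : ℕ) : ℤ) := by rw [hcardY]
      rw [Nat.cast_sub h1] at this
      push_cast at this
      linarith
    rw [h2]
    exact Int.mul_ediv_cancel _ (by exact_mod_cast hm0.ne')
  refine ⟨XF.card, ↑XF, ↑YF, hsm, ?_, Finset.disjoint_coe.mpr hdisj, by simp, by rw [hr]; simp,
    ⟨oneIrr G, hone, rfl⟩, w, d, δ, fun ψ => if h : ψ ≠ 1 then e ⟨ψ, h⟩ else oneIrr G, hδ,
    ?_, ?_, ?_, ?_, ?_, ?_, ?_, ?_⟩
  · ext χ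
    rw [← hmemB χ]
    simp
  · intro χ hχ
    refine ⟨hw0 χ hχ, fun z y hz hy hy1 => ?_⟩
    rw [hpp χ ((hmemB χ).mp (Finset.mem_union_left _ hχ)) z y hz hy hy1]
    exact hX χ hχ ⟨y, hy⟩ (fun h => hy1 (congrArg Subtype.val h))
  · intro ψ hψ
    simp only [dif_pos hψ]
    exact heY _
  · intro η hη
    obtain ⟨μ, hμ⟩ := hYe η hη
    exact ⟨μ.1, μ.2, by simp only [dif_pos μ.2]; exact hμ⟩
  · intro ψ ψ' hψ h
    have hR := (hset ψ ψ').mp h
    have hψ' := rel_ne_one hψ hR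
    simp only [dif_pos hψ, dif_pos hψ']
    exact ((hiff ⟨ψ, hψ⟩ ⟨ψ', hψ'⟩).mpr hR).symm
  · intro ψ hψ z y hz hy1
    simp only [dif_pos hψ]
    rw [hpp _ ((hmemB _).mp (Finset.mem_union_right _ (heY ⟨ψ, hψ⟩))) z y hz y.2 hy1,
      hYval ⟨ψ, hψ⟩ y (fun h => hy1 (congrArg Subtype.val h)), finsum_mem_fintype]
    congr 2
    refine Finset.sum_congr rfl fun ν _ => ?_
    have hmem : ν ∈ {ψ' : (P : Subgroup G) →* ℂˣ | ∃ n : G,
        n ∈ Subgroup.normalizer ((P : Subgroup G) : Set G) ∧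
        ∀ w w' : ↥(P : Subgroup G), (w' : G) = n * w * n⁻¹ → ψ' w' = ψ w} ↔ Rel A ψ ν := hset ψ ν
    by_cases h : Rel A ψ ν
    · rw [if_pos h, if_pos (hmem.mpr h)]
    · rw [if_neg h, if_neg (fun h' => h (hmem.mp h'))]
  · rw [hrZ, finsum_mem_coe_finset]
    exact hnorm
  · exact hagree
  · intro η hη g hg
    rw [hr, finsum_mem_coe_finset]
    exact hrel η hη g hg

end Cfsg.Agent.S4709
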