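import Cfsg.Statements.S4710
import Cfsg.Agent.Lib.helper8_Height

set_option autoImplicit false
open Cfsg Cfsg.Agent.Lib.helper8_Height Cfsg.Agent.Lib.Helper2_BlockLocal Cfsg.Agent.Lib.helper8_BlockSum
  Cfsg.Agent.Lib.helper8_BlockRank Cfsg.Agent.Lib.Helper2_BlockOm

namespace Cfsg.Agent.S4710

/-- Let p be a prime, M a maximal ideal of the algebraic integers containing p, and B a p-block of defect d of the finite group G containing k irreducible characters. If B contains a character of positive height then 2k ≤ p^(2d − 2); and every character in B has height 0 when d ≤ 1 and height at most d − 2 when d ≥ 2. -/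
theorem result {G : Type*} [Group G] [Finite G] (p : ℕ) [Fact p.Prime] (M : Ideal Cfsg.AlgInt) (hM : Cfsg.IsPModular p M) (B : Set (Cfsg.IrrCharacter G)) (hB : Cfsg.IsPBlock M B) (d : ℕ) (hd : Cfsg.blockDefect p B = d) : ((∃ χ ∈ B, 0 < Cfsg.blockHeight p B (χ : G → ℂ)) → 2 * Nat.card B ≤ p ^ (2 * d - 2)) ∧ ∀ χ ∈ B, (d ≤ 1 → Cfsg.blockHeight p B (χ : G → ℂ) = 0) ∧ (2 ≤ d → Cfsg.blockHeight p B (χ : G → ℂ) ≤ d - 2) := by
  classical
  have := Fintype.ofFinite G
  have hP := isPrime_of_modular hM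
  have hp := hM.1
  have hpp : (0 : ℤ) < (p : ℤ) := by exact_mod_cast hp.pos
  constructor
  · rintro ⟨χ, hχ, hpos⟩
    obtain ⟨h1, h2⟩ := pos_height hM hB hχ hpos
    rw [hd] at h1 h2
    obtain ⟨χ0, hχ0, h0⟩ := exists_min hP p hB
    obtain ⟨X, hX, hle⟩ := bf_core hM hB hχ0 h0
    rw [hd] at hle
    set F := Finset.univ.filter (fun ψ : IrrCharacter G => ψ ∈ B) with hF
    set hh : IrrCharacter G → ℕ := fun ψ => blockHeight p B (ψ : G → ℂ) with hhh
    have hcard : Nat.card B = F.card := by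
      rw [Nat.card_eq_fintype_card, hF, Fintype.card_subtype]
    have hχ0F : χ0 ∈ F := Finset.mem_filter.mpr ⟨Finset.mem_univ χ0, hχ0⟩
    have hh0 : hh χ0 = 0 := by simp only [hhh]; rw [blockHeight_eq, h0, Nat.sub_self]
    have hZ : Finset.univ.filter (fun ψ : IrrCharacter G => ψ ∈ B ∧
        blockHeight p B (ψ : G → ℂ) = 0) = F.filter (fun ψ => hh ψ = 0) := by
      rw [hF, Finset.filter_filter]
    rw [hZ] at h2
    set k0 : ℤ := ((F.filter (fun ψ => hh ψ = 0)).card : ℤ) with hk0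
    set k1 : ℤ := ((F.filter (fun ψ => ¬ hh ψ = 0)).card : ℤ) with hk1
    have hk : (F.card : ℤ) = k0 + k1 := by
      rw [hk0, hk1]
      exact_mod_cast (Finset.card_filter_add_card_filter_not (s := F) (fun ψ => hh ψ = 0)).symm
    have hk0pos : 1 ≤ k0 := by
      have : 0 < (F.filter (fun ψ => hh ψ = 0)).card :=
        Finset.card_pos.mpr ⟨χ0, Finset.mem_filter.mpr ⟨hχ0F, hh0⟩⟩
      rw [hk0]; exact_mod_cast this
    have hsum : k0 + (p : ℤ) ^ 2 * k1 ≤ ∑ ψ ∈ F, (p : ℤ) ^ (2 * hh ψ) := by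
      have e1 : k0 + (p : ℤ) ^ 2 * k1 = ∑ ψ ∈ F, (if hh ψ = 0 then (1 : ℤ) else (p : ℤ) ^ 2) := by
        rw [Finset.sum_ite, Finset.sum_const, Finset.sum_const, hk0, hk1]
        simp [mul_comm]
      rw [e1]
      refine Finset.sum_le_sum fun ψ _ => ?_
      split_ifs with hψ
      · rw [hψ]; simp
      · exact pow_le_pow_right₀ (by omega) (by omega)
    rw [← Finset.add_sum_erase _ _ hχ0F, hh0, mul_zero, pow_zero] at hsum
    set Y : ℤ := (p : ℤ) ^ (2 * d - 2) with hY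
    have hY2 : ((p : ℤ) ^ d) ^ 2 = (p : ℤ) ^ 2 * Y := by
      rw [hY, ← pow_mul, ← pow_add]
      congr 1
      omega
    have hA : 4 * k0 ≤ Y := by
      refine h2.trans ?_
      exact pow_le_pow_right₀ (by omega) (by omega)
    have hB' : 4 * k0 + 4 * ((p : ℤ) ^ 2 * k1) ≤ 4 + (p : ℤ) ^ 2 * Y := by
      rw [← hY2]
      nlinarith [sq_nonneg ((p : ℤ) ^ d - 2 * X)]
    have hP2 : (0 : ℤ) < (p : ℤ) ^ 2 := by positivity
    have hC : (p : ℤ) ^ 2 * (4 * k0) ≤ (p : ℤ) ^ 2 * Y := mul_le_mul_of_nonneg_left hA hP2.le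
    have hD : (p : ℤ) ^ 2 * (2 * (k0 + k1)) ≤ (p : ℤ) ^ 2 * Y := by nlinarith
    have hE : 2 * (k0 + k1) ≤ Y := le_of_mul_le_mul_left hD hP2
    rw [hcard]
    rw [← hk, hY] at hE
    exact_mod_cast hE
  · intro χ hχ
    by_cases hpos : 0 < blockHeight p B (χ : G → ℂ)
    · have h1 := (pos_height hM hB hχ hpos).1
      rw [hd] at h1
      constructor
      · intro h; omega
      · intro h; omega
    · constructor
      · intro _; omega
      · intro _; omega

end Cfsg.Agent.S4710
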