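import Cfsg.Statements.S4714
import Cfsg.Agent.Lib.BlockPC2

set_option autoImplicit false
open Cfsg

namespace Cfsg.Agent.S4714

/-- Let p be a prime, M a maximal ideal of the algebraic integers containing p, D a p-subgroup of the finite group G with G = D·C_G(D), and B a p-block with defect group D. Let χ be a member of B having D in its kernel (there is exactly one, the canonical character of B). Then the irreducible characters in B are exactly the functions θ on G for which there is an irreducible character ζ of D such that θ(yx) = ζ(y)χ(x) whenever y ∈ D, x has order prime to p and x commutes with y, and θ(z) = 0 whenever the p-part of z does not lie in D. -/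
theorem result {G : Type*} [Group G] [Finite G] (p : ℕ) [Fact p.Prime] (M : Ideal Cfsg.AlgInt) (hM : Cfsg.IsPModular p M) (D : Subgroup G) (hD : IsPGroup p D) (hG : D ⊔ Subgroup.centralizer (D : Set G) = ⊤) (B : Set (Cfsg.IrrCharacter G)) (hB : Cfsg.IsPBlock M B) (hBD : Cfsg.IsDefectGroup p M B D) (χ : Cfsg.IrrCharacter G) (hχ : χ ∈ B) (hχD : ∀ y ∈ D, (χ : G → ℂ) y = (χ : G → ℂ) 1) : (∀ θ : Cfsg.IrrCharacter G, θ ∈ B ↔ ∃ ζ : Cfsg.IrrCharacter D, (∀ (y : D) (x : G), ¬ p ∣ orderOf x → Commute (y : G) x → (θ : G → ℂ) ((y : G) * x) = (ζ : D → ℂ) y * (χ : G → ℂ) x) ∧ (∀ z : G, (∀ y : G, Cfsg.IsPPart p z y → y ∉ D) → (θ : G → ℂ) z = 0)) ∧ ∀ ζ : Cfsg.IrrCharacter D, ∃ θ ∈ B, (∀ (y : D) (x : G), ¬ p ∣ orderOf x → Commute (y : G) x → (θ : G → ℂ) ((y : G) * x) = (ζ : D → ℂ) y * (χ : G → ℂ) x) ∧ (∀ z : G, (∀ y : G, Cfsg.IsPPart p z y → y ∉ D) → (θ : G → ℂ) z = 0) := by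
  classical
  haveI : Fintype G := Fintype.ofFinite G
  have h : Cfsg.Agent.Lib.BlockPC2.Ctx p M D B χ := ⟨hM, hD, hG, hB, hBD, hχ, hχD⟩
  obtain ⟨f, f1, f2, f3, f4⟩ := Cfsg.Agent.Lib.BlockPC2.main h
  have key : ∀ ζ : Cfsg.IrrCharacter D, (∀ (y : D) (x : G), ¬ p ∣ orderOf x → Commute (y : G) x →
      (f ζ : G → ℂ) ((y : G) * x) = (ζ : D → ℂ) y * (χ : G → ℂ) x) ∧
      (∀ z : G, (∀ y : G, Cfsg.IsPPart p z y → y ∉ D) → (f ζ : G → ℂ) z = 0) := by
    intro ζ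
    refine ⟨fun y x hx _ => f4 ζ y x hx, fun z hz => ?_⟩
    apply Cfsg.Agent.Lib.BlockPC2.vanish h (f1 ζ)
    intro y x hx e
    refine hz y ⟨x, e.symm, ?_, Cfsg.Agent.Lib.BlockPC.orderOf_pGroup_mem D hM.1 hD y.2, hx⟩ y.2
    exact (Subgroup.mem_centralizer_iff.mp
      (Cfsg.Agent.Lib.BlockPC2.regular_mem D hM.1 hD hG x hx)) y y.2
  refine ⟨fun θ => ⟨fun hθ => ?_, ?_⟩, fun ζ => ⟨f ζ, f1 ζ, key ζ⟩⟩
  · obtain ⟨ζ, rfl⟩ := f3 θ hθ
    exact ⟨ζ, key ζ⟩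
  · rintro ⟨ζ, h1, -⟩
    apply Cfsg.Agent.Lib.BlockPC2.mem_of_prop h θ ((ζ : D → ℂ) 1)
    intro x hx
    have := h1 1 x hx (by simp)
    simpa using this

end Cfsg.Agent.S4714
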