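import Cfsg.Statements.S4717
import Cfsg.Agent.Lib.helper8_Major

set_option autoImplicit false
open Cfsg Cfsg.Agent.Lib.Helper2_BlockLocal Cfsg.Agent.Lib.helper8_Major
  Cfsg.Agent.Lib.Helper2_BlockOm Cfsg.Agent.Lib.Helper2_BlockFMT Cfsg.Agent.Lib.Helper2_BlockDefOrder
  Cfsg.Agent.Lib.Helper2_BlockThird Cfsg.Agent.Lib.Helper2_SecondMain2
open scoped Classical

namespace Cfsg.Agent.S4717

/-- Let p be a prime, M a maximal ideal of the algebraic integers containing p, and r a natural number; say that a finite group X has deficiency class r when X has no non-principal p-block of defect ≥ r. If G has deficiency class r then so does the centralizer of every p-element of G; conversely, if r > 0 and the centralizer of every element of order p has deficiency class r, then G has deficiency class r. -/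
theorem result {G : Type*} [Group G] [Finite G] (p : ℕ) [Fact p.Prime] (M : Ideal Cfsg.AlgInt) (hM : Cfsg.IsPModular p M) (r : ℕ) : ((∀ B' : Set (Cfsg.IrrCharacter G), Cfsg.IsPBlock M B' → B' ≠ Cfsg.principalBlock M G → Cfsg.blockDefect p B' < r) → ∀ y : G, (∃ k : ℕ, orderOf y = p ^ k) → (∀ B' : Set (Cfsg.IrrCharacter ↥(Subgroup.centralizer ({y} : Set G))), Cfsg.IsPBlock M B' → B' ≠ Cfsg.principalBlock M ↥(Subgroup.centralizer ({y} : Set G)) → Cfsg.blockDefect p B' < r)) ∧ (0 < r → (∀ y : G, orderOf y = p → (∀ B' : Set (Cfsg.IrrCharacter ↥(Subgroup.centralizer ({y} : Set G))), Cfsg.IsPBlock M B' → B' ≠ Cfsg.principalBlock M ↥(Subgroup.centralizer ({y} : Set G)) → Cfsg.blockDefect p B' < r)) → (∀ B' : Set (Cfsg.IrrCharacter G), Cfsg.IsPBlock M B' → B' ≠ Cfsg.principalBlock M G → Cfsg.blockDefect p B' < r)) := by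
  have := Fintype.ofFinite G
  have hPr := isPrime_of_modular hM
  have hp := hM.1
  constructor
  · intro h y hy b' hb' hne
    obtain ⟨B', hind⟩ := induced_defined_centralizer hM hy hb'
    have h1 : B' ≠ principalBlock M G := fun e => hne ((third_main hM hind).mp e)
    exact lt_of_le_of_lt (defect_le_induced hM hind) (h B' hind.2.1 h1)
  · intro hr h B' hB' hne
    by_contra hcon
    push Not at hcon
    obtain ⟨D, hD⟩ := exists_defectGroup (p := p) hPr hB'
    have hcard := card_defectGroup hM hB' hD
    have hDp := isPGroup_of_defect hD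
    have hnt : Nontrivial D := by
      rw [← Finite.one_lt_card_iff_nontrivial, hcard]
      exact Nat.one_lt_pow (by omega) hp.one_lt
    have hZnt : Nontrivial (Subgroup.center D) := hDp.center_nontrivial
    have hZp : IsPGroup p (Subgroup.center D) := hDp.to_subgroup _
    have hdvd : p ∣ Nat.card (Subgroup.center D) := by
      obtain ⟨n, hn⟩ := IsPGroup.iff_card.mp hZp
      rw [hn]
      have hn0 : n ≠ 0 := by
        rintro rfl
        rw [pow_zero] at hn
        have := Finite.one_lt_card_iff_nontrivial.mpr hZnt
        omega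
      exact dvd_pow_self p hn0
    obtain ⟨z, hz⟩ := exists_prime_orderOf_dvd_card' p hdvd
    have hzo : orderOf ((z : D) : G) = p := by
      rw [Subgroup.orderOf_coe, Subgroup.orderOf_coe, hz]
    have hzc : ∀ d ∈ D, d * ((z : D) : G) = ((z : D) : G) * d := by
      intro d hd
      have := Subgroup.mem_center_iff.mp z.2 ⟨d, hd⟩
      exact congrArg Subtype.val this
    obtain ⟨b, hind, hle⟩ := exists_major hM hB' hD (z : D).2 hzc
    have h1 : b ≠ principalBlock M _ := fun e => hne ((third_main hM hind).mpr e)
    have := h _ hzo b hind.1 h1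
    omega

end Cfsg.Agent.S4717
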