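import Cfsg.Statements.S4718
import Cfsg.Agent.S4494
import Cfsg.Agent.Lib.helper8_Landau
import Cfsg.Agent.Lib.CharComplete
import Cfsg.Agent.Lib.Helper2_BlockThird

set_option autoImplicit false
universe u
open Cfsg Cfsg.Agent.Lib.Helper2_BlockLocal Cfsg.Agent.Lib.Helper2_BlockOm Cfsg.Agent.Lib.Helper2_BlockThird

namespace Cfsg.Agent.S4718

/-- Let p be a prime and a a natural number. There is a bound N such that every finite group whose Sylow p-subgroups have order p^a and whose only p-block (relative to a maximal ideal of the algebraic integers containing p) is the principal block has order at most N. -/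
theorem result (p : ℕ) [Fact p.Prime] (a : ℕ) : ∃ N : ℕ, ∀ (G : Type u) [Group G] [Finite G] (M : Ideal Cfsg.AlgInt), Cfsg.IsPModular p M → (Nat.card G).factorization p = a → (∀ B : Set (Cfsg.IrrCharacter G), Cfsg.IsPBlock M B → B = Cfsg.principalBlock M G) → Nat.card G ≤ N := by
  obtain ⟨N, hN⟩ := Cfsg.Agent.Lib.helper8_Landau.landau.{u} (p ^ (2 * a) + 4)
  refine ⟨N, fun G _ _ M hM ha hB => hN G ?_⟩
  have := Fintype.ofFinite G
  have hPr := isPrime_of_modular hM
  have h1 := Cfsg.Agent.S4494.result p M hM _ (principalBlock_isPBlock M G)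
  have h2 : principalBlock M G = Set.univ := by
    ext χ
    simp only [Set.mem_univ, iff_true]
    rw [← hB _ ⟨χ, rfl⟩]
    exact self_mem_blockOf hPr χ
  rw [h2, Nat.card_coe_set_eq, Set.ncard_univ,
    Cfsg.Agent.Lib.CharComplete.card_irr_eq_card_conjClasses] at h1
  have h3 : blockDefect p (Set.univ : Set (IrrCharacter G)) ≤ a := by
    unfold blockDefect
    rw [ha]
    exact Nat.sub_le _ _
  have h4 : p ^ (2 * blockDefect p (Set.univ : Set (IrrCharacter G))) ≤ p ^ (2 * a) :=
    Nat.pow_le_pow_right (Fact.out : p.Prime).pos (by omega)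
  omega

end Cfsg.Agent.S4718
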