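import Cfsg.Statements.S4721
import Cfsg.Agent.Lib.helper8_BL8
import Cfsg.Agent.Lib.Helper7_PClass
import Cfsg.Agent.S4709

set_option autoImplicit false
open Cfsg

namespace Cfsg.Agent.S4721

open Cfsg.Agent.Lib.Helper2_BlockLocal Cfsg.Agent.Lib.Helper2_BlockThird
  Cfsg.Agent.Lib.Helper2_PrincipalSection Cfsg.Agent.Lib.Helper2_BlockQuot
  Cfsg.Agent.Lib.helper6_HomoChar Cfsg.Agent.Lib.helper8_BL2
  Cfsg.Agent.Lib.helper8_BL3 Cfsg.Agent.Lib.helper8_BL4 Cfsg.Agent.Lib.helper8_BL5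
  Cfsg.Agent.Lib.helper8_BL6 Cfsg.Agent.Lib.helper8_BL7 Cfsg.Agent.Lib.helper8_BL8
  Cfsg.Agent.Lib.helper8_Defect Cfsg.Agent.Lib.helper6_Lattice Cfsg.Agent.S4709
  Cfsg.Agent.Lib.helper6_Homo


/-- Let p be a prime, M a maximal ideal of the algebraic integers containing p, and G a finite group with a nontrivial abelian Sylow p-subgroup P, N = N_G(P), C = C_G(P), such that N/C is cyclic of order 3, #P > 4, and C_G(y) ∩ N = C for every non-identity y ∈ P. Then the principal p-block is the disjoint union of a set X of exactly 3 characters containing the principal character and a set Y of (#P − 1)/3 characters, with signs a_χ = ±1 (χ ∈ X, a = 1 at the principal character) and δ = ±1 such that every χ ∈ X takes the value a_χ at every element whose p-part is a non-identity element of P, and there is a map ζ from the non-principal linear characters of P onto Y, constant on N-conjugacy classes, with ζ_ψ(z) = δ·Σ ψ'(y)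 over the N-orbit of ψ, for z with p-part y ≠ 1 in P. If moreover G has an involution lying in no proper normal subgroup of G, then exactly two of the three numbers −δ and a_χ (χ ∈ X non-principal) equal −1, and the product of the degrees of the two non-principal members of X and of any member of Y is a perfect square. -/
theorem result {G : Type*} [Group G] [Finite G] (p : ℕ) [Fact p.Prime] (M : Ideal Cfsg.AlgInt) (hM : Cfsg.IsPModular p M) (P : Sylow p G) (hab : IsMulCommutative P) (hP1 : Nat.card P ≠ 1) (hCN : (Subgroup.centralizer ((P : Subgroup G) : Set G)).relIndex (Subgroup.normalizer ((P : Subgroup G) : Set G)) = 3) (hcyc : ∃ g : G, g ∈ Subgroup.normalizer ((P : Subgroup G) : Set G) ∧ Subgroup.centralizer ((P : Subgroup G) : Set G) ⊔ Subgroup.zpowers g = Subgroup.normalizer ((P : Subgroup G) : Set G)) (hm2 : 3 + 1 < Nat.card P) (hfrob : ∀ y : G, y ∈ (P : Subgroup G) → y ≠ 1 → Subgroup.centralizer ({y}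 : Set G) ⊓ Subgroup.normalizer ((P : Subgroup G) : Set G) = Subgroup.centralizer ((P : Subgroup G) : Set G)) : ∃ (X Y : Set (Cfsg.IrrCharacter G)), Cfsg.principalBlock M G = X ∪ Y ∧ Disjoint X Y ∧ Nat.card X = 3 ∧ Nat.card Y = (Nat.card P - 1) / 3 ∧ (∃ χ₁ ∈ X, (χ₁ : G → ℂ) = fun _ => 1) ∧ ∃ (a : Cfsg.IrrCharacter G → ℤ) (δ : ℤ) (ζ : (↥(P : Subgroup G) →* ℂˣ) → Cfsg.IrrCharacter G), (δ = 1 ∨ δ = -1) ∧ (∀ χ ∈ X, (a χ = 1 ∨ a χ = -1) ∧ ∀ z y : G, Cfsg.IsPPart p z y → y ∈ (P : Subgroup G) → y ≠ 1 → (χ : G → ℂ) z = (a χ : ℂ)) ∧ (∀ ψ : ↥(P : Subgroup G) →* ℂˣ, ψ ≠ 1 → ζ ψ ∈ Y) ∧ (∀ η ∈ Y, ∃ ψ : ↥(P : Subgroup G) →* ℂˣ, ψ ≠ 1 ∧ ζ ψ = η) ∧ (∀ ψ ψ' : ↥(P : Subgroup G) →* ℂˣ, ψ ≠ 1 → (∃ n : G, n ∈ Subgroup.normalizer ((P : Subgroup G) : Set G) ∧ ∀ w w' : ↥(P : Subgroup G), (w' : G) = n * w * n⁻¹ → ψ' w' = ψ w) → ζ ψ' = ζ ψ) ∧ (∀ ψ : ↥(P : Subgroup G) →* ℂˣ, ψ ≠ 1 → ∀ (z : G) (y : ↥(P : Subgroup G)), Cfsg.IsPPart p z (y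 : G) → (y : G) ≠ 1 → (ζ ψ : G → ℂ) z = (δ : ℂ) * ∑ᶠ ψ' ∈ {ψ' : ↥(P : Subgroup G) →* ℂˣ | ∃ n : G, n ∈ Subgroup.normalizer ((P : Subgroup G) : Set G) ∧ ∀ w w' : ↥(P : Subgroup G), (w' : G) = n * w * n⁻¹ → ψ' w' = ψ w}, ((ψ' y : ℂˣ) : ℂ)) ∧ ((∃ t : G, orderOf t = 2 ∧ ∀ K : Subgroup G, K.Normal → t ∈ K → K = ⊤) → Nat.card {χ : Cfsg.IrrCharacter G // χ ∈ X ∧ (χ : G → ℂ) ≠ (fun _ => 1) ∧ a χ = -1} + (if δ = 1 then 1 else 0) = 2 ∧ ∀ η ∈ Y, IsSquare (Cfsg.charDegree (η : G → ℂ) * ∏ᶠ χ ∈ {χ : Cfsg.IrrCharacter G | χ ∈ X ∧ (χ : G → ℂ) ≠ fun _ => 1}, Cfsg.charDegree (χ : G → ℂ))) := by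
  classical
  have : Fintype G := Fintype.ofFinite G
  have hs := setup_of_hyp p P hab 3 hCN hfrob
  set A := (P : Subgroup G).normalizerMonoidHom.range with hA
  have : Finite A := Nat.finite_of_card_ne_zero (by rw [hs.card]; omega)
  have : Fintype A := Fintype.ofFinite A
  have : Fintype (P : Subgroup G) := Fintype.ofFinite _
  have : Finite ((P : Subgroup G) →* ℂˣ) := dual_finite' hs.comm
  have : Fintype ((P : Subgroup G) →* ℂˣ) := Fintype.ofFinite _
  choose u hu using fun μ : (P : Subgroup G) →* ℂˣ => exists_u (P : Subgroup G) μ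
  obtain ⟨δ, w, e, hF, hw0⟩ := form3 hs hM hm2 u hu
  obtain ⟨XF, YF, d, hU, hdisj, hcardY, hone, hd, hX, heY, hYe, hiff, hYval, hnorm,
    hagree, hrel⟩ := post hs hM hm2 u hu hF
  obtain ⟨μ₀, ν₀, hμ₀, hν₀, hnr⟩ := exists_pair hs hm2
  have hd0 : d = 0 := by rw [← hd ⟨μ₀, hμ₀⟩, hw0]
  subst hd0
  have hδ := hF.sign
  have hδ2 : δ * δ = 1 := by rcases hδ with h | h <;> rw [h] <;> norm_num
  have hp1 : ¬ p ∣ 1 := fun h => hM.1.one_lt.ne' (Nat.dvd_one.mp h)
  have hr : (Nat.card P - 1) / 3 = YF.card := by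
    rw [← hcardY]; exact Nat.mul_div_cancel _ (by norm_num)
  have hmemB : ∀ χ : IrrCharacter G, χ ∈ XF ∪ YF ↔ χ ∈ principalBlock M G := by
    intro χ
    rw [hU]; simp
  have hpp : ∀ χ ∈ principalBlock M G, ∀ z y : G, IsPPart p z y → y ∈ (P : Subgroup G) → y ≠ 1 →
      (χ : G → ℂ) z = (χ : G → ℂ) y := by
    rintro χ hχ z y ⟨v, hyv, hcomm, hyo, hv⟩ hyP hy1
    obtain ⟨k, hk, hidx, hfac⟩ := hs.core ⟨y, hyP⟩ (fun h => hy1 (congrArg Subtype.val h))
    have hvC : v ∈ Subgroup.centralizer ({y} : Set G) := by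
      rw [Subgroup.mem_centralizer_singleton_iff]; exact hcomm.eq.symm
    have hv' : (⟨v, hvC⟩ : Subgroup.centralizer ({y} : Set G)) ∈
        pPrimeCore p (Subgroup.centralizer ({y} : Set G)) :=
      mem_core_of_regular hM.1 hidx (by rw [Subgroup.orderOf_mk]; exact hv)
    rw [← hyv]
    exact principal_core_invariant hM hyo ⟨⟨v, hvC⟩, hv', rfl⟩ hχ
  have hset : ∀ ψ ψ' : (P : Subgroup G) →* ℂˣ,
      (∃ n : G, n ∈ Subgroup.normalizer ((P : Subgroup G) : Set G) ∧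
        ∀ w w' : ↥(P : Subgroup G), (w' : G) = n * w * n⁻¹ → ψ' w' = ψ w) ↔ Rel A ψ ψ' := by
    intro ψ ψ'
    constructor
    · rintro ⟨n, hn, h⟩
      refine ⟨(P : Subgroup G).normalizerMonoidHom ⟨n, hn⟩, ⟨_, rfl⟩, ?_⟩
      ext x
      rw [act_apply, h x _ rfl]
    · rintro ⟨b, ⟨n, rfl⟩, h⟩
      refine ⟨n, n.2, fun x x' hx => ?_⟩
      have h1 : x' = (P : Subgroup G).normalizerMonoidHom n x := Subtype.ext hx
      rw [h1, h, act_apply]
  obtain ⟨y₀, hy₀⟩ := exists_ne_one (P := (P : Subgroup G)) (by omega)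
  have hcen : ∀ y : (P : Subgroup G), (P : Subgroup G) ≤ Subgroup.centralizer ({(y : G)} : Set G) := by
    intro y s hs'
    rw [Subgroup.mem_centralizer_singleton_iff]
    exact congrArg Subtype.val (hs.comm ⟨s, hs'⟩ y)
  have hwne : ∀ χ ∈ XF, w χ ≠ 0 := by
    intro χ hχ h0
    have h1 := hX χ hχ y₀ hy₀
    rw [h0, Int.cast_zero] at h1
    exact ne_zero_of_central' hM P (hcen y₀)
      ((hmemB χ).mp (Finset.mem_union_left _ hχ)) h1
  have hS3 : ∑ χ ∈ XF, w χ ^ 2 = 3 := by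
    push_cast at hnorm
    linear_combination hnorm - hδ2
  have hwpm : ∀ χ ∈ XF, w χ = 1 ∨ w χ = -1 := by
    intro χ hχ
    have h1 := Finset.single_le_sum (f := fun χ => w χ ^ 2) (fun χ _ => sq_nonneg _) hχ
    simp only [hS3] at h1
    have h2 := hwne χ hχ
    have h3 : -1 ≤ w χ := by nlinarith
    have h4 : w χ ≤ 1 := by nlinarith
    omega
  have hXcard : XF.card = 3 := by
    have h1 : ∑ χ ∈ XF, w χ ^ 2 = ∑ χ ∈ XF, (1 : ℤ) := by
      refine Finset.sum_congr rfl fun χ hχ => ?_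
      rcases hwpm χ hχ with h | h <;> rw [h] <;> norm_num
    rw [hS3] at h1
    simp only [Finset.sum_const, mul_one, nsmul_eq_mul] at h1
    exact_mod_cast h1.symm
  have hEcard : (XF.erase (oneIrr G)).card = 2 := by
    rw [Finset.card_erase_of_mem hone, hXcard]
  obtain ⟨χ2, χ3, hne23, hE⟩ := Finset.card_eq_two.mp hEcard
  have hm2E : χ2 ∈ XF.erase (oneIrr G) := by rw [hE]; simp
  have hm3E : χ3 ∈ XF.erase (oneIrr G) := by rw [hE]; simp
  have hχ2X := (Finset.mem_erase.mp hm2E).2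
  have hχ3X := (Finset.mem_erase.mp hm3E).2
  have hχ2o := (Finset.mem_erase.mp hm2E).1
  have hχ3o := (Finset.mem_erase.mp hm3E).1
  have hsumX : ∀ F : IrrCharacter G → ℂ, ∑ χ ∈ XF, F χ = F (oneIrr G) + (F χ2 + F χ3) := by
    intro F
    rw [← Finset.add_sum_erase XF F hone, hE, Finset.sum_pair hne23]
  have hoval : ∀ g : G, (oneIrr G : G → ℂ) g = 1 := fun g => rfl
  have hwo : w (oneIrr G) = 1 := by
    have h1 := hX _ hone y₀ hy₀
    rw [hoval] at h1
    exact_mod_cast h1.symm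
  have hf1 : ∀ χ : IrrCharacter G, (χ : G → ℂ) 1 = ((charDegree (χ : G → ℂ) : ℤ) : ℂ) := by
    intro χ
    rw [(irr_charDegree χ.2).2.1]; simp
  have hfpos : ∀ χ : IrrCharacter G, 0 < (charDegree (χ : G → ℂ) : ℤ) := by
    intro χ
    exact_mod_cast (irr_charDegree χ.2).1
  have hR1 : ∀ η ∈ YF, 1 + w χ2 * (charDegree (χ2 : G → ℂ) : ℤ) +
      w χ3 * (charDegree (χ3 : G → ℂ) : ℤ) + (-δ) * (charDegree (η : G → ℂ) : ℤ) = 0 := by
    intro η hη
    have h1 := hrel η hη 1 (by rw [orderOf_one]; exact hp1)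
    rw [hsumX, hoval, hwo, hf1, hf1, hf1] at h1
    have : ((1 + w χ2 * (charDegree (χ2 : G → ℂ) : ℤ) +
      w χ3 * (charDegree (χ3 : G → ℂ) : ℤ) + (-δ) * (charDegree (η : G → ℂ) : ℤ) : ℤ) : ℂ) = 0 := by
      push_cast
      push_cast at h1
      linear_combination h1
    exact_mod_cast this
  have hnδ : -δ = 1 ∨ -δ = -1 := by
    rcases hδ with h | h
    · right; rw [h]
    · left; rw [h]; norm_num
  have hfinal : ∀ t : G, orderOf t = 2 → (∀ K : Subgroup G, K.Normal → t ∈ K → K = ⊤) →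
      ∀ η ∈ YF, w χ2 * w χ3 * (-δ) = 1 ∧ IsSquare ((charDegree (χ2 : G → ℂ) : ℤ) *
        (charDegree (χ3 : G → ℂ) : ℤ) * (charDegree (η : G → ℂ) : ℤ)) := by
    intro t ht hK η hη
    obtain ⟨μ, rfl⟩ := hYe η hη
    by_cases hp2 : p = 2
    · exfalso
      subst hp2
      obtain ⟨c, hc⟩ := Cfsg.Agent.Lib.Helper7_PClass.exists_conj_mem_sylow P (g := t)
        ⟨1, by rw [ht, pow_one]⟩
      set t' : (P : Subgroup G) := ⟨c * t * c⁻¹, hc⟩ with ht'def
      have ht' : orderOf (t' : G) = 2 := by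
        show orderOf (c * t * c⁻¹) = 2
        rw [orderOf_conj'', ht]
      have ht't' : t' * t' = 1 := Subtype.ext (sq_of_order ht')
      have ht'1 : t' ≠ 1 := by
        intro h
        rw [h, Subgroup.coe_one, orderOf_one] at ht'
        norm_num at ht'
      have hK' : ∀ K : Subgroup G, K.Normal → (t' : G) ∈ K → K = ⊤ := by
        intro K hKn hmem
        apply hK K hKn
        have h1 := hKn.conj_mem _ hmem c⁻¹
        have h2 : c⁻¹ * (t' : G) * c⁻¹⁻¹ = t := by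
          show c⁻¹ * (c * t * c⁻¹) * c⁻¹⁻¹ = t
          group
        rwa [h2] at h1
      obtain ⟨k, hk, -, -⟩ := hs.core y₀ hy₀
      have hq16 : 16 ≤ Nat.card (P : Subgroup G) := by
        rw [hk] at hcardY hm2 ⊢
        have hk4 : 4 ≤ k := by
          by_contra hlt
          have hk3 : k ≤ 3 := by omega
          interval_cases k <;> first | omega | (norm_num at hcardY hm2; done) | (norm_num at hcardY hm2; omega)
        calc 16 = 2 ^ 4 := by norm_num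
          _ ≤ 2 ^ k := Nat.pow_le_pow_right (by norm_num) hk4
      obtain ⟨l, hl1, hl⟩ := exists_l hs (by omega) t' ht't'
      have hvan : ∀ x : (P : Subgroup G), l x ≠ 1 →
          ∑ χ ∈ Finset.univ.filter (fun χ : IrrCharacter G => χ ∈ principalBlock M G),
            ((χ : G → ℂ) t' * (χ : G → ℂ) t' / (χ : G → ℂ) 1) *
              (starRingEnd ℂ) ((χ : G → ℂ) x) = 0 := by
        intro x hx
        have hx1 : x ≠ 1 := fun h' => hx (by rw [h', map_one])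
        have hxt : ¬ IsConj (t' : G) (x : G) := by
          intro hcj
          obtain ⟨b, hb, h'⟩ := hs.fus t' x hcj
          exact hx (by rw [h']; exact hl b hb)
        exact block_vanish' hM (x : G) (hs.pel x) (no_pairs_two P hs t' ht' x hxt hx1)
      have hW := weight_form u hu hF hw0 hU hdisj heY hYe
        (fun χ => (χ : G → ℂ) t' * (χ : G → ℂ) t' / (χ : G → ℂ) 1) ⟨l, hl1⟩ hvan
      have hel : (e ⟨l, hl1⟩ : G → ℂ) t' = (δ : ℂ) * 3 := by
        rw [hYval ⟨l, hl1⟩ t' ht'1, sum_rel hs hl1 (fun ν => ((ν t' : ℂˣ) : ℂ))]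
        have h1 : ∀ b : A, (((act (b : MulAut (P : Subgroup G))⁻¹ l) t' : ℂˣ) : ℂ) = 1 := by
          intro b
          rw [act_apply, hl _ (A.inv_mem b.2)]; rfl
        rw [Finset.sum_congr rfl (fun b _ => h1 b), Finset.sum_const, Finset.card_univ,
          ← Nat.card_eq_fintype_card, hs.card]
        simp
      rw [hsumX] at hW
      simp only [hoval, hwo] at hW
      rw [hX χ2 hχ2X t' ht'1, hX χ3 hχ3X t' ht'1, hel] at hW
      simp only [hf1] at hW
      have sq1 : ∀ {a : ℤ}, (a = 1 ∨ a = -1) → (a : ℂ) * a = 1 := by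
        intro a ha
        rcases ha with rfl | rfl <;> norm_num
      obtain ⟨f2, hf2⟩ : ∃ f : ℤ, f = (charDegree (χ2 : G → ℂ) : ℤ) := ⟨_, rfl⟩
      obtain ⟨f3, hf3⟩ : ∃ f : ℤ, f = (charDegree (χ3 : G → ℂ) : ℤ) := ⟨_, rfl⟩
      obtain ⟨f, hf⟩ : ∃ f : ℤ, f = (charDegree (e ⟨l, hl1⟩ : G → ℂ) : ℤ) := ⟨_, rfl⟩
      have E1 := hR1 _ (heY ⟨l, hl1⟩)
      have p2 := hfpos χ2
      have p3 := hfpos χ3
      have pf := hfpos (e ⟨l, hl1⟩)
      obtain ⟨j1, hj1⟩ := cong (P := (P : Subgroup G)) χ2 (hwpm χ2 hχ2X) (hX χ2 hχ2X)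
      obtain ⟨j2, hj2⟩ := cong (P := (P : Subgroup G)) χ3 (hwpm χ3 hχ3X) (hX χ3 hχ3X)
      rw [← hf2, ← hf3, ← hf] at E1 hW
      rw [← hf2] at p2 hj1
      rw [← hf3] at p3 hj2
      rw [← hf] at pf
      have c2 : (f2 : ℂ) ≠ 0 := by exact_mod_cast p2.ne'
      have c3 : (f3 : ℂ) ≠ 0 := by exact_mod_cast p3.ne'
      have c1 : (f : ℂ) ≠ 0 := by exact_mod_cast pf.ne'
      have E2 : f * f2 * f3 + 9 * (-δ) * f2 * f3 + w χ2 * f * f3 + w χ3 * f * f2 = 0 := by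
        have t2 : (w χ2 : ℂ) * (w χ2 : ℂ) / (f2 : ℂ) * (w χ2 : ℂ) = (w χ2 : ℂ) / (f2 : ℂ) := by
          rw [sq1 (hwpm χ2 hχ2X)]; ring
        have t3 : (w χ3 : ℂ) * (w χ3 : ℂ) / (f3 : ℂ) * (w χ3 : ℂ) = (w χ3 : ℂ) / (f3 : ℂ) := by
          rw [sq1 (hwpm χ3 hχ3X)]; ring
        have t1 : (δ : ℂ) * ((δ : ℂ) * 3 * ((δ : ℂ) * 3) / (f : ℂ)) = 9 * (δ : ℂ) / (f : ℂ) := by
          have e9 : (δ : ℂ) * ((δ : ℂ) * 3 * ((δ : ℂ) * 3) / (f : ℂ)) =
              9 * (((δ : ℂ) * (δ : ℂ)) * (δ : ℂ)) / (f : ℂ) := by ring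
          rw [e9, sq1 hδ, one_mul]
        rw [t1, t2, t3] at hW
        have h5 : ((f * f2 * f3 + 9 * (-δ) * f2 * f3 + w χ2 * f * f3 + w χ3 * f * f2 : ℤ) : ℂ) =
            ((0 : ℤ) : ℂ) := by
          push_cast
          push_cast at hW
          field_simp at hW
          linear_combination hW
        exact_mod_cast h5
      have hfin := arith (q := (Nat.card (P : Subgroup G) : ℤ)) (by exact_mod_cast hq16) hj1 hj2
        (arith2 hnδ (hwpm χ2 hχ2X) (hwpm χ3 hχ3X) (by linarith) E2)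
      have h8 := hfin.1
      have hw2 : w χ2 = 1 ∧ f2 = 1 := by
        rcases hwpm χ2 hχ2X with h' | h'
        · rw [h'] at h8; exact ⟨h', by linarith⟩
        · rw [h'] at h8; exfalso; linarith
      apply hχ2o
      apply ker_top χ2 hK'
      rw [hX χ2 hχ2X t' ht'1, hf1, ← hf2, hw2.1, hw2.2]
    · have hreg : ¬ p ∣ orderOf t := by
        rw [ht]
        intro h
        exact hp2 ((Nat.prime_dvd_prime_iff_eq hM.1 Nat.prime_two).mp h)
      obtain ⟨x2, hx2⟩ := int_invol χ2 ht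
      obtain ⟨x3, hx3⟩ := int_invol χ3 ht
      obtain ⟨h, hh⟩ := int_invol (e μ) ht
      have R2 : 1 + w χ2 * x2 + w χ3 * x3 + (-δ) * h = 0 := by
        have h1 := hrel (e μ) hη t hreg
        rw [hsumX, hoval, hwo, hx2, hx3, hh] at h1
        have : ((1 + w χ2 * x2 + w χ3 * x3 + (-δ) * h : ℤ) : ℂ) = 0 := by
          push_cast
          push_cast at h1
          linear_combination h1
        exact_mod_cast this
      have hW := weight_form u hu hF hw0 hU hdisj heY hYe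
        (fun χ => (χ : G → ℂ) t * (χ : G → ℂ) t / (χ : G → ℂ) 1) μ (fun x hx =>
          block_vanish' hM (x : G) (hs.pel x) (no_pairs_odd hs hM.1 hp2 ht x
            (fun h' => hx (by rw [h', map_one]))))
      rw [hsumX] at hW
      simp only [hoval, hwo] at hW
      simp only [hx2, hx3, hh, hf1] at hW
      have c2 : ((charDegree (χ2 : G → ℂ) : ℤ) : ℂ) ≠ 0 := by exact_mod_cast (hfpos χ2).ne'
      have c3 : ((charDegree (χ3 : G → ℂ) : ℤ) : ℂ) ≠ 0 := by exact_mod_cast (hfpos χ3).ne'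
      have c1 : ((charDegree (e μ : G → ℂ) : ℤ) : ℂ) ≠ 0 := by exact_mod_cast (hfpos (e μ)).ne'
      have R3 : (charDegree (χ2 : G → ℂ) : ℤ) * (charDegree (χ3 : G → ℂ) : ℤ) *
          (charDegree (e μ : G → ℂ) : ℤ) + w χ2 * x2 ^ 2 * (charDegree (χ3 : G → ℂ) : ℤ) *
          (charDegree (e μ : G → ℂ) : ℤ) + w χ3 * x3 ^ 2 * (charDegree (χ2 : G → ℂ) : ℤ) *
          (charDegree (e μ : G → ℂ) : ℤ) + (-δ) * h ^ 2 * (charDegree (χ2 : G → ℂ) : ℤ) *
          (charDegree (χ3 : G → ℂ) : ℤ) = 0 := by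
        have : (((charDegree (χ2 : G → ℂ) : ℤ) * (charDegree (χ3 : G → ℂ) : ℤ) *
          (charDegree (e μ : G → ℂ) : ℤ) + w χ2 * x2 ^ 2 * (charDegree (χ3 : G → ℂ) : ℤ) *
          (charDegree (e μ : G → ℂ) : ℤ) + w χ3 * x3 ^ 2 * (charDegree (χ2 : G → ℂ) : ℤ) *
          (charDegree (e μ : G → ℂ) : ℤ) + (-δ) * h ^ 2 * (charDegree (χ2 : G → ℂ) : ℤ) *
          (charDegree (χ3 : G → ℂ) : ℤ) : ℤ) : ℂ) = 0 := by
          push_cast
          push_cast at hW c1 c2 c3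
          field_simp at hW
          linear_combination hW
        exact_mod_cast this
      have hne : x2 ≠ (charDegree (χ2 : G → ℂ) : ℤ) := by
        intro h'
        apply hχ2o
        apply ker_top χ2 hK
        rw [hx2, hf1, h']
      exact quad (hwpm χ2 hχ2X) (hwpm χ3 hχ3X) hnδ (hfpos χ2) (hfpos χ3) (hfpos (e μ))
        (hR1 _ hη) R2 R3 hne
  have hErase : ∀ χ : IrrCharacter G, (χ ∈ XF ∧ (χ : G → ℂ) ≠ fun _ => 1) ↔
      χ ∈ ({χ2, χ3} : Finset (IrrCharacter G)) := by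
    intro χ
    rw [← hE, Finset.mem_erase]
    constructor
    · rintro ⟨h1, h2⟩
      exact ⟨fun h => h2 (by rw [h]; rfl), h1⟩
    · rintro ⟨h1, h2⟩
      exact ⟨h2, fun h => h1 (Subtype.ext h)⟩
  refine ⟨↑XF, ↑YF, ?_, Finset.disjoint_coe.mpr hdisj, by simp [hXcard], by rw [hr]; simp,
    ⟨oneIrr G, hone, rfl⟩, w, δ, fun ψ => if h : ψ ≠ 1 then e ⟨ψ, h⟩ else oneIrr G, hδ,
    ?_, ?_, ?_, ?_, ?_, ?_⟩
  · ext χ
    rw [← hmemB χ]
    simp
  · intro χ hχ
    refine ⟨hwpm χ hχ, fun z y hz hy hy1 => ?_⟩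
    rw [hpp χ ((hmemB χ).mp (Finset.mem_union_left _ hχ)) z y hz hy hy1]
    exact hX χ hχ ⟨y, hy⟩ (fun h => hy1 (congrArg Subtype.val h))
  · intro ψ hψ
    simp only [dif_pos hψ]
    exact heY _
  · intro η hη
    obtain ⟨μ, hμ⟩ := hYe η hη
    exact ⟨μ.1, μ.2, by simp only [dif_pos μ.2]; exact hμ⟩
  · intro ψ ψ' hψ h
    have hR := (hset ψ ψ').mp h
    have hψ' := rel_ne_one hψ hR
    simp only [dif_pos hψ, dif_pos hψ']
    exact ((hiff ⟨ψ, hψ⟩ ⟨ψ', hψ'⟩).mpr hR).symm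
  · intro ψ hψ z y hz hy1
    simp only [dif_pos hψ]
    rw [hpp _ ((hmemB _).mp (Finset.mem_union_right _ (heY ⟨ψ, hψ⟩))) z y hz y.2 hy1,
      hYval ⟨ψ, hψ⟩ y (fun h => hy1 (congrArg Subtype.val h)), finsum_mem_fintype, Int.cast_zero,
      zero_add]
    congr 1
    refine Finset.sum_congr rfl fun ν _ => ?_
    have hmem : ν ∈ {ψ' : (P : Subgroup G) →* ℂˣ | ∃ n : G,
        n ∈ Subgroup.normalizer ((P : Subgroup G) : Set G) ∧
        ∀ w w' : ↥(P : Subgroup G), (w' : G) = n * w * n⁻¹ → ψ' w' = ψ w} ↔ Rel A ψ ν := hset ψ ν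
    by_cases h : Rel A ψ ν
    · rw [if_pos h, if_pos (hmem.mpr h)]
    · rw [if_neg h, if_neg (fun h' => h (hmem.mp h'))]
  · rintro ⟨t, ht, hK⟩
    have hfin := hfinal t ht hK
    constructor
    · obtain ⟨hsgn, -⟩ := hfin _ (heY ⟨μ₀, hμ₀⟩)
      have E1 := hR1 _ (heY ⟨μ₀, hμ₀⟩)
      have p2 := hfpos χ2
      have p3 := hfpos χ3
      have pf := hfpos (e ⟨μ₀, hμ₀⟩)
      have hcount : Nat.card {χ : IrrCharacter G // χ ∈ (↑XF : Set (IrrCharacter G)) ∧
          (χ : G → ℂ) ≠ (fun _ => 1) ∧ w χ = -1} =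
          (if w χ2 = -1 then 1 else 0) + (if w χ3 = -1 then 1 else 0) := by
        rw [Nat.card_eq_fintype_card, Fintype.card_subtype]
        have h1 : Finset.univ.filter (fun χ : IrrCharacter G => χ ∈ (↑XF : Set (IrrCharacter G)) ∧
            (χ : G → ℂ) ≠ (fun _ => 1) ∧ w χ = -1) =
            ({χ2, χ3} : Finset (IrrCharacter G)).filter (fun χ => w χ = -1) := by
          ext χ
          simp only [Finset.mem_filter, Finset.mem_univ, true_and, Finset.mem_coe]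
          rw [← hErase χ, and_assoc]
        rw [h1, Finset.card_filter, Finset.sum_pair hne23]
      rw [hcount]
      rcases hwpm χ2 hχ2X with h2 | h2 <;> rcases hwpm χ3 hχ3X with h3 | h3 <;>
        rcases hδ with h1 | h1 <;> rw [h1, h2, h3] at hsgn E1 <;> rw [h1, h2, h3] <;>
        first
          | (exfalso; norm_num at hsgn; done)
          | (exfalso; linarith)
          | norm_num
    · intro η hη
      obtain ⟨-, hsq⟩ := hfin η hη
      have hsetE : {χ : IrrCharacter G | χ ∈ (↑XF : Set (IrrCharacter G)) ∧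
          (χ : G → ℂ) ≠ fun _ => 1} = ↑({χ2, χ3} : Finset (IrrCharacter G)) := by
        ext χ
        simp only [Set.mem_ofPred_eq, Finset.mem_coe]
        exact hErase χ
      rw [hsetE, finprod_mem_coe_finset, Finset.prod_pair hne23]
      rw [← Int.isSquare_natCast_iff]
      push_cast
      have e1 : (charDegree (η : G → ℂ) : ℤ) * ((charDegree (χ2 : G → ℂ) : ℤ) *
          (charDegree (χ3 : G → ℂ) : ℤ)) = (charDegree (χ2 : G → ℂ) : ℤ) *
          (charDegree (χ3 : G → ℂ) : ℤ) * (charDegree (η : G → ℂ) : ℤ) := by ring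
      rw [e1]
      exact hsq

end Cfsg.Agent.S4721
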