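import Cfsg.Statements.S4725
import Mathlib
import Cfsg.Agent.Lib.Helper2_Up
import Cfsg.Agent.Lib.helper8_Height


set_option autoImplicit false
open Cfsg

namespace Cfsg.Agent.S4725

open Cfsg.Agent.Lib.CharBasic Cfsg.Agent.Lib.CharOrtho
  Cfsg.Agent.Lib.CharComplete Cfsg.Agent.Lib.CharIntegral Cfsg.Agent.Lib.CharMore
  Cfsg.Agent.Lib.CharInd Cfsg.Agent.Lib.helper8_Defect
  Cfsg.Agent.Lib.Helper2_BlockLocal Cfsg.Agent.Lib.Helper2_BlockOm Cfsg.Agent.Lib.Helper2_BlockBasic
  Cfsg.Agent.Lib.Helper2_BlockOsima Cfsg.Agent.Lib.Helper2_BlockDefect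
  Cfsg.Agent.Lib.helper8_Height

/-- Let p be a prime, M a maximal ideal of the algebraic integers containing p, H a subgroup of the finite group G, and b a p-block of H inducing the p-block B of G, with b and B of the same defect. Then for every height-zero ζ ∈ b there is a height-zero χ ∈ B whose multiplicity in the character induced from ζ is not divisible by p. -/
theorem result {G : Type*} [Group G] [Fintype G] (p : ℕ) [Fact p.Prime] (M : Ideal Cfsg.AlgInt) (hM : Cfsg.IsPModular p M) (H : Subgroup G) (b : Set (Cfsg.IrrCharacter ↥H)) (B : Set (Cfsg.IrrCharacter G)) (hind : Cfsg.IsInducedBlock M H b B) (hdef : Cfsg.blockDefect p b = Cfsg.blockDefect p B) (ζ : Cfsg.IrrCharacter ↥H) (hζ : ζ ∈ b) (hζ0 : Cfsg.blockHeight p b (ζ : ↥H → ℂ) = 0) : ∃ χ ∈ B, Cfsg.blockHeight p B (χ : G → ℂ) = 0 ∧ ∃ a : ℕ, Cfsg.classInner (Cfsg.indFun H (ζ : ↥H → ℂ)) (χ : G → ℂ) = (a : ℂ) ∧ ¬ p ∣ a := by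
  classical
  haveI : Fintype H := Fintype.ofFinite H
  have hp : p.Prime := hM.1
  have hP := isPrime_of_modular hM
  obtain ⟨hb, hB, -⟩ := id hind
  set θ : G → ℂ := indFun H (ζ : ↥H → ℂ) with hθ
  have hθc : IsCharacter G θ := isCharacter_indFun H _ (isCharacter_of_isIrr ζ.2)
  choose a ha using fun χ : IrrCharacter G => classInner_char_nat hθc (isCharacter_of_isIrr χ.2)
  by_contra hcon
  push Not at hcon
  have hdv : ∀ χ ∈ B, blockHeight p B (χ : G → ℂ) = 0 → p ∣ a χ := by
    intro χ hχ h0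
    exact hcon χ hχ h0 (a χ) (ha χ)
  obtain ⟨χ0, hχ0⟩ := block_nonempty hP hB
  have h1 := Om_restrict_congr_induced hP hind hζ hχ0 (blockCoeff_classFunction B)
    (osima_block hP hB)
  rw [Om_blockCoeff, if_pos hχ0, ← Cfsg.Agent.Lib.Helper2_BlockDefect.Om_ind H (blockCoeff_classFunction B)] at h1
  -- the sum
  have hsum : ∑ g, blockCoeff B g * θ g =
      ∑ χ ∈ Finset.univ.filter (fun χ : IrrCharacter G => χ ∈ B),
        ((a χ * charDegree (χ : G → ℂ) : ℕ) : ℂ) := by
    have e1 : ∀ g, θ g = ∑ χ : IrrCharacter G, (a χ : ℂ) * (χ : G → ℂ) g := by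
      intro g
      have := congrFun (char_expansion hθc) g
      rw [Finset.sum_apply] at this
      rw [this]
      refine Finset.sum_congr rfl fun χ _ => ?_
      rw [Pi.smul_apply, smul_eq_mul, ha]
    simp only [e1, Finset.mul_sum]
    rw [Finset.sum_comm, Finset.sum_filter]
    refine Finset.sum_congr rfl fun χ _ => ?_
    have e2 := Om_blockCoeff B χ
    unfold Om at e2
    obtain ⟨d0, d1, -⟩ := irr_charDegree χ.2
    have d2 : (χ : G → ℂ) 1 ≠ 0 := irr_degree_ne_zero χ.2
    rw [div_eq_iff d2] at e2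
    have e3 : ∑ g, blockCoeff B g * ((a χ : ℂ) * (χ : G → ℂ) g) =
        (a χ : ℂ) * ∑ g, blockCoeff B g * (χ : G → ℂ) g := by
      rw [Finset.mul_sum]
      refine Finset.sum_congr rfl fun g _ => ?_
      ring
    rw [e3, e2, d1]
    split_ifs <;> simp
  -- valuations
  obtain ⟨z0, z1, z2⟩ := irr_charDegree ζ.2
  have hv : (H.index * charDegree (ζ : ↥H → ℂ)).factorization p = mu p B := by
    rw [Nat.factorization_mul Subgroup.index_ne_zero_of_finite z0.ne', Finsupp.add_apply]
    have i1 : (Nat.card G).factorization p = (Nat.card H).factorization p + H.index.factorization p := by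
      rw [← H.card_mul_index, Nat.factorization_mul Nat.card_pos.ne' Subgroup.index_ne_zero_of_finite,
        Finsupp.add_apply]
    rw [blockDefect_eq', blockDefect_eq'] at hdef
    rw [blockHeight_eq] at hζ0
    have i2 := mu_le p hζ
    have i3 := ee_le p ζ
    obtain ⟨χ1, hχ1, i4⟩ := exists_min hP p hB
    have i5 := ee_le p χ1
    have i6 : (charDegree (ζ : ↥H → ℂ)).factorization p = ee p ζ := rfl
    omega
  have hne : H.index * charDegree (ζ : ↥H → ℂ) ≠ 0 :=
    Nat.mul_ne_zero Subgroup.index_ne_zero_of_finite z0.ne'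
  obtain ⟨m, hm⟩ : p ^ mu p B ∣ H.index * charDegree (ζ : ↥H → ℂ) := by
    rw [← hv]; exact Nat.ordProj_dvd _ _
  have hpm : ¬ p ∣ m := by
    intro hd
    have : p ^ (mu p B + 1) ∣ H.index * charDegree (ζ : ↥H → ℂ) := by
      rw [hm, pow_succ]; exact Nat.mul_dvd_mul_left _ hd
    have := (hp.pow_dvd_iff_le_factorization hne).mp this
    omega
  obtain ⟨k, hk⟩ : p ^ (mu p B + 1) ∣ ∑ χ ∈ Finset.univ.filter (fun χ : IrrCharacter G => χ ∈ B),
        (a χ * charDegree (χ : G → ℂ)) := by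
    refine Finset.dvd_sum fun χ hχ => ?_
    have hχB := (Finset.mem_filter.mp hχ).2
    obtain ⟨d0, -, -⟩ := irr_charDegree χ.2
    by_cases h0 : blockHeight p B (χ : G → ℂ) = 0
    · rw [pow_succ, mul_comm]
      apply Nat.mul_dvd_mul (hdv χ hχB h0)
      apply (hp.pow_dvd_iff_le_factorization d0.ne').mpr
      exact mu_le p hχB
    · apply Dvd.dvd.mul_left
      apply (hp.pow_dvd_iff_le_factorization d0.ne').mpr
      rw [blockHeight_eq] at h0
      have : (charDegree (χ : G → ℂ)).factorization p = ee p χ := rfl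
      omega
  have hOm : Om (blockCoeff B) θ = (p : ℂ) * (k : ℂ) * (m : ℂ)⁻¹ := by
    unfold Om
    rw [hsum, ← Nat.cast_sum, hk, hθ, indFun_one, z1, ← Nat.cast_mul, hm]
    have hpp : (p : ℂ) ≠ 0 := by exact_mod_cast hp.ne_zero
    have hm0 : (m : ℂ) ≠ 0 := by
      intro h
      have : m = 0 := by exact_mod_cast h
      exact hpm (this ▸ dvd_zero p)
    push_cast
    field_simp
    ring
  have h2 : MemLocalIdeal M (Om (blockCoeff B) θ) := by
    rw [hOm]
    exact ideal_mul_right hP (ideal_mul_right hP ((ideal_natCast_iff hM p).mpr dvd_rfl)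
      (ring_natCast hP k)) (ring_inv_natCast hM hpm)
  apply not_ideal_one hP
  have := ideal_sub hP h2 h1
  rw [← hθ, sub_sub_cancel] at this
  exact this

end Cfsg.Agent.S4725
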