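import Cfsg.Statements.S4726
import Mathlib
import Cfsg.Agent.Lib.Helper2_IndCent


set_option autoImplicit false
open Cfsg

namespace Cfsg.Agent.S4726

open Cfsg.Agent.Lib.Helper2_IndCent Cfsg.Agent.Lib.Helper2_Down Cfsg.Agent.Lib.Helper2_BlockSection

/-- Let p be a prime, M a maximal ideal of the algebraic integers containing p, H a subgroup of the finite group G and b a p-block of H with defect group D₀ such that C_G(D₀) ≤ H. Then b induces a block of G, and for every block B of G induced by b there is a defect group D of B with Z(D) ≤ Z(D₀) ≤ D₀ ≤ D (as subgroups of G). In particular, if the defect groups of B are abelian then D₀ is a defect group of B. -/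
theorem result {G : Type*} [Group G] [Finite G] (p : ℕ) [Fact p.Prime] (M : Ideal Cfsg.AlgInt) (hM : Cfsg.IsPModular p M) (H : Subgroup G) (b : Set (Cfsg.IrrCharacter ↥H)) (hb : Cfsg.IsPBlock M b) (D₀ : Subgroup ↥H) (hD₀ : Cfsg.IsDefectGroup p M b D₀) (hC : Subgroup.centralizer ((D₀.map H.subtype : Subgroup G) : Set G) ≤ H) : Cfsg.InducedBlockDefined M H b ∧ ∀ B : Set (Cfsg.IrrCharacter G), Cfsg.IsInducedBlock M H b B → (∃ D : Subgroup G, Cfsg.IsDefectGroup p M B D ∧ (Subgroup.center ↥D).map D.subtype ≤ ((Subgroup.center ↥D₀).map D₀.subtype).map H.subtype ∧ ((Subgroup.center ↥D₀).map D₀.subtype).map H.subtype ≤ D₀.map H.subtype ∧ D₀.map H.subtype ≤ D) ∧ (∀ D : Subgroup G, Cfsg.IsDefectGroup p M B D → IsMulCommutative ↥D → Cfsg.IsDefectGroup p M B (D₀.map H.subtype)) := by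
  classical
  have := Fintype.ofFinite G
  set R := D₀.map H.subtype with hR
  have hAdm : Adm H R := ⟨Subgroup.map_subtype_le D₀, hC⟩
  have hsub : R.subgroupOf H = D₀ :=
    Subgroup.comap_map_eq_self_of_injective (Subgroup.subtype_injective H) D₀
  have hD : Cfsg.IsDefectGroup p M b (R.subgroupOf H) := by rw [hsub]; exact hD₀
  refine ⟨induced_defined_of_centralizer hM hb hD₀ hC, ?_⟩
  intro B hind
  obtain ⟨D, hDd, hRD, hz⟩ := exists_defect_center hM hAdm hind hD
  refine ⟨⟨D, hDd, ?_, Subgroup.map_mono (Subgroup.map_subtype_le _), hRD⟩, ?_⟩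
  · rintro _ ⟨z, hz', rfl⟩
    have hzc : ∀ d ∈ D, (z : G) * d = d * (z : G) := by
      intro d hd
      have := (Subgroup.mem_center_iff.mp hz') ⟨d, hd⟩
      exact (congrArg Subtype.val this).symm
    obtain ⟨w, hw, hwz⟩ := hz (z : G) z.2 hzc
    refine ⟨w, ⟨⟨w, hw⟩, ?_, rfl⟩, hwz⟩
    show (⟨w, hw⟩ : D₀) ∈ Subgroup.center D₀
    rw [Subgroup.mem_center_iff]
    intro d
    apply Subtype.ext
    apply Subtype.ext
    show ((d : H) : G) * (w : G) = (w : G) * ((d : H) : G)
    have hdD : ((d : H) : G) ∈ D := hRD ⟨(d : H), d.2, rfl⟩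
    have h1 : (w : G) = (z : G) := hwz
    rw [h1]
    exact (hzc _ hdD).symm
  · intro D' hD' hab
    obtain ⟨c, hc⟩ := defect_le_conj hM hind.2.1 hD' hDd
    have hcomm : ∀ x ∈ D, ∀ y ∈ D, x * y = y * x := by
      intro x hx y hy
      obtain ⟨x', hx', rfl⟩ := hc hx
      obtain ⟨y', hy', rfl⟩ := hc hy
      have h1 : x' * y' = y' * x' :=
        congrArg Subtype.val ((isMulCommutative_iff.1 hab) ⟨x', hx'⟩ ⟨y', hy'⟩)
      simp only [MulEquiv.coe_toMonoidHom, MulAut.conj_apply]
      calc c * x' * c⁻¹ * (c * y' * c⁻¹) = c * (x' * y') * c⁻¹ := by group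
        _ = c * (y' * x') * c⁻¹ := by rw [h1]
        _ = _ := by group
    have hDR : D ≤ R := fun z hzD => hz z hzD (fun d hd => hcomm z hzD d hd)
    have : R = D := le_antisymm hRD hDR
    rw [this]
    exact hDd

end Cfsg.Agent.S4726
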