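import Cfsg.Statements.S4734
import Mathlib
import Cfsg.Agent.Lib.Helper2_KerPair3


set_option autoImplicit false
open Cfsg

namespace Cfsg.Agent.S4734

open Cfsg.Agent.Lib.Helper2_PiCore Cfsg.Agent.Lib.Helper2_KerPair1 Cfsg.Agent.Lib.Helper2_KerPair2
  Cfsg.Agent.Lib.Helper2_KerPair3

/-- Let p be a prime, π a set of primes containing p, M a maximal ideal of the algebraic integers containing p, B a p-block of the finite group G with defect group D, and B₁ the block of N_G(D) with defect group D inducing B. Write O_π'(X) for the largest normal subgroup of X whose order has no prime divisor in π, and suppose every element of O_π'(N_G(D)) lies in the kernel of every member of B₁. Let G₀ be a subgroup and B₀ a block of G₀ with defect group D₀ such that C_G(D₀) ≤ G₀ and B₀ induces B. Then every element of O_π'(G₀) lies in the kernel of every member of B₀. -/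
theorem result {G : Type*} [Group G] [Finite G] (p : ℕ) [Fact p.Prime] (M : Ideal Cfsg.AlgInt) (hM : Cfsg.IsPModular p M) (π : Set ℕ) (hpπ : p ∈ π) (B : Set (Cfsg.IrrCharacter G)) (hB : Cfsg.IsPBlock M B) (D : Subgroup G) (hBD : Cfsg.IsDefectGroup p M B D) (B₁ : Set (Cfsg.IrrCharacter ↥(Subgroup.normalizer (D : Set G)))) (hB₁ : Cfsg.IsInducedBlock M (Subgroup.normalizer (D : Set G)) B₁ B) (hB₁D : Cfsg.IsDefectGroup p M B₁ (D.subgroupOf (Subgroup.normalizer (D : Set G)))) (hker : ∀ n : ↥(Subgroup.normalizer (D : Set G)), n ∈ Cfsg.piCore {q | q ∉ π} ↥(Subgroup.normalizer (D : Set G)) → n ∈ Cfsg.blockKer B₁) (G₀ : Subgroup G) (B₀ : Set (Cfsg.IrrCharacter ↥G₀)) (hB₀ : Cfsg.IsInducedBlock M G₀ B₀ B) (D₀ : Subgroup ↥G₀) (hD₀ : Cfsg.IsDefectGroup p M B₀ D₀) (hC : Subgroup.centralizer ((D₀.map G₀.subtype : Subgroup G) : Set G) ≤ G₀) : ∀ x : ↥G₀, x ∈ Cfsg.piCore {q | q ∉ π} ↥G₀ → x ∈ Cfsg.blockKer B₀ := by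
  classical
  haveI : Fintype G := Fintype.ofFinite G
  have hpσ : p ∉ {q : ℕ | q ∉ π} := fun h => h hpπ
  have hAdm : Cfsg.Agent.Lib.Helper2_Down.Adm G₀ (D₀.map G₀.subtype) :=
    ⟨by rintro _ ⟨d, -, rfl⟩; exact d.2, hC⟩
  have hEq : (D₀.map G₀.subtype).subgroupOf G₀ = D₀ := by
    ext y
    rw [Subgroup.mem_subgroupOf]
    constructor
    · rintro ⟨d, hd, hdy⟩
      have : d = y := Subtype.ext hdy
      rwa [← this]
    · intro hy
      exact ⟨y, hy, rfl⟩
  have h := ker_desc hM hpσ hBD hB₁ (fun ξ hξ n hn => hker n ((mem_pc n).mp hn) ξ hξ) hAdm hB₀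
    (by rw [hEq]; exact hD₀)
  intro x hx ξ hξ
  exact h ξ hξ x ((mem_pc x).mpr hx)

end Cfsg.Agent.S4734
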