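import Cfsg.Statements.S4727
import Mathlib
import Cfsg.Agent.Lib.Helper2_KerPair3
import Cfsg.Agent.Lib.Helper2_SecondMain2
import Cfsg.Agent.S4734


set_option autoImplicit false
open Cfsg

namespace Cfsg.Agent.S4727

open Cfsg.Agent.Lib.Helper2_PiCore Cfsg.Agent.Lib.Helper2_KerPair1 Cfsg.Agent.Lib.Helper2_KerPair2
  Cfsg.Agent.Lib.Helper2_KerPair3 Cfsg.Agent.Lib.Helper2_SecondMain2 Cfsg.Agent.Lib.Helper2_BlockLocal
  Cfsg.Agent.Lib.Helper2_BlockOm Cfsg.Agent.Lib.Helper2_BlockFMT Cfsg.Agent.Lib.Helper2_BlockPCore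
  Cfsg.Agent.Lib.Helper2_BlockBasic Cfsg.Agent.Lib.Helper2_BlockOsima Cfsg.Agent.Lib.Helper2_BlockBrauer

/-- Let p be a prime, π a set of primes containing p, M a maximal ideal of the algebraic integers containing p, and B a p-block of the finite group G with defect group D; let B₁ be the block of N_G(D) with defect group D that induces B (the Brauer correspondent of B). Suppose every element of O_π'(N_G(D)), the largest normal subgroup of N_G(D) whose order has no prime divisor in π, lies in the kernel of every member of B₁. If y is a p-element whose centralizer C has a normal Hall π'-subgroup (every element of C whose order has no prime divisor in π lies in O_π'(C)), then χ(y x) = χ(y) for every χ ∈ B and every x ∈ C whose order has no prime divisor in π. -/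
theorem result {G : Type*} [Group G] [Finite G] (p : ℕ) [Fact p.Prime] (M : Ideal Cfsg.AlgInt) (hM : Cfsg.IsPModular p M) (π : Set ℕ) (hpπ : p ∈ π) (B : Set (Cfsg.IrrCharacter G)) (hB : Cfsg.IsPBlock M B) (D : Subgroup G) (hBD : Cfsg.IsDefectGroup p M B D) (B₁ : Set (Cfsg.IrrCharacter ↥(Subgroup.normalizer (D : Set G)))) (hB₁ : Cfsg.IsInducedBlock M (Subgroup.normalizer (D : Set G)) B₁ B) (hB₁D : Cfsg.IsDefectGroup p M B₁ (D.subgroupOf (Subgroup.normalizer (D : Set G)))) (hker : ∀ n : ↥(Subgroup.normalizer (D : Set G)), n ∈ Cfsg.piCore {q | q ∉ π} ↥(Subgroup.normalizer (D : Set G)) → n ∈ Cfsg.blockKer B₁) (y : G) (hy : ∃ k : ℕ, orderOf y = p ^ k) (hC : ∀ x : ↥(Subgroup.centralizer ({y} : Set G)), (∀ q : ℕ, q.Prime → q ∣ orderOf x → q ∉ π) → x ∈ Cfsg.piCore {q | q ∉ π} ↥(Subgroup.centralizer ({y} : Set G))) : ∀ χ ∈ B, ∀ x : G, x ∈ Subgroup.centralizer ({y} : Set G) → (∀ q : ℕ, q.Prime → q ∣ orderOf x → q ∉ π) → (χ : G → ℂ) (y * x) = (χ : G → ℂ) y := by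
  classical
  haveI : Fintype G := Fintype.ofFinite G
  have hPr := isPrime_of_modular hM
  intro χ hχ x hx hxπ
  have hxreg : ¬ p ∣ orderOf (⟨x, hx⟩ : Subgroup.centralizer ({y} : Set G)) := by
    rw [Subgroup.orderOf_mk]
    intro hd
    exact hxπ p hM.1 hd hpπ
  have h1reg : ¬ p ∣ orderOf (1 : Subgroup.centralizer ({y} : Set G)) := by
    rw [orderOf_one]
    exact hM.1.one_lt.ne' ∘ Nat.dvd_one.mp
  have e1 := sum_blocks_shift hPr y (χ : G → ℂ) ⟨x, hx⟩
  have e2 := sum_blocks_shift hPr y (χ : G → ℂ) 1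
  have e3 : (χ : G → ℂ) (y * ((1 : Subgroup.centralizer ({y} : Set G)) : G)) = (χ : G → ℂ) y := by
    rw [Subgroup.coe_one, mul_one]
  rw [e3] at e2
  rw [← e2]
  simp only at e1
  rw [← e1]
  refine Finset.sum_congr rfl fun b hb => ?_
  have hb' := mem_blocks.mp hb
  by_cases hind : IsInducedBlock M (Subgroup.centralizer ({y} : Set G)) b B
  · obtain ⟨D₀, hD₀⟩ := exists_defectGroup (p := p) hPr hb'
    have hyC : y ∈ Subgroup.centralizer ({y} : Set G) := by
      rw [Subgroup.mem_centralizer_singleton_iff]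
    have hyD : y ∈ D₀.map (Subgroup.centralizer ({y} : Set G)).subtype := by
      refine ⟨⟨y, hyC⟩, ?_, rfl⟩
      have hn : (Subgroup.zpowers (⟨y, hyC⟩ : Subgroup.centralizer ({y} : Set G))).Normal := by
        constructor
        intro n hn g
        obtain ⟨j, rfl⟩ := Subgroup.mem_zpowers_iff.mp hn
        have hg := Subgroup.mem_centralizer_singleton_iff.mp g.2
        have : g * (⟨y, hyC⟩ : Subgroup.centralizer ({y} : Set G)) ^ j * g⁻¹ =
            (⟨y, hyC⟩ : Subgroup.centralizer ({y} : Set G)) ^ j := by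
          have hcm : Commute g (⟨y, hyC⟩ : Subgroup.centralizer ({y} : Set G)) := by
            apply Subtype.ext
            exact hg
          rw [(hcm.zpow_right j).eq]
          group
        rw [this]
        exact Subgroup.zpow_mem_zpowers _ _
      have hpg : IsPGroup p (Subgroup.zpowers (⟨y, hyC⟩ : Subgroup.centralizer ({y} : Set G))) := by
        apply isPGroup_zpowers
        rw [← Subgroup.orderOf_coe]
        exact hy
      exact normal_pGroup_le_defect hM hb' hD₀ _ hn hpg (Subgroup.mem_zpowers _)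
    have hCC : Subgroup.centralizer
        ((D₀.map (Subgroup.centralizer ({y} : Set G)).subtype : Subgroup G) : Set G) ≤
        Subgroup.centralizer ({y} : Set G) := by
      intro g hg
      rw [Subgroup.mem_centralizer_singleton_iff]
      exact (Subgroup.mem_centralizer_iff.mp hg y hyD).symm
    have hk := Cfsg.Agent.S4734.result p M hM π hpπ B hB D hBD B₁ hB₁ hB₁D hker _ b hind D₀ hD₀ hCC
    have hr := rinv_blockCoeff (F := b)
      (K := Cfsg.piCore {q | q ∉ π} ↥(Subgroup.centralizer ({y} : Set G)))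
      (fun ξ hξ k hk' => hk k hk' ξ hξ)
    have hxK : (⟨x, hx⟩ : Subgroup.centralizer ({y} : Set G)) ∈
        Cfsg.piCore {q | q ∉ π} ↥(Subgroup.centralizer ({y} : Set G)) := by
      apply hC
      rw [Subgroup.orderOf_mk]
      exact hxπ
    rw [← Equiv.sum_comp (Equiv.mulRight (⟨x, hx⟩ : Subgroup.centralizer ({y} : Set G)))
      (fun k : Subgroup.centralizer ({y} : Set G) => blockCoeff b k *
        (χ : G → ℂ) ((k : G) * (y * ((1 : Subgroup.centralizer ({y} : Set G)) : G))))]
    refine Finset.sum_congr rfl fun k _ => ?_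
    simp only [Equiv.coe_mulRight]
    rw [hr k _ hxK]
    congr 2
    have hxy := Subgroup.mem_centralizer_singleton_iff.mp hx
    simp only [Subgroup.coe_mul, Subgroup.coe_one, mul_one]
    rw [mul_assoc, hxy]
  · rw [second_main_centralizer hM hy hB hχ hb' hind ⟨x, hx⟩ hxreg,
      second_main_centralizer hM hy hB hχ hb' hind 1 h1reg]

end Cfsg.Agent.S4727
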