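import Cfsg.Statements.S4729
import Mathlib
import Mathlib
import Cfsg.Agent.Lib.Helper2_BlockThird
import Cfsg.Agent.Lib.Helper2_PPart
import Cfsg.Agent.Lib.helper8_Defect


set_option autoImplicit false
open Cfsg

namespace Cfsg.Agent.S4729

open Cfsg Cfsg.Agent.Lib.Helper2_BlockLocal Cfsg.Agent.Lib.Helper2_BlockOm
  Cfsg.Agent.Lib.Helper2_BlockBasic
  Cfsg.Agent.Lib.Helper2_BlockThird Cfsg.Agent.Lib.Helper2_BlockQuot
  Cfsg.Agent.Lib.CharBasic Cfsg.Agent.Lib.CharOrtho
  Cfsg.Agent.Lib.CharComplete Cfsg.Agent.Lib.CharIntegral Cfsg.Agent.Lib.CharMore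
open scoped ComplexConjugate Pointwise

/-- eigenvalues with product one for a perfect group -/
lemma exists_eigen_det {G : Type*} [Group G] [Finite G] (hperf : commutator G = ⊤) {χ : G → ℂ}
    (hχ : IsCharacter G χ) (g : G) :
    ∃ (n : ℕ) (μ : Fin n → ℂ), (∀ i, μ i ^ orderOf g = 1) ∧
      (∀ k : ℕ, χ (g ^ k) = ∑ i, μ i ^ k) ∧ ∏ i, μ i = 1 := by
  classical
  obtain ⟨m, ρ, rfl⟩ := hχ
  obtain ⟨b, μ, hμ, hb⟩ := exists_eigen ρ g
  refine ⟨_, μ, hμ, fun k => ?_, ?_⟩
  · have hb' : ∀ i, ρ (g ^ k) (b i) = (μ i ^ k) • b i := by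
      intro i
      induction k with
      | zero => simp
      | succ k ih =>
        rw [pow_succ, map_mul, Module.End.mul_apply, hb i, map_smul, ih, smul_smul, pow_succ,
          mul_comm]
    exact trace_eq_sum_of_eigenbasis _ b _ hb'
  · have h1 : LinearMap.toMatrix b b (ρ g) = Matrix.diagonal μ := by
      ext i j
      rw [LinearMap.toMatrix_apply, hb j, map_smul, Finsupp.smul_apply, Module.Basis.repr_self,
        Matrix.diagonal_apply, Finsupp.single_apply]
      by_cases hij : i = j
      · subst hij; simp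
      · rw [if_neg (Ne.symm hij), if_neg hij]; simp
    have h2 : LinearMap.det (ρ g) = ∏ i, μ i := by
      rw [← LinearMap.det_toMatrix b, h1, Matrix.det_diagonal]
    rw [← h2]
    let δ : G →* ℂ := (LinearMap.det).comp ρ
    have h3 : g ∈ δ.toHomUnits.ker := by
      apply Abelianization.commutator_subset_ker δ.toHomUnits
      rw [hperf]; exact Subgroup.mem_top g
    have h4 : ((δ.toHomUnits g : ℂˣ) : ℂ) = 1 := by
      rw [MonoidHom.mem_ker.1 h3]; rfl
    exact h4

lemma geom_root {w : ℂ} {o : ℕ} (hw : w ^ o = 1) :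
    ∑ j ∈ Finset.range o, w ^ j = if w = 1 then (o : ℂ) else 0 := by
  split_ifs with h
  · subst h; simp
  · have := mul_neg_geom_sum w o
    rw [hw, sub_self] at this
    rcases mul_eq_zero.1 this with h1 | h1
    · exact absurd (sub_eq_zero.1 h1).symm h
    · exact h1

/-- Let p be a prime, M a maximal ideal of the algebraic integers containing p, G a finite perfect group and P a Sylow p-subgroup. If the principal p-block of G contains a faithful irreducible character of degree less than 2p, then the centralizer of P is a p-group. -/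
theorem result {G : Type*} [Group G] [Finite G] (p : ℕ) [Fact p.Prime] (M : Ideal Cfsg.AlgInt) (hM : Cfsg.IsPModular p M) (hperf : commutator G = ⊤) (P : Sylow p G) (χ : Cfsg.IrrCharacter G) (hχ : χ ∈ Cfsg.principalBlock M G) (hfaith : ∀ g : G, (χ : G → ℂ) g = (χ : G → ℂ) 1 → g = 1) (hdeg : Cfsg.charDegree (χ : G → ℂ) < 2 * p) : IsPGroup p ↥(Subgroup.centralizer ((P : Subgroup G) : Set G)) := by
  classical
  haveI : Fintype G := Fintype.ofFinite G
  have hPr := isPrime_of_modular hM
  have hp : p.Prime := Fact.out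
  set C := Subgroup.centralizer ((P : Subgroup G) : Set G) with hC
  have hχc := isCharacter_of_isIrr χ.2
  obtain ⟨hd0, hd1, -⟩ := Cfsg.Agent.Lib.helper8_Defect.irr_charDegree χ.2
  set d := charDegree (χ : G → ℂ) with hd
  have key : ∀ y ∈ C, ¬ p ∣ orderOf y → y = 1 := by
    intro y hy hreg
    -- congruences
    have hcong : ∀ j : ℕ, MemLocalIdeal M ((χ : G → ℂ) 1 - (χ : G → ℂ) (y ^ j)) := by
      intro j
      have hg : y ^ j ∈ C := C.pow_mem hy j
      have hle : (P : Subgroup G) ≤ Subgroup.centralizer ({y ^ j} : Set G) := by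
        intro x hx
        rw [Subgroup.mem_centralizer_singleton_iff]
        exact (Subgroup.mem_centralizer_iff.1 hg x hx)
      have hidx : ¬ p ∣ (Subgroup.centralizer ({y ^ j} : Set G)).index := fun h =>
        P.not_dvd_index (h.trans (Subgroup.index_dvd_of_le hle))
      have hs : SameBlock M (oneIrr G : G → ℂ) (χ : G → ℂ) := hχ
      have h1 := hs (y ^ j)
      unfold centralChar at h1
      have e1 : (oneIrr G : G → ℂ) (y ^ j) = 1 := rfl
      have e2 : (oneIrr G : G → ℂ) 1 = 1 := rfl
      rw [e1, e2] at h1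
      have h2 := ideal_mul_left hPr (ring_mul hPr (ring_inv_natCast hM hidx) (ring_natCast hPr d)) h1
      have hi0 : ((Subgroup.centralizer ({y ^ j} : Set G)).index : ℂ) ≠ 0 := by
        intro h0
        apply hidx
        have : (Subgroup.centralizer ({y ^ j} : Set G)).index = 0 := by exact_mod_cast h0
        rw [this]; exact dvd_zero p
      have hd0' : (d : ℂ) ≠ 0 := by exact_mod_cast hd0.ne'
      convert h2 using 1
      rw [hd1]
      field_simp
    obtain ⟨n, μ, hμ, hk, hprod⟩ := exists_eigen_det hperf hχc y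
    have hn : n = d := by
      have := hk 0
      simp only [pow_zero, Finset.sum_const, Finset.card_univ, Fintype.card_fin, nsmul_eq_mul,
        mul_one] at this
      rw [hd1] at this
      exact_mod_cast this.symm
    set o := orderOf y with ho
    have ho0 : 0 < o := orderOf_pos y
    have hdiv : ∀ ζ : ℂ, ζ ^ o = 1 → ζ ≠ 1 →
        p ∣ (Finset.univ.filter (fun i => μ i = ζ)).card := by
      intro ζ hζ hζ1
      have hζ0 : ζ ≠ 0 := by
        intro h0; rw [h0, zero_pow ho0.ne'] at hζ; exact zero_ne_one hζ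
      have hinv : (ζ⁻¹) ^ o = 1 := by rw [inv_pow, hζ, inv_one]
      have hinv1 : ζ⁻¹ ≠ 1 := by
        intro h; apply hζ1; rw [← inv_inv ζ, h, inv_one]
      have hint : IsIntegral ℤ (ζ⁻¹) :=
        IsIntegral.of_pow ho0 (by rw [hinv]; exact isIntegral_one)
      have e1 : ∑ j ∈ Finset.range o, (χ : G → ℂ) (y ^ j) * (ζ⁻¹) ^ j =
          ((o * (Finset.univ.filter (fun i => μ i = ζ)).card : ℕ) : ℂ) := by
        simp only [hk, Finset.sum_mul]
        rw [Finset.sum_comm]
        have e2 : ∀ i, ∑ j ∈ Finset.range o, μ i ^ j * (ζ⁻¹) ^ j =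
            if μ i = ζ then (o : ℂ) else 0 := by
          intro i
          simp only [← mul_pow]
          rw [geom_root (by rw [mul_pow, hμ i, hinv, one_mul])]
          have : μ i * ζ⁻¹ = 1 ↔ μ i = ζ := by
            rw [mul_inv_eq_one₀ hζ0]
          simp only [this]
        simp only [e2]
        rw [← Finset.sum_filter, Finset.sum_const, nsmul_eq_mul]
        push_cast; ring
      have e3 : ∑ j ∈ Finset.range o, (χ : G → ℂ) 1 * (ζ⁻¹) ^ j = 0 := by
        rw [← Finset.mul_sum, geom_root hinv, if_neg hinv1, mul_zero]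
      have e4 : MemLocalIdeal M (((o * (Finset.univ.filter (fun i => μ i = ζ)).card : ℕ) : ℂ)) := by
        have : ((o * (Finset.univ.filter (fun i => μ i = ζ)).card : ℕ) : ℂ) =
            - ∑ j ∈ Finset.range o, ((χ : G → ℂ) 1 - (χ : G → ℂ) (y ^ j)) * (ζ⁻¹) ^ j := by
          simp only [sub_mul, Finset.sum_sub_distrib]
          rw [e3, e1]; ring
        rw [this]
        apply ideal_neg
        refine ideal_sum hPr _ _ fun j _ => ?_
        exact ideal_mul_right hPr (hcong j) (ring_of_isIntegral hPr (hint.pow j))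
      rw [ideal_natCast_iff hM] at e4
      rcases (Nat.Prime.dvd_mul hp).1 e4 with h | h
      · exact absurd h hreg
      · exact h
    by_contra hy1
    obtain ⟨i₀, hi₀⟩ : ∃ i₀, μ i₀ ≠ 1 := by
      by_contra hcon
      push Not at hcon
      apply hy1
      apply hfaith
      have h1 := hk 1
      have h0 := hk 0
      rw [pow_one] at h1
      rw [pow_zero] at h0
      rw [h1, h0]
      exact Finset.sum_congr rfl fun i _ => by rw [hcon i]; simp
    set ζ := μ i₀ with hζdef
    set A := Finset.univ.filter (fun i => μ i = ζ) with hA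
    have hApos : 0 < A.card := Finset.card_pos.2 ⟨i₀, Finset.mem_filter.2 ⟨Finset.mem_univ _, rfl⟩⟩
    have hAdvd : p ∣ A.card := hdiv ζ (hμ i₀) hi₀
    have hAle : A.card ≤ n := by
      have := Finset.card_le_univ A
      simpa using this
    have hother : ∀ i, μ i = ζ ∨ μ i = 1 := by
      intro i
      by_contra hcon
      push Not at hcon
      set A' := Finset.univ.filter (fun l => μ l = μ i) with hA'
      have h1 : p ∣ A'.card := hdiv (μ i) (hμ i) hcon.2
      have h2 : 0 < A'.card :=
        Finset.card_pos.2 ⟨i, Finset.mem_filter.2 ⟨Finset.mem_univ _, rfl⟩⟩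
      have h3 : Disjoint A A' := by
        rw [Finset.disjoint_left]
        intro l hl hl'
        exact hcon.1 ((Finset.mem_filter.1 hl').2.symm.trans (Finset.mem_filter.1 hl).2)
      have h4 : A.card + A'.card ≤ n := by
        rw [← Finset.card_union_of_disjoint h3]
        have := Finset.card_le_univ (A ∪ A')
        simpa using this
      have h5 := Nat.le_of_dvd hApos hAdvd
      have h6 := Nat.le_of_dvd h2 h1
      omega
    have hAp : A.card = p := by
      obtain ⟨c, hc⟩ := hAdvd
      have hc1 : c = 1 := by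
        have h1 : 0 < c := by
          rcases Nat.eq_zero_or_pos c with h | h
          · rw [h, mul_zero] at hc; omega
          · exact h
        have h2 : p * c < p * 2 := by rw [← hc]; omega
        have h3 := Nat.lt_of_mul_lt_mul_left h2
        omega
      rw [hc, hc1, mul_one]
    have hprod' : ∏ i, μ i = ζ ^ A.card := by
      have h1 : ∀ i, μ i = if μ i = ζ then ζ else 1 := by
        intro i
        split_ifs with h
        · exact h
        · exact (hother i).resolve_left h
      calc ∏ i, μ i = ∏ i, (if μ i = ζ then ζ else 1) := Finset.prod_congr rfl fun i _ => h1 i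
        _ = ζ ^ A.card := by
          rw [Finset.prod_ite, Finset.prod_const, Finset.prod_const_one, mul_one]
    rw [hprod, hAp] at hprod'
    have hco : Nat.Coprime p o := (Nat.Prime.coprime_iff_not_dvd hp).2 hreg
    have := pow_gcd_eq_one.2 ⟨hprod'.symm, hμ i₀⟩
    rw [Nat.Coprime.gcd_eq_one hco, pow_one] at this
    exact hi₀ this
  intro c
  obtain ⟨a, b, s, h1, h2, h3⟩ := Cfsg.Agent.Lib.Helper2_PPart.exists_parts hp (c : G)
  have h4 : (c : G) ^ b = 1 := key _ (C.pow_mem c.2 b) h3
  refine ⟨s, ?_⟩
  apply Subtype.ext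
  rw [h4, mul_one] at h1
  rw [h1] at h2
  simpa using h2

end Cfsg.Agent.S4729
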