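import Cfsg.Statements.S4730
import Mathlib
import Cfsg.Agent.Lib.Helper2_PDeg


set_option autoImplicit false
open Cfsg

namespace Cfsg.Agent.S4730

open Cfsg.Agent.Lib.helper8_Defect
  Cfsg.Agent.Lib.Helper2_BlockLocal Cfsg.Agent.Lib.Helper2_BlockOm Cfsg.Agent.Lib.Helper2_BlockBasic
  Cfsg.Agent.Lib.helper8_Height

/-- Let p be a prime, M a maximal ideal of the algebraic integers containing p, and G a finite group with trivial centre, Sylow p-subgroup P of order p^a and centre Z(P) of order p^b. If χ is a faithful irreducible character of G whose degree is a power of p, then the p-block of χ has defect at most a − b; in particular, if P is abelian then χ lies in a block of defect zero. -/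
theorem result {G : Type*} [Group G] [Finite G] (p : ℕ) [Fact p.Prime] (M : Ideal Cfsg.AlgInt) (hM : Cfsg.IsPModular p M) (hZ : Subgroup.center G = ⊥) (P : Sylow p G) (a b : ℕ) (ha : Nat.card P = p ^ a) (hb : Nat.card (Subgroup.center ↥(P : Subgroup G)) = p ^ b) (χ : Cfsg.IrrCharacter G) (hfaith : ∀ g : G, (χ : G → ℂ) g = (χ : G → ℂ) 1 → g = 1) (n : ℕ) (hdeg : Cfsg.charDegree (χ : G → ℂ) = p ^ n) : Cfsg.blockDefect p (Cfsg.blockOf M (χ : G → ℂ)) ≤ a - b ∧ (IsMulCommutative ↥(P : Subgroup G) → Cfsg.blockDefect p (Cfsg.blockOf M (χ : G → ℂ)) = 0) := by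
  classical
  haveI : Fintype G := Fintype.ofFinite G
  have hp : p.Prime := hM.1
  have hP := isPrime_of_modular hM
  set Z : Subgroup G := (Subgroup.center ↥(P : Subgroup G)).map (P : Subgroup G).subtype with hZdef
  have hZc : Nat.card Z = p ^ b := by
    rw [hZdef, Subgroup.card_map_of_injective (Subgroup.subtype_injective _), hb]
  have hcl : ∀ z ∈ Z, ¬ p ∣ (Subgroup.centralizer ({z} : Set G)).index := by
    rintro _ ⟨z, hz, rfl⟩ hdv
    have hle : (P : Subgroup G) ≤ Subgroup.centralizer ({((P : Subgroup G).subtype z : G)} : Set G) := by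
      intro x hx
      rw [Subgroup.mem_centralizer_singleton_iff]
      have := (Subgroup.mem_center_iff.mp hz) ⟨x, hx⟩
      exact congrArg Subtype.val this
    exact P.not_dvd_index (hdv.trans (Subgroup.index_dvd_of_le hle))
  have hv : ∀ z ∈ Z, z ≠ 1 → (χ : G → ℂ) z = 0 := by
    intro z hz hz1
    apply Cfsg.Agent.Lib.Helper2_PDeg.vanish_of_coprime hZ χ hfaith hz1
    rw [hdeg]
    exact Nat.Coprime.pow_left _ ((Nat.Prime.coprime_iff_not_dvd hp).mpr (hcl z hz))
  have hB : IsPBlock M (blockOf M (χ : G → ℂ)) := ⟨χ, rfl⟩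
  have hfa : (Nat.card G).factorization p = a := by
    have := P.card_eq_multiplicity
    rw [ha] at this
    exact (Nat.pow_right_injective hp.two_le this).symm
  have main : blockDefect p (blockOf M (χ : G → ℂ)) ≤ a - b := by
    rw [blockDefect_eq', hfa]
    obtain ⟨ψ, hψ, h1⟩ := exists_min hP p hB
    have h2 := Cfsg.Agent.Lib.Helper2_PDeg.card_dvd_degree hM χ Z hZc hcl hv hψ
    obtain ⟨d0, -, -⟩ := irr_charDegree ψ.2
    have h3 := (hp.pow_dvd_iff_le_factorization d0.ne').mp h2
    have h4 : (charDegree (ψ : G → ℂ)).factorization p = ee p ψ := rfl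
    omega
  refine ⟨main, fun hc => ?_⟩
  have htop : Subgroup.center ↥(P : Subgroup G) = ⊤ := by
    rw [eq_top_iff]
    intro x _
    rw [Subgroup.mem_center_iff]
    intro y
    exact hc.is_comm.comm y x
  have hab : a = b := by
    rw [htop, Subgroup.card_top] at hb
    have h5 : p ^ a = p ^ b := by rw [← ha, ← hb]
    exact Nat.pow_right_injective hp.two_le h5
  omega

end Cfsg.Agent.S4730
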