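import Cfsg.Statements.S4731
import Cfsg.Agent.Lib.helper8_BlockSum

set_option autoImplicit false
open Cfsg Cfsg.Agent.Lib.CharBasic Cfsg.Agent.Lib.CharOrtho Cfsg.Agent.Lib.CharComplete
  Cfsg.Agent.Lib.CharMore Cfsg.Agent.Lib.helper8_Defect Cfsg.Agent.Lib.Helper2_BlockOrtho
  Cfsg.Agent.Lib.Helper2_BlockLocal Cfsg.Agent.Lib.Helper2_BlockOm Cfsg.Agent.Lib.helper8_BlockSum

namespace Cfsg.Agent.S4731

/-- Let p ≠ q be primes, M_p and M_q maximal ideals of the algebraic integers containing p and q respectively, and G a finite group with no element of order pq; let q^b be the q-part of the order of G. For a p-block B_p (relative to M_p), a q-block B_q (relative to M_q) and a p-singular element y, the sum of χ(1)χ(y) over the irreducible characters χ lying in both B_p and B_q is q^b times an algebraic integer. -/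
theorem result {G : Type*} [Group G] [Finite G] (p q : ℕ) [Fact p.Prime] [Fact q.Prime] (hpq : p ≠ q) (Mp Mq : Ideal Cfsg.AlgInt) (hMp : Cfsg.IsPModular p Mp) (hMq : Cfsg.IsPModular q Mq) (hno : ∀ g : G, orderOf g ≠ p * q) (b : ℕ) (hb : (Nat.card G).factorization q = b) (Bp : Set (Cfsg.IrrCharacter G)) (hBp : Cfsg.IsPBlock Mp Bp) (Bq : Set (Cfsg.IrrCharacter G)) (hBq : Cfsg.IsPBlock Mq Bq) (y : G) (hy : p ∣ orderOf y) : ∃ ω : Cfsg.AlgInt, ∑ᶠ χ ∈ Bp ∩ Bq, (Cfsg.charDegree (χ : G → ℂ) : ℂ) * (χ : G → ℂ) y = (q : ℂ) ^ b * (ω : ℂ) := by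
  classical
  have := Fintype.ofFinite G
  have hpp : p.Prime := Fact.out
  have hqq : q.Prime := Fact.out
  set A := Finset.univ.filter (fun χ : IrrCharacter G => χ ∈ Bp) with hA
  set B := Finset.univ.filter (fun χ : IrrCharacter G => χ ∈ Bq) with hB
  have hGC : (Nat.card G : ℂ) ≠ 0 := by exact_mod_cast Nat.card_pos.ne'
  -- the class function `T`
  set T : G → ℂ := fun g => ∑ χ ∈ A, ∑ ψ ∈ B,
    (if χ = ψ then (χ : G → ℂ) y * (ψ : G → ℂ) g else 0) with hT
  have hTzero : ∀ g : G, q ∣ orderOf g → T g = 0 := by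
    intro g hg
    have hzero : ∀ h : G, (∑ χ ∈ A, (χ : G → ℂ) h * (χ : G → ℂ) y) *
        (∑ ψ ∈ B, (ψ : G → ℂ) h⁻¹ * (ψ : G → ℂ) g) = 0 := by
      intro h
      by_cases hh : p ∣ orderOf h
      · have hq' : ¬ q ∣ orderOf h⁻¹ := by
          rw [orderOf_inv]
          intro hq'
          have h1 : p * q ∣ orderOf h :=
            Nat.Coprime.mul_dvd_of_dvd_of_dvd ((Nat.coprime_primes hpp hqq).mpr hpq) hh hq'
          obtain ⟨m, hm⟩ := h1
          have hm0 : m ≠ 0 := by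
            rintro rfl
            have := orderOf_pos h
            omega
          apply hno (h ^ m)
          rw [orderOf_pow_of_dvd hm0 ⟨p * q, by rw [hm, mul_comm]⟩, hm,
            Nat.mul_div_cancel _ (Nat.pos_of_ne_zero hm0)]
        rw [weak_block_orthogonality hMq hBq hq' hg, mul_zero]
      · rw [weak_block_orthogonality hMp hBp hh hy, zero_mul]
    have hS : ∑ h : G, (∑ χ ∈ A, (χ : G → ℂ) h * (χ : G → ℂ) y) *
        (∑ ψ ∈ B, (ψ : G → ℂ) h⁻¹ * (ψ : G → ℂ) g) = 0 :=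
      Finset.sum_eq_zero fun h _ => hzero h
    have hS2 : ∑ h : G, (∑ χ ∈ A, (χ : G → ℂ) h * (χ : G → ℂ) y) *
        (∑ ψ ∈ B, (ψ : G → ℂ) h⁻¹ * (ψ : G → ℂ) g) = (Nat.card G : ℂ) * T g := by
      simp only [Finset.sum_mul_sum, hT]
      rw [Finset.sum_comm, Finset.mul_sum]
      refine Finset.sum_congr rfl fun χ _ => ?_
      rw [Finset.sum_comm, Finset.mul_sum]
      refine Finset.sum_congr rfl fun ψ _ => ?_
      have h1 := classInner_irr χ.2 ψ.2
      rw [classInner] at h1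
      have h2 : ∑ h : G, (χ : G → ℂ) h * (starRingEnd ℂ) ((ψ : G → ℂ) h) =
          (Nat.card G : ℂ) * (if (χ : G → ℂ) = (ψ : G → ℂ) then 1 else 0) := by
        rw [← h1]; field_simp
      have h3 : ∑ h : G, (χ : G → ℂ) h * (χ : G → ℂ) y * ((ψ : G → ℂ) h⁻¹ * (ψ : G → ℂ) g) =
          (∑ h : G, (χ : G → ℂ) h * (starRingEnd ℂ) ((ψ : G → ℂ) h)) *
            ((χ : G → ℂ) y * (ψ : G → ℂ) g) := by
        rw [Finset.sum_mul]
        refine Finset.sum_congr rfl fun h _ => ?_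
        rw [inv_of_isCharacter (isCharacter_of_isIrr ψ.2)]
        ring
      rw [h3, h2]
      by_cases hχψ : χ = ψ
      · rw [if_pos hχψ, if_pos (congrArg Subtype.val hχψ)]; ring
      · rw [if_neg hχψ, if_neg (fun h => hχψ (Subtype.ext h))]; ring
    rw [hS2] at hS
    exact (mul_eq_zero.mp hS).resolve_left hGC
  have hTeq : ∀ g : G, T g = ∑ χ ∈ Finset.univ.filter (fun χ : IrrCharacter G => χ ∈ Bp ∩ Bq),
      (χ : G → ℂ) y * (χ : G → ℂ) g := by
    intro g
    simp only [hT]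
    have h1 : ∀ χ ∈ A, ∑ ψ ∈ B, (if χ = ψ then (χ : G → ℂ) y * (ψ : G → ℂ) g else 0) =
        if χ ∈ Bq then (χ : G → ℂ) y * (χ : G → ℂ) g else 0 := by
      intro χ _
      rw [Finset.sum_ite_eq B χ (fun ψ => (χ : G → ℂ) y * (ψ : G → ℂ) g)]
      simp [hB]
    rw [Finset.sum_congr rfl h1, ← Finset.sum_filter, hA, Finset.filter_filter]
    rfl
  obtain ⟨Q⟩ : Nonempty (Sylow q G) := inferInstance
  have := Fintype.ofFinite (Q : Subgroup G)
  have h1 := sum_pgroup_of_vanish hqq T hTzero (Q : Subgroup G) Q.2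
  choose m hm using fun ψ : IrrCharacter G =>
    sum_subgroup_nat (isCharacter_of_isIrr ψ.2) (Q : Subgroup G)
  have hint : IsIntegral ℤ (∑ χ ∈ Finset.univ.filter (fun χ : IrrCharacter G => χ ∈ Bp ∩ Bq),
      (χ : G → ℂ) y * (m χ : ℂ)) :=
    IsIntegral.sum _ fun χ _ =>
      (isIntegral_of_isCharacter (isCharacter_of_isIrr χ.2) y).mul (isIntegral_natCast _)
  refine ⟨⟨_, hint⟩, ?_⟩
  have h2 : ∑ χ ∈ Finset.univ.filter (fun χ : IrrCharacter G => χ ∈ Bp ∩ Bq),
      (charDegree (χ : G → ℂ) : ℂ) * (χ : G → ℂ) y = T 1 := by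
    rw [hTeq]
    refine Finset.sum_congr rfl fun χ _ => ?_
    rw [(irr_charDegree χ.2).2.1, mul_comm]
  have h2' : ∑ᶠ χ ∈ Bp ∩ Bq, (charDegree (χ : G → ℂ) : ℂ) * (χ : G → ℂ) y = T 1 := by
    rw [finsum_block]
    convert h2
  rw [h2', ← h1]
  simp only [hTeq]
  rw [Finset.sum_comm, Finset.mul_sum]
  refine Finset.sum_congr rfl fun χ _ => ?_
  rw [← Finset.mul_sum, hm χ, Q.card_eq_multiplicity, hb]
  push_cast
  ring

end Cfsg.Agent.S4731
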