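import Cfsg.Statements.S4733
import Cfsg.Agent.Lib.helper8_BlockRank

set_option autoImplicit false
open Cfsg Cfsg.Agent.Lib.CharBasic Cfsg.Agent.Lib.CharOrtho Cfsg.Agent.Lib.CharComplete
  Cfsg.Agent.Lib.CharMore Cfsg.Agent.Lib.helper8_Defect Cfsg.Agent.Lib.Helper2_BlockOrtho
  Cfsg.Agent.Lib.Helper2_BlockLocal Cfsg.Agent.Lib.Helper2_BlockOm Cfsg.Agent.Lib.Helper2_BlockOsima
  Cfsg.Agent.Lib.Helper2_BlockBasic Cfsg.Agent.Lib.helper8_BlockSum Cfsg.Agent.Lib.helper8_BlockRank
  Cfsg.Agent.Lib.helper8_DefectZero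

namespace Cfsg.Agent.S4733

theorem not_dvd_div {n d p : ℕ} (hp : p.Prime) (hn : n ≠ 0) (hd : d ∣ n)
    (h : p ^ n.factorization p ∣ d) : ¬ p ∣ n / d := by
  intro h1
  obtain ⟨m, rfl⟩ := hd
  have hd0 : 0 < d := Nat.pos_of_ne_zero (fun h0 => hn (by rw [h0, zero_mul]))
  rw [Nat.mul_div_cancel_left _ hd0] at h1
  exact Nat.pow_succ_factorization_not_dvd hn hp (by rw [pow_succ]; exact mul_dvd_mul h h1)

/-- Let p be a prime, M a maximal ideal of the algebraic integers containing p, and B a p-block of the finite group G with k irreducible characters and p-regular rank l (the number of irreducible Brauer characters). Then l ≤ k, and the following are equivalent: B has defect 0; k = l = 1; k = l. -/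
theorem result {G : Type*} [Group G] [Finite G] (p : ℕ) [Fact p.Prime] (M : Ideal Cfsg.AlgInt) (hM : Cfsg.IsPModular p M) (B : Set (Cfsg.IrrCharacter G)) (hB : Cfsg.IsPBlock M B) : Cfsg.blockRank p B ≤ Nat.card B ∧ (Cfsg.blockDefect p B = 0 ↔ (Nat.card B = 1 ∧ Cfsg.blockRank p B = 1)) ∧ (Cfsg.blockDefect p B = 0 ↔ Nat.card B = Cfsg.blockRank p B) := by
  classical
  have := Fintype.ofFinite G
  have hp : p.Prime := Fact.out
  have hPr := isPrime_of_modular hM
  have hG0 : Nat.card G ≠ 0 := Nat.card_pos.ne'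
  have hcard : Nat.card B = Module.finrank ℂ (B → ℂ) := by
    rw [Module.finrank_fintype_fun_eq_card, Nat.card_eq_fintype_card]
  have hle : blockRank p B ≤ Nat.card B := by
    rw [blockRank_eq_finrank hM hB, hcard]
    exact Submodule.finrank_le _
  have h1 : blockDefect p B = 0 → Nat.card B = 1 ∧ blockRank p B = 1 := by
    intro h0
    obtain ⟨χ, hχ⟩ := block_nonempty hPr hB
    obtain ⟨hd0, hd1, hd2⟩ := irr_charDegree χ.2
    unfold blockDefect at h0
    have h2 : sInf ((fun χ : IrrCharacter G => (charDegree (χ : G → ℂ)).factorization p) '' B) ≤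
        (charDegree (χ : G → ℂ)).factorization p := Nat.sInf_le ⟨χ, hχ, rfl⟩
    have h3 : (Nat.card G).factorization p ≤ (charDegree (χ : G → ℂ)).factorization p := by omega
    have h4 : p ^ (Nat.card G).factorization p ∣ charDegree (χ : G → ℂ) :=
      (pow_dvd_pow p h3).trans (Nat.ordProj_dvd _ _)
    have h5 : B = {χ} := by
      rw [block_eq_blockOf hPr hB hχ]
      exact blockOf_eq_singleton hM χ (not_dvd_div hp hG0 hd2 h4)
    subst h5
    refine ⟨by simp, ?_⟩
    unfold blockRank
    rw [Set.image_singleton]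
    apply finrank_span_singleton
    intro h6
    have h7 := congrFun h6 1
    rw [pRegularPart_regular _ (by
      rw [orderOf_one]; exact fun h => hp.one_lt.ne' (Nat.dvd_one.mp h))] at h7
    exact irr_degree_ne_zero χ.2 h7
  have h2 : Nat.card B = blockRank p B → blockDefect p B = 0 := by
    intro h0
    rw [blockRank_eq_finrank hM hB, hcard] at h0
    have htop := Submodule.eq_top_of_finrank_eq h0.symm
    have hid : ∀ v : B → ℂ, Matrix.toLin' (Cm p B) v = v := by
      intro v
      have hv : v ∈ LinearMap.range (Matrix.toLin' (Cm p B)) := by rw [htop]; trivial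
      obtain ⟨w, rfl⟩ := hv
      have := congrArg (fun f => f w) (Cm_idem hM hB).eq
      simpa using this
    have hvan : ∀ χ ∈ B, (Nat.card G).factorization p ≤
        (charDegree ((χ : IrrCharacter G) : G → ℂ)).factorization p := by
      intro χ hχ
      obtain ⟨hd0, hd1, hd2⟩ := irr_charDegree χ.2
      have h3 := regL_T hM hB (Pi.single (⟨χ, hχ⟩ : B) 1)
      rw [hid] at h3
      have h4 : T B (Pi.single (⟨χ, hχ⟩ : B) 1) = (χ : G → ℂ) := by
        unfold T
        rw [Fintype.linearCombination_apply_single, one_smul]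
      rw [h4, regL_apply] at h3
      have h5 : ∀ y : G, p ∣ orderOf y → (χ : G → ℂ) y = 0 := by
        intro y hy
        rw [← h3]
        exact pRegularPart_singular _ hy
      obtain ⟨P⟩ : Nonempty (Sylow p G) := inferInstance
      have := Fintype.ofFinite (P : Subgroup G)
      have h6 := sum_pgroup_of_vanish hp (χ : G → ℂ) h5 (P : Subgroup G) P.2
      obtain ⟨m, hm⟩ := sum_subgroup_nat (isCharacter_of_isIrr χ.2) (P : Subgroup G)
      rw [hm, hd1, P.card_eq_multiplicity] at h6
      have h7 : p ^ (Nat.card G).factorization p * m = charDegree (χ : G → ℂ) := by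
        exact_mod_cast h6
      exact (hp.pow_dvd_iff_le_factorization hd0.ne').mp ⟨m, h7.symm⟩
    obtain ⟨χ, hχ⟩ := block_nonempty hPr hB
    have hne : ((fun χ : IrrCharacter G => (charDegree (χ : G → ℂ)).factorization p) '' B).Nonempty :=
      ⟨_, χ, hχ, rfl⟩
    obtain ⟨ψ, hψ, hψe⟩ := Nat.sInf_mem hne
    unfold blockDefect
    rw [← hψe]
    exact Nat.sub_eq_zero_of_le (hvan ψ hψ)
  refine ⟨hle, ⟨h1, fun h => h2 (by rw [h.1, h.2])⟩, ⟨fun h => ?_, h2⟩⟩
  obtain ⟨h3, h4⟩ := h1 h
  rw [h3, h4]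

end Cfsg.Agent.S4733
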