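import Cfsg.Statements.S4736
import Cfsg.Agent.Lib.BlockFongMain
import Cfsg.Agent.Lib.Helper2_BlockQuot
import Cfsg.Agent.S4713
import Cfsg.Agent.Lib.Helper4_Core

set_option autoImplicit false
open Cfsg

namespace Cfsg.Agent.S4736

/-- Let p be a prime, M a maximal ideal of the algebraic integers containing p, and G a finite p-solvable group with Sylow p-subgroup P. Then P is abelian if and only if every irreducible character in the principal p-block of G has height zero. -/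
theorem result {G : Type*} [Group G] [Finite G] (p : ℕ) [Fact p.Prime] (M : Ideal Cfsg.AlgInt) (hM : Cfsg.IsPModular p M) (hsolv : Cfsg.IsPSolvable p G) (P : Sylow p G) : IsMulCommutative P ↔ ∀ χ ∈ Cfsg.principalBlock M G, Cfsg.blockHeight p (Cfsg.principalBlock M G) (χ : G → ℂ) = 0 := by
  classical
  cases nonempty_fintype G
  have hp : p.Prime := Fact.out
  have hPr := Cfsg.Agent.Lib.Helper2_BlockLocal.isPrime_of_modular hM
  set N := Cfsg.pPrimeCore p G with hNdef
  have hN : N.Normal := inferInstance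
  have hcop : (Nat.card N).Coprime p := Cfsg.Agent.Lib.Helper4_Core.pPrimeCore_coprime p
  have hNp : ¬ p ∣ Nat.card N := fun h => by
    have := Nat.Coprime.eq_one_of_dvd hcop.symm h
    exact hp.one_lt.ne' this
  have hsol' : Cfsg.IsPSolvable p (G ⧸ N) :=
    Cfsg.Agent.Lib.BlockFongMain.isPSolvable_quotient hp N hsolv
  have hbot : Cfsg.pPrimeCore p (G ⧸ N) = ⊥ :=
    Cfsg.Agent.Lib.Helper3_PComp.pPrimeCore_quotient_eq_bot p G
  have hHH := Cfsg.Agent.Lib.Helper4_PSol.hall_higman hsol' hbot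
  obtain ⟨B, hB, hmem, -, -⟩ := Cfsg.Agent.Lib.BlockFongMain.fong_block hM N hNp
    (Cfsg.Agent.Lib.Helper2_BlockQuot.oneIrr N) (fun g => rfl) (Cfsg.pCore p (G ⧸ N))
    (Cfsg.Agent.Lib.Helper4_Core.pCore_isPGroup p _) hHH
  have hone : Cfsg.Agent.Lib.Helper2_BlockQuot.oneIrr G ∈ B := by
    rw [hmem, Cfsg.Agent.Lib.Helper2_BlockQuot.over_one_iff N hN]
    intro n _
    rfl
  have hBp : B = Cfsg.principalBlock M G := by
    obtain ⟨χ0, rfl⟩ := hB
    exact Cfsg.Agent.Lib.Helper2_BlockOm.blockOf_eq_of_sameBlock hPr hone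
  have hmem' : ∀ χ : Cfsg.IrrCharacter G, χ ∈ Cfsg.principalBlock M G ↔
      ∀ n ∈ N, (χ : G → ℂ) n = (χ : G → ℂ) 1 := by
    intro χ
    rw [← hBp, hmem, Cfsg.Agent.Lib.Helper2_BlockQuot.over_one_iff N hN]
  have hinf : sInf ((fun ψ : Cfsg.IrrCharacter G => (Cfsg.charDegree (ψ : G → ℂ)).factorization p) ''
      Cfsg.principalBlock M G) = 0 := by
    rw [Nat.sInf_eq_zero]
    left
    refine ⟨Cfsg.Agent.Lib.Helper2_BlockQuot.oneIrr G, hBp ▸ hone, ?_⟩
    have : Cfsg.charDegree (Cfsg.Agent.Lib.Helper2_BlockQuot.oneIrr G : G → ℂ) = 1 := by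
      unfold Cfsg.charDegree
      have : (Cfsg.Agent.Lib.Helper2_BlockQuot.oneIrr G : G → ℂ) 1 = 1 := rfl
      rw [this]
      simp
    simp only [this]
    simp
  have hht : ∀ χ : Cfsg.IrrCharacter G,
      Cfsg.blockHeight p (Cfsg.principalBlock M G) (χ : G → ℂ) = 0 ↔
        ¬ p ∣ Cfsg.charDegree (χ : G → ℂ) := by
    intro χ
    obtain ⟨d0, d1, d2⟩ := Cfsg.Agent.Lib.helper8_Defect.irr_charDegree χ.2
    unfold Cfsg.blockHeight
    rw [hinf, Nat.sub_zero, Nat.factorization_eq_zero_iff]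
    constructor
    · rintro (h | h | h)
      · exact absurd hp h
      · exact h
      · omega
    · intro h
      exact Or.inr (Or.inl h)
  set Pb : Sylow p (G ⧸ N) := P.mapSurjective (QuotientGroup.mk'_surjective N) with hPb
  have hPbc : (Pb : Subgroup (G ⧸ N)) = (P : Subgroup G).map (QuotientGroup.mk' N) :=
    Sylow.coe_mapSurjective _ P
  have key := Cfsg.Agent.S4713.result p hsol' Pb
  have hdeg : ∀ (χ : Cfsg.IrrCharacter G) (χ' : G ⧸ N → ℂ),
      (χ : G → ℂ) = (fun g : G => χ' (QuotientGroup.mk g)) →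
      Cfsg.charDegree (χ : G → ℂ) = Cfsg.charDegree χ' := by
    intro χ χ' h
    unfold Cfsg.charDegree
    rw [h]
    rfl
  constructor
  · intro hab χ hχ
    rw [hht]
    have hcomm : ∀ a ∈ (Pb : Subgroup (G ⧸ N)), ∀ b ∈ (Pb : Subgroup (G ⧸ N)), a * b = b * a := by
      intro a ha b hb
      rw [hPbc] at ha hb
      obtain ⟨x, hx, rfl⟩ := ha
      obtain ⟨y, hy, rfl⟩ := hb
      have := (isMulCommutative_iff.1 hab) ⟨x, hx⟩ ⟨y, hy⟩
      have h2 : x * y = y * x := congrArg Subtype.val this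
      rw [← map_mul, ← map_mul, h2]
    have hle : Cfsg.pCore p (G ⧸ N) ≤ Pb := Cfsg.Agent.Lib.Helper4_Core.pCore_le_sylow Pb
    have hle2 : (Pb : Subgroup (G ⧸ N)) ≤ Cfsg.pCore p (G ⧸ N) := by
      intro a ha
      apply hHH
      rw [Subgroup.mem_centralizer_iff]
      intro b hb
      exact hcomm b (hle hb) a ha
    have heq : (Pb : Subgroup (G ⧸ N)) = Cfsg.pCore p (G ⧸ N) := le_antisymm hle2 hle
    have hnorm : (Pb : Subgroup (G ⧸ N)).Normal := by
      rw [heq]
      infer_instance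
    have hab' : IsMulCommutative Pb := by
      rw [isMulCommutative_iff]
      intro a b
      exact Subtype.ext (hcomm a a.2 b b.2)
    have hall := key.1 ⟨hnorm, hab'⟩
    obtain ⟨χ', hχ', hχe⟩ := Cfsg.Agent.Lib.CharQuot.exists_deflate_irr N χ.2 ((hmem' χ).1 hχ)
    rw [hdeg χ χ' hχe]
    exact hall ⟨χ', hχ'⟩
  · intro hall
    have h1 : ∀ χ' : Cfsg.IrrCharacter (G ⧸ N), ¬ p ∣ Cfsg.charDegree (χ' : G ⧸ N → ℂ) := by
      intro χ'
      have hirr := Cfsg.Agent.Lib.CharQuot.isIrr_inflate N χ'.2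
      have hin : (⟨_, hirr⟩ : Cfsg.IrrCharacter G) ∈ Cfsg.principalBlock M G := by
        rw [hmem']
        intro n hn
        show (χ' : G ⧸ N → ℂ) (QuotientGroup.mk n) = (χ' : G ⧸ N → ℂ) (QuotientGroup.mk 1)
        rw [(QuotientGroup.eq_one_iff n).2 hn]
        rfl
      have h2 := (hht _).1 (hall _ hin)
      rwa [hdeg ⟨_, hirr⟩ χ' rfl] at h2
    obtain ⟨-, hab'⟩ := key.2 h1
    rw [isMulCommutative_iff]
    intro a b
    have ha : QuotientGroup.mk' N (a : G) ∈ (Pb : Subgroup (G ⧸ N)) := by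
      rw [hPbc]; exact ⟨a, a.2, rfl⟩
    have hb : QuotientGroup.mk' N (b : G) ∈ (Pb : Subgroup (G ⧸ N)) := by
      rw [hPbc]; exact ⟨b, b.2, rfl⟩
    have h3 := (isMulCommutative_iff.1 hab') ⟨_, ha⟩ ⟨_, hb⟩
    have h4 : QuotientGroup.mk' N ((a : G) * b) = QuotientGroup.mk' N ((b : G) * a) := by
      rw [map_mul, map_mul]
      exact congrArg Subtype.val h3
    have h5 : ((b : G) * a)⁻¹ * ((a : G) * b) ∈ N := by
      rw [← QuotientGroup.eq_one_iff]
      have : ((((b : G) * a)⁻¹ * ((a : G) * b) : G) : G ⧸ N) =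
        (QuotientGroup.mk' N ((b : G) * a))⁻¹ * QuotientGroup.mk' N ((a : G) * b) := rfl
      rw [this, h4, inv_mul_cancel]
    have h6 : ((b : G) * a)⁻¹ * ((a : G) * b) ∈ (P : Subgroup G) :=
      mul_mem (inv_mem (mul_mem b.2 a.2)) (mul_mem a.2 b.2)
    have hdisj : Disjoint (P : Subgroup G) N := by
      apply Subgroup.disjoint_of_coprime_natCard ?_ 
      obtain ⟨k, hk⟩ := IsPGroup.iff_card.1 P.2
      rw [hk]
      exact (Nat.Coprime.pow_left k hcop.symm)
    have h7 := Subgroup.disjoint_def.1 hdisj h6 h5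
    apply Subtype.ext
    show (a : G) * b = b * a
    exact (inv_mul_eq_one.1 h7).symm

end Cfsg.Agent.S4736
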