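import Cfsg.Statements.S4955
import Cfsg.Agent.Lib.helper8_Zeros
import Cfsg.Agent.Lib.helper8_ItoMichler
import Cfsg.Agent.Lib.helper8_ModP
import Cfsg.Agent.Lib.helper8_DefectZero
import Cfsg.Agent.Lib.CharQuot

set_option autoImplicit false
open Cfsg

namespace Cfsg.Agent.S4955

open Cfsg.Agent.Lib.CharBasic Cfsg.Agent.Lib.CharOrtho Cfsg.Agent.Lib.CharComplete
  Cfsg.Agent.Lib.CharMore Cfsg.Agent.Lib.CharQuot Cfsg.Agent.Lib.helper8_Zeros
  Cfsg.Agent.Lib.helper8_ItoMichler Cfsg.Agent.Lib.helper8_ModP Cfsg.Agent.Lib.helper8_DefectZero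
  Cfsg.Agent.Lib.helper8_Defect Cfsg.Agent.Lib.Helper2_BlockLocal
open scoped ComplexConjugate

universe u

theorem card_conjClasses_congr {A B : Type*} [Group A] [Group B] (e : A ≃* B) :
    Nat.card (ConjClasses A) = Nat.card (ConjClasses B) := by
  refine Nat.card_congr ⟨ConjClasses.map e.toMonoidHom, ConjClasses.map e.symm.toMonoidHom, ?_, ?_⟩
  · intro c
    obtain ⟨a, rfl⟩ := ConjClasses.exists_rep c
    show ConjClasses.mk (e.symm (e a)) = ConjClasses.mk a
    simp
  · intro c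
    obtain ⟨a, rfl⟩ := ConjClasses.exists_rep c
    show ConjClasses.mk (e (e.symm a)) = ConjClasses.mk a
    simp

section

variable {X : Type u} [Group X] [Finite X]

theorem sum_normSq (w : X) : ∑ ψ : IrrCharacter X, ‖(ψ : X → ℂ) w‖ ^ 2 =
    (Nat.card (Subgroup.centralizer ({w} : Set X)) : ℝ) := by
  have := Fintype.ofFinite X
  have h := second_orthogonality_conj w w (IsConj.refl w)
  have h2 : ∀ ψ : IrrCharacter X, (ψ : X → ℂ) w * conj ((ψ : X → ℂ) w) =
      ((‖(ψ : X → ℂ) w‖ ^ 2 : ℝ) : ℂ) := by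
    intro ψ; rw [Complex.mul_conj']; push_cast; rfl
  simp only [h2] at h
  exact_mod_cast h

noncomputable def infl (V : Subgroup X) [V.Normal] (ψ : IrrCharacter (X ⧸ V)) :
    {χ : IrrCharacter X // ∀ n ∈ V, (χ : X → ℂ) n = (χ : X → ℂ) 1} :=
  ⟨⟨fun x => (ψ : X ⧸ V → ℂ) (QuotientGroup.mk x), isIrr_inflate V ψ.2⟩, by
    intro n hn
    show (ψ : X ⧸ V → ℂ) (QuotientGroup.mk n) = (ψ : X ⧸ V → ℂ) (QuotientGroup.mk 1)
    rw [(QuotientGroup.eq_one_iff n).2 hn, QuotientGroup.mk_one]⟩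

theorem infl_bij (V : Subgroup X) [V.Normal] : Function.Bijective (infl V) := by
  constructor
  · intro a b h
    apply Subtype.ext
    funext q
    obtain ⟨x, rfl⟩ := QuotientGroup.mk_surjective q
    exact congrFun (congrArg (fun z => (z.1 : X → ℂ)) h) x
  · rintro ⟨χ, hχ⟩
    obtain ⟨χ', h1, h2⟩ := exists_deflate_irr V χ.2 hχ
    refine ⟨⟨χ', h1⟩, ?_⟩
    apply Subtype.ext; apply Subtype.ext
    exact h2.symm

theorem card_ker (V : Subgroup X) [V.Normal] :
    Nat.card {χ : IrrCharacter X // ∀ n ∈ V, (χ : X → ℂ) n = (χ : X → ℂ) 1} =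
      Nat.card (ConjClasses (X ⧸ V)) := by
  have := Fintype.ofFinite (X ⧸ V)
  rw [← Nat.card_congr (Equiv.ofBijective (infl V) (infl_bij V)), card_irr_eq_card_conjClasses]

open scoped Classical in
theorem sum_ker (V : Subgroup X) [V.Normal] :
    ∑ χ ∈ Finset.univ.filter (fun χ : IrrCharacter X => ∀ n ∈ V, (χ : X → ℂ) n = (χ : X → ℂ) 1),
      ‖(χ : X → ℂ) 1‖ ^ 2 = (Nat.card (X ⧸ V) : ℝ) := by
  rw [← Finset.sum_subtype_eq_sum_filter, Finset.subtype_univ,
    ← Equiv.sum_comp (Equiv.ofBijective (infl V) (infl_bij V))]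
  have h := sum_normSq (1 : X ⧸ V)
  have h2 : Subgroup.centralizer ({1} : Set (X ⧸ V)) = ⊤ := by
    rw [eq_top_iff]
    intro x _
    rw [Subgroup.mem_centralizer_singleton_iff]
    simp
  rw [h2, Subgroup.card_top] at h
  rw [← h]
  rfl

theorem ne_zero_of_pelem {p : ℕ} (hp : p.Prime) (χ : IrrCharacter X)
    (hdeg : ¬ p ∣ charDegree (χ : X → ℂ)) (w : X) {j : ℕ} (hw : w ^ (p ^ j) = 1) :
    (χ : X → ℂ) w ≠ 0 := by
  obtain ⟨M, hM⟩ := exists_modular hp
  intro h0
  have h1 := char_congr_one hM (isCharacter_of_isIrr χ.2) w hw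
  rw [h0, sub_zero, (irr_charDegree χ.2).2.1, ideal_natCast_iff hM] at h1
  exact hdeg h1

theorem card_centralizer (V G : Subgroup X) (hGV : Subgroup.IsComplement' V G) (v : X)
    (hVC : V ≤ Subgroup.centralizer ({v} : Set X)) :
    Nat.card (Subgroup.centralizer ({v} : Set X)) =
      Nat.card ↥(G ⊓ Subgroup.centralizer ({v} : Set X)) * Nat.card V := by
  rw [mul_comm, ← Nat.card_prod]
  symm
  let f : ↥V × ↥(G ⊓ Subgroup.centralizer ({v} : Set X)) → ↥(Subgroup.centralizer ({v} : Set X)) :=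
    fun q => ⟨(q.1 : X) * (q.2 : X), mul_mem (hVC q.1.2) (Subgroup.mem_inf.mp q.2.2).2⟩
  refine Nat.card_congr (Equiv.ofBijective f ⟨?_, ?_⟩)
  · rintro ⟨a, b⟩ ⟨a', b'⟩ h
    have h1 : (a : X) * (b : X) = (a' : X) * (b' : X) := congrArg Subtype.val h
    have h2 := hGV.1 (a₁ := (a, ⟨(b : X), (Subgroup.mem_inf.mp b.2).1⟩))
      (a₂ := (a', ⟨(b' : X), (Subgroup.mem_inf.mp b'.2).1⟩)) h1
    have h3 := congrArg Prod.fst h2
    have h4 := congrArg (fun q : ↥V × ↥G => (q.2 : X)) h2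
    exact Prod.ext h3 (Subtype.ext h4)
  · rintro ⟨c, hc⟩
    obtain ⟨⟨a, g⟩, hag⟩ := hGV.2 c
    have hag' : (a : X) * (g : X) = c := hag
    have hg : (g : X) ∈ Subgroup.centralizer ({v} : Set X) := by
      have : (g : X) = (a : X)⁻¹ * c := by rw [← hag']; group
      rw [this]
      exact mul_mem (inv_mem (hVC a.2)) hc
    exact ⟨(a, ⟨(g : X), Subgroup.mem_inf.mpr ⟨g.2, hg⟩⟩), Subtype.ext hag'⟩

end


/-- Let X be a finite group with an abelian normal Sylow p-subgroup V (a normal p-subgroup of index prime to p in which any two elements commute), and let G be a complement to V in X. Then for every v in V, writing C for the centralizer of v in G, the number k(X) of conjugacy classes of X satisfies k(X) ≤ (order of C)·(order of V) − ((order of G) − k(G)); the statement is written with the subtracted term moved to the left. In particular, if some v in V is centralized by no nonidentity element of G, then k(X) is at most the order of V. -/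
theorem result {X : Type*} [Group X] [Finite X] (p : ℕ) [Fact p.Prime] (V : Subgroup X) [V.Normal] (hVp : IsPGroup p V) (hidx : ¬ p ∣ V.index) (hab : ∀ a ∈ V, ∀ b ∈ V, a * b = b * a) (G : Subgroup X) (hGV : Subgroup.IsComplement' V G) (v : X) (hv : v ∈ V) : Nat.card (ConjClasses X) + Nat.card G ≤ Nat.card ↥(G ⊓ Subgroup.centralizer ({v} : Set X)) * Nat.card V + Nat.card (ConjClasses G) := by
  classical
  have hp : p.Prime := Fact.out
  have hVC : V ≤ Subgroup.centralizer ({v} : Set X) := by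
    intro a ha
    rw [Subgroup.mem_centralizer_singleton_iff]
    exact hab a ha v hv
  have hC := card_centralizer V G hGV v hVC
  have hkG : Nat.card (ConjClasses G) = Nat.card (ConjClasses (X ⧸ V)) :=
    card_conjClasses_congr hGV.symm.QuotientMulEquiv.symm
  have hcG : Nat.card G = Nat.card (X ⧸ V) := Nat.card_congr hGV.symm.QuotientMulEquiv.symm.toEquiv
  have := Fintype.ofFinite X
  set S : Finset X := Finset.univ.filter (fun w => ∃ k : ℕ, k.Coprime (Nat.card X) ∧ w = v ^ k)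
    with hS
  have hSmem : ∀ w, w ∈ S ↔ ∃ k : ℕ, k.Coprime (Nat.card X) ∧ w = v ^ k := by
    intro w; simp [hS]
  have hSne : 0 < S.card := Finset.card_pos.mpr ⟨v, (hSmem v).2 ⟨1, by simp, by simp⟩⟩
  have hSclosed : ∀ g ∈ S, ∀ k : ℕ, k.Coprime (Nat.card X) → g ^ k ∈ S := by
    intro g hg k hk
    obtain ⟨j, hj, rfl⟩ := (hSmem g).1 hg
    exact (hSmem _).2 ⟨j * k, Nat.Coprime.mul_left hj hk, (pow_mul v j k).symm⟩
  have hSV : ∀ w ∈ S, w ∈ V := by
    intro w hw
    obtain ⟨j, hj, rfl⟩ := (hSmem w).1 hw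
    exact pow_mem hv j
  have hScent : ∀ w ∈ S, Subgroup.centralizer ({w} : Set X) = Subgroup.centralizer ({v} : Set X) := by
    intro w hw
    obtain ⟨j, hj, rfl⟩ := (hSmem w).1 hw
    obtain ⟨m, hm⟩ := exists_pow_eq_self_of_coprime
      (Nat.Coprime.coprime_dvd_right (orderOf_dvd_natCard v) hj)
    apply le_antisymm
    · intro x hx
      rw [Subgroup.mem_centralizer_singleton_iff] at hx ⊢
      have h1 : Commute x (v ^ j) := hx
      have h2 := h1.pow_right m
      rw [hm] at h2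
      exact h2
    · intro x hx
      rw [Subgroup.mem_centralizer_singleton_iff] at hx ⊢
      have h1 : Commute x v := hx
      exact h1.pow_right j
  -- the basic inequality for each irreducible character
  have hbasic : ∀ χ : IrrCharacter X, (S.card : ℝ) ≤ ∑ w ∈ S, ‖(χ : X → ℂ) w‖ ^ 2 := by
    intro χ
    have h1 := card_nonzero_le_sum (isCharacter_of_isIrr χ.2) S hSclosed
    have h2 : S.filter (fun g => (χ : X → ℂ) g ≠ 0) = S := by
      apply Finset.filter_true_of_mem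
      intro w hw
      obtain ⟨j, hj⟩ := hVp ⟨w, hSV w hw⟩
      have hj' : w ^ (p ^ j) = 1 := congrArg Subtype.val hj
      exact ne_zero_of_pelem hp χ (degrees_of_normal_abelian V inferInstance hab hidx χ) w hj'
    rwa [h2] at h1
  set Pk : IrrCharacter X → Prop := fun χ => ∀ n ∈ V, (χ : X → ℂ) n = (χ : X → ℂ) 1 with hPk
  have hkX : (Nat.card (ConjClasses X) : ℝ) = (Fintype.card (IrrCharacter X) : ℝ) := by
    rw [← card_irr_eq_card_conjClasses, Nat.card_eq_fintype_card]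
  have hk0 : (Nat.card (ConjClasses G) : ℝ) = ((Finset.univ.filter Pk).card : ℝ) := by
    rw [hkG, ← card_ker V, Nat.card_eq_fintype_card, Fintype.card_subtype]
  have hsum0 : ∀ w ∈ S, ∑ χ ∈ Finset.univ.filter Pk, ‖(χ : X → ℂ) w‖ ^ 2 = (Nat.card G : ℝ) := by
    intro w hw
    rw [hcG, ← sum_ker V]
    refine Finset.sum_congr (by ext χ; simp [hPk]) fun χ hχ => ?_
    simp only [Finset.mem_filter, Finset.mem_univ, true_and] at hχ
    rw [hχ w (hSV w hw)]
  have hsumall : ∀ w ∈ S, ∑ χ : IrrCharacter X, ‖(χ : X → ℂ) w‖ ^ 2 =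
      (Nat.card ↥(G ⊓ Subgroup.centralizer ({v} : Set X)) : ℝ) * (Nat.card V : ℝ) := by
    intro w hw
    rw [sum_normSq, hScent w hw, hC]
    push_cast
    rfl
  have hsumrest : ∀ w ∈ S, ∑ χ ∈ Finset.univ.filter (fun χ => ¬ Pk χ), ‖(χ : X → ℂ) w‖ ^ 2 =
      (Nat.card ↥(G ⊓ Subgroup.centralizer ({v} : Set X)) : ℝ) * (Nat.card V : ℝ) -
        (Nat.card G : ℝ) := by
    intro w hw
    rw [← hsumall w hw, ← hsum0 w hw,
      ← Finset.sum_filter_add_sum_filter_not Finset.univ Pk (fun χ => ‖(χ : X → ℂ) w‖ ^ 2)]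
    ring
  have hmain : ((Finset.univ.filter (fun χ => ¬ Pk χ)).card : ℝ) * (S.card : ℝ) ≤
      (S.card : ℝ) * ((Nat.card ↥(G ⊓ Subgroup.centralizer ({v} : Set X)) : ℝ) * (Nat.card V : ℝ) -
        (Nat.card G : ℝ)) := by
    calc ((Finset.univ.filter (fun χ => ¬ Pk χ)).card : ℝ) * (S.card : ℝ)
        = ∑ χ ∈ Finset.univ.filter (fun χ => ¬ Pk χ), (S.card : ℝ) := by
          rw [Finset.sum_const, nsmul_eq_mul]
      _ ≤ ∑ χ ∈ Finset.univ.filter (fun χ => ¬ Pk χ), ∑ w ∈ S, ‖(χ : X → ℂ) w‖ ^ 2 :=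
          Finset.sum_le_sum fun χ _ => hbasic χ
      _ = ∑ w ∈ S, ∑ χ ∈ Finset.univ.filter (fun χ => ¬ Pk χ), ‖(χ : X → ℂ) w‖ ^ 2 :=
          Finset.sum_comm
      _ = ∑ w ∈ S, ((Nat.card ↥(G ⊓ Subgroup.centralizer ({v} : Set X)) : ℝ) * (Nat.card V : ℝ) -
            (Nat.card G : ℝ)) := Finset.sum_congr rfl hsumrest
      _ = _ := by rw [Finset.sum_const, nsmul_eq_mul]
  have hSpos : (0 : ℝ) < (S.card : ℝ) := by exact_mod_cast hSne
  rw [mul_comm] at hmain
  have hmain2 := le_of_mul_le_mul_left hmain hSpos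
  have hcount : ((Finset.univ.filter (fun χ => ¬ Pk χ)).card : ℝ) =
      (Nat.card (ConjClasses X) : ℝ) - (Nat.card (ConjClasses G) : ℝ) := by
    rw [hkX, hk0, ← Finset.card_univ,
      ← Finset.card_filter_add_card_filter_not (s := Finset.univ) Pk]
    push_cast
    ring
  rw [hcount] at hmain2
  have hfinal : (Nat.card (ConjClasses X) : ℝ) + (Nat.card G : ℝ) ≤
      (Nat.card ↥(G ⊓ Subgroup.centralizer ({v} : Set X)) : ℝ) * (Nat.card V : ℝ) +
        (Nat.card (ConjClasses G) : ℝ) := by linarith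
  exact_mod_cast hfinal

end Cfsg.Agent.S4955
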