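import Cfsg.Statements.S4956
import Mathlib

set_option autoImplicit false
open Cfsg

namespace Cfsg.Agent.S4956

/-- pointwise version -/
theorem card_solutions {A : Type*} [AddCommGroup A] [Finite A] (α β e p : A →+ A)
    (h1 : ∀ v, α (e v) = e v) (h2 : ∀ v, e (α v) = e v)
    (h3 : ∀ v, v - e v = p v - α (p v)) (h4 : ∀ v, e (β v) = β (e v))
    (h5 : ∀ v, α v = v → e v = v) (h6 : ∀ v, p (α v) = α (p v)) :
    Nat.card {ab : A × A // ab.1 + α ab.2 = ab.2 + β ab.1} =
      Nat.card A * Nat.card {v : A // α v = v ∧ β v = v} := by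
  rw [mul_comm, ← Nat.card_prod]
  have hee : ∀ v, e (e v) = e v := fun v => h5 _ (h1 v)
  have hew : ∀ u, e (u - e u) = 0 := fun u => by rw [map_sub, hee, sub_self]
  have hfix : ∀ a b : A, a + α b = b + β a → β (e a) = e a := by
    intro a b hab
    have h7 : β a = a + α b - b := by rw [hab]; abel
    rw [← h4, h7]
    simp only [map_add, map_sub, h2]
    abel
  refine Nat.card_congr
    { toFun := fun ab => (⟨e ab.1.1, h1 _, hfix _ _ ab.2⟩, (ab.1.1 - e ab.1.1) + e ab.1.2)
      invFun := fun ku => ⟨((ku.1 : A) + (ku.2 - e ku.2),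
        e ku.2 + (p ((ku.2 - e ku.2) - β (ku.2 - e ku.2))
          - e (p ((ku.2 - e ku.2) - β (ku.2 - e ku.2))))), ?_⟩
      left_inv := ?_
      right_inv := ?_ }
  · obtain ⟨⟨k, hk1, hk2⟩, u⟩ := ku
    simp only
    have hw0 := hew u
    generalize u - e u = w at hw0 ⊢
    have hez : e (w - β w) = 0 := by rw [map_sub, h4, hw0, map_zero, sub_zero]
    have h8 : α (p (w - β w)) = p (w - β w) - (w - β w) := by
      have h9 := h3 (w - β w)
      rw [hez, sub_zero] at h9
      calc α (p (w - β w)) = p (w - β w) - (p (w - β w) - α (p (w - β w))) := by abel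
        _ = p (w - β w) - (w - β w) := by rw [← h9]
    rw [map_add α, map_sub α, h1, h1, h8, map_add β, hk2]
    abel
  · rintro ⟨⟨a, b⟩, hab⟩
    simp only at hab
    apply Subtype.ext
    have hu : e ((a - e a) + e b) = e b := by rw [map_add, hew, hee, zero_add]
    have hw : (a - e a) + e b - e ((a - e a) + e b) = a - e a := by rw [hu]; abel
    have hz : (a - e a) - β (a - e a) = b - α b := by
      rw [map_sub, hfix a b hab]
      have h7 : β a = a + α b - b := by rw [hab]; abel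
      rw [h7]; abel
    have hpz : p (b - α b) = b - e b := by rw [map_sub, h6, h3]
    simp only
    rw [hw, hu, hz, hpz, hew]
    apply Prod.ext
    · simp only; abel
    · simp only; abel
  · rintro ⟨⟨k, hk1, hk2⟩, u⟩
    simp only
    have hek : e k = k := h5 k hk1
    apply Prod.ext
    · apply Subtype.ext
      simp only
      rw [map_add, hek, hew, add_zero]
    · simp only
      rw [map_add e k, hek, hew, map_add e (e u), hee, hew]
      abel

theorem card_solutions' {A : Type*} [AddCommGroup A] [Finite A] (α β : AddMonoid.End A)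
    (hαβ : Commute α β) (n : ℕ) (hn : α ^ n = 1) (hcop : n.Coprime (Nat.card A)) :
    Nat.card {ab : A × A // ab.1 + α ab.2 = ab.2 + β ab.1} =
      Nat.card A * Nat.card {v : A // α v = v ∧ β v = v} := by
  obtain ⟨c, d, hcd⟩ := (Nat.isCoprime_iff_coprime.mpr hcop)
  have hcn : ∀ v : A, c • (n • v) = v := by
    intro v
    have h1 : (c * n + d * (Nat.card A : ℤ)) • v = v := by rw [hcd, one_smul]
    rw [add_smul, mul_smul, mul_smul, natCast_zsmul, natCast_zsmul, card_nsmul_eq_zero',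
      smul_zero, add_zero] at h1
    exact h1
  set N : AddMonoid.End A := ∑ i ∈ Finset.range n, α ^ i with hN
  set PP : AddMonoid.End A := ∑ i ∈ Finset.range n, ∑ j ∈ Finset.range i, α ^ j with hPP
  have r1 : α * N = N := by
    have := mul_neg_geom_sum α n
    rw [hn, sub_self, sub_mul, one_mul, sub_eq_zero] at this
    exact this.symm
  have r2 : N * α = N := by
    have := geom_sum_mul_neg α n
    rw [hn, sub_self, mul_sub, mul_one, sub_eq_zero] at this
    exact this.symm
  have r3 : (1 - α) * PP = (n : AddMonoid.End A) - N := by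
    rw [hPP, Finset.mul_sum]
    simp_rw [mul_neg_geom_sum]
    rw [Finset.sum_sub_distrib]
    simp [hN]
  have r4 : c • (n : AddMonoid.End A) = 1 := by
    ext v
    simpa using hcn v
  have r5 : PP * α = α * PP := by
    have : Commute PP α := by
      apply Commute.sum_left
      intro i _
      apply Commute.sum_left
      intro j _
      exact (Commute.refl α).pow_left j
    exact this
  have r6 : N * β = β * N := by
    have : Commute N β := by
      apply Commute.sum_left
      intro i _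
      exact hαβ.pow_left i
    exact this
  have hpowfix : ∀ v : A, α v = v → ∀ i : ℕ, (α ^ i) v = v := by
    intro v hv i
    induction i with
    | zero => simp
    | succ k ih => rw [pow_succ]; show (α ^ k) (α v) = v; rw [hv, ih]
  refine card_solutions α β (c • N) (c • PP) ?_ ?_ ?_ ?_ ?_ ?_
  · intro v
    have : α * (c • N) = c • N := by rw [mul_smul_comm, r1]
    exact DFunLike.congr_fun this v
  · intro v
    have : (c • N) * α = c • N := by rw [smul_mul_assoc, r2]
    exact DFunLike.congr_fun this v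
  · intro v
    have : 1 - c • N = c • PP - α * (c • PP) := by
      have h : c • PP - α * (c • PP) = c • ((1 - α) * PP) := by
        rw [sub_mul, one_mul, zsmul_sub, mul_smul_comm]
      rw [h, r3, zsmul_sub, r4]
    exact DFunLike.congr_fun this v
  · intro v
    have : (c • N) * β = β * (c • N) := by rw [smul_mul_assoc, r6, mul_smul_comm]
    exact DFunLike.congr_fun this v
  · intro v hv
    have h0 : (c • N) v = c • (N v) := rfl
    have h2 : N v = n • v := by
      rw [hN]
      have h3 : (∑ i ∈ Finset.range n, α ^ i) v = ∑ i ∈ Finset.range n, (α ^ i) v :=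
        AddMonoidHom.finsetSum_apply _ _ _
      rw [h3, Finset.sum_congr rfl (fun i _ => hpowfix v hv i)]
      simp
    exact h0.trans (by rw [h2, hcn])
  · intro v
    have : (c • PP) * α = α * (c • PP) := by rw [smul_mul_assoc, r5, mul_smul_comm]
    exact DFunLike.congr_fun this v

theorem card_solutions_mul {A : Type*} [Group A] [Finite A] (hcomm : ∀ a b : A, a * b = b * a)
    (α β : A →* A) (hαβ : ∀ v, α (β v) = β (α v)) (n : ℕ) (hn : ∀ v, α^[n] v = v)
    (hcop : n.Coprime (Nat.card A)) :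
    Nat.card {ab : A × A // ab.1 * α ab.2 = ab.2 * β ab.1} =
      Nat.card A * Nat.card {v : A // α v = v ∧ β v = v} := by
  let _ : CommGroup A := { ‹Group A› with mul_comm := hcomm }
  let α' : AddMonoid.End (Additive A) := MonoidHom.toAdditive α
  let β' : AddMonoid.End (Additive A) := MonoidHom.toAdditive β
  have hc : Commute α' β' := by
    apply DFunLike.ext
    intro v
    exact hαβ v
  have hpow : α' ^ n = 1 := by
    apply DFunLike.ext
    intro v
    have h1 : ⇑(α' ^ n) = (⇑α')^[n] := AddMonoid.End.coe_pow _ _ _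
    rw [h1]
    exact hn v
  exact card_solutions' (A := Additive A) α' β' hc n hpow hcop

section grp

variable {X : Type*} [Group X] [Finite X] (V : Subgroup X) [V.Normal]

theorem iterate_conj (g : X) (k : ℕ) (v : V) :
    (((⇑((MulAut.conjNormal g : MulAut V).toMonoidHom))^[k] v : V) : X) =
      g ^ k * v * (g ^ k)⁻¹ := by
  induction k with
  | zero => simp
  | succ k ih =>
    rw [Function.iterate_succ_apply']
    have h1 : ∀ w : V, (((MulAut.conjNormal g : MulAut V).toMonoidHom w : V) : X) = g * w * g⁻¹ :=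
      fun w => MulAut.conjNormal_apply g w
    rw [h1, ih, pow_succ', mul_inv_rev]
    simp only [mul_assoc]

theorem card_pairs (hab : ∀ a ∈ V, ∀ b ∈ V, a * b = b * a) (g h : X) (hgh : g * h = h * g)
    (n : ℕ) (hn : g ^ n = 1) (hcop : n.Coprime (Nat.card V)) :
    Nat.card {ab : V × V // (ab.1 : X) * (g * ab.2 * g⁻¹) = ab.2 * (h * ab.1 * h⁻¹)} =
      Nat.card V * Nat.card {v : V // g * (v : X) * g⁻¹ = v ∧ h * (v : X) * h⁻¹ = v} := by
  have h1 : ∀ (x : X) (w : V),
      (((MulAut.conjNormal x : MulAut V).toMonoidHom w : V) : X) = x * w * x⁻¹ :=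
    fun x w => MulAut.conjNormal_apply x w
  have key := card_solutions_mul (A := V) (fun a b => Subtype.ext (hab a a.2 b b.2))
    (MulAut.conjNormal g : MulAut V).toMonoidHom (MulAut.conjNormal h : MulAut V).toMonoidHom
    (by
      intro v
      apply Subtype.ext
      rw [h1, h1, h1, h1]
      have e1 : g * (h * (v : X) * h⁻¹) * g⁻¹ = (g * h) * v * (g * h)⁻¹ := by group
      have e2 : h * (g * (v : X) * g⁻¹) * h⁻¹ = (h * g) * v * (h * g)⁻¹ := by group
      rw [e1, e2, hgh])
    n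
    (by
      intro v
      apply Subtype.ext
      rw [iterate_conj, hn]
      simp)
    hcop
  rw [← Nat.card_congr (Equiv.subtypeEquivRight (fun v : V => by
      rw [Subtype.ext_iff, Subtype.ext_iff, h1, h1] :
      ∀ v : V, ((MulAut.conjNormal g : MulAut V).toMonoidHom v = v ∧
        (MulAut.conjNormal h : MulAut V).toMonoidHom v = v) ↔
        (g * (v : X) * g⁻¹ = v ∧ h * (v : X) * h⁻¹ = v))), ← key]
  refine Nat.card_congr (Equiv.subtypeEquivRight (fun ab => ?_))
  rw [Subtype.ext_iff, Subgroup.coe_mul, Subgroup.coe_mul, h1, h1]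

end grp

section grp2

variable {X : Type*} [Group X] [Finite X] (V : Subgroup X) [V.Normal]

theorem card_comm (hab : ∀ a ∈ V, ∀ b ∈ V, a * b = b * a) (G : Subgroup X)
    (hGV : Subgroup.IsComplement' V G) (hcop : (Nat.card V).Coprime (Nat.card G)) :
    Nat.card {p : X × X // Commute p.1 p.2} =
      Nat.card V * Nat.card {t : (G × G) × V // (t.1.1 : X) * t.1.2 = t.1.2 * t.1.1 ∧
        (t.1.1 : X) * t.2 * (t.1.1 : X)⁻¹ = t.2 ∧ (t.1.2 : X) * t.2 * (t.1.2 : X)⁻¹ = t.2} := by
  classical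
  have := Fintype.ofFinite G
  let E : (Σ gh : G × G, {ab : V × V //
      Commute ((ab.1 : X) * (gh.1 : X)) ((ab.2 : X) * (gh.2 : X))}) →
      {p : X × X // Commute p.1 p.2} :=
    fun s => ⟨((s.2.1.1 : X) * (s.1.1 : X), (s.2.1.2 : X) * (s.1.2 : X)), s.2.2⟩
  have hE : Function.Bijective E := by
    constructor
    · rintro ⟨⟨g, h⟩, ⟨⟨a, b⟩, hc⟩⟩ ⟨⟨g', h'⟩, ⟨⟨a', b'⟩, hc'⟩⟩ heq
      have h1 : (a : X) * (g : X) = (a' : X) * (g' : X) :=
        congrArg (fun p : {p : X × X // Commute p.1 p.2} => p.1.1) heq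
      have h2 : (b : X) * (h : X) = (b' : X) * (h' : X) :=
        congrArg (fun p : {p : X × X // Commute p.1 p.2} => p.1.2) heq
      have h3 := hGV.1 (a₁ := (a, g)) (a₂ := (a', g')) h1
      have h4 := hGV.1 (a₁ := (b, h)) (a₂ := (b', h')) h2
      obtain ⟨rfl, rfl⟩ := Prod.mk.inj h3
      obtain ⟨rfl, rfl⟩ := Prod.mk.inj h4
      rfl
    · rintro ⟨⟨x, y⟩, hxy⟩
      obtain ⟨⟨a, g⟩, hag⟩ := hGV.2 x
      obtain ⟨⟨b, h⟩, hbh⟩ := hGV.2 y
      have hag' : (a : X) * (g : X) = x := hag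
      have hbh' : (b : X) * (h : X) = y := hbh
      subst hag' hbh'
      exact ⟨⟨(g, h), ⟨(a, b), hxy⟩⟩, rfl⟩
  rw [← Nat.card_congr (Equiv.ofBijective E hE), Nat.card_sigma,
    Nat.card_congr (Equiv.subtypeProdEquivSigmaSubtype (fun (gh : G × G) (v : V) =>
      (gh.1 : X) * gh.2 = gh.2 * gh.1 ∧
        (gh.1 : X) * v * (gh.1 : X)⁻¹ = v ∧ (gh.2 : X) * v * (gh.2 : X)⁻¹ = v)),
    Nat.card_sigma, Finset.mul_sum]
  refine Finset.sum_congr rfl fun gh _ => ?_
  obtain ⟨g, h⟩ := gh
  simp only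
  by_cases hgh : (g : X) * h = h * g
  · have hn : (g : X) ^ (Nat.card G) = 1 := by
      have : g ^ (Nat.card G) = 1 := pow_card_eq_one'
      exact_mod_cast congrArg Subtype.val this
    rw [Nat.card_congr (Equiv.subtypeEquivRight (fun v : V => by
      rw [and_iff_right hgh] :
      ∀ v : V, ((g : X) * h = h * g ∧ (g : X) * v * (g : X)⁻¹ = v ∧ (h : X) * v * (h : X)⁻¹ = v) ↔
        ((g : X) * v * (g : X)⁻¹ = v ∧ (h : X) * v * (h : X)⁻¹ = v))),
      ← card_pairs V hab g h hgh (Nat.card G) hn hcop.symm]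
    refine Nat.card_congr (Equiv.subtypeEquivRight (fun ab => ?_))
    obtain ⟨a, b⟩ := ab
    simp only
    have e1 : (a : X) * g * (b * h) = (a * (g * b * (g : X)⁻¹)) * (g * h) := by group
    have e2 : (b : X) * h * (a * g) = (b * (h * a * (h : X)⁻¹)) * (h * g) := by group
    unfold Commute SemiconjBy
    rw [e1, e2, hgh]
    exact mul_left_inj _
  · have h1 : IsEmpty {ab : V × V // Commute ((ab.1 : X) * (g : X)) ((ab.2 : X) * (h : X))} := by
      constructor
      rintro ⟨⟨a, b⟩, hc⟩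
      apply hgh
      have e1 : (a : X) * g * (b * h) = (a * (g * b * (g : X)⁻¹)) * (g * h) := by group
      have e2 : (b : X) * h * (a * g) = (b * (h * a * (h : X)⁻¹)) * (h * g) := by group
      have hc' : (a : X) * g * (b * h) = (b : X) * h * (a * g) := hc
      rw [e1, e2] at hc'
      have hm1 : (a : X) * (g * b * (g : X)⁻¹) ∈ V :=
        mul_mem a.2 ((inferInstance : V.Normal).conj_mem _ b.2 _)
      have hm2 : (b : X) * (h * a * (h : X)⁻¹) ∈ V :=
        mul_mem b.2 ((inferInstance : V.Normal).conj_mem _ a.2 _)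
      have h3 := hGV.1 (a₁ := (⟨_, hm1⟩, g * h)) (a₂ := (⟨_, hm2⟩, h * g)) hc'
      exact congrArg (fun q : V × G => (q.2 : X)) h3
    have h2 : IsEmpty {v : V // (g : X) * h = h * g ∧ (g : X) * v * (g : X)⁻¹ = v ∧
        (h : X) * v * (h : X)⁻¹ = v} := by
      constructor
      rintro ⟨v, hv, _⟩
      exact hgh hv
    rw [@Nat.card_of_isEmpty _ h1, @Nat.card_of_isEmpty _ h2, mul_zero]

end grp2

theorem card_conjClasses_congr {A B : Type*} [Group A] [Group B] (e : A ≃* B) :
    Nat.card (ConjClasses A) = Nat.card (ConjClasses B) := by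
  refine Nat.card_congr ⟨ConjClasses.map e.toMonoidHom, ConjClasses.map e.symm.toMonoidHom, ?_, ?_⟩
  · intro c
    obtain ⟨a, rfl⟩ := ConjClasses.exists_rep c
    show ConjClasses.mk (e.symm (e a)) = ConjClasses.mk a
    simp
  · intro c
    obtain ⟨a, rfl⟩ := ConjClasses.exists_rep c
    show ConjClasses.mk (e (e.symm a)) = ConjClasses.mk a
    simp

section grp3

variable {X : Type*} [Group X]

theorem mem_cent (G : Subgroup X) (v c : X) :
    c ∈ G ⊓ Subgroup.centralizer ({v} : Set X) ↔ c ∈ G ∧ c * v * c⁻¹ = v := by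
  rw [Subgroup.mem_inf, Subgroup.mem_centralizer_singleton_iff, mul_inv_eq_iff_eq_mul]

def conjEquiv (G : Subgroup X) (g : X) (hg : g ∈ G) (v : X) :
    ↥(G ⊓ Subgroup.centralizer ({v} : Set X)) ≃*
      ↥(G ⊓ Subgroup.centralizer ({g * v * g⁻¹} : Set X)) where
  toFun c := ⟨g * c * g⁻¹, by
    obtain ⟨h1, h2⟩ := (mem_cent G v c).mp c.2
    rw [mem_cent]
    refine ⟨mul_mem (mul_mem hg h1) (inv_mem hg), ?_⟩
    calc g * (c : X) * g⁻¹ * (g * v * g⁻¹) * (g * (c : X) * g⁻¹)⁻¹
        = g * ((c : X) * v * (c : X)⁻¹) * g⁻¹ := by group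
      _ = g * v * g⁻¹ := by rw [h2]⟩
  invFun c := ⟨g⁻¹ * c * g, by
    obtain ⟨h1, h2⟩ := (mem_cent G _ c).mp c.2
    rw [mem_cent]
    refine ⟨mul_mem (mul_mem (inv_mem hg) h1) hg, ?_⟩
    calc g⁻¹ * (c : X) * g * v * (g⁻¹ * (c : X) * g)⁻¹
        = g⁻¹ * ((c : X) * (g * v * g⁻¹) * (c : X)⁻¹) * g := by group
      _ = v := by rw [h2]; group⟩
  left_inv c := Subtype.ext (by simp only; group)
  right_inv c := Subtype.ext (by simp only; group)
  map_mul' a b := Subtype.ext (by simp only [Subgroup.coe_mul]; group)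

theorem card_F (G : Subgroup X) (v : X) :
    Nat.card {gh : G × G // (gh.1 : X) * gh.2 = gh.2 * gh.1 ∧
        (gh.1 : X) * v * (gh.1 : X)⁻¹ = v ∧ (gh.2 : X) * v * (gh.2 : X)⁻¹ = v} =
      Nat.card (ConjClasses ↥(G ⊓ Subgroup.centralizer ({v} : Set X))) *
        Nat.card ↥(G ⊓ Subgroup.centralizer ({v} : Set X)) := by
  rw [← card_comm_eq_card_conjClasses_mul_card]
  symm
  let f : {p : ↥(G ⊓ Subgroup.centralizer ({v} : Set X)) ×
      ↥(G ⊓ Subgroup.centralizer ({v} : Set X)) // Commute p.1 p.2} →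
      {gh : G × G // (gh.1 : X) * gh.2 = gh.2 * gh.1 ∧
        (gh.1 : X) * v * (gh.1 : X)⁻¹ = v ∧ (gh.2 : X) * v * (gh.2 : X)⁻¹ = v} :=
    fun p => ⟨(⟨p.1.1, ((mem_cent G v _).mp p.1.1.2).1⟩, ⟨p.1.2, ((mem_cent G v _).mp p.1.2.2).1⟩),
      congrArg Subtype.val p.2.eq, ((mem_cent G v _).mp p.1.1.2).2, ((mem_cent G v _).mp p.1.2.2).2⟩
  refine Nat.card_congr (Equiv.ofBijective f ⟨?_, ?_⟩)
  · rintro ⟨⟨a, b⟩, hab⟩ ⟨⟨a', b'⟩, hab'⟩ h
    have h1 : (a : X) = a' := congrArg (fun q : {gh : G × G // (gh.1 : X) * gh.2 = gh.2 * gh.1 ∧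
        (gh.1 : X) * v * (gh.1 : X)⁻¹ = v ∧ (gh.2 : X) * v * (gh.2 : X)⁻¹ = v} => (q.1.1 : X)) h
    have h2 : (b : X) = b' := congrArg (fun q : {gh : G × G // (gh.1 : X) * gh.2 = gh.2 * gh.1 ∧
        (gh.1 : X) * v * (gh.1 : X)⁻¹ = v ∧ (gh.2 : X) * v * (gh.2 : X)⁻¹ = v} => (q.1.2 : X)) h
    obtain rfl := Subtype.ext h1
    obtain rfl := Subtype.ext h2
    rfl
  · rintro ⟨⟨g, h⟩, hc, hg, hh⟩
    exact ⟨⟨(⟨g, (mem_cent G v _).mpr ⟨g.2, hg⟩⟩, ⟨h, (mem_cent G v _).mpr ⟨h.2, hh⟩⟩),
      Subtype.ext hc⟩, rfl⟩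

end grp3


/-- Let X be a finite group, V an abelian normal subgroup of X (any two elements of V commute) and G a complement to V in X whose order is coprime to that of V. Let S be a set of representatives of the orbits of G on V under conjugation: S lies in V and every element of V is conjugate under G to exactly one member of S. Then the number of conjugacy classes of X equals the sum, over s in S, of the number of conjugacy classes of the centralizer of s in G. -/
theorem result {X : Type*} [Group X] [Finite X] (V : Subgroup X) [V.Normal] (hab : ∀ a ∈ V, ∀ b ∈ V, a * b = b * a) (G : Subgroup X) (hGV : Subgroup.IsComplement' V G) (hcop : (Nat.card V).Coprime (Nat.card G)) (S : Finset X) (hSV : ∀ s ∈ S, s ∈ V) (hrep : ∀ v ∈ V, ∃! s, s ∈ S ∧ ∃ g ∈ G, g * v * g⁻¹ = s) : Nat.card (ConjClasses X) = ∑ s ∈ S, Nat.card (ConjClasses ↥(G ⊓ Subgroup.centralizer ({s} : Set X))) := by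
  classical
  have := Fintype.ofFinite X
  have := Fintype.ofFinite G
  have := Fintype.ofFinite V
  set K : X → ℕ := fun x => Nat.card (ConjClasses ↥(G ⊓ Subgroup.centralizer ({x} : Set X)))
    with hK
  set c : X → ℕ := fun x => Nat.card ↥(G ⊓ Subgroup.centralizer ({x} : Set X)) with hc
  have hKconj : ∀ g ∈ G, ∀ x, K (g * x * g⁻¹) = K x :=
    fun g hg x => (card_conjClasses_congr (conjEquiv G g hg x)).symm
  have hA := card_comm V hab G hGV hcop
  rw [card_comm_eq_card_conjClasses_mul_card] at hA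
  have hB : Nat.card {t : (G × G) × V // (t.1.1 : X) * t.1.2 = t.1.2 * t.1.1 ∧
        (t.1.1 : X) * t.2 * (t.1.1 : X)⁻¹ = t.2 ∧ (t.1.2 : X) * t.2 * (t.1.2 : X)⁻¹ = t.2} =
      ∑ v : V, K v * c v := by
    have e1 : Nat.card {t : (G × G) × V // (t.1.1 : X) * t.1.2 = t.1.2 * t.1.1 ∧
        (t.1.1 : X) * t.2 * (t.1.1 : X)⁻¹ = t.2 ∧ (t.1.2 : X) * t.2 * (t.1.2 : X)⁻¹ = t.2} =
        Nat.card {t : V × (G × G) // (t.2.1 : X) * t.2.2 = t.2.2 * t.2.1 ∧
        (t.2.1 : X) * t.1 * (t.2.1 : X)⁻¹ = t.1 ∧ (t.2.2 : X) * t.1 * (t.2.2 : X)⁻¹ = t.1} :=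
      Nat.card_congr (Equiv.subtypeEquiv (Equiv.prodComm (G × G) V) (fun t => Iff.rfl))
    rw [e1, Nat.card_congr (Equiv.subtypeProdEquivSigmaSubtype (fun (v : V) (gh : G × G) =>
      (gh.1 : X) * gh.2 = gh.2 * gh.1 ∧
        (gh.1 : X) * v * (gh.1 : X)⁻¹ = v ∧ (gh.2 : X) * v * (gh.2 : X)⁻¹ = v)), Nat.card_sigma]
    exact Finset.sum_congr rfl fun v _ => card_F G (v : X)
  have hC : ∀ v : V, c v = Nat.card {g : G // (g : X) * v * (g : X)⁻¹ ∈ S} := by
    intro v
    obtain ⟨s, ⟨hsS, g0, hg0, hg0s⟩, huniq⟩ := hrep v v.2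
    let f : ↥(G ⊓ Subgroup.centralizer ({(v : X)} : Set X)) →
        {g : G // (g : X) * v * (g : X)⁻¹ ∈ S} :=
      fun a => ⟨⟨g0 * a, mul_mem hg0 ((mem_cent G v _).mp a.2).1⟩, by
        show g0 * (a : X) * v * (g0 * (a : X))⁻¹ ∈ S
        have e : g0 * (a : X) * v * (g0 * (a : X))⁻¹ = g0 * ((a : X) * v * (a : X)⁻¹) * g0⁻¹ := by
          group
        rw [e, ((mem_cent G v _).mp a.2).2, hg0s]
        exact hsS⟩
    refine Nat.card_congr (Equiv.ofBijective f ⟨?_, ?_⟩)
    · intro a b h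
      have h1 : g0 * (a : X) = g0 * (b : X) :=
        congrArg (fun q : {g : G // (g : X) * v * (g : X)⁻¹ ∈ S} => ((q : G) : X)) h
      exact Subtype.ext (mul_left_cancel h1)
    · rintro ⟨g, hg⟩
      have h1 : (g : X) * v * (g : X)⁻¹ = s := huniq _ ⟨hg, g, g.2, rfl⟩
      refine ⟨⟨g0⁻¹ * g, (mem_cent G v _).mpr ⟨mul_mem (inv_mem hg0) g.2, ?_⟩⟩, ?_⟩
      · calc g0⁻¹ * (g : X) * v * (g0⁻¹ * (g : X))⁻¹
            = g0⁻¹ * ((g : X) * v * (g : X)⁻¹) * g0 := by group
          _ = g0⁻¹ * (g0 * v * g0⁻¹) * g0 := by rw [h1, hg0s]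
          _ = v := by group
      · apply Subtype.ext
        apply Subtype.ext
        show g0 * (g0⁻¹ * (g : X)) = g
        group
  have hS : ∑ w : V, (if (w : X) ∈ S then K w else 0) = ∑ s ∈ S, K s := by
    rw [← Finset.sum_filter]
    refine Finset.sum_nbij (fun w : V => (w : X)) ?_ ?_ ?_ ?_
    · intro w hw
      exact (Finset.mem_filter.mp hw).2
    · intro a _ b _ h
      exact Subtype.ext h
    · intro s hs
      exact ⟨⟨s, hSV s hs⟩, by simpa using hs, rfl⟩
    · intro w _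
      rfl
  have hD : ∑ v : V, K v * c v = Nat.card G * ∑ s ∈ S, K s := by
    calc ∑ v : V, K v * c v
        = ∑ v : V, ∑ g : G, (if (g : X) * v * (g : X)⁻¹ ∈ S then K v else 0) := by
          refine Finset.sum_congr rfl fun v _ => ?_
          rw [hC v, ← Finset.sum_filter, Finset.sum_const, smul_eq_mul, mul_comm,
            Nat.card_eq_fintype_card, Fintype.card_subtype]
      _ = ∑ g : G, ∑ v : V, (if (g : X) * v * (g : X)⁻¹ ∈ S then K ((g : X) * v * (g : X)⁻¹)
            else 0) := by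
          rw [Finset.sum_comm]
          refine Finset.sum_congr rfl fun g _ => Finset.sum_congr rfl fun v _ => ?_
          rw [hKconj g g.2]
      _ = ∑ g : G, ∑ w : V, (if (w : X) ∈ S then K w else 0) := by
          refine Finset.sum_congr rfl fun g _ => ?_
          exact Equiv.sum_comp (MulAut.conjNormal (g : X) : MulAut V).toEquiv
            (fun w : V => if (w : X) ∈ S then K w else 0)
      _ = Nat.card G * ∑ s ∈ S, K s := by
          rw [Finset.sum_const, Finset.card_univ, smul_eq_mul, Nat.card_eq_fintype_card, hS]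
  have hX : Nat.card X = Nat.card V * Nat.card G := hGV.card_mul_card.symm
  rw [hB, hD, hX] at hA
  have hpos : 0 < Nat.card V * Nat.card G := Nat.mul_pos Nat.card_pos Nat.card_pos
  have hfin : (Nat.card V * Nat.card G) * Nat.card (ConjClasses X) =
      (Nat.card V * Nat.card G) * ∑ s ∈ S, K s := by rw [mul_comm, hA, mul_assoc]
  exact Nat.eq_of_mul_eq_mul_left hpos hfin

end Cfsg.Agent.S4956
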