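import Cfsg.Statements.S4964
import Cfsg.Agent.Lib.BlockDerived

set_option autoImplicit false
open Cfsg

namespace Cfsg.Agent.S4964

/-- Let D be a normal p-subgroup of the finite group G, let D′ be its commutator subgroup (normal in G), and fix a maximal ideal M of the algebraic integers containing p. Then (i) two irreducible characters of G ⧸ D′ lie in the same p-block if and only if their inflations to G do, and (ii) every p-block of G contains the inflation of some irreducible character of G ⧸ D′; so inflation induces a bijection between the p-blocks of G ⧸ D′ and the p-blocks of G. -/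
theorem result {G : Type*} [Group G] [Finite G] (p : ℕ) [Fact p.Prime] (M : Ideal Cfsg.AlgInt) (hM : Cfsg.IsPModular p M) (D : Subgroup G) [D.Normal] (hD : IsPGroup p D) : (∀ χ ψ : Cfsg.IrrCharacter (G ⧸ ⁅D, D⁆), Cfsg.SameBlock M (χ : G ⧸ ⁅D, D⁆ → ℂ) (ψ : G ⧸ ⁅D, D⁆ → ℂ) ↔ Cfsg.SameBlock M ((χ : G ⧸ ⁅D, D⁆ → ℂ) ∘ QuotientGroup.mk) ((ψ : G ⧸ ⁅D, D⁆ → ℂ) ∘ QuotientGroup.mk)) ∧ ∀ B : Set (Cfsg.IrrCharacter G), Cfsg.IsPBlock M B → ∃ χ : Cfsg.IrrCharacter (G ⧸ ⁅D, D⁆), ∃ θ ∈ B, (θ : G → ℂ) = (χ : G ⧸ ⁅D, D⁆ → ℂ) ∘ QuotientGroup.mk := by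
  classical
  cases nonempty_fintype G
  refine ⟨fun χ ψ => ⟨fun h => ?_, fun h => ?_⟩, ?_⟩
  · exact Cfsg.Agent.Lib.BlockPC.sameBlock_inflate ⁅D, D⁆ hM
      (Cfsg.Agent.Lib.Helper2_BlockOm.irr_classFunction χ) (Cfsg.Agent.Lib.Helper2_BlockOm.irr_classFunction ψ) h
  · exact Cfsg.Agent.Lib.BlockDerived.sameBlock_deflate_derived hM D hD χ ψ h
  · intro B hB
    obtain ⟨θ, hθ, hker⟩ := Cfsg.Agent.Lib.Helper2_BlockPCore.exists_ker_of_normal_pGroup hM hB D
      inferInstance hD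
    obtain ⟨χ', h1, h2⟩ := Cfsg.Agent.Lib.CharQuot.exists_deflate_irr ⁅D, D⁆ θ.2
      (fun n hn => hker n (Subgroup.commutator_le_left D D hn))
    exact ⟨⟨χ', h1⟩, θ, hθ, h2⟩

end Cfsg.Agent.S4964
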