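import Cfsg.Statements.S4965
import Mathlib

set_option autoImplicit false
open Cfsg

namespace Cfsg.Agent.S4965

theorem commute_aux {X : Type*} [Group X] (V : Subgroup X) [V.Normal]
    (φ : X ⧸ V →* MulAut ↥V)
    (hφ : ∀ (x : X) (v : ↥V), ((φ (QuotientGroup.mk x) v : ↥V) : X) = x * v * x⁻¹)
    (x y x0 y0 : X) (hxy : Commute x y) (h3 : Commute x0 y0)
    (h1 : (QuotientGroup.mk x0 : X ⧸ V) = QuotientGroup.mk x)
    (h2 : (QuotientGroup.mk y0 : X ⧸ V) = QuotientGroup.mk y)
    (ha : x * x0⁻¹ ∈ V) (hb : y * y0⁻¹ ∈ V) :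
    Commute (⟨⟨x * x0⁻¹, ha⟩, QuotientGroup.mk x⟩ : SemidirectProduct ↥V (X ⧸ V) φ)
      ⟨⟨y * y0⁻¹, hb⟩, QuotientGroup.mk y⟩ := by
  have k1 : ((φ (QuotientGroup.mk x) ⟨y * y0⁻¹, hb⟩ : ↥V) : X) = x0 * (y * y0⁻¹) * x0⁻¹ := by
    rw [← h1, hφ]
  have k2 : ((φ (QuotientGroup.mk y) ⟨x * x0⁻¹, ha⟩ : ↥V) : X) = y0 * (x * x0⁻¹) * y0⁻¹ := by
    rw [← h2, hφ]
  apply SemidirectProduct.ext
  · rw [SemidirectProduct.mul_left, SemidirectProduct.mul_left]
    apply Subtype.ext
    simp only [Subgroup.coe_mul]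
    rw [k1, k2]
    have e1 : x * y = y * x := hxy
    have e2 : x0 * y0 = y0 * x0 := h3
    have e3 : x * x0⁻¹ * (x0 * (y * y0⁻¹) * x0⁻¹) = x * y * (x0 * y0)⁻¹ := by group
    have e4 : y * y0⁻¹ * (y0 * (x * x0⁻¹) * y0⁻¹) = y * x * (y0 * x0)⁻¹ := by group
    rw [e3, e4, e1, e2]
  · rw [SemidirectProduct.mul_right, SemidirectProduct.mul_right]
    simp only
    rw [← QuotientGroup.mk_mul, ← QuotientGroup.mk_mul, hxy.eq]


/-- Let X be a finite group with an abelian normal subgroup V (any two elements of V commute), and let φ be the action of X ⧸ V on V induced by conjugation (well defined because V is abelian; the hypothesis hφ says that the class of x acts as conjugation by x). Then X has at most as many conjugacy classes as the semidirect product of V by X ⧸ V formed with this action: the split extension has the largest class number among extensions with the given action. -/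
theorem result {X : Type*} [Group X] [Finite X] (V : Subgroup X) [V.Normal] (hab : ∀ a ∈ V, ∀ b ∈ V, a * b = b * a) (φ : X ⧸ V →* MulAut ↥V) (hφ : ∀ (x : X) (v : ↥V), ((φ (QuotientGroup.mk x) v : ↥V) : X) = x * v * x⁻¹) : Nat.card (ConjClasses X) ≤ Nat.card (ConjClasses (SemidirectProduct ↥V (X ⧸ V) φ)) := by
  classical
  set Y := SemidirectProduct ↥V (X ⧸ V) φ with hY
  have hcardY : Nat.card Y = Nat.card X := by
    rw [Nat.card_congr SemidirectProduct.equivProd, Nat.card_prod,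
      Subgroup.card_eq_card_quotient_mul_card_subgroup V, mul_comm]
  have hX := card_comm_eq_card_conjClasses_mul_card X
  have hYc := card_comm_eq_card_conjClasses_mul_card Y
  have hpos : 0 < Nat.card X := Nat.card_pos
  -- chosen commuting lifts
  let P : (X ⧸ V) × (X ⧸ V) → X × X → Prop := fun qr p =>
    (QuotientGroup.mk p.1 : X ⧸ V) = qr.1 ∧ (QuotientGroup.mk p.2 : X ⧸ V) = qr.2 ∧ Commute p.1 p.2
  let base : (X ⧸ V) × (X ⧸ V) → X × X := fun qr =>
    if h : ∃ p : X × X, P qr p then h.choose else (1, 1)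
  have hbase : ∀ (x y : X), Commute x y →
      P (QuotientGroup.mk x, QuotientGroup.mk y) (base (QuotientGroup.mk x, QuotientGroup.mk y)) := by
    intro x y hxy
    have h : ∃ p : X × X, P (QuotientGroup.mk x, QuotientGroup.mk y) p := ⟨(x, y), rfl, rfl, hxy⟩
    simp only [base, dif_pos h]
    exact h.choose_spec
  have hmem : ∀ (x x0 : X), (QuotientGroup.mk x0 : X ⧸ V) = QuotientGroup.mk x → x * x0⁻¹ ∈ V := by
    intro x x0 h
    have h1 : x0⁻¹ * x ∈ V := QuotientGroup.eq.mp h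
    have h2 := (inferInstance : V.Normal).conj_mem _ h1 x0
    have h3 : x0 * (x0⁻¹ * x) * x0⁻¹ = x * x0⁻¹ := by group
    rwa [h3] at h2
  let f : {p : X × X // Commute p.1 p.2} → {p : Y × Y // Commute p.1 p.2} := fun p =>
    ⟨(⟨⟨p.1.1 * (base (QuotientGroup.mk p.1.1, QuotientGroup.mk p.1.2)).1⁻¹,
          hmem _ _ (hbase _ _ p.2).1⟩, QuotientGroup.mk p.1.1⟩,
      ⟨⟨p.1.2 * (base (QuotientGroup.mk p.1.1, QuotientGroup.mk p.1.2)).2⁻¹,
          hmem _ _ (hbase _ _ p.2).2.1⟩, QuotientGroup.mk p.1.2⟩), by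
      obtain ⟨h1, h2, h3⟩ := hbase _ _ p.2
      exact commute_aux V φ hφ _ _ _ _ p.2 h3 h1 h2 _ _⟩
  have hf : Function.Injective f := by
    rintro ⟨⟨x, y⟩, hxy⟩ ⟨⟨x', y'⟩, hxy'⟩ h
    have h1 := congrArg (fun p : {p : Y × Y // Commute p.1 p.2} => p.1.1.right) h
    have h2 := congrArg (fun p : {p : Y × Y // Commute p.1 p.2} => p.1.2.right) h
    have h3 := congrArg (fun p : {p : Y × Y // Commute p.1 p.2} => (p.1.1.left : X)) h
    have h4 := congrArg (fun p : {p : Y × Y // Commute p.1 p.2} => (p.1.2.left : X)) h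
    simp only [f] at h1 h2 h3 h4
    rw [h1, h2] at h3 h4
    have h5 := mul_right_cancel h3
    have h6 := mul_right_cancel h4
    subst h5 h6
    rfl
  have hfinY : Finite Y := Nat.finite_of_card_ne_zero (by rw [hcardY]; exact hpos.ne')
  have hle := Nat.card_le_card_of_injective f hf
  rw [hX, hYc, hcardY] at hle
  exact Nat.le_of_mul_le_mul_right hle hpos

end Cfsg.Agent.S4965
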