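import Cfsg.Statements.S5015
import Cfsg.Agent.Lib.helper8_RankOne

set_option autoImplicit false
open Cfsg Cfsg.Agent.Lib.helper8_RankOne

namespace Cfsg.Agent.S5015

/-- Let a group Y act doubly transitively on a set Ω with at least three points, and suppose that the stabilizer of a point α contains a nilpotent subgroup A, normalized by that stabilizer, which acts regularly on the points other than α. Then for any y in Y moving α, the subgroups A and y A y⁻¹ are the unipotent subgroups of a rank one group, and the normal closure of A in Y (the subgroup generated by all conjugates of A) is generated by A and y A y⁻¹ alone. -/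
theorem result {Y Ω : Type*} [Group Y] [MulAction Y Ω]
    (h2 : MulAction.IsMultiplyPretransitive Y Ω 2) (hΩ : 3 ≤ ENat.card Ω) (α : Ω) (A : Subgroup Y)
    (hA : A ≤ MulAction.stabilizer Y α) (hAn : ∀ y ∈ MulAction.stabilizer Y α, Cfsg.conjBy A y = A)
    (hnil : Group.IsNilpotent A) (hreg : ∀ β γ : Ω, β ≠ α → γ ≠ α → ∃! a : Y, a ∈ A ∧ a • β = γ)
    (y : Y) (hy : y ∉ MulAction.stabilizer Y α) :
    Cfsg.IsRankOnePair A (Cfsg.conjBy A y) ∧ Subgroup.normalClosure (A : Set Y) = A ⊔ Cfsg.conjBy A y := by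
  have hdep : ∀ g g' : Y, g • α = g' • α → conjBy A g = conjBy A g' := by
    intro g g' e
    have : g⁻¹ * g' ∈ MulAction.stabilizer Y α := by
      rw [MulAction.mem_stabilizer_iff, mul_smul, ← e, inv_smul_smul]
    have h1 := hAn _ this
    calc conjBy A g = conjBy (conjBy A (g⁻¹ * g')) g := by rw [h1]
      _ = conjBy A g' := by rw [conjBy_conjBy]; simp
  have hfix : ∀ a ∈ A, a • α = α := fun a ha => hA ha
  have hsemi : ∀ a ∈ A, ∀ β, β ≠ α → a • β = β → a = 1 := by
    intro a ha β hβ e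
    obtain ⟨c, -, hc⟩ := hreg β β hβ hβ
    rw [hc a ⟨ha, e⟩, hc 1 ⟨A.one_mem, one_smul _ _⟩]
  have hcond : ∀ g₁ g₂ : Y, g₁ • α ≠ g₂ • α → RankOneCondition (conjBy A g₁) (conjBy A g₂) := by
    intro g₁ g₂ hne a ha ha1
    rw [mem_conjBy] at ha
    have ha₀1 : (g₁⁻¹ * a * g₁)⁻¹ ≠ 1 := by
      intro e; apply ha1
      have : a = g₁ * ((g₁⁻¹ * a * g₁)⁻¹)⁻¹ * g₁⁻¹ := by group
      rw [this, e]; group
    have h1 : g₂⁻¹ • g₁ • α ≠ α := by
      intro e; apply hne; rw [inv_smul_eq_iff] at e; exact e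
    have h1' : g₁⁻¹ • g₂ • α ≠ α := by
      intro e; apply hne; rw [inv_smul_eq_iff] at e; exact e.symm
    have h2 : g₂⁻¹ • a⁻¹ • g₂ • α ≠ α := by
      intro e
      rw [inv_smul_eq_iff] at e
      apply ha₀1
      apply hsemi _ (A.inv_mem ha) _ h1'
      have : (g₁⁻¹ * a * g₁)⁻¹ = g₁⁻¹ * a⁻¹ * g₁ := by group
      rw [this, mul_smul, mul_smul, smul_inv_smul, e]
    obtain ⟨c, ⟨hc, hc'⟩, -⟩ := hreg _ _ h1 h2
    refine ⟨g₂ * c⁻¹ * g₂⁻¹, conj_mem_conjBy (A.inv_mem hc) g₂, ?_, ?_⟩
    · intro e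
      have hc1 : c = 1 := by
        have : c = (g₂⁻¹ * (g₂ * c⁻¹ * g₂⁻¹) * g₂)⁻¹ := by group
        rw [this, e]; group
      rw [hc1, one_smul] at hc'
      have e2 : g₁ • α = a⁻¹ • g₂ • α := smul_left_cancel _ hc'
      apply hne
      have e3 : a • g₁ • α = g₁ • α := by
        have := hfix _ ha
        rw [mul_smul, mul_smul, inv_smul_eq_iff] at this
        exact this
      rw [← e3, e2, smul_inv_smul]
    · rw [conjBy_conjBy, conjBy_conjBy]
      apply hdep
      have : (g₂ * c⁻¹ * g₂⁻¹)⁻¹ * g₁ = g₂ * c * g₂⁻¹ * g₁ := by group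
      rw [this, mul_smul, mul_smul, mul_smul, hc', smul_inv_smul, mul_smul]
  have hyα : y • α ≠ α := hy
  have hne1 : (1 : Y) • α ≠ y • α := by rw [one_smul]; exact hyα.symm
  have hc1 := hcond 1 y hne1
  have hc2 := hcond y 1 hne1.symm
  rw [conjBy_one] at hc1 hc2
  refine ⟨⟨?_, hnil, conjBy_nilpotent hnil y, hc1, hc2⟩, ?_⟩
  · -- A ≠ B
    intro e
    obtain ⟨γ, hγ1, hγ2⟩ : ∃ γ : Ω, γ ≠ α ∧ γ ≠ y • α := by
      by_contra hcon
      push Not at hcon
      have : ENat.card Ω ≤ 2 := by
        have hsub : (Set.univ : Set Ω) ⊆ {α, y • α} := by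
          intro γ _
          by_cases h : γ = α
          · left; exact h
          · right; exact hcon γ h
        calc ENat.card Ω = Set.encard (Set.univ : Set Ω) := by simp [Set.encard_univ]
          _ ≤ Set.encard ({α, y • α} : Set Ω) := Set.encard_le_encard hsub
          _ = 2 := Set.encard_pair hyα.symm
      have h32 : (3 : ℕ∞) ≤ 2 := hΩ.trans this
      exact absurd h32 (by decide)
    obtain ⟨a, ⟨ha, ha'⟩, -⟩ := hreg _ _ hyα hγ1
    have haB : a ∈ conjBy A y := e ▸ ha
    rw [mem_conjBy] at haB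
    have := hfix _ haB
    rw [mul_smul, mul_smul, inv_smul_eq_iff, ha'] at this
    exact hγ2 this
  · apply le_antisymm
    · rw [Subgroup.normalClosure, Subgroup.closure_le]
      intro x hx
      rw [Group.mem_conjugatesOfSet_iff] at hx
      obtain ⟨a, ha, hconj⟩ := hx
      rw [isConj_iff] at hconj
      obtain ⟨g, rfl⟩ := hconj
      have hmem : g * a * g⁻¹ ∈ conjBy A g := conj_mem_conjBy ha g
      by_cases hg : g • α = α
      · have : conjBy A g = A := hAn g hg
        rw [this] at hmem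
        exact Subgroup.mem_sup_left hmem
      · obtain ⟨c, ⟨hc, hc'⟩, -⟩ := hreg _ _ hyα hg
        have : conjBy A g = conjBy (conjBy A y) c := by
          rw [conjBy_conjBy]; apply hdep; rw [mul_smul, hc']
        rw [this] at hmem
        exact conjBy_le_of_le_of_mem le_sup_right (Subgroup.mem_sup_left hc) hmem
    · refine sup_le Subgroup.le_normalClosure ?_
      have := conjBy_mono (Subgroup.le_normalClosure (H := A)) y
      rwa [conjBy_normal Subgroup.normalClosure_normal] at this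

end Cfsg.Agent.S5015
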