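import Cfsg.Statements.S5016
import Cfsg.Agent.Lib.helper8_RankOne

set_option autoImplicit false
open Cfsg Cfsg.Agent.Lib.helper8_RankOne Matrix

namespace Cfsg.Agent.S5016

variable {k : Type*} [Field k]

def L (t : k) : SpecialLinearGroup (Fin 2) k := ⟨!![1, 0; t, 1], by simp [det_fin_two]⟩
def U (t : k) : SpecialLinearGroup (Fin 2) k := ⟨!![1, t; 0, 1], by simp [det_fin_two]⟩

@[simp] lemma coe_L (t : k) : ((L t : SpecialLinearGroup (Fin 2) k) : Matrix (Fin 2) (Fin 2) k) = !![1, 0; t, 1] := rfl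
@[simp] lemma coe_U (t : k) : ((U t : SpecialLinearGroup (Fin 2) k) : Matrix (Fin 2) (Fin 2) k) = !![1, t; 0, 1] := rfl

lemma L_mul (s t : k) : L s * L t = L (s + t) := by
  ext i j
  fin_cases i <;> fin_cases j <;> simp [Matrix.mul_apply, Fin.sum_univ_two]

lemma U_mul (s t : k) : U s * U t = U (s + t) := by
  ext i j
  fin_cases i <;> fin_cases j <;> simp [Matrix.mul_apply, Fin.sum_univ_two, add_comm]

lemma L_zero : L (0 : k) = 1 := by
  ext i j
  fin_cases i <;> fin_cases j <;> simp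

lemma U_zero : U (0 : k) = 1 := by
  ext i j
  fin_cases i <;> fin_cases j <;> simp

lemma L_inv (t : k) : (L t)⁻¹ = L (-t) := by
  rw [inv_eq_iff_mul_eq_one, L_mul]; simp [L_zero]

lemma U_inv (t : k) : (U t)⁻¹ = U (-t) := by
  rw [inv_eq_iff_mul_eq_one, U_mul]; simp [U_zero]

lemma L_inj {s t : k} (h : L s = L t) : s = t := by
  have := congrArg (fun g : SpecialLinearGroup (Fin 2) k => (g : Matrix (Fin 2) (Fin 2) k) 1 0) h
  simpa using this

lemma U_inj {s t : k} (h : U s = U t) : s = t := by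
  have := congrArg (fun g : SpecialLinearGroup (Fin 2) k => (g : Matrix (Fin 2) (Fin 2) k) 0 1) h
  simpa using this

lemma mem_lower {g : SpecialLinearGroup (Fin 2) k} : g ∈ lowerUnipotentSL2 k ↔ ∃ t, g = L t := by
  constructor
  · intro h
    induction h using Subgroup.closure_induction with
    | mem x hx =>
      obtain ⟨h1, h2, h3⟩ := hx
      refine ⟨(x : Matrix (Fin 2) (Fin 2) k) 1 0, ?_⟩
      ext i j
      fin_cases i <;> fin_cases j <;> simp [h1, h2, h3]
    | one => exact ⟨0, L_zero.symm⟩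
    | mul x y _ _ hx hy =>
      obtain ⟨s, rfl⟩ := hx
      obtain ⟨t, rfl⟩ := hy
      exact ⟨_, L_mul s t⟩
    | inv x _ hx =>
      obtain ⟨s, rfl⟩ := hx
      exact ⟨_, L_inv s⟩
  · rintro ⟨t, rfl⟩
    apply Subgroup.subset_closure
    simp

lemma mem_upper {g : SpecialLinearGroup (Fin 2) k} : g ∈ upperUnipotentSL2 k ↔ ∃ t, g = U t := by
  constructor
  · intro h
    induction h using Subgroup.closure_induction with
    | mem x hx =>
      obtain ⟨h1, h2, h3⟩ := hx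
      refine ⟨(x : Matrix (Fin 2) (Fin 2) k) 0 1, ?_⟩
      ext i j
      fin_cases i <;> fin_cases j <;> simp [h1, h2, h3]
    | one => exact ⟨0, U_zero.symm⟩
    | mul x y _ _ hx hy =>
      obtain ⟨s, rfl⟩ := hx
      obtain ⟨t, rfl⟩ := hy
      exact ⟨_, U_mul s t⟩
    | inv x _ hx =>
      obtain ⟨s, rfl⟩ := hx
      exact ⟨_, U_inv s⟩
  · rintro ⟨t, rfl⟩
    apply Subgroup.subset_closure
    simp

/-- key conjugation identity -/
lemma conj_LU {t : k} (ht : t ≠ 0) (x : k) :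
    (L t * U (-t⁻¹)) * L x = U (-x / t ^ 2) * (L t * U (-t⁻¹)) := by
  ext i j
  fin_cases i <;> fin_cases j <;>
    simp [Matrix.mul_apply, Fin.sum_univ_two] <;> field_simp <;> (try ring_nf) <;> simp

lemma conj_UL {t : k} (ht : t ≠ 0) (x : k) :
    (U t * L (-t⁻¹)) * U x = L (-x / t ^ 2) * (U t * L (-t⁻¹)) := by
  ext i j
  fin_cases i <;> fin_cases j <;>
    simp [Matrix.mul_apply, Fin.sum_univ_two] <;> field_simp <;> (try ring_nf) <;> simp

lemma special_identity {t : k} (ht : t ≠ 0) :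
    (U t⁻¹)⁻¹ * L t * U t⁻¹ = (L t)⁻¹ * (U t⁻¹)⁻¹ * L t := by
  rw [U_inv, L_inv]
  ext i j
  fin_cases i <;> fin_cases j <;>
    simp [Matrix.mul_apply, Fin.sum_univ_two, ht] <;> ring

lemma conjBy_lower {t : k} (ht : t ≠ 0) :
    conjBy (lowerUnipotentSL2 k) (L t * U (-t⁻¹)) = upperUnipotentSL2 k := by
  ext x
  rw [mem_conjBy, mem_lower, mem_upper]
  constructor
  · rintro ⟨y, hy⟩
    refine ⟨-y / t ^ 2, ?_⟩
    have := conj_LU ht y
    rw [← hy] at this
    have e : x * (L t * U (-t⁻¹)) = U (-y / t ^ 2) * (L t * U (-t⁻¹)) := by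
      rw [← this]; group
    exact mul_right_cancel e
  · rintro ⟨s, rfl⟩
    refine ⟨-s * t ^ 2, ?_⟩
    have := conj_LU ht (-s * t ^ 2)
    have e : -(-s * t ^ 2) / t ^ 2 = s := by field_simp
    rw [e] at this
    rw [mul_assoc, ← this]; group

lemma conjBy_upper {t : k} (ht : t ≠ 0) :
    conjBy (upperUnipotentSL2 k) (U t * L (-t⁻¹)) = lowerUnipotentSL2 k := by
  ext x
  rw [mem_conjBy, mem_lower, mem_upper]
  constructor
  · rintro ⟨y, hy⟩
    refine ⟨-y / t ^ 2, ?_⟩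
    have := conj_UL ht y
    rw [← hy] at this
    have e : x * (U t * L (-t⁻¹)) = L (-y / t ^ 2) * (U t * L (-t⁻¹)) := by
      rw [← this]; group
    exact mul_right_cancel e
  · rintro ⟨s, rfl⟩
    refine ⟨-s * t ^ 2, ?_⟩
    have := conj_UL ht (-s * t ^ 2)
    have e : -(-s * t ^ 2) / t ^ 2 = s := by field_simp
    rw [e] at this
    rw [mul_assoc, ← this]; group

lemma cond_lower_upper_at {t : k} (ht : t ≠ 0) :
    conjBy (lowerUnipotentSL2 k) (U t⁻¹)⁻¹ = conjBy (upperUnipotentSL2 k) (L t)⁻¹ := by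
  rw [← conjBy_eq_iff, conjBy_conjBy, U_inv, conjBy_lower ht]

lemma cond_upper_lower_at {t : k} (ht : t ≠ 0) :
    conjBy (upperUnipotentSL2 k) (L t⁻¹)⁻¹ = conjBy (lowerUnipotentSL2 k) (U t)⁻¹ := by
  rw [← conjBy_eq_iff, conjBy_conjBy, L_inv, conjBy_upper ht]

lemma comm_lower : IsMulCommutative (lowerUnipotentSL2 k) := by
  rw [isMulCommutative_iff]
  rintro ⟨a, ha⟩ ⟨b, hb⟩
  obtain ⟨s, rfl⟩ := mem_lower.mp ha
  obtain ⟨t, rfl⟩ := mem_lower.mp hb
  apply Subtype.ext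
  change L s * L t = L t * L s
  rw [L_mul, L_mul, add_comm]

lemma comm_upper : IsMulCommutative (upperUnipotentSL2 k) := by
  rw [isMulCommutative_iff]
  rintro ⟨a, ha⟩ ⟨b, hb⟩
  obtain ⟨s, rfl⟩ := mem_upper.mp ha
  obtain ⟨t, rfl⟩ := mem_upper.mp hb
  apply Subtype.ext
  change U s * U t = U t * U s
  rw [U_mul, U_mul, add_comm]

open scoped IsMulCommutative in
lemma nilpotent_of_comm {G : Type*} [Group G] (h : IsMulCommutative G) : Group.IsNilpotent G :=
  inferInstance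

lemma pair : IsRankOnePair (lowerUnipotentSL2 k) (upperUnipotentSL2 k) := by
  refine ⟨?_, nilpotent_of_comm comm_lower, nilpotent_of_comm comm_upper, ?_, ?_⟩
  · intro e
    have h1 : L (1 : k) ∈ lowerUnipotentSL2 k := mem_lower.mpr ⟨1, rfl⟩
    rw [e, mem_upper] at h1
    obtain ⟨s, hs⟩ := h1
    have := congrArg (fun g : SpecialLinearGroup (Fin 2) k => (g : Matrix (Fin 2) (Fin 2) k) 1 0) hs
    simp at this
  · intro a ha ha1
    obtain ⟨t, rfl⟩ := mem_lower.mp ha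
    have ht : t ≠ 0 := by rintro rfl; exact ha1 L_zero
    refine ⟨U t⁻¹, mem_upper.mpr ⟨_, rfl⟩, ?_, cond_lower_upper_at ht⟩
    intro e
    rw [← U_zero] at e
    exact inv_ne_zero ht (U_inj e)
  · intro a ha ha1
    obtain ⟨t, rfl⟩ := mem_upper.mp ha
    have ht : t ≠ 0 := by rintro rfl; exact ha1 U_zero
    refine ⟨L t⁻¹, mem_lower.mpr ⟨_, rfl⟩, ?_, cond_upper_lower_at ht⟩
    intro e
    rw [← L_zero] at e
    exact inv_ne_zero ht (L_inj e)

lemma decomp (g : SpecialLinearGroup (Fin 2) k) (hc : (g : Matrix (Fin 2) (Fin 2) k) 1 0 ≠ 0) :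
    g = U (((g : Matrix (Fin 2) (Fin 2) k) 0 0 - 1) / (g : Matrix (Fin 2) (Fin 2) k) 1 0) *
      L ((g : Matrix (Fin 2) (Fin 2) k) 1 0) *
      U (((g : Matrix (Fin 2) (Fin 2) k) 1 1 - 1) / (g : Matrix (Fin 2) (Fin 2) k) 1 0) := by
  have hdet := g.det_coe
  rw [det_fin_two] at hdet
  ext i j
  fin_cases i <;> fin_cases j <;>
    simp [Matrix.mul_apply, Fin.sum_univ_two] <;> field_simp <;>
    first | ring1 | linear_combination (-1 : k) * hdet | linear_combination hdet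

lemma sup_eq_top : lowerUnipotentSL2 k ⊔ upperUnipotentSL2 k = ⊤ := by
  rw [eq_top_iff]
  have hL : ∀ t : k, L t ∈ lowerUnipotentSL2 k ⊔ upperUnipotentSL2 k :=
    fun t => Subgroup.mem_sup_left (mem_lower.mpr ⟨t, rfl⟩)
  have hU : ∀ t : k, U t ∈ lowerUnipotentSL2 k ⊔ upperUnipotentSL2 k :=
    fun t => Subgroup.mem_sup_right (mem_upper.mpr ⟨t, rfl⟩)
  have h1 : ∀ g : SpecialLinearGroup (Fin 2) k, (g : Matrix (Fin 2) (Fin 2) k) 1 0 ≠ 0 →
      g ∈ lowerUnipotentSL2 k ⊔ upperUnipotentSL2 k := by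
    intro g hg
    rw [decomp g hg]
    exact Subgroup.mul_mem _ (Subgroup.mul_mem _ (hU _) (hL _)) (hU _)
  intro g _
  by_cases hg : (g : Matrix (Fin 2) (Fin 2) k) 1 0 = 0
  · have hdet := g.det_coe
    rw [det_fin_two, hg] at hdet
    have ha : (g : Matrix (Fin 2) (Fin 2) k) 0 0 ≠ 0 := by
      intro e; rw [e] at hdet; simp at hdet
    have h2 : L 1 * g ∈ lowerUnipotentSL2 k ⊔ upperUnipotentSL2 k := by
      apply h1
      simp [Matrix.mul_apply, Fin.sum_univ_two, hg, ha]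
    have : g = (L 1)⁻¹ * (L 1 * g) := by group
    rw [this]
    exact Subgroup.mul_mem _ (Subgroup.inv_mem _ (hL 1)) h2
  · exact h1 g hg

/-- For any field k, the special linear group SL₂(k) is a special rank one group with abelian unipotent subgroups, the unipotent subgroups being the group of lower unitriangular matrices and the group of upper unitriangular matrices. -/
theorem result (k : Type*) [Field k] :
    Cfsg.IsRankOneGroup (Matrix.SpecialLinearGroup (Fin 2) k) (Cfsg.lowerUnipotentSL2 k) (Cfsg.upperUnipotentSL2 k) ∧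
    Cfsg.IsSpecialRankOnePair (Cfsg.lowerUnipotentSL2 k) (Cfsg.upperUnipotentSL2 k) ∧
    Cfsg.HasAbelianUnipotents (Cfsg.lowerUnipotentSL2 k) (Cfsg.upperUnipotentSL2 k) := by
  refine ⟨⟨sup_eq_top, pair⟩, ⟨pair, ?_⟩, comm_lower, comm_upper⟩
  intro a ha ha1 b hb hb1 e
  obtain ⟨t, rfl⟩ := mem_lower.mp ha
  have ht : t ≠ 0 := by rintro rfl; exact ha1 L_zero
  have h2 := cond_lower_upper_at ht
  have hb' : b⁻¹ = (U t⁻¹)⁻¹ :=
    conjBy_left_inj pair (Subgroup.inv_mem _ hb) (Subgroup.inv_mem _ (mem_upper.mpr ⟨_, rfl⟩))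
      (e.trans h2.symm)
  have hb'' : b = U t⁻¹ := inv_injective hb'
  rw [hb'']
  exact special_identity ht

end Cfsg.Agent.S5016
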