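import Cfsg.Statements.S5017
import Cfsg.Agent.Lib.helper8_RankOne

set_option autoImplicit false
open Cfsg Cfsg.Agent.Lib.helper8_RankOne

namespace Cfsg.Agent.S5017

/-- Let X be a rank one group with unipotent subgroups A and B and N a normal subgroup of X. Then either X = N A or N lies in the centre of X. Consequently a perfect rank one group is quasisimple. -/
theorem result {X : Type*} [Group X] {A B : Subgroup X} (h : Cfsg.IsRankOneGroup X A B) :
    (∀ N : Subgroup X, N.Normal → N ⊔ A = ⊤ ∨ N ≤ Subgroup.center X) ∧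
    (Group.IsPerfect X → Cfsg.IsQuasisimple X) := by
  obtain ⟨htop, hp⟩ := h
  have hdich : ∀ N : Subgroup X, N.Normal → N ⊔ A = ⊤ ∨ N ≤ Subgroup.center X := by
    intro N hN
    rcases normal_dichotomy hp (N := N) (by rw [htop]; exact le_top)
      (fun x _ => conjBy_normal hN x) with e | e
    · left; rw [e, htop]
    · right; rw [htop] at e; simpa [Subgroup.centralizer_univ] using e
  refine ⟨hdich, fun hperf => ⟨hperf, ?_⟩⟩
  have hnt : Nontrivial (X ⧸ Subgroup.center X) := by
    rw [QuotientGroup.nontrivial_iff]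
    intro hc
    obtain ⟨a, ha, ha1⟩ := exists_ne_one_left hp
    obtain ⟨b, -, hb⟩ := not_commute hp ha ha1
    have : a ∈ Subgroup.center X := hc ▸ Subgroup.mem_top a
    exact hb ((Subgroup.mem_center_iff.mp this b).symm)
  refine { exists_pair_ne := hnt.exists_pair_ne, eq_bot_or_eq_top_of_normal := ?_ }
  intro K hK
  have hsurj := QuotientGroup.mk'_surjective (Subgroup.center X)
  have hNn : (K.comap (QuotientGroup.mk' (Subgroup.center X))).Normal := hK.comap _
  rcases hdich _ hNn with e | e
  · right
    set N := K.comap (QuotientGroup.mk' (Subgroup.center X)) with hNdef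
    have hnil : Group.IsNilpotent (X ⧸ N) := by
      have := hp.nilpotent_left
      refine Group.nilpotent_of_surjective ((QuotientGroup.mk' N).comp A.subtype) ?_
      intro q
      obtain ⟨x, rfl⟩ := QuotientGroup.mk'_surjective N q
      have hx : x ∈ N ⊔ A := e ▸ Subgroup.mem_top x
      rw [← SetLike.mem_coe, Subgroup.normal_mul, Set.mem_mul] at hx
      obtain ⟨n, hn, a, ha, rfl⟩ := hx
      refine ⟨⟨a, ha⟩, ?_⟩
      simp only [MonoidHom.comp_apply, Subgroup.subtype_apply, QuotientGroup.mk'_apply]
      rw [QuotientGroup.eq]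
      have : a⁻¹ * (n * a) = a⁻¹ * n * a⁻¹⁻¹ := by group
      rw [this]
      exact hNn.conj_mem n hn a⁻¹
    have hsub : Subsingleton (X ⧸ N) := by
      by_contra hcon
      rw [not_subsingleton_iff_nontrivial] at hcon
      exact Group.IsPerfect.not_isNilpotent (X ⧸ N) hnil
    rw [QuotientGroup.subsingleton_iff] at hsub
    rw [← Subgroup.map_comap_eq_self_of_surjective hsurj K, ← hNdef, hsub,
      Subgroup.map_top_of_surjective _ hsurj]
  · left
    rw [← Subgroup.map_comap_eq_self_of_surjective hsurj K, eq_bot_iff]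
    calc _ ≤ (Subgroup.center X).map (QuotientGroup.mk' (Subgroup.center X)) := Subgroup.map_mono e
      _ = ⊥ := QuotientGroup.map_mk'_self _

end Cfsg.Agent.S5017
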