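import Cfsg.Statements.S5018
import Cfsg.Agent.Lib.helper8_RankOne

set_option autoImplicit false
open Cfsg Cfsg.Agent.Lib.helper8_RankOne
open scoped commutatorElement

namespace Cfsg.Agent.S5018

/-- A rank one group is not nilpotent, and its second centre equals its centre. -/
theorem result {X : Type*} [Group X] {A B : Subgroup X} (h : Cfsg.IsRankOneGroup X A B) :
    Subgroup.upperCentralSeries X 2 = Subgroup.center X ∧ ¬ Group.IsNilpotent X := by
  obtain ⟨htop, hp⟩ := h
  have hcz : ∀ (z : X), z ∈ Subgroup.center X → ∀ C : Subgroup X, conjBy C z = C := by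
    intro z hz C
    ext x
    rw [mem_conjBy]
    have : z⁻¹ * x * z = x := by
      rw [mul_assoc, (Subgroup.mem_center_iff.mp hz x), ← mul_assoc, inv_mul_cancel, one_mul]
    rw [this]
  have key : ∀ {A B : Subgroup X}, A ⊔ B = ⊤ → IsRankOnePair A B →
      ∀ n ∈ Subgroup.upperCentralSeries X 2, conjBy A n = A := by
    intro A B htop hp n hn
    by_contra hne
    obtain ⟨a, ha, ha1⟩ := exists_ne_one_left hp
    have hmem : conjBy A n ∈ unipotentSubgroups A B :=
      conjBy_mem_unipotent (left_mem_unipotent A B) (htop ▸ Subgroup.mem_top n)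
    have hz : ⁅n, a⁆ ∈ Subgroup.center X := by
      have := (Subgroup.mem_upperCentralSeries_succ_iff (n := 1)).mp hn a
      rwa [Subgroup.upperCentralSeries_one] at this
    have hfix : conjBy (conjBy A n) a = conjBy A n := by
      rw [conjBy_conjBy]
      have e : a * n = ⁅n, a⁆⁻¹ * (n * a) := by rw [commutatorElement_def]; group
      rw [e, ← conjBy_conjBy, ← conjBy_conjBy, conjBy_of_mem ha,
        hcz _ (Subgroup.inv_mem _ hz)]
    obtain ⟨c, -, hc⟩ := regular hp hmem hmem hne hne
    apply ha1
    rw [hc a ⟨ha, hfix⟩, hc 1 ⟨A.one_mem, conjBy_one _⟩]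
  have h2 : Subgroup.upperCentralSeries X 2 = Subgroup.center X := by
    apply le_antisymm
    · have := centralizes_of_normalizes hp (N := Subgroup.upperCentralSeries X 2)
        (fun x _ => conjBy_normal inferInstance x) (key htop hp)
        (key (by rw [sup_comm]; exact htop) (RankOnePair_symm hp))
      rw [htop] at this
      simpa [Subgroup.centralizer_univ] using this
    · rw [← Subgroup.upperCentralSeries_one]
      exact Subgroup.upperCentralSeries_mono X (by norm_num)
  refine ⟨h2, ?_⟩
  intro hnil
  have h1 : Subgroup.upperCentralSeries X 1 = ⊤ :=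
    Subgroup.upperCentralSeries.eq_top (a := 1) (b := 2) (by norm_num)
      (by rw [h2, Subgroup.upperCentralSeries_one])
  rw [Subgroup.upperCentralSeries_one] at h1
  obtain ⟨a, ha, ha1⟩ := exists_ne_one_left hp
  obtain ⟨b, -, hb⟩ := not_commute hp ha ha1
  have : a ∈ Subgroup.center X := h1 ▸ Subgroup.mem_top a
  exact hb ((Subgroup.mem_center_iff.mp this b).symm)

end Cfsg.Agent.S5018
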