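import Cfsg.Statements.S5024
import Cfsg.Agent.Lib.helper8_Root

set_option autoImplicit false
open Cfsg Cfsg.Agent.Lib.helper8_RankOne Cfsg.Agent.Lib.helper8_Root

namespace Cfsg.Agent.S5024

/-- Let S be a set of abstract root subgroups of G, A and C members of S, B a rank one partner of A in S and D a rank one partner of C in S. If the rank one group ⟨A, B⟩ is contained in ⟨C, D⟩ then the two coincide, and C and D are conjugates of A inside ⟨A, B⟩. -/
theorem result {G : Type*} [Group G] {S : Set (Subgroup G)} (hS : Cfsg.IsRootSubgroupSet S)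
    {A B C D : Subgroup G} (hA : A ∈ S) (hC : C ∈ S) (hB : B ∈ Cfsg.rankOnePartners S A) (hD : D ∈ Cfsg.rankOnePartners S C)
    (hle : A ⊔ B ≤ C ⊔ D) : A ⊔ B = C ⊔ D ∧ C ∈ Cfsg.unipotentSubgroups A B ∧ D ∈ Cfsg.unipotentSubgroups A B := by
  obtain ⟨hBS, hAB⟩ := hB
  obtain ⟨hDS, hCD⟩ := hD
  have hnc : ∀ {A B : Subgroup G}, IsRankOnePair A B → A ⊔ B ≤ C ⊔ D →
      ∃ a ∈ A, a ∉ Subgroup.centralizer ((C ⊔ D : Subgroup G) : Set G) := by
    intro A B h hle
    obtain ⟨a, ha, ha1⟩ := exists_ne_one_left h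
    obtain ⟨b, hb, hne⟩ := not_commute h ha ha1
    refine ⟨a, ha, fun hc => hne ?_⟩
    exact (Subgroup.mem_centralizer_iff.mp hc b (hle (Subgroup.mem_sup_right hb))).symm
  have hA' : A ∈ unipotentSubgroups C D :=
    mem_unipotent_of_le hS hA hC hDS hCD (le_sup_left.trans hle) (hnc hAB hle)
  have hB' : B ∈ unipotentSubgroups C D :=
    mem_unipotent_of_le hS hBS hC hDS hCD (le_sup_right.trans hle)
      (hnc (RankOnePair_symm hAB) (by rw [sup_comm]; exact hle))
  have heq : A ⊔ B = C ⊔ D := (pair_of_unipotent hCD hA' hB' hAB.ne).2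
  obtain ⟨y, hy, e⟩ := hA'
  have hCmem : C ∈ unipotentSubgroups A B := by
    refine ⟨y⁻¹, heq ▸ Subgroup.inv_mem _ hy, ?_⟩
    rw [e, conjBy_conjBy]; simp [conjBy_one]
  refine ⟨heq, hCmem, ?_⟩
  obtain ⟨y', hy', e'⟩ := right_mem_unipotent hCD
  rw [e']
  exact conjBy_mem_unipotent hCmem (heq ▸ hy')

end Cfsg.Agent.S5024
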