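import Cfsg.Statements.S5026
import Cfsg.Agent.Lib.helper8_Root

set_option autoImplicit false
open Cfsg Cfsg.Agent.Lib.helper8_RankOne Cfsg.Agent.Lib.helper8_Root

namespace Cfsg.Agent.S5026

/-- Let S be a degenerate set of abstract root subgroups of G (a set of abstract transvection groups) and let a, b be commuting non-identity elements of members of S with a b ≠ 1. Then the members of S centralizing a b are exactly those centralizing both a and b. -/
theorem result {G : Type*} [Group G] {S : Set (Subgroup G)} (hS : Cfsg.IsRootSubgroupSet S) (hdeg : Cfsg.IsDegenerateRootSet S)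
    {a b : G} (ha : a ∈ Cfsg.rootElements S) (hb : b ∈ Cfsg.rootElements S) (hab : a * b = b * a) (hab1 : a * b ≠ 1) :
    Cfsg.centralizingMembers S (Subgroup.zpowers (a * b)) =
      Cfsg.centralizingMembers S (Subgroup.zpowers a) ∩ Cfsg.centralizingMembers S (Subgroup.zpowers b) := by
  have hiff : ∀ (C : Subgroup G) (x : G), C ≤ Subgroup.centralizer (Subgroup.zpowers x : Set G) ↔
      x ∈ Subgroup.centralizer (C : Set G) := by
    intro C x
    rw [Subgroup.le_centralizer_iff, Subgroup.zpowers_le]
  obtain ⟨ha1, A, hA, haA⟩ := ha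
  obtain ⟨hb1, B, hB, hbB⟩ := hb
  ext C
  simp only [centralizingMembers, Set.mem_inter_iff, Set.mem_setOf_eq, hiff]
  constructor
  · rintro ⟨hC, hab'⟩
    suffices h : a ∈ Subgroup.centralizer (C : Set G) by
      refine ⟨⟨hC, h⟩, hC, ?_⟩
      have := Subgroup.mul_mem _ (Subgroup.inv_mem _ h) hab'
      simpa using this
    by_contra hna
    have hnb : b ∉ Subgroup.centralizer (C : Set G) := by
      intro h
      apply hna
      have := Subgroup.mul_mem _ hab' (Subgroup.inv_mem _ h)
      simpa using this
    have hAC : IsRankOnePair A C := by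
      rcases hS.pair A hA C hC with h | h | h
      · exact absurd ((Subgroup.commutator_eq_bot_iff_le_centralizer.mp h) haA) hna
      · exact h
      · exact absurd h (hdeg A hA C hC)
    have hBC : IsRankOnePair B C := by
      rcases hS.pair B hB C hC with h | h | h
      · exact absurd ((Subgroup.commutator_eq_bot_iff_le_centralizer.mp h) hbB) hnb
      · exact h
      · exact absurd h (hdeg B hB C hC)
    have hmove : conjBy C a⁻¹ = conjBy C b := by
      have h1 : conjBy C (a * b) = C := conjBy_of_centralizes hab' le_rfl
      rw [← conjBy_conjBy, conjBy_eq_iff] at h1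
      exact h1.symm
    have hmem := mem_unipotent_of_same_move hAC hBC (A.inv_mem haA) (inv_ne_one.mpr ha1) hbB hmove
    by_cases hBA : B = A
    · subst hBA
      exact hab1 (eq_one_of_normalizes_right hAC (B.mul_mem haA hbB)
        (conjBy_of_centralizes hab' le_rfl))
    · have hp := (pair_of_unipotent hAC (left_mem_unipotent A C) hmem (Ne.symm hBA)).1
      exact not_commute_elem hp haA ha1 hbB hb1 hab
  · rintro ⟨⟨hC, h1⟩, -, h2⟩
    exact ⟨hC, Subgroup.mul_mem _ h1 h2⟩

end Cfsg.Agent.S5026
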