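import Cfsg.Statements.S5027
import Cfsg.Agent.Lib.helper8_Root

set_option autoImplicit false
open Cfsg Cfsg.Agent.Lib.helper8_RankOne Cfsg.Agent.Lib.helper8_Root
open scoped commutatorElement

namespace Cfsg.Agent.S5027

/-- Let S be a set of abstract root subgroups of G such that every member of S has a rank one partner in S (the graph of rank one pairs on S has no isolated vertex). Then the second centre of G equals its centre. -/
theorem result {G : Type*} [Group G] {S : Set (Subgroup G)} (hS : Cfsg.IsRootSubgroupSet S)
    (hF : ∀ A ∈ S, ¬ Cfsg.IsIsolatedIn (Cfsg.FAdj S) S A) : Subgroup.upperCentralSeries G 2 = Subgroup.center G := by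
  apply le_antisymm
  · intro n hn
    have hcomm : ∀ A ∈ S, A ≤ Subgroup.centralizer ({n} : Set G) := by
      intro A hA a ha
      rw [Subgroup.mem_centralizer_singleton_iff]
      by_contra hne
      obtain ⟨D, hD, hp⟩ := exists_partner hA (hF A hA)
      have hz : ⁅n, a⁆ ∈ Subgroup.center G := by
        have := (Subgroup.mem_upperCentralSeries_succ_iff (n := 1)).mp hn a
        rwa [Subgroup.upperCentralSeries_one] at this
      have ha1 : a ≠ 1 := by
        rintro rfl
        simp at hne
      have hz1 : ⁅n, a⁆ ≠ 1 := by
        intro e
        rw [commutatorElement_eq_one_iff_mul_comm] at e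
        exact hne e.symm
      have hzc : ⁅n, a⁆ ∈ Subgroup.centralizer ((A ⊔ D : Subgroup G) : Set G) := by
        rw [Subgroup.mem_centralizer_iff]
        intro x _
        exact Subgroup.mem_center_iff.mp hz x
      apply central_translate hS hA hD hp hzc hz1 ha ha1 (hS.conj_mem A hA n)
      have : ⁅n, a⁆ * a = n * a * n⁻¹ := by rw [commutatorElement_def]; group
      rw [this]
      exact conj_mem_conjBy ha n
    have htop : (⊤ : Subgroup G) ≤ Subgroup.centralizer ({n} : Set G) := by
      rw [← hS.generates]
      exact iSup₂_le hcomm
    rw [Subgroup.mem_center_iff]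
    intro g
    have := htop (Subgroup.mem_top g)
    rw [Subgroup.mem_centralizer_singleton_iff] at this
    exact this
  · rw [← Subgroup.upperCentralSeries_one]
    exact Subgroup.upperCentralSeries_mono G (by norm_num)

end Cfsg.Agent.S5027
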