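import Cfsg.Statements.S5029
import Cfsg.Agent.Lib.helper8_Root

set_option autoImplicit false
open Cfsg Cfsg.Agent.Lib.helper8_RankOne Cfsg.Agent.Lib.helper8_Root

namespace Cfsg.Agent.S5029

/-- Let S be a set of abstract root subgroups of G, A ∈ S having a rank one partner in S, and B ∈ S with C = ⁅A, B⁆ ∈ S. Then the members of S contained in AC are the conjugates of A by elements of B together with C, they partition AC, the members of S inside AC partition AC so that A is a line partner of C, and for every non-identity a ∈ A the map b ↦ a⁻¹ b⁻¹ a b is an isomorphism from B onto C. -/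
theorem result {G : Type*} [Group G] {S : Set (Subgroup G)} (hS : Cfsg.IsRootSubgroupSet S)
    {A B : Subgroup G} (hA : ¬ Cfsg.IsIsolatedIn (Cfsg.FAdj S) S A) (hAS : A ∈ S) (hB : B ∈ S) (hC : ⁅A, B⁆ ∈ S) :
    Cfsg.membersIn S (A ⊔ ⁅A, B⁆) = (fun b : G => Cfsg.conjBy A b) '' (B : Set G) ∪ {⁅A, B⁆} ∧
    Cfsg.IsSubgroupPartition (A ⊔ ⁅A, B⁆) (Cfsg.membersIn S (A ⊔ ⁅A, B⁆)) ∧
    A ∈ Cfsg.linePartners S ⁅A, B⁆ ∧
    ∀ a ∈ A, a ≠ 1 → ∃ φ : ↥B ≃* ↥⁅A, B⁆, ∀ b : ↥B, (φ b : G) = a⁻¹ * (b : G)⁻¹ * a * b := by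
  obtain ⟨D, hD, hp⟩ := exists_partner hAS hA
  have h := commCase_of_commutator_mem hS hAS hB hC
  have hcomm : ∀ a ∈ A, ∀ c ∈ ⁅A, B⁆, a * c = c * a :=
    fun a ha c hc => (h.2.1 c hc a (Subgroup.mem_sup_left ha)).symm
  have hAC : A ≠ ⁅A, B⁆ := commCase_left_ne hS h
  have hcover : ∀ x ∈ A ⊔ ⁅A, B⁆, x ≠ 1 → (∃ b ∈ B, x ∈ conjBy A b) ∨ x ∈ ⁅A, B⁆ := by
    intro x hx hx1
    obtain ⟨a, ha, c, hc, rfl⟩ := mem_sup_of_commute hcomm hx
    by_cases ha1 : a = 1
    · right; rw [ha1, one_mul]; exact hc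
    · left
      obtain ⟨b, hb, e⟩ := commCase_exists_conj h ha ha1 hc
      refine ⟨b, hb, ?_⟩
      rw [hcomm a ha c hc, ← e]; exact conj_mem_conjBy ha b
  have hmem : membersIn S (A ⊔ ⁅A, B⁆) = (fun b : G => conjBy A b) '' (B : Set G) ∪ {⁅A, B⁆} := by
    ext E
    constructor
    · rintro ⟨hE, hle⟩
      by_cases hEC : E ≤ ⁅A, B⁆
      · right; exact eq_of_le_commutator hS hAS h hD hp hE hEC
      · left
        obtain ⟨x, hx, hxC⟩ := SetLike.not_le_iff_exists.mp hEC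
        have hx1 : x ≠ 1 := by rintro rfl; exact hxC (Subgroup.one_mem _)
        rcases hcover x (hle hx) hx1 with ⟨b, hb, hxb⟩ | hxC'
        · refine ⟨b, hb, ?_⟩
          rcases inf_eq_bot_or_eq' hS (hS.conj_mem D hD b) (conj_pair hp b) hE with h0 | h0
          · have : x ∈ conjBy A b ⊓ E := ⟨hxb, hx⟩
            rw [h0] at this; exact absurd this hx1
          · exact h0
        · exact absurd hxC' hxC
    · rintro (⟨b, hb, rfl⟩ | rfl)
      · exact ⟨hS.conj_mem A hAS b, commCase_conjBy_le A B hb⟩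
      · exact ⟨hC, le_sup_right⟩
  have hpart : IsSubgroupPartition (A ⊔ ⁅A, B⁆) (membersIn S (A ⊔ ⁅A, B⁆)) := by
    refine ⟨fun E hE => hE.2, ?_, ?_⟩
    · intro x hx hx1
      rcases hcover x hx hx1 with ⟨b, hb, hxb⟩ | hxC
      · exact ⟨conjBy A b, ⟨hS.conj_mem A hAS b, commCase_conjBy_le A B hb⟩, hxb⟩
      · exact ⟨⁅A, B⁆, ⟨hC, le_sup_right⟩, hxC⟩
    · intro E hE E' hE' hne
      have key : ∀ E ∈ (fun b : G => conjBy A b) '' (B : Set G), ∀ E' ∈ S, E ≠ E' →
          E ⊓ E' = ⊥ := by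
        rintro _ ⟨b, hb, rfl⟩ E' hE' hne
        rcases inf_eq_bot_or_eq' hS (hS.conj_mem D hD b) (conj_pair hp b) hE' with h0 | h0
        · exact h0
        · exact absurd h0 hne
      have hE1 := hE
      have hE1' := hE'
      rw [hmem] at hE1 hE1'
      rcases hE1 with hE1 | hE1
      · exact key E hE1 E' hE'.1 hne
      · rcases hE1' with hE1' | hE1'
        · rw [inf_comm]; exact key E' hE1' E hE.1 hne.symm
        · exact absurd (hE1.trans hE1'.symm) hne
  refine ⟨hmem, hpart, ?_, ?_⟩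
  · refine ⟨⟨hAS, hAC, ?_⟩, ?_⟩
    · rw [Subgroup.commutator_eq_bot_iff_le_centralizer]
      intro c hc
      rw [Subgroup.mem_centralizer_iff]
      intro a ha
      exact hcomm a ha c hc
    · rw [sup_comm]; exact hpart
  · intro a ha ha1
    have hγ : ∀ b ∈ B, a⁻¹ * b⁻¹ * a * b = a * b * a⁻¹ * b⁻¹ := by
      intro b hb
      have h1 := h.2.1 _ (comm_elem_mem ha hb) (b * a)
        (Subgroup.mul_mem _ (Subgroup.mem_sup_right hb) (Subgroup.mem_sup_left ha))
      calc a⁻¹ * b⁻¹ * a * b = (b * a)⁻¹ * (a * b * a⁻¹ * b⁻¹ * (b * a)) := by group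
        _ = (b * a)⁻¹ * ((b * a) * (a * b * a⁻¹ * b⁻¹)) := by rw [h1]
        _ = a * b * a⁻¹ * b⁻¹ := by group
    let f : B →* (⁅A, B⁆ : Subgroup G) :=
      (kappaHom h ha).codRestrict ⁅A, B⁆ (fun b => comm_elem_mem ha b.2)
    have hf : ∀ b : B, ((f b : (⁅A, B⁆ : Subgroup G)) : G) = a * (b : G) * a⁻¹ * (b : G)⁻¹ :=
      fun b => rfl
    have hbij : Function.Bijective f := by
      constructor
      · rw [injective_iff_map_eq_one]
        intro b hb1
        by_contra hbne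
        have h1 : a * (b : G) * a⁻¹ * (b : G)⁻¹ = 1 := by
          rw [← hf b, hb1]; rfl
        have h2 : a * (b : G) = (b : G) * a := by
          have : a * (b : G) = (a * (b : G) * a⁻¹ * (b : G)⁻¹) * ((b : G) * a) := by group
          rw [this, h1, one_mul]
        exact commCase_not_commute hS hAS h hD hp ha ha1 b.2
          (fun e => hbne (Subtype.ext e)) h2
      · rintro ⟨c, hc⟩
        obtain ⟨b, hb, e⟩ := exists_kappa_eq h ha ha1 hc
        exact ⟨⟨b, hb⟩, Subtype.ext e⟩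
    refine ⟨MulEquiv.ofBijective f hbij, ?_⟩
    intro b
    rw [hγ b b.2]
    exact hf b

end Cfsg.Agent.S5029
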