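import Cfsg.Statements.S5031
import Cfsg.Agent.Lib.helper8_Root

set_option autoImplicit false
open Cfsg Cfsg.Agent.Lib.helper8_RankOne Cfsg.Agent.Lib.helper8_Root

namespace Cfsg.Agent.S5031

/-- Let S be a set of abstract root subgroups of G and let A, B ∈ S lie in different connected components of the graph of rank one pairs on S, each component having more than one member. Then B is not a line partner of A. -/
theorem result {G : Type*} [Group G] {S : Set (Subgroup G)} (hS : Cfsg.IsRootSubgroupSet S)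
    {A B : Subgroup G} (hA : A ∈ S) (hB : B ∈ S)
    (hne : Cfsg.componentOf (Cfsg.FAdj S) S A ≠ Cfsg.componentOf (Cfsg.FAdj S) S B)
    (hA2 : ∃ A' ∈ Cfsg.componentOf (Cfsg.FAdj S) S A, A' ≠ A) (hB2 : ∃ B' ∈ Cfsg.componentOf (Cfsg.FAdj S) S B, B' ≠ B) :
    B ∉ Cfsg.linePartners S A := by
  intro hline
  obtain ⟨⟨-, hBA, hcomm⟩, hpart⟩ := hline
  have hpartner : ∀ {A : Subgroup G}, (∃ A' ∈ componentOf (FAdj S) S A, A' ≠ A) →
      ∃ D ∈ S, IsRankOnePair A D := by
    rintro A ⟨A', ⟨-, hpath⟩, hne⟩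
    rcases Relation.ReflTransGen.cases_head hpath with e | ⟨X, hX, -⟩
    · exact absurd e.symm hne
    · exact ⟨X, hX.2.1, hX.2.2⟩
  obtain ⟨D, hD, hp⟩ := hpartner hA2
  obtain ⟨D', hD', hp'⟩ := hpartner hB2
  have hcompeq : Relation.ReflTransGen (FAdj S) A B → False :=
    fun hpath => hne (component_eq_of_path hpath)
  obtain ⟨a, ha, ha1⟩ := exists_ne_one_left hp
  obtain ⟨b, hb, hb1⟩ := exists_ne_one_left hp'
  have hab : a * b = b * a := commute_of_commutator_eq_bot hcomm ha hb
  have hcomm' : ⁅B, A⁆ = ⊥ := by rw [Subgroup.commutator_comm]; exact hcomm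
  have hinf : A ⊓ B = ⊥ := (inf_eq_bot_or_eq' hS hD hp hB).resolve_right hBA.symm
  have hab1 : a * b ≠ 1 := by
    intro e
    have h1 : a = b⁻¹ := eq_inv_of_mul_eq_one_left e
    have h2 : a ∈ A ⊓ B := ⟨ha, h1 ▸ B.inv_mem hb⟩
    rw [hinf] at h2
    exact ha1 h2
  obtain ⟨E, ⟨hE, hEle⟩, heE⟩ := hpart.2.1 (a * b)
    (Subgroup.mul_mem _ (Subgroup.mem_sup_left ha) (Subgroup.mem_sup_right hb)) hab1
  have aux : ∀ {A B D : Subgroup G}, A ∈ S → B ∈ S → D ∈ S → IsRankOnePair A D → ⁅A, B⁆ = ⊥ →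
      (Relation.ReflTransGen (FAdj S) A B → False) →
      ∀ {a b : G}, a ∈ A → a ≠ 1 → b ∈ B → b ≠ 1 → b * a ∈ E → RootCommutatorCase S B D := by
    intro A B D hA hB hD hp hcomm hcompeq a b ha ha1 hb hb1 heE
    rcases hS.pair B hB D hD with h | h | h
    · exfalso
      have hz : b ∈ Subgroup.centralizer ((A ⊔ D : Subgroup G) : Set G) := by
        have h1 : A ⊔ D ≤ Subgroup.centralizer (B : Set G) := by
          refine sup_le (Subgroup.commutator_eq_bot_iff_le_centralizer.mp hcomm) ?_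
          rw [Subgroup.commutator_comm] at h
          exact Subgroup.commutator_eq_bot_iff_le_centralizer.mp h
        exact (Subgroup.le_centralizer_iff.mp h1) hb
      exact central_translate hS hA hD hp hz hb1 ha ha1 hE heE
    · exfalso
      apply hcompeq
      exact (Relation.ReflTransGen.single ⟨hA, hD, hp⟩).trans
        (Relation.ReflTransGen.single ⟨hD, hB, RankOnePair_symm h⟩)
    · exact h
  have hBD : RootCommutatorCase S B D :=
    aux hA hB hD hp hcomm hcompeq ha ha1 hb hb1 (hab ▸ heE)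
  have hAD' : RootCommutatorCase S A D' :=
    aux hB hA hD' hp' hcomm' (fun h => hcompeq (fpath_symm h))
      hb hb1 ha ha1 heE
  have h1 : IsRankOnePair E D := rankOne_of_line hS hA hD hE hcomm hp hBD ha ha1 hb heE
  have h2 : IsRankOnePair E D' :=
    rankOne_of_line hS hB hD' hE hcomm' hp' hAD' hb hb1 ha (hab ▸ heE)
  apply hcompeq
  exact ((((Relation.ReflTransGen.single ⟨hA, hD, hp⟩).trans
    (Relation.ReflTransGen.single ⟨hD, hE, RankOnePair_symm h1⟩)).trans
    (Relation.ReflTransGen.single ⟨hE, hD', h2⟩)).trans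
    (Relation.ReflTransGen.single ⟨hD', hB, RankOnePair_symm hp'⟩))

end Cfsg.Agent.S5031
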