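import Cfsg.Statements.S5032
import Cfsg.Agent.Lib.helper8_Root
import Cfsg.Agent.S5029
import Cfsg.Agent.S5031

set_option autoImplicit false
open Cfsg Cfsg.Agent.Lib.helper8_RankOne Cfsg.Agent.Lib.helper8_Root

namespace Cfsg.Agent.S5032

/-- Let S be a set of abstract root subgroups of G with more than one member. Then the graph of rank one pairs on S is connected if and only if S is a single conjugacy class of G and some member of S has a rank one partner in S. -/
theorem result {G : Type*} [Group G] {S : Set (Subgroup G)} (hS : Cfsg.IsRootSubgroupSet S) (h2 : ∃ A ∈ S, ∃ B ∈ S, A ≠ B) :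
    Cfsg.IsConnectedFamily (Cfsg.FAdj S) S ↔
      (Cfsg.IsConjClassOfSubgroups S ∧ ∃ A ∈ S, ¬ Cfsg.IsIsolatedIn (Cfsg.FAdj S) S A) := by
  constructor
  · intro hconn
    obtain ⟨A, hA, B, hB, hne⟩ := h2
    have hgen : ∀ X Y : Subgroup G, Relation.ReflTransGen (FAdj S) X Y → ∃ g : G, Y = conjBy X g := by
      intro X Y hpath
      induction hpath with
      | refl => exact ⟨1, (conjBy_one X).symm⟩
      | tail _ hbc ih =>
        obtain ⟨g, hg⟩ := ih
        obtain ⟨x, -, hx⟩ := right_mem_unipotent hbc.2.2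
        exact ⟨x * g, by rw [hx, hg, conjBy_conjBy]⟩
    refine ⟨⟨⟨A, hA⟩, fun X hX Y hY => hgen X Y (hconn X hX Y hY)⟩, A, hA, ?_⟩
    rcases Relation.ReflTransGen.cases_head (hconn A hA B hB) with e | ⟨c, hc, -⟩
    · exact absurd e hne
    · intro h
      exact (h.2 c).1 hc
  · rintro ⟨⟨-, hconj⟩, A₀, hA₀, hiso⟩
    obtain ⟨D₀, hD₀, hp₀⟩ := exists_partner hA₀ hiso
    have hpartner : ∀ X ∈ S, ∃ D ∈ S, IsRankOnePair X D := by
      intro X hX
      obtain ⟨g, rfl⟩ := hconj A₀ hA₀ X hX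
      exact ⟨conjBy D₀ g, hS.conj_mem _ hD₀ g, conj_pair hp₀ g⟩
    have hniso : ∀ X ∈ S, ¬ IsIsolatedIn (FAdj S) S X := by
      intro X hX h
      obtain ⟨D, hD, hp⟩ := hpartner X hX
      exact (h.2 D).1 ⟨hX, hD, hp⟩
    have hcomp2 : ∀ X ∈ S, ∃ X' ∈ componentOf (FAdj S) S X, X' ≠ X := by
      intro X hX
      obtain ⟨D, hD, hp⟩ := hpartner X hX
      exact ⟨D, ⟨hD, .single ⟨hX, hD, hp⟩⟩, hp.ne.symm⟩
    have hline : ∀ X ∈ S, ∀ Y ∈ S, Y ∈ linePartners S X →
        Relation.ReflTransGen (FAdj S) X Y := by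
      intro X hX Y hY hl
      by_contra hno
      have hne : componentOf (FAdj S) S X ≠ componentOf (FAdj S) S Y := by
        intro e
        have : Y ∈ componentOf (FAdj S) S Y := ⟨hY, .refl⟩
        rw [← e] at this
        exact hno this.2
      exact Cfsg.Agent.S5031.result hS hX hY hne (hcomp2 X hX) (hcomp2 Y hY) hl
    have hkey : ∀ X ∈ S, ∀ x ∈ X, ∀ Y ∈ S, Relation.ReflTransGen (FAdj S) Y (conjBy Y x) := by
      intro X hX x hx Y hY
      rcases hS.pair X hX Y hY with h | h | h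
      · rw [conjBy_of_commutator_eq_bot h hx]
      · by_cases hx1 : x = 1
        · rw [hx1, conjBy_one]
        · exact .single ⟨hY, hS.conj_mem Y hY x, pair_conj_right h hx hx1⟩
      · have hC : ⁅Y, X⁆ ∈ S := by rw [Subgroup.commutator_comm]; exact h.1
        have h1 := (Cfsg.Agent.S5029.result hS (hniso Y hY) hY hX hC).2.2.1
        have hY' := hS.conj_mem Y hY x
        have hC' : ⁅conjBy Y x, X⁆ = ⁅Y, X⁆ := by
          have e1 : conjBy ⁅Y, X⁆ x = ⁅conjBy Y x, conjBy X x⁆ := Subgroup.map_commutator _ _ _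
          rw [conjBy_commutator_of_mem_sup Y X (Subgroup.mem_sup_right hx), conjBy_of_mem hx] at e1
          exact e1.symm
        have h2 := (Cfsg.Agent.S5029.result hS (hniso _ hY') hY' hX (hC'.symm ▸ hC)).2.2.1
        rw [hC'] at h2
        exact (fpath_symm (hline _ hC _ hY h1)).trans (hline _ hC _ hY' h2)
    intro A hA E hE
    have hstab : ∀ X ∈ S, X ≤ famStab (componentOf (FAdj S) S A) := by
      intro X hX
      apply le_famStab
      intro x hx Y hY
      exact ⟨hS.conj_mem Y hY.1 x, hY.2.trans (hkey X hX x hx Y hY.1)⟩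
    have htop : (⊤ : Subgroup G) ≤ famStab (componentOf (FAdj S) S A) := by
      rw [← hS.generates]
      exact iSup₂_le hstab
    obtain ⟨g, rfl⟩ := hconj A hA E hE
    exact (((htop (Subgroup.mem_top g)) A).mpr ⟨hA, .refl⟩).2

end Cfsg.Agent.S5032
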