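import Cfsg.Statements.S5035
import Cfsg.Agent.Lib.helper8_Root

set_option autoImplicit false
open Cfsg Cfsg.Agent.Lib.helper8_RankOne Cfsg.Agent.Lib.helper8_Root

namespace Cfsg.Agent.S5035

lemma map_conjBy {G H : Type*} [Group G] [Group H] (f : G →* H) (A : Subgroup G) (g : G) :
    (conjBy A g).map f = conjBy (A.map f) (f g) := by
  ext x
  constructor
  · rintro ⟨y, hy, rfl⟩
    have hy' : y ∈ conjBy A g := hy
    rw [mem_conjBy] at hy' ⊢
    exact ⟨_, hy', by simp⟩
  · intro hx
    rw [mem_conjBy] at hx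
    obtain ⟨y, hy, e⟩ := hx
    refine ⟨g * y * g⁻¹, conj_mem_conjBy hy g, ?_⟩
    rw [map_mul, map_mul, e, map_inv]; group

lemma map_cond {G H : Type*} [Group G] [Group H] (f : G →* H) {A B : Subgroup G}
    (h : RankOneCondition A B) (hne : A.map f ≠ B.map f) :
    RankOneCondition (A.map f) (B.map f) := by
  rintro _ ⟨a, ha, rfl⟩ ha1
  have ha1' : a ≠ 1 := by rintro rfl; exact ha1 (map_one f)
  obtain ⟨b, hb, -, e⟩ := h a ha ha1'
  have e' : conjBy (A.map f) (f b)⁻¹ = conjBy (B.map f) (f a)⁻¹ := by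
    rw [← map_inv, ← map_inv, ← map_conjBy, ← map_conjBy, e]
  refine ⟨f b, Subgroup.mem_map_of_mem f hb, ?_, e'⟩
  intro hb1
  apply hne
  rw [hb1, inv_one, conjBy_one] at e'
  rw [← conjBy_eq_iff.mpr e']
  exact (conjBy_of_mem (Subgroup.mem_map_of_mem f ha)).symm

lemma map_nilpotent {G H : Type*} [Group G] [Group H] (f : G →* H) {A : Subgroup G}
    (h : Group.IsNilpotent A) : Group.IsNilpotent (A.map f) :=
  Group.nilpotent_of_surjective (f.subgroupMap A) (f.subgroupMap_surjective A)

lemma map_pair {G H : Type*} [Group G] [Group H] (f : G →* H) {A B : Subgroup G}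
    (h : IsRankOnePair A B) (hne : A.map f ≠ B.map f) : IsRankOnePair (A.map f) (B.map f) :=
  ⟨hne, map_nilpotent f h.nilpotent_left, map_nilpotent f h.nilpotent_right,
    map_cond f h.cond_left hne, map_cond f h.cond_right hne.symm⟩

lemma conj_of_path {G : Type*} [Group G] {S : Set (Subgroup G)} {X Y : Subgroup G}
    (hpath : Relation.ReflTransGen (FAdj S) X Y) : ∃ g : G, Y = conjBy X g := by
  induction hpath with
  | refl => exact ⟨1, (conjBy_one X).symm⟩
  | tail _ hbc ih =>
    obtain ⟨g, hg⟩ := ih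
    obtain ⟨x, -, hx⟩ := right_mem_unipotent hbc.2.2
    exact ⟨x * g, by rw [hx, hg, conjBy_conjBy]⟩

lemma map_commCase {G H : Type*} [Group G] [Group H] (f : G →* H) {S : Set (Subgroup G)}
    {A B : Subgroup G} (h : RootCommutatorCase S A B) :
    RootCommutatorCase ((fun A : Subgroup G => A.map f) '' S) (A.map f) (B.map f) := by
  have hcm : ⁅A.map f, B.map f⁆ = (⁅A, B⁆ : Subgroup G).map f := (Subgroup.map_commutator A B f).symm
  refine ⟨?_, ?_, ?_, ?_⟩
  · rw [hcm]; exact ⟨_, h.1, rfl⟩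
  · intro c hc x hx
    rw [hcm] at hc
    rw [← Subgroup.map_sup] at hx
    obtain ⟨c, hc, rfl⟩ := hc
    obtain ⟨x, hx, rfl⟩ := hx
    rw [← map_mul, ← map_mul, h.2.1 c hc x hx]
  · rintro _ ⟨a, ha, rfl⟩ ha1
    have ha1' : a ≠ 1 := by rintro rfl; exact ha1 (map_one f)
    rw [hcm, ← h.2.2.1 a ha ha1', MonoidHom.map_closure]
    congr 1
    ext y
    constructor
    · rintro ⟨_, ⟨b, hb, rfl⟩, rfl⟩
      exact ⟨_, ⟨b, hb, rfl⟩, by simp⟩
    · rintro ⟨_, ⟨b, hb, rfl⟩, rfl⟩
      exact ⟨f b, ⟨b, hb, rfl⟩, by simp⟩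
  · rintro _ ⟨b, hb, rfl⟩ hb1
    have hb1' : b ≠ 1 := by rintro rfl; exact hb1 (map_one f)
    rw [hcm, ← h.2.2.2 b hb hb1', MonoidHom.map_closure]
    congr 1
    ext y
    constructor
    · rintro ⟨_, ⟨a, ha, rfl⟩, rfl⟩
      exact ⟨_, ⟨a, ha, rfl⟩, by simp⟩
    · rintro ⟨_, ⟨a, ha, rfl⟩, rfl⟩
      exact ⟨f a, ⟨a, ha, rfl⟩, by simp⟩


/-- Let S be a set of abstract root subgroups of G whose graph of rank one pairs is connected, and f a homomorphism from G onto a group H. Then either the images of the members of S form a set of abstract root subgroups of H whose graph of rank one pairs is again connected, or H equals the image of a member of S. -/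
theorem result {G H : Type*} [Group G] [Group H] {S : Set (Subgroup G)} (hS : Cfsg.IsRootSubgroupSet S)
    (hc : Cfsg.IsConnectedFamily (Cfsg.FAdj S) S) (f : G →* H) (hf : Function.Surjective f) :
    (Cfsg.IsRootSubgroupSet ((fun A : Subgroup G => A.map f) '' S) ∧
      Cfsg.IsConnectedFamily (Cfsg.FAdj ((fun A : Subgroup G => A.map f) '' S)) ((fun A : Subgroup G => A.map f) '' S)) ∨
    ∃ A ∈ S, A.map f = ⊤ := by
  have hmaptop : (⨆ A ∈ S, A.map f) = ⊤ := by
    have h1 : ((⨆ A ∈ S, A) : Subgroup G).map f = ⊤ := by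
      rw [hS.generates]
      exact Subgroup.map_top_of_surjective f hf
    rw [← h1, Subgroup.map_iSup]
    congr 1
    ext A
    rw [Subgroup.map_iSup]
  by_cases hbot : ∃ A ∈ S, A.map f = ⊥
  · right
    obtain ⟨A₀, hA₀, h0⟩ := hbot
    refine ⟨A₀, hA₀, ?_⟩
    rw [h0, ← hmaptop, eq_comm, eq_bot_iff]
    refine iSup₂_le ?_
    intro X hX
    obtain ⟨g, rfl⟩ := conj_of_path (hc A₀ hA₀ X hX)
    rw [map_conjBy, h0, conjBy_bot]
  · left
    push Not at hbot
    have hcommap : ∀ A ∈ S, IsMulCommutative (A.map f) := by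
      intro A hA
      have := hS.commutative A hA
      infer_instance
    refine ⟨⟨?_, ?_, ?_, ?_, ?_⟩, ?_⟩
    · rintro _ ⟨A, hA, rfl⟩
      exact hcommap A hA
    · rintro _ ⟨A, hA, rfl⟩
      exact hbot A hA
    · rw [iSup_image]
      exact hmaptop
    · rintro _ ⟨A, hA, rfl⟩ h
      obtain ⟨g, rfl⟩ := hf h
      exact ⟨conjBy A g, hS.conj_mem A hA g, map_conjBy f A g⟩
    · rintro _ ⟨A, hA, rfl⟩ _ ⟨B, hB, rfl⟩
      rcases hS.pair A hA B hB with h | h | h
      · left
        change ⁅A.map f, B.map f⁆ = ⊥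
        rw [← Subgroup.map_commutator, h, Subgroup.map_bot]
      · by_cases e : A.map f = B.map f
        · left
          change ⁅A.map f, B.map f⁆ = ⊥
          rw [← e, Subgroup.commutator_eq_bot_iff_le_centralizer]
          intro x hx
          rw [Subgroup.mem_centralizer_iff]
          intro y hy
          exact comm_of_isMulCommutative (hcommap A hA) hy hx
        · right; left
          exact map_pair f h e
      · right; right
        exact map_commCase f h
    · rintro _ ⟨A, hA, rfl⟩ _ ⟨B, hB, rfl⟩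
      have hpath := hc A hA B hB
      clear hB
      induction hpath with
      | refl => exact .refl
      | @tail C D _ hbc ih =>
        by_cases e : C.map f = D.map f
        · change Relation.ReflTransGen _ (A.map f) (D.map f)
          rw [← e]; exact ih
        · exact ih.tail ⟨⟨C, hbc.1, rfl⟩, ⟨D, hbc.2.1, rfl⟩, map_pair f hbc.2.2 e⟩

end Cfsg.Agent.S5035
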