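import Cfsg.Statements.S5057
import Mathlib

set_option autoImplicit false
open Cfsg

namespace Cfsg.Agent.S5057

set_option maxRecDepth 1000000 in
theorem a6_cases : ∀ g : Equiv.Perm (Fin 6), Equiv.Perm.sign g = 1 →
    g ^ 2 = 1 ∨ g ^ 3 = 1 ∨ g ^ 4 = 1 ∨ g ^ 5 = 1 := by
  decide +kernel

set_option maxRecDepth 1000000 in
theorem a6_supp : ∀ g : Equiv.Perm (Fin 6), Equiv.Perm.sign g = 1 → g ≠ 1 → g ^ 2 = 1 →
    g.support.card = 4 := by
  decide +kernel

theorem a6_order (g : alternatingGroup (Fin 6)) :
    orderOf g = 1 ∨ orderOf g = 2 ∨ orderOf g = 3 ∨ orderOf g = 4 ∨ orderOf g = 5 := by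
  rw [← Subgroup.orderOf_coe g]
  have hs : Equiv.Perm.sign g.1 = 1 := Equiv.Perm.mem_alternatingGroup.mp g.2
  rcases a6_cases g.1 hs with h | h | h | h
  · have := orderOf_dvd_of_pow_eq_one h
    rcases (Nat.dvd_prime Nat.prime_two).mp this with h' | h' <;> simp [h']
  · have := orderOf_dvd_of_pow_eq_one h
    rcases (Nat.dvd_prime Nat.prime_three).mp this with h' | h' <;> simp [h']
  · have := orderOf_dvd_of_pow_eq_one h
    have h4 : orderOf g.1 ∈ Nat.divisors 4 := Nat.mem_divisors.mpr ⟨this, by norm_num⟩
    have h5 : Nat.divisors 4 = {1, 2, 4} := by decide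
    rw [h5] at h4
    simp only [Finset.mem_insert, Finset.mem_singleton] at h4
    rcases h4 with h' | h' | h' <;> simp [h']
  · have := orderOf_dvd_of_pow_eq_one h
    rcases (Nat.dvd_prime Nat.prime_five).mp this with h' | h' <;> simp [h']

theorem a6_ct (a : alternatingGroup (Fin 6)) (ha : orderOf a = 2) :
    a.1.cycleType = Multiset.replicate 2 2 ∧ a.1.support.card = 4 := by
  have ho : orderOf a.1 = 2 := by rw [Subgroup.orderOf_coe]; exact ha
  have hs := Equiv.Perm.mem_alternatingGroup.mp a.2
  have hne : a.1 ≠ 1 := by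
    intro h; rw [h, orderOf_one] at ho; norm_num at ho
  have hsq : a.1 ^ 2 = 1 := by rw [← ho]; exact pow_orderOf_eq_one _
  have hsupp := a6_supp a.1 hs hne hsq
  obtain ⟨n, hn⟩ := Equiv.Perm.cycleType_prime_order (σ := a.1) (by rw [ho]; exact Nat.prime_two)
  have hsum := Equiv.Perm.sum_cycleType a.1
  rw [hn, ho, Multiset.sum_replicate, hsupp] at hsum
  have hn1 : n = 1 := by
    simp only [smul_eq_mul] at hsum; omega
  refine ⟨?_, hsupp⟩
  rw [hn, ho, hn1]

/-- The involutions of the alternating group of degree 6 form a class of root involutions (a single conjugacy class of involutions generating the group, any two of which commute, have product of odd order, or have product of order 4 whose square is again an involution of the class), and the product of any two of them has order at most 5. -/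
theorem result :
    Cfsg.IsRootInvolutionClass {g : ↥(alternatingGroup (Fin 6)) | orderOf g = 2} ∧
    ∀ d ∈ {g : ↥(alternatingGroup (Fin 6)) | orderOf g = 2}, ∀ e ∈ {g : ↥(alternatingGroup (Fin 6)) | orderOf g = 2},
      orderOf (d * e) ≤ 5 := by
  have hord := a6_order
  have hconj_ord : ∀ (d g : alternatingGroup (Fin 6)), orderOf (g * d * g⁻¹) = orderOf d := by
    intro d g
    rw [← MulAut.conj_apply]; exact MulEquiv.orderOf_eq (MulAut.conj g) d
  have hconj : ∀ d ∈ {g : ↥(alternatingGroup (Fin 6)) | orderOf g = 2},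
      ∀ g : ↥(alternatingGroup (Fin 6)),
      g * d * g⁻¹ ∈ {g : ↥(alternatingGroup (Fin 6)) | orderOf g = 2} := by
    intro d hd g
    show orderOf (g * d * g⁻¹) = 2
    rw [hconj_ord]; exact hd
  obtain ⟨e0, he0⟩ : ∃ e : alternatingGroup (Fin 6), orderOf e = 2 := by
    refine ⟨⟨Equiv.swap 0 1 * Equiv.swap 2 3, Equiv.Perm.mem_alternatingGroup.mpr (by decide)⟩, ?_⟩
    rw [Subgroup.orderOf_mk]
    exact orderOf_eq_prime (by decide) (by decide)
  refine ⟨⟨⟨fun d hd => hd, ?_, hconj, ?_⟩, ⟨e0, he0⟩, ?_⟩, ?_⟩
  · haveI : IsSimpleGroup (alternatingGroup (Fin 6)) := alternatingGroup.isSimpleGroup (by simp)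
    have hcs : Group.conjugatesOfSet {g : ↥(alternatingGroup (Fin 6)) | orderOf g = 2} =
        {g : ↥(alternatingGroup (Fin 6)) | orderOf g = 2} := by
      apply Set.Subset.antisymm
      · intro x hx
        rw [Group.mem_conjugatesOfSet_iff] at hx
        obtain ⟨a, ha, hax⟩ := hx
        obtain ⟨c, rfl⟩ := isConj_iff.mp hax
        exact hconj a ha c
      · exact Group.subset_conjugatesOfSet
    have h1 : Subgroup.closure {g : ↥(alternatingGroup (Fin 6)) | orderOf g = 2} =
        Subgroup.normalClosure {g : ↥(alternatingGroup (Fin 6)) | orderOf g = 2} := by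
      rw [Subgroup.normalClosure, hcs]
    rw [h1]
    rcases (Subgroup.normalClosure_normal
      (s := {g : ↥(alternatingGroup (Fin 6)) | orderOf g = 2})).eq_bot_or_eq_top with h | h
    · exfalso
      have h2 : e0 ∈ Subgroup.normalClosure {g : ↥(alternatingGroup (Fin 6)) | orderOf g = 2} :=
        Subgroup.subset_normalClosure he0
      rw [h, Subgroup.mem_bot] at h2
      rw [h2, orderOf_one] at he0
      norm_num at he0
    · exact h
  · intro a ha b hb
    have ha' : orderOf a = 2 := ha
    have hb' : orderOf b = 2 := hb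
    have ha2 : a * a = 1 := by
      have := pow_orderOf_eq_one a; rw [ha', sq] at this; exact this
    have hb2 : b * b = 1 := by
      have := pow_orderOf_eq_one b; rw [hb', sq] at this; exact this
    rcases hord (a * b) with h | h | h | h | h
    · left
      have h1 : a * b = 1 := orderOf_eq_one_iff.mp h
      have h2 : b * a = 1 := by
        calc b * a = a⁻¹ * (a * b) * a := by group
          _ = 1 := by rw [h1]; group
      rw [h1, h2]
    · left
      have h1 : (a * b) * (a * b) = 1 := by
        have := pow_orderOf_eq_one (a * b); rw [h, sq] at this; exact this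
      calc a * b = a * ((a * b) * (a * b)) * b := by rw [h1, mul_one]
        _ = (a * a) * (b * a) * (b * b) := by group
        _ = b * a := by rw [ha2, hb2, one_mul, mul_one]
    · right; left; rw [h]; decide
    · right; right
      refine ⟨h, ?_⟩
      show orderOf ((a * b) ^ 2) = 2
      rw [orderOf_pow, h]
      decide
    · right; left; rw [h]; decide
  · intro a ha b hb
    obtain ⟨hca, hsa⟩ := a6_ct a ha
    obtain ⟨hcb, -⟩ := a6_ct b hb
    have h1 : IsConj a.1 b.1 := Equiv.Perm.isConj_iff_cycleType_eq.mpr (hca.trans hcb.symm)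
    have h2 := alternatingGroup.isConj_of h1 (by rw [hsa]; simp)
    obtain ⟨g, hg⟩ := isConj_iff.mp h2
    exact ⟨g, hg.symm⟩
  · intro d _ e _
    rcases hord (d * e) with h | h | h | h | h <;> rw [h] <;> norm_num

end Cfsg.Agent.S5057
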