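import Cfsg.Statements.S5079
import Cfsg.Agent.Lib.Helper9_FusionSat

set_option autoImplicit false
open Cfsg

namespace Cfsg.Agent.S5079

/-- In any fusion system over a finite p-group S: if P is fully automized and receptive and Q is conjugate to P in the system, then there is a map of the system with source N_S(Q) and values in N_S(P) carrying Q onto P. -/
theorem result {Ω : Type*} [Group Ω] {S : Subgroup Ω} [Finite S] (p : ℕ) [Fact p.Prime] (hS : IsPGroup p S) (F : Cfsg.FusionSystem S) (P Q : Subgroup Ω) (h₁ : F.IsFullyAutomized p P) (h₂ : F.IsReceptive P) (hQ : F.IsConj Q P) : ∃ φ ∈ F.Hom (Cfsg.FusionSystem.normalizerIn S Q), (∀ x, φ x ∈ Cfsg.FusionSystem.normalizerIn S P) ∧ (Q.subgroupOf (Cfsg.FusionSystem.normalizerIn S Q)).map φ = P := by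
  obtain ⟨ψ, e, hψ, he, hψe⟩ := Cfsg.Agent.Lib.Helper9_FusionSat.exists_hom_normalizer p hS F h₁ h₂ hQ
  refine ⟨_, hψ, fun x => (ψ x).2, ?_⟩
  have hQN : Q ≤ Cfsg.FusionSystem.normalizerIn S Q :=
    Cfsg.Agent.Lib.Helper9_FusionBasic.le_normalizerIn he.le_left
  ext y
  constructor
  · rintro ⟨x, hx, rfl⟩
    have hx' : (x : Ω) ∈ Q := hx
    show ((ψ x : _) : Ω) ∈ P
    rw [hψe x hx']
    exact (e _).2
  · intro hy
    refine ⟨Subgroup.inclusion hQN (e.symm ⟨y, hy⟩), (e.symm ⟨y, hy⟩).2, ?_⟩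
    show ((ψ _ : _) : Ω) = y
    rw [hψe _ (e.symm ⟨y, hy⟩).2]
    have h5 : (⟨((Subgroup.inclusion hQN (e.symm ⟨y, hy⟩) : _) : Ω), (e.symm ⟨y, hy⟩).2⟩ : Q) =
        e.symm ⟨y, hy⟩ := rfl
    rw [h5, MulEquiv.apply_symm_apply]

end Cfsg.Agent.S5079
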