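import Cfsg.Statements.S5102
import Cfsg.Agent.Lib.Helper9_FusionGroup
import Cfsg.Agent.Lib.Helper9_FusionNormal

set_option autoImplicit false
open Cfsg

namespace Cfsg.Agent.S5102

/-- A normal p-subgroup of a finite group G is normal in the fusion system of G on a Sylow p-subgroup. -/
theorem result {G : Type*} [Group G] [Finite G] (p : ℕ) [Fact p.Prime] (S : Sylow p G) (R : Subgroup G) [R.Normal] (hR : IsPGroup p R) : (Cfsg.groupFusionSystem (S : Subgroup G)).IsNormal R := by
  have hRS : R ≤ S := hR.le_sylow_of_normal S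
  refine Cfsg.Agent.Lib.Helper9_FusionNormal.isNormal_of _ hRS (fun P φ hφ => ?_)
  obtain ⟨hP, hval, g, hg⟩ := hφ
  have hle : P ⊔ R ≤ (S : Subgroup G).comap (MulAut.conj g).toMonoidHom := by
    apply sup_le
    · intro x hx
      show g * x * g⁻¹ ∈ (S : Subgroup G)
      rw [← hg ⟨x, hx⟩]
      exact hval _
    · intro x hx
      exact hRS ((inferInstance : R.Normal).conj_mem x hx g)
  refine ⟨P ⊔ R, le_sup_left, le_sup_right, Cfsg.conjHom (P ⊔ R) g,
    Cfsg.Agent.Lib.Helper9_FusionGroup.conjHom_mem_group _ (sup_le hP hRS) g (fun x hx => hle hx), fun x => (hg x).symm, ?_, ?_⟩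
  · intro x
    exact (inferInstance : R.Normal).conj_mem x x.2 g
  · intro y hy
    refine ⟨⟨g⁻¹ * y * g, ?_⟩, ?_⟩
    · have := (inferInstance : R.Normal).conj_mem y hy g⁻¹
      simpa using this
    · show g * (g⁻¹ * y * g) * g⁻¹ = y
      group

end Cfsg.Agent.S5102
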