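import Cfsg.Statements.S5105
import Cfsg.Agent.Lib.Helper9_Realized
import Cfsg.Agent.Lib.Helper9_Cocycle

set_option autoImplicit false
open Cfsg

namespace Cfsg.Agent.S5105

/-- Model Theorem, rigidity: if G is a model of a constrained fusion system over a finite p-group S (through ι : S → G), then every automorphism of G fixing ι(S) elementwise is conjugation by ι(z) for some z in the centre of S. -/
theorem result {Ω : Type*} [Group Ω] {S : Subgroup Ω} [Finite S] (p : ℕ) [Fact p.Prime] (hS : IsPGroup p S) (F : Cfsg.FusionSystem S) (hF : F.IsConstrained p) {G : Type*} [Group G] (ι : S →* G) (hG : F.IsModel p G ι) (ψ : G ≃* G) (hψ : ∀ x : S, ψ (ι x) = ι x) : ∃ z : S, z ∈ Subgroup.center S ∧ ∀ g : G, ψ g = ι z * g * (ι z)⁻¹ := by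
  obtain ⟨hfin, hreal, ⟨T, hT⟩, hc⟩ := hG
  have hN := Cfsg.Agent.Lib.Helper9_Alperin.pCore_normal p G
  have hle : Cfsg.pCore p G ≤ T := Cfsg.Agent.Lib.Helper9_Realized.normal_pGroup_le_sylow T hN
    (Cfsg.Agent.Lib.Helper9_Alperin.pCore_isPGroup p G)
  obtain ⟨z, hz, hzg⟩ := Cfsg.Agent.Lib.Helper9_Cocycle.rigid T (Cfsg.pCore p G) hle hc ψ (by
    intro x hx
    have hx' : x ∈ (T : Subgroup G) := hx
    rw [hT] at hx'
    obtain ⟨s, rfl⟩ := hx'
    exact hψ s)
  have hzr : z ∈ ι.range := hT ▸ hle (hc hz)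
  obtain ⟨z', rfl⟩ := hzr
  refine ⟨z', ?_, hzg⟩
  rw [Subgroup.mem_center_iff]
  intro s
  apply hreal.1
  have h1 := hzg (ι s)
  rw [hψ] at h1
  rw [map_mul, map_mul]
  calc ι s * ι z' = (ι z' * ι s * (ι z')⁻¹) * ι z' := by rw [← h1]
    _ = _ := by group

end Cfsg.Agent.S5105
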