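import Cfsg.Statements.S5107
import Cfsg.Agent.Lib.Helper9_GroupNormal

set_option autoImplicit false
open Cfsg

namespace Cfsg.Agent.S5107

/-- If a Sylow p-subgroup S of a finite group G has nilpotency class at most two and its centre is strongly closed in S with respect to G, then every map of the fusion system of G on S is conjugation by an element of N_G(S), and S is the largest subgroup normal in that fusion system. -/
theorem result {G : Type*} [Group G] [Finite G] (p : ℕ) [Fact p.Prime] (S : Sylow p G) (hcl : ⁅(S : Subgroup G), (S : Subgroup G)⁆ ≤ (S : Subgroup G) ⊓ Subgroup.centralizer ((S : Subgroup G) : Set G)) (hZ : Cfsg.IsStronglyClosed ((S : Subgroup G) ⊓ Subgroup.centralizer ((S : Subgroup G) : Set G)) (S : Subgroup G)) : (∀ (P : Subgroup G) (φ : P →* G), φ ∈ (Cfsg.groupFusionSystem (S : Subgroup G)).Hom P → ∃ g ∈ Subgroup.normalizer ((S : Subgroup G) : Set G), ∀ x : P, φ x = g * (x : G) * g⁻¹) ∧ (Cfsg.groupFusionSystem (S : Subgroup G)).core = S := by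
  have hS : IsPGroup p (S : Subgroup G) := S.isPGroup'
  have hF := Cfsg.Agent.Lib.Helper9_FusionGroup.group_saturated S
  have hscZ : (Cfsg.groupFusionSystem (S : Subgroup G)).StronglyClosed
      ((S : Subgroup G) ⊓ Subgroup.centralizer ((S : Subgroup G) : Set G)) := by
    refine ⟨inf_le_left, ?_⟩
    rintro R hR φ ⟨-, hφS, g, hg⟩ x
    have h1 := hφS x
    rw [hg] at h1 ⊢
    exact hZ.2 x (hR x.2) g h1
  have hscS : (Cfsg.groupFusionSystem (S : Subgroup G)).StronglyClosed (S : Subgroup G) :=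
    ⟨le_rfl, fun R _ φ hφ x => ((Cfsg.groupFusionSystem (S : Subgroup G)).le_of_mem hφ).2 x⟩
  have hnor : (Cfsg.groupFusionSystem (S : Subgroup G)).IsNormal (S : Subgroup G) := by
    rw [Cfsg.Agent.Lib.Helper9_AlperinCor.isNormal_iff_chain p hS _ hF]
    refine ⟨2, ![⊥, (S : Subgroup G) ⊓ Subgroup.centralizer ((S : Subgroup G) : Set G),
      (S : Subgroup G)], rfl, rfl, ?_, ?_⟩
    · intro i j hij
      fin_cases i <;> fin_cases j <;> simp at hij ⊢
    · intro i
      fin_cases i
      · refine ⟨hscZ, ?_⟩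
        show ⁅(S : Subgroup G), (S : Subgroup G) ⊓ Subgroup.centralizer ((S : Subgroup G) : Set G)⁆ ≤ ⊥
        rw [Subgroup.commutator_le]
        intro a ha b hb
        rw [Subgroup.mem_bot, commutatorElement_eq_one_iff_mul_comm]
        exact (Subgroup.mem_centralizer_iff.1 hb.2) a ha
      · exact ⟨hscS, hcl⟩
  refine ⟨?_, le_antisymm (sSup_le fun Q hQ => hQ.1) (le_sSup hnor)⟩
  intro P φ hφ
  have hPS := ((Cfsg.groupFusionSystem (S : Subgroup G)).le_of_mem hφ).1
  obtain ⟨α, hα, hαx⟩ := (Cfsg.Agent.Lib.Helper9_AlperinCor.isNormal_iff_restrict_aut p hS _ hF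
    (S : Subgroup G) le_rfl).1 hnor P hPS φ hφ
  obtain ⟨-, -, g, hg⟩ := (Cfsg.Agent.Lib.Helper9_FusionBasic.mem_autGroup_iff _ le_rfl α).1 hα
  have hg' : ∀ x : (S : Subgroup G), ((α x : (S : Subgroup G)) : G) = g * x * g⁻¹ := hg
  refine ⟨g, Cfsg.Agent.Lib.Helper9_GroupNormal.mem_normalizer_of_finite (fun x hx => ?_), fun x => ?_⟩
  · rw [← hg' ⟨x, hx⟩]
    exact (α _).2
  · rw [← hαx, hg']
    rfl

end Cfsg.Agent.S5107
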