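import Cfsg.Statements.S5345
import Cfsg.Agent.Lib.Helper9_TT

set_option autoImplicit false
open Cfsg

namespace Cfsg.Agent.S5345

/-- Let D be a conjugation-invariant generating set of 3-transpositions of a finite group G and T a Sylow 2-subgroup of G. Then the members of D lying in T generate an abelian subgroup, and their number is the width of D (the largest number of pairwise commuting members of D). -/
theorem result {G : Type*} [Group G] [Finite G] {D : Set G} (hD : Cfsg.IsThreeTranspositionGroup D) (T : Sylow 2 G) : IsMulCommutative (Subgroup.closure {d : G | d ∈ D ∧ d ∈ T}) ∧ {d : G | d ∈ D ∧ d ∈ T}.ncard = Cfsg.commutingWidth D := by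
  have hT := hD.1
  have hcomm : ∀ a ∈ {d : G | d ∈ D ∧ d ∈ T}, ∀ b ∈ {d : G | d ∈ D ∧ d ∈ T}, Commute a b := by
    rintro a ⟨ha, haT⟩ b ⟨hb, hbT⟩
    exact Cfsg.Agent.Lib.Helper9_TT.commute_of_mem_two_group hT T.2 ha hb haT hbT
  refine ⟨Subgroup.isMulCommutative_closure (fun x hx y hy => hcomm x hx y hy), ?_⟩
  unfold Cfsg.commutingWidth
  have hbdd : BddAbove {n : ℕ | ∃ E : Set G, E ⊆ D ∧ E.Finite ∧ (∀ a ∈ E, ∀ b ∈ E, Commute a b) ∧ E.ncard = n} := by
    refine ⟨Nat.card G, ?_⟩
    rintro n ⟨E, -, -, -, rfl⟩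
    rw [← Set.ncard_univ]
    exact Set.ncard_le_ncard (Set.subset_univ _) (Set.toFinite _)
  apply le_antisymm
  · apply le_csSup hbdd
    exact ⟨_, fun x hx => hx.1, Set.toFinite _, hcomm, rfl⟩
  · apply csSup_le
    · exact ⟨_, _, fun x hx => hx.1, Set.toFinite _, hcomm, rfl⟩
    · rintro n ⟨E, hED, -, hEc, rfl⟩
      have hP := Cfsg.Agent.Lib.Helper9_TT.isPGroup_closure_of_commuting
        (fun a ha => Cfsg.Agent.Lib.Helper9_TT.mul_self hT (hED ha)) hEc
      obtain ⟨Q, hQ⟩ := hP.exists_le_sylow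
      obtain ⟨g, hg⟩ := MulAction.exists_smul_eq G Q T
      have hsub : (fun x => g * x * g⁻¹) '' E ⊆ {d : G | d ∈ D ∧ d ∈ T} := by
        rintro _ ⟨x, hx, rfl⟩
        refine ⟨hD.2.1 g x (hED hx), ?_⟩
        rw [← hg]
        have : x ∈ (Q : Subgroup G) := hQ (Subgroup.subset_closure hx)
        rw [Sylow.smul_def]
        exact ⟨x, this, rfl⟩
      have hinj : Set.InjOn (fun x => g * x * g⁻¹) E := by
        intro x _ y _ hxy
        simpa using hxy
      rw [← Set.ncard_image_of_injOn hinj]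
      exact Set.ncard_le_ncard hsub (Set.toFinite _)

end Cfsg.Agent.S5345
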