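import Cfsg.Statements.S5346
import Cfsg.Agent.S5345
import Cfsg.Agent.S1224
import Cfsg.Agent.Lib.Helper7_ZStar
import Cfsg.Agent.Lib.Helper1_CoprimeSylow
import Cfsg.Agent.Lib.Helper4_Core
import Cfsg.Agent.Lib.Helper7_Transfer

set_option autoImplicit false
open Cfsg

namespace Cfsg.Agent.S5346

open Cfsg.Agent.Lib.Helper9_TT Cfsg.Agent.Lib.Helper1_CoprimeSylow
open Cfsg.Agent.Lib.Helper7_Transfer

theorem not_dvd_relIndex {G : Type*} [Group G] [Finite G] {p : ℕ} [Fact p.Prime]
    {K Q : Subgroup G} (hQ : Q ∈ sylSet p K) : ¬ p ∣ Q.relIndex K := by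
  intro h
  have h1 : Nat.card Q * Q.relIndex K = Nat.card K := by
    rw [← Subgroup.relIndex_bot_left, ← Subgroup.relIndex_bot_left]
    exact Subgroup.relIndex_mul_relIndex _ _ _ bot_le hQ.1
  rw [hQ.2] at h1
  apply Nat.pow_succ_factorization_not_dvd (Nat.card_pos (α := K)).ne' (Fact.out : p.Prime)
  conv_rhs => rw [← h1]
  rw [pow_succ]
  exact mul_dvd_mul_left _ h

theorem forward {G : Type*} [Group G] [Finite G] {D : Set G}
    (hD : Cfsg.IsThreeTranspositionGroup D) {d : G} (hd : d ∈ D)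
    (hnc : ∀ a ∈ D, ∀ b ∈ D, Commute a b → a = b) :
    Subgroup.zpowers d ⊔ Cfsg.pCore 3 G = ⊤ := by
  classical
  have hT := hD.1
  have hdd : d * d = 1 := mul_self hT hd
  have hdi : d⁻¹ = d := inv_eq hT hd
  have hiso : Cfsg.IsIsolatedInvolution d :=
    ⟨hT.1 d hd, fun g hg => (hnc d hd _ (hD.2.1 g d hd) hg).symm⟩
  set K := Cfsg.pPrimeCore 2 G with hK
  have hKn : K.Normal := Cfsg.pPrimeCore_normal 2 G
  have hKodd : (Nat.card K).Coprime 2 := Cfsg.Agent.Lib.Helper4_Core.pPrimeCore_coprime 2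
  have hz : ∀ g, d * g * d⁻¹ * g⁻¹ ∈ K := fun g => Cfsg.Agent.Lib.Helper7_ZStar.zstar hiso g
  -- every member of D is K-conjugate to d
  have hDK : ∀ e ∈ D, ∃ k ∈ K, e = k * d * k⁻¹ := by
    intro e he
    by_cases hc : Commute d e
    · exact ⟨1, K.one_mem, by rw [← hnc d hd e he hc]; simp⟩
    · have hb := braid hT hd he hc
      have hee := mul_self hT he
      have hei := inv_eq hT he
      have h3 := cube_of_not_commute hT hd he hc
      refine ⟨d * e, ?_, ?_⟩
      · have h1 := hz e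
        rw [hdi, hei] at h1
        have h2 : d * e = (d * e * d * e)⁻¹ := by
          rw [eq_inv_iff_mul_eq_one]
          rw [← h3]; simp only [pow_succ, pow_zero, one_mul, mul_assoc]
        rw [h2]
        exact K.inv_mem h1
      · rw [mul_inv_rev, hdi, hei]
        calc e = d * (d * e * d) * d := by
              rw [show d * (d * e * d) * d = (d * d) * e * (d * d) by group, hdd]; simp
          _ = d * (e * d * e) * d := by rw [hb]
          _ = d * e * d * (e * d) := by group
  set A := Subgroup.zpowers d with hA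
  have hAK : A ≤ Subgroup.normalizer (K : Set G) := by
    rw [Subgroup.normalizer_eq_top]; exact le_top
  have hcardA : Nat.card A = 2 := by rw [hA, Nat.card_zpowers, hT.1 d hd]
  have hcop : (Nat.card A).Coprime (Nat.card K) := by rw [hcardA]; exact hKodd.symm
  have hsolv : Group.IsSolvable A ∨ Group.IsSolvable K := Or.inl inferInstance
  set C := Subgroup.centralizer ({d} : Set G) with hC
  have hQC : ∀ p : ℕ, p.Prime → p ≠ 3 → ∀ Q ∈ sylSet p K, A ≤ Subgroup.normalizer (Q : Set G) →
      Q ≤ C := by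
    intro p hp hp3 Q hQ hAQ x hx
    haveI : Fact p.Prime := ⟨hp⟩
    have hdQ : d ∈ Subgroup.normalizer (Q : Set G) := hAQ (Subgroup.mem_zpowers d)
    have h1 : d * x * d⁻¹ ∈ Q := (Subgroup.mem_normalizer_iff.mp hdQ x).mp hx
    set c := d * x * d⁻¹ * x⁻¹ with hc
    have hcQ : c ∈ Q := Q.mul_mem h1 (Q.inv_mem hx)
    have hce : c = d * (x * d * x⁻¹) := by rw [hc, hdi]; group
    have hc1 : c = 1 := by
      rcases hT.2 d hd _ (hD.2.1 x d hd) with h2 | h3
      · rw [← hce] at h2
        have h4 : c ^ (Nat.card K) = 1 := by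
          have h5 := pow_card_eq_one' (x := (⟨c, hQ.1 hcQ⟩ : K))
          have h6 := congrArg Subtype.val h5
          rwa [Subgroup.coe_pow, Subgroup.coe_one] at h6
        exact eq_one_of_pow_coprime hKodd h4 h2
      · rw [← hce] at h3
        obtain ⟨k, hk⟩ := (isPGroup_of_mem_sylSet hQ) ⟨c, hcQ⟩
        have h4 : c ^ (p ^ k) = 1 := by simpa using congrArg Subtype.val hk
        exact eq_one_of_pow_coprime
          (Nat.Coprime.pow_left k ((Nat.coprime_primes hp Nat.prime_three).mpr hp3)) h4 h3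
    rw [hC, Subgroup.mem_centralizer_singleton_iff]
    have h5 : d * x * d⁻¹ = x := by
      rw [hc] at hc1
      exact mul_inv_eq_one.mp hc1
    calc x * d = (d * x * d⁻¹) * d := by rw [h5]
      _ = d * x := by group
  haveI : Fact (Nat.Prime 3) := ⟨Nat.prime_three⟩
  obtain ⟨T, hTs, hAT⟩ := exists_invariant_sylow hAK hcop hsolv 3
  have hdT : d ∈ Subgroup.normalizer (T : Set G) := hAT (Subgroup.mem_zpowers d)
  -- arithmetic
  have hcopr : Nat.Coprime (C.relIndex K) (T.relIndex K) := by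
    apply Nat.coprime_of_dvd
    intro p hp h1 h2
    haveI : Fact p.Prime := ⟨hp⟩
    by_cases hp3 : p = 3
    · subst hp3
      exact not_dvd_relIndex hTs h2
    · obtain ⟨Q, hQ, hAQ⟩ := exists_invariant_sylow hAK hcop hsolv p
      apply not_dvd_relIndex hQ
      exact h1.trans (Subgroup.relIndex_dvd_of_le_left K (hQC p hp hp3 Q hQ hAQ))
  have hdvd : C.relIndex K ∣ C.relIndex T := by
    have e1 : (C ⊓ T).relIndex T * T.relIndex K = (C ⊓ T).relIndex K :=
      Subgroup.relIndex_mul_relIndex _ _ _ inf_le_right hTs.1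
    have e2 : (C ⊓ T).relIndex (C ⊓ K) * (C ⊓ K).relIndex K = (C ⊓ T).relIndex K :=
      Subgroup.relIndex_mul_relIndex _ _ _ (inf_le_inf_left C hTs.1) inf_le_right
    rw [Subgroup.inf_relIndex_right] at e1 e2
    apply hcopr.dvd_of_dvd_mul_right
    rw [e1, ← e2]
    exact Dvd.intro_left _ rfl
  have hsets : {x : G | ∃ k ∈ T, x = k * d * k⁻¹} = {x : G | ∃ k ∈ K, x = k * d * k⁻¹} := by
    apply Set.eq_of_subset_of_ncard_le
    · rintro x ⟨k, hk, rfl⟩
      exact ⟨k, hTs.1 hk, rfl⟩
    · rw [← Nat.card_coe_set_eq, ← Nat.card_coe_set_eq]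
      have c1 := Cfsg.Agent.S1224.card_class K d
      have c2 := Cfsg.Agent.S1224.card_class T d
      have c1' : Nat.card ↥{x : G | ∃ k ∈ K, x = k * d * k⁻¹} = C.relIndex K := c1
      have c2' : Nat.card ↥{x : G | ∃ k ∈ T, x = k * d * k⁻¹} = C.relIndex T := c2
      rw [c1', c2']
      apply Nat.le_of_dvd _ hdvd
      rw [← c2']
      haveI : Nonempty ↥{x : G | ∃ k ∈ T, x = k * d * k⁻¹} := ⟨⟨d, 1, T.one_mem, by simp⟩⟩
      exact Nat.card_pos
    · exact Set.toFinite _
  have hDT : D ⊆ ((T ⊔ A : Subgroup G) : Set G) := by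
    intro e he
    have h1 : e ∈ {x : G | ∃ k ∈ T, x = k * d * k⁻¹} := by
      rw [hsets]; exact hDK e he
    obtain ⟨t, ht, rfl⟩ := h1
    exact Subgroup.mul_mem _ (Subgroup.mul_mem _ (Subgroup.mem_sup_left ht)
      (Subgroup.mem_sup_right (Subgroup.mem_zpowers d))) (Subgroup.inv_mem _ (Subgroup.mem_sup_left ht))
  have htop : T ⊔ A = ⊤ := by
    rw [eq_top_iff, ← hD.2.2, Subgroup.closure_le]
    exact hDT
  have hTn : T.Normal := by
    rw [← Subgroup.normalizer_eq_top_iff, eq_top_iff, ← htop, sup_le_iff]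
    exact ⟨Subgroup.le_normalizer, hAT⟩
  have hTle : T ≤ Cfsg.pCore 3 G :=
    Cfsg.Agent.Lib.Helper4_Core.le_pCore hTn (isPGroup_of_mem_sylSet hTs)
  rw [eq_top_iff, ← htop, sup_comm]
  exact sup_le_sup_left hTle _

/-- Let D be a conjugation-invariant generating set of 3-transpositions of a finite group G and d a member of D. Then D has width 1 (no two different members of D commute) if and only if G is the product of the subgroup generated by d with the largest normal 3-subgroup of G. -/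
theorem result {G : Type*} [Group G] [Finite G] {D : Set G} (hD : Cfsg.IsThreeTranspositionGroup D) {d : G} (hd : d ∈ D) : Cfsg.commutingWidth D = 1 ↔ Subgroup.zpowers d ⊔ Cfsg.pCore 3 G = ⊤ := by
  classical
  have hT := hD.1
  haveI : Fact (Nat.Prime 2) := ⟨Nat.prime_two⟩
  constructor
  · intro hw
    apply forward hD hd
    intro a ha b hb hab
    have hE : ∀ x ∈ ({a, b} : Set G), x * x = 1 := by
      intro x hx
      rcases hx with rfl | rfl
      · exact mul_self hT ha
      · exact mul_self hT hb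
    have hEc : ∀ x ∈ ({a, b} : Set G), ∀ y ∈ ({a, b} : Set G), Commute x y := by
      intro x hx y hy
      rcases hx with rfl | rfl <;> rcases hy with rfl | rfl
      · exact Commute.refl _
      · exact hab
      · exact hab.symm
      · exact Commute.refl _
    have hP := isPGroup_closure_of_commuting hE hEc
    obtain ⟨S, hS⟩ := hP.exists_le_sylow
    have h1 := (Cfsg.Agent.S5345.result hD S).2
    rw [hw, Set.ncard_eq_one] at h1
    obtain ⟨x, hx⟩ := h1
    have ha' : a ∈ {d : G | d ∈ D ∧ d ∈ S} := ⟨ha, hS (Subgroup.subset_closure (by simp))⟩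
    have hb' : b ∈ {d : G | d ∈ D ∧ d ∈ S} := ⟨hb, hS (Subgroup.subset_closure (by simp))⟩
    rw [hx, Set.mem_singleton_iff] at ha' hb'
    rw [ha', hb']
  · intro htop
    have hP : IsPGroup 2 (Subgroup.zpowers d) :=
      Cfsg.Agent.Lib.Helper4_Syl.isPGroup_zpowers (hT.1 d hd)
    obtain ⟨S, hS⟩ := hP.exists_le_sylow
    rw [← (Cfsg.Agent.S5345.result hD S).2, Set.ncard_eq_one]
    refine ⟨d, ?_⟩
    ext e
    simp only [Set.mem_setOf_eq, Set.mem_singleton_iff]
    constructor
    · rintro ⟨he, heS⟩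
      have h1 : e ∈ ((Subgroup.zpowers d ⊔ Cfsg.pCore 3 G : Subgroup G) : Set G) := by
        rw [htop]; trivial
      rw [Subgroup.mul_normal] at h1
      obtain ⟨x, hx, w, hw, hxw⟩ := h1
      have hxw' : x * w = e := hxw
      have hwS : w ∈ (S : Subgroup G) := by
        have : w = x⁻¹ * e := by rw [← hxw']; group
        rw [this]
        exact Subgroup.mul_mem _ (Subgroup.inv_mem _ (hS hx)) heS
      have hw1 : w = 1 := by
        obtain ⟨k, hk⟩ := S.isPGroup' ⟨w, hwS⟩
        obtain ⟨j, hj⟩ := (Cfsg.Agent.Lib.Helper4_Core.pCore_isPGroup 3 G) ⟨w, hw⟩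
        have hk' : w ^ 2 ^ k = 1 := by simpa using congrArg Subtype.val hk
        have hj' : w ^ 3 ^ j = 1 := by simpa using congrArg Subtype.val hj
        exact eq_one_of_pow_coprime (Nat.Coprime.pow k j (by norm_num)) hk' hj'
      rw [hw1, mul_one] at hxw'
      rw [← hxw']
      obtain ⟨n, rfl⟩ := Subgroup.mem_zpowers_iff.mp hx
      have hdd := mul_self hT hd
      rcases Int.even_or_odd' n with ⟨k, rfl | rfl⟩
      · exfalso
        apply ne_one hT he
        rw [← hxw', zpow_mul, zpow_two, hdd, one_zpow]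
      · rw [zpow_add, zpow_mul, zpow_two, hdd, one_zpow, one_mul, zpow_one]
    · rintro rfl
      exact ⟨hd, hS (Subgroup.mem_zpowers _)⟩

end Cfsg.Agent.S5346
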