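import Cfsg.Statements.S5347
import Cfsg.Agent.Lib.Helper9_TT

set_option autoImplicit false
open Cfsg

namespace Cfsg.Agent.S5347

/-- Let D be a conjugation-invariant generating set of 3-transpositions of a finite group G, p a prime bigger than 3, and P a p-subgroup of G. If a member d of D normalizes P then d centralizes P. -/
theorem result {G : Type*} [Group G] [Finite G] {D : Set G} (hD : Cfsg.IsThreeTranspositionGroup D) {p : ℕ} (hp : p.Prime) (hp3 : 3 < p) (P : Subgroup G) (hP : IsPGroup p P) {d : G} (hd : d ∈ D) (hnorm : d ∈ Subgroup.normalizer (P : Set G)) : ∀ x ∈ P, Commute d x := by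
  intro x hx
  have hT := hD.1
  have hdinv := Cfsg.Agent.Lib.Helper9_TT.inv_eq hT hd
  have h1 : x * d * x⁻¹ ∈ D := hD.2.1 x d hd
  have h2 : d * x * d⁻¹ ∈ P := (Subgroup.mem_normalizer_iff.1 hnorm x).1 hx
  have h3 : d * (x * d * x⁻¹) ∈ P := by
    have : d * (x * d * x⁻¹) = (d * x * d⁻¹) * x⁻¹ := by rw [hdinv]; group
    rw [this]
    exact P.mul_mem h2 (P.inv_mem hx)
  obtain ⟨k, hk⟩ := hP ⟨_, h3⟩
  have hk' : (d * (x * d * x⁻¹)) ^ (p ^ k) = 1 := by
    have := congrArg (fun t : P => (t : G)) hk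
    simpa using this
  have h4 := Cfsg.Agent.Lib.Helper9_TT.eq_one_of_pgroup hT hp hp3 hd h1 hk'
  -- d x d x⁻¹ = 1
  have h5 : d * x * d = x := by
    have : d * x * d * x⁻¹ = 1 := by rw [← h4]; group
    exact mul_inv_eq_one.1 this
  show d * x = x * d
  calc d * x = d * x * (d * d) := by rw [Cfsg.Agent.Lib.Helper9_TT.mul_self hT hd, mul_one]
    _ = (d * x * d) * d := by group
    _ = x * d := by rw [h5]

end Cfsg.Agent.S5347
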