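import Cfsg.Statements.S5349
import Cfsg.Agent.Lib.Helper9_TT
import Cfsg.Agent.Lib.Helper1_CoprimeSylow
import Cfsg.Agent.Lib.Helper4_Core

set_option autoImplicit false
open Cfsg

namespace Cfsg.Agent.S5349

open Cfsg.Agent.Lib.Helper9_TT Cfsg.Agent.Lib.Helper1_CoprimeSylow

variable {G : Type*} [Group G]

def Rel (D : Set G) (a b : G) : Prop := ∀ e ∈ D, Commute a e ↔ Commute b e

theorem Rel.symm {D : Set G} {a b : G} (h : Rel D a b) : Rel D b a := fun e he => (h e he).symm

theorem Rel.trans {D : Set G} {a b c : G} (h : Rel D a b) (h' : Rel D b c) : Rel D a c :=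
  fun e he => (h e he).trans (h' e he)

theorem Rel.refl (D : Set G) (a : G) : Rel D a a := fun _ _ => Iff.rfl

theorem Rel.conj {D : Set G} (hc : ∀ g : G, ∀ d ∈ D, g * d * g⁻¹ ∈ D) {a b : G} (h : Rel D a b)
    (g : G) : Rel D (g * a * g⁻¹) (g * b * g⁻¹) := by
  intro e he
  have he' : g⁻¹ * e * g ∈ D := by
    have := hc g⁻¹ e he
    rwa [inv_inv] at this
  have e1 : e = g * (g⁻¹ * e * g) * g⁻¹ := by group
  rw [e1, Commute.conj_iff, Commute.conj_iff]
  exact h _ he'

theorem Rel.comm {D : Set G} {a b : G} (ha : a ∈ D) (h : Rel D a b) : Commute a b :=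
  ((h a ha).mp (Commute.refl a)).symm

section
variable [Finite G] {D : Set G} (hT : Cfsg.IsThreeTranspositionSet D)
  (hc : ∀ g : G, ∀ d ∈ D, g * d * g⁻¹ ∈ D)

include hT hc in
theorem key {a b e : G} (ha : a ∈ D) (hb : b ∈ D) (hab : Rel D a b) (he : e ∈ D) :
    Rel D ((a * b) * e * (a * b)⁻¹) e := by
  have hai := inv_eq hT ha
  have hbi := inv_eq hT hb
  have hei := inv_eq hT he
  by_cases h : Commute a e
  · have h' : Commute b e := (hab e he).mp h
    have : (a * b) * e * (a * b)⁻¹ = e := by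
      rw [mul_inv_eq_iff_eq_mul]
      exact (h.mul_left h').eq
    rw [this]
    exact Rel.refl D e
  · have h' : ¬ Commute b e := fun hh => h ((hab e he).mpr hh)
    have b1 := braid hT ha he h
    have b2 := braid hT hb he h'
    have R1 := hab.conj hc e
    rw [hei, ← b1, ← b2] at R1
    have R2 := R1.conj hc a
    rw [hai] at R2
    have e1 : a * (a * e * a) * a = e := by
      calc a * (a * e * a) * a = (a * a) * e * (a * a) := by group
        _ = e := by rw [mul_self hT ha]; group
    have e2 : a * (b * e * b) * a = (a * b) * e * (a * b)⁻¹ := by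
      rw [mul_inv_rev, hai, hbi]; group
    rw [e1, e2] at R2
    exact R2.symm

include hT hc in
theorem prod_mem_pCore {a b : G} (ha : a ∈ D) (hb : b ∈ D) (hab : Rel D a b) :
    ∀ g : G, g * (a * b) * g⁻¹ ∈ Cfsg.pCore 2 G := by
  haveI : Fact (Nat.Prime 2) := ⟨Nat.prime_two⟩
  set S : Set G := {x | ∃ a ∈ D, ∃ b ∈ D, Rel D a b ∧ x = a * b} with hS
  set M := Subgroup.closure S with hM
  have hMn : M.Normal := by
    apply Cfsg.Agent.Lib.Helper4_Syl.closure_normal
    rintro x ⟨a, ha, b, hb, hab, rfl⟩ g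
    exact ⟨g * a * g⁻¹, hc g a ha, g * b * g⁻¹, hc g b hb, hab.conj hc g, by group⟩
  obtain ⟨Q, hQ⟩ := sylSet_nonempty 2 M
  have hle : M ≤ Q := by
    rw [hM, Subgroup.closure_le]
    rintro x ⟨a, ha, b, hb, hab, rfl⟩
    set E : Set G := {x | ∃ b ∈ D, ∃ c ∈ D, Rel D b a ∧ Rel D c a ∧ x = b * c} with hE
    have hcomm : ∀ b ∈ D, ∀ c ∈ D, Rel D b a → Rel D c a → Commute b c :=
      fun b hb c _ h1 h2 => Rel.comm hb (h1.trans h2.symm)
    have hP : IsPGroup 2 (Subgroup.closure E) := by
      apply isPGroup_closure_of_commuting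
      · rintro x ⟨b, hb, c, hcD, h1, h2, rfl⟩
        have := (hcomm b hb c hcD h1 h2).eq
        calc b * c * (b * c) = b * (c * b) * c := by group
          _ = b * (b * c) * c := by rw [this]
          _ = (b * b) * (c * c) := by group
          _ = 1 := by rw [mul_self hT hb, mul_self hT hcD, one_mul]
      · rintro x ⟨b, hb, c, hcD, h1, h2, rfl⟩ y ⟨b', hb', c', hcD', h1', h2', rfl⟩
        exact ((hcomm b hb b' hb' h1 h1').mul_right (hcomm b hb c' hcD' h1 h2')).mul_left
          ((hcomm c hcD b' hb' h2 h1').mul_right (hcomm c hcD c' hcD' h2 h2'))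
    have hEM : Subgroup.closure E ≤ M := by
      rw [Subgroup.closure_le]
      rintro x ⟨b, hb, c, hcD, h1, h2, rfl⟩
      exact Subgroup.subset_closure ⟨b, hb, c, hcD, h1.trans h2.symm, rfl⟩
    have hnorm : M ≤ Subgroup.normalizer ((Subgroup.closure E : Subgroup G) : Set G) := by
      rw [hM, Subgroup.closure_le]
      rintro t ⟨a', ha', b', hb', hab', rfl⟩
      apply Subgroup.mem_normalizer_fintype
      have h3 : Subgroup.closure E ≤
          (Subgroup.closure E).comap (MulAut.conj (a' * b')).toMonoidHom := by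
        rw [Subgroup.closure_le]
        rintro x ⟨b, hb, c, hcD, h1, h2, rfl⟩
        apply Subgroup.subset_closure
        refine ⟨(a' * b') * b * (a' * b')⁻¹, hc _ b hb, (a' * b') * c * (a' * b')⁻¹, hc _ c hcD,
          (key hT hc ha' hb' hab' hb).trans h1, (key hT hc ha' hb' hab' hcD).trans h2, ?_⟩
        simp only [MulEquiv.toMonoidHom_eq_coe, MonoidHom.coe_coe, MulAut.conj_apply]
        group
      intro n hn
      exact h3 hn
    have h4 := le_of_mem_sylSet_of_le_normalizer hEM hP hnorm hQ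
    exact h4 (Subgroup.subset_closure ⟨a, ha, b, hb, Rel.refl D a, hab.symm, rfl⟩)
  have hMP : IsPGroup 2 M := (isPGroup_of_mem_sylSet hQ).to_le hle
  have hMO : M ≤ Cfsg.pCore 2 G := Cfsg.Agent.Lib.Helper4_Core.le_pCore hMn hMP
  intro g
  exact hMO (hMn.conj_mem _ (Subgroup.subset_closure ⟨a, ha, b, hb, hab, rfl⟩) g)

include hT in
theorem commute_of_coset {x y e : G} (hy : y ∈ D) (he : e ∈ D) (hx : x ∈ D)
    (hxy : x⁻¹ * y ∈ Cfsg.pCore 2 G) (h : Commute x e) : Commute y e := by
  haveI : Fact (Nat.Prime 2) := ⟨Nat.prime_two⟩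
  have hE : ∀ u ∈ ({x, e} : Set G), u * u = 1 := by
    intro u hu
    rcases hu with rfl | rfl
    · exact mul_self hT hx
    · exact mul_self hT he
  have hEc : ∀ u ∈ ({x, e} : Set G), ∀ v ∈ ({x, e} : Set G), Commute u v := by
    intro u hu v hv
    rcases hu with rfl | rfl <;> rcases hv with rfl | rfl
    · exact Commute.refl _
    · exact h
    · exact h.symm
    · exact Commute.refl _
  have hP := isPGroup_closure_of_commuting hE hEc
  have hP2 : IsPGroup 2 (Subgroup.closure ({x, e} : Set G) ⊔ Cfsg.pCore 2 G : Subgroup G) :=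
    hP.to_sup_of_normal_right (Cfsg.Agent.Lib.Helper4_Core.pCore_isPGroup 2 G)
  apply commute_of_mem_two_group hT hP2 hy he
  · have : y = x * (x⁻¹ * y) := by group
    rw [this]
    exact Subgroup.mul_mem _ (Subgroup.mem_sup_left (Subgroup.subset_closure (by simp)))
      (Subgroup.mem_sup_right hxy)
  · exact Subgroup.mem_sup_left (Subgroup.subset_closure (by simp))

end

/-- Let D be a conjugacy class of 3-transpositions generating the finite group G, with at least two members, and d a member of D. Then the set of members of D commuting with exactly the same members of D as d coincides with the set of members of D lying in the coset of d modulo the largest normal 2-subgroup of G, and also with the orbit of d under conjugation by that normal 2-subgroup. -/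
theorem result {G : Type*} [Group G] [Finite G] {D : Set G} (hD : Cfsg.IsThreeTranspositionClass D) (hD2 : ∃ a ∈ D, ∃ b ∈ D, a ≠ b) {d : G} (hd : d ∈ D) : {v : G | v ∈ D ∧ ∀ e ∈ D, Commute v e ↔ Commute d e} = {v : G | v ∈ D ∧ d⁻¹ * v ∈ Cfsg.pCore 2 G} ∧ {v : G | v ∈ D ∧ ∀ e ∈ D, Commute v e ↔ Commute d e} = {v : G | ∃ g ∈ Cfsg.pCore 2 G, v = g * d * g⁻¹} := by
  obtain ⟨hT, ⟨d₀, hd₀, hDc⟩, hgen⟩ := hD
  have hmem : ∀ x, x ∈ D ↔ IsConj d₀ x := by
    intro x; rw [hDc]; exact Iff.rfl
  have hc : ∀ g : G, ∀ d ∈ D, g * d * g⁻¹ ∈ D := by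
    intro g x hx
    rw [hmem] at hx ⊢
    exact hx.trans (isConj_iff.mpr ⟨g, rfl⟩)
  have hdi := inv_eq hT hd
  have hdd := mul_self hT hd
  have hn : (Cfsg.pCore 2 G).Normal := Cfsg.pCore_normal 2 G
  -- some member does not commute with d
  have hex : ∃ a ∈ D, ¬ Commute d a := by
    by_contra hcon
    push Not at hcon
    have hcen : ∀ g : G, g * d = d * g := by
      intro g
      have hg : g ∈ Subgroup.closure D := by rw [hgen]; exact Subgroup.mem_top g
      have hle : Subgroup.closure D ≤ Subgroup.centralizer ({d} : Set G) := by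
        rw [Subgroup.closure_le]
        intro x hx
        rw [SetLike.mem_coe, Subgroup.mem_centralizer_singleton_iff]
        exact (hcon x hx).eq.symm
      have := hle hg
      rwa [Subgroup.mem_centralizer_singleton_iff] at this
    have hall : ∀ x ∈ D, x = d := by
      intro x hx
      have h1 : IsConj d x := ((hmem d).mp hd).symm.trans ((hmem x).mp hx)
      obtain ⟨g, hg⟩ := isConj_iff.mp h1
      rw [← hg, hcen g]; group
    obtain ⟨a, ha, b, hb, hab⟩ := hD2
    exact hab ((hall a ha).trans (hall b hb).symm)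
  have hAC : {v : G | v ∈ D ∧ ∀ e ∈ D, Commute v e ↔ Commute d e} ⊆
      {v : G | ∃ g ∈ Cfsg.pCore 2 G, v = g * d * g⁻¹} := by
    rintro v ⟨hv, hvd⟩
    have hrel : Rel D d v := fun e he => (hvd e he).symm
    obtain ⟨a, ha, hda⟩ := hex
    have hva : ¬ Commute v a := fun h => hda ((hvd a ha).mp h)
    have hai := inv_eq hT ha
    have hvi := inv_eq hT hv
    have hdv : d * v = v * d := (Rel.comm hd hrel).eq
    refine ⟨a * (d * v) * a⁻¹, prod_mem_pCore hT hc hd hv hrel a, ?_⟩
    have b1 : a * d * a = d * a * d := (braid hT hd ha hda).symm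
    have b2 : v * a * v = a * v * a := braid hT hv ha hva
    have dvd : d * v * d = v := by rw [hdv, mul_assoc, hdd, mul_one]
    simp only [mul_inv_rev, hai, hdi, hvi, inv_inv]
    symm
    calc a * (d * v) * a * d * (a * (v * d * a)) = a * d * v * (a * d * a) * v * d * a := by group
      _ = a * d * v * (d * a * d) * v * d * a := by rw [b1]
      _ = a * (d * v * d) * a * (d * v * d) * a := by group
      _ = a * (v * a * v) * a := by rw [dvd]; group
      _ = a * (a * v * a) * a := by rw [b2]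
      _ = (a * a) * v * (a * a) := by group
      _ = v := by rw [mul_self hT ha]; group
  have hCB : {v : G | ∃ g ∈ Cfsg.pCore 2 G, v = g * d * g⁻¹} ⊆
      {v : G | v ∈ D ∧ d⁻¹ * v ∈ Cfsg.pCore 2 G} := by
    rintro v ⟨g, hg, rfl⟩
    refine ⟨hc g d hd, ?_⟩
    have : d⁻¹ * (g * d * g⁻¹) = (d⁻¹ * g * d⁻¹⁻¹) * g⁻¹ := by group
    rw [this]
    exact Subgroup.mul_mem _ (hn.conj_mem g hg d⁻¹) (Subgroup.inv_mem _ hg)
  have hBA : {v : G | v ∈ D ∧ d⁻¹ * v ∈ Cfsg.pCore 2 G} ⊆
      {v : G | v ∈ D ∧ ∀ e ∈ D, Commute v e ↔ Commute d e} := by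
    rintro v ⟨hv, hvd⟩
    refine ⟨hv, fun e he => ⟨fun h => ?_, fun h => ?_⟩⟩
    · apply commute_of_coset hT hd he hv _ h
      have : v⁻¹ * d = (d⁻¹ * v)⁻¹ := by group
      rw [this]
      exact Subgroup.inv_mem _ hvd
    · exact commute_of_coset hT hv he hd hvd h
  exact ⟨Set.Subset.antisymm (hAC.trans hCB) hBA, Set.Subset.antisymm hAC (hCB.trans hBA)⟩

end Cfsg.Agent.S5349
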