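import Cfsg.Statements.S5350
import Cfsg.Agent.S5346
import Cfsg.Agent.Lib.Helper9_TT
import Cfsg.Agent.Lib.Helper1_CoprimeSylow
import Cfsg.Agent.Lib.Helper4_Core

set_option autoImplicit false
open Cfsg

namespace Cfsg.Agent.S5350

open Cfsg.Agent.Lib.Helper9_TT Cfsg.Agent.Lib.Helper1_CoprimeSylow
open Cfsg.Agent.Lib.Helper7_Transfer

variable {G : Type*} [Group G]

def Rel (D : Set G) (a b : G) : Prop :=
  ∀ y ∈ D, (y ≠ a ∧ Commute a y) ↔ (y ≠ b ∧ Commute b y)

theorem rel_iff {D : Set G} {a b : G} : Rel D a b ↔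
    {y : G | y ∈ D ∧ y ≠ a ∧ Commute a y} = {y : G | y ∈ D ∧ y ≠ b ∧ Commute b y} := by
  constructor
  · intro h
    ext y
    simp only [Set.mem_setOf_eq]
    constructor
    · rintro ⟨h1, h2⟩; exact ⟨h1, (h y h1).mp h2⟩
    · rintro ⟨h1, h2⟩; exact ⟨h1, (h y h1).mpr h2⟩
  · intro h y hy
    have := Set.ext_iff.mp h y
    simp only [Set.mem_setOf_eq] at this
    constructor
    · intro h2; exact (this.mp ⟨hy, h2⟩).2
    · intro h2; exact (this.mpr ⟨hy, h2⟩).2

theorem Rel.symm {D : Set G} {a b : G} (h : Rel D a b) : Rel D b a := fun e he => (h e he).symm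

theorem Rel.trans {D : Set G} {a b c : G} (h : Rel D a b) (h' : Rel D b c) : Rel D a c :=
  fun e he => (h e he).trans (h' e he)

theorem Rel.refl (D : Set G) (a : G) : Rel D a a := fun _ _ => Iff.rfl

theorem Rel.conj {D : Set G} (hc : ∀ g : G, ∀ d ∈ D, g * d * g⁻¹ ∈ D) {a b : G} (h : Rel D a b)
    (g : G) : Rel D (g * a * g⁻¹) (g * b * g⁻¹) := by
  intro e he
  have he' : g⁻¹ * e * g ∈ D := by
    have := hc g⁻¹ e he
    rwa [inv_inv] at this
  obtain ⟨e', he2, rfl⟩ : ∃ e' ∈ D, e = g * e' * g⁻¹ := ⟨g⁻¹ * e * g, he', by group⟩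
  rw [Commute.conj_iff, Commute.conj_iff]
  have n1 : ∀ c : G, (g * e' * g⁻¹ ≠ g * c * g⁻¹) ↔ (e' ≠ c) := by
    intro c
    rw [Ne, Ne, mul_left_inj, mul_right_inj]
  rw [n1, n1]
  exact h _ he2

theorem Rel.eq_of_commute {D : Set G} {a b : G} (hb : b ∈ D) (h : Rel D a b)
    (hab : Commute a b) : a = b := by
  by_contra hne
  exact ((h b hb).mp ⟨fun h' => hne h'.symm, hab⟩).1 rfl

theorem key0 {D : Set G} (hc : ∀ g : G, ∀ d ∈ D, g * d * g⁻¹ ∈ D) {a b : G} (hab : Rel D a b) :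
    Rel D ((a * b) * a * (a * b)⁻¹) a := by
  have R1 := hab.conj hc b
  rw [mul_inv_cancel_right] at R1
  have R2 := R1.conj hc a
  have R3 := hab.conj hc a
  rw [mul_inv_cancel_right] at R3
  have e : (a * b) * a * (a * b)⁻¹ = a * (b * a * b⁻¹) * a⁻¹ := by group
  rw [e]
  exact R2.trans R3.symm

theorem key1 {D : Set G} (hc : ∀ g : G, ∀ d ∈ D, g * d * g⁻¹ ∈ D) {a b e : G} (hab : Rel D a b)
    (hea : Rel D e a) : Rel D ((a * b) * e * (a * b)⁻¹) e :=
  ((hea.conj hc (a * b)).trans (key0 hc hab)).trans hea.symm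

section
variable [Finite G] {D : Set G} (hT : Cfsg.IsThreeTranspositionSet D)
  (hc : ∀ g : G, ∀ d ∈ D, g * d * g⁻¹ ∈ D)

include hT hc in
theorem key {a b e : G} (ha : a ∈ D) (hb : b ∈ D) (hab : Rel D a b) (he : e ∈ D) :
    Rel D ((a * b) * e * (a * b)⁻¹) e := by
  have hai := inv_eq hT ha
  have hbi := inv_eq hT hb
  have hei := inv_eq hT he
  by_cases h : Commute a e
  · by_cases h' : Commute b e
    · have : (a * b) * e * (a * b)⁻¹ = e := by
        rw [mul_inv_eq_iff_eq_mul]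
        exact (h.mul_left h').eq
      rw [this]
      exact Rel.refl D e
    · have hea : e = a := by
        by_contra hne
        exact h' ((hab e he).mp ⟨hne, h⟩).2
      exact key1 hc hab (by rw [hea]; exact Rel.refl D a)
  · by_cases h' : Commute b e
    · have heb : e = b := by
        by_contra hne
        exact h ((hab e he).mpr ⟨hne, h'⟩).2
      exact key1 hc hab (by rw [heb]; exact hab.symm)
    · have b1 := braid hT ha he h
      have b2 := braid hT hb he h'
      have R1 := hab.conj hc e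
      rw [hei, ← b1, ← b2] at R1
      have R2 := R1.conj hc a
      rw [hai] at R2
      have e1 : a * (a * e * a) * a = e := by
        calc a * (a * e * a) * a = (a * a) * e * (a * a) := by group
          _ = e := by rw [mul_self hT ha]; group
      have e2 : a * (b * e * b) * a = (a * b) * e * (a * b)⁻¹ := by
        rw [mul_inv_rev, hai, hbi]; group
      rw [e1, e2] at R2
      exact R2.symm

include hT hc in
theorem class_pgroup {a : G} (ha : a ∈ D) :
    IsPGroup 3 (Subgroup.closure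
      {x | ∃ b ∈ D, ∃ c ∈ D, Rel D b a ∧ Rel D c a ∧ x = b * c}) := by
  haveI : Fact (Nat.Prime 3) := ⟨Nat.prime_three⟩
  set W : Set G := {b | b ∈ D ∧ Rel D b a} with hW
  set H := Subgroup.closure W with hH
  set D' : Set H := {x | (x : G) ∈ W} with hD'
  have hPa : ∀ h ∈ H, Rel D (h * a * h⁻¹) a := by
    intro h hh
    induction hh using Subgroup.closure_induction with
    | mem b hb =>
      have R := (hb.2.symm).conj hc b
      rw [mul_inv_cancel_right] at R
      exact R.trans hb.2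
    | one => simpa using Rel.refl D a
    | mul x y _ _ hx hy =>
      have e : x * y * a * (x * y)⁻¹ = x * (y * a * y⁻¹) * x⁻¹ := by group
      rw [e]; exact (hy.conj hc x).trans hx
    | inv x _ hx =>
      have R := hx.conj hc x⁻¹
      have e : x⁻¹ * (x * a * x⁻¹) * x⁻¹⁻¹ = a := by group
      rw [e] at R
      exact R.symm
  have hWc : ∀ h ∈ H, ∀ c ∈ W, h * c * h⁻¹ ∈ W := fun h hh c hcW =>
    ⟨hc h c hcW.1, (hcW.2.conj hc h).trans (hPa h hh)⟩
  have hTG : Cfsg.IsThreeTranspositionGroup D' := by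
    refine ⟨⟨?_, ?_⟩, ?_, ?_⟩
    · intro x hx
      rw [← Subgroup.orderOf_coe]
      exact hT.1 _ hx.1
    · intro x hx y hy
      rcases hT.2 _ hx.1 _ hy.1 with h | h
      · left; apply Subtype.ext; simpa using h
      · right; apply Subtype.ext; simpa using h
    · intro g x hx
      exact hWc g g.2 x hx
    · exact Subgroup.closure_closure_coe_preimage
  have haW : a ∈ W := ⟨ha, Rel.refl D a⟩
  have haH : a ∈ H := Subgroup.subset_closure haW
  have hnc : ∀ x ∈ D', ∀ y ∈ D', Commute x y → x = y := by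
    intro x hx y hy hxy
    apply Subtype.ext
    apply Rel.eq_of_commute hy.1 (hx.2.trans hy.2.symm)
    have := congrArg Subtype.val hxy.eq
    exact this
  have htop := Cfsg.Agent.S5346.forward hTG (d := ⟨a, haH⟩) haW hnc
  set N := Cfsg.pCore 3 H with hN
  haveI hNn : N.Normal := Cfsg.pCore_normal 3 H
  have hidx : N.index ∣ 2 := by
    have h1 : N.relIndex (Subgroup.zpowers (⟨a, haH⟩ : H) ⊔ N)
        = N.relIndex (Subgroup.zpowers (⟨a, haH⟩ : H)) := Subgroup.relIndex_sup_right _ _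
    rw [htop, Subgroup.relIndex_top_right] at h1
    rw [h1]
    have h2 := Subgroup.relIndex_dvd_card N (Subgroup.zpowers (⟨a, haH⟩ : H))
    rwa [Nat.card_zpowers, hTG.1.1 _ haW] at h2
  have hNP : IsPGroup 3 (N.map H.subtype) :=
    (Cfsg.Agent.Lib.Helper4_Core.pCore_isPGroup 3 H).map _
  apply hNP.to_le
  rw [Subgroup.closure_le]
  rintro x ⟨b, hb, c, hcD, h1, h2, rfl⟩
  have hbH : b ∈ H := Subgroup.subset_closure ⟨hb, h1⟩
  have hcH : c ∈ H := Subgroup.subset_closure ⟨hcD, h2⟩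
  set u : H := ⟨b, hbH⟩ * ⟨c, hcH⟩ with hu
  have hu3 : u ^ 3 = 1 := by
    apply Subtype.ext
    show (b * c) ^ 3 = 1
    by_cases hbc : Commute b c
    · have := Rel.eq_of_commute hcD (h1.trans h2.symm) hbc
      rw [this, mul_self hT hcD, one_pow]
    · exact cube_of_not_commute hT hb hcD hbc
  have hu2 : u ^ 2 ∈ N := by
    obtain ⟨k, hk⟩ := hidx
    have := Subgroup.pow_index_mem N u
    rw [hk, pow_mul]; exact N.pow_mem this k
  have huN : u ∈ N := by
    have h3 : u * u ^ 2 = 1 := by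
      calc u * u ^ 2 = u ^ 3 := (pow_succ' u 2).symm
        _ = 1 := hu3
    have : u = (u ^ 2)⁻¹ := eq_inv_iff_mul_eq_one.mpr h3
    rw [this]; exact N.inv_mem hu2
  exact ⟨u, huN, rfl⟩

include hT hc in
theorem prod_mem_pCore {a b : G} (ha : a ∈ D) (hb : b ∈ D) (hab : Rel D a b) :
    a * b ∈ Cfsg.pCore 3 G := by
  haveI : Fact (Nat.Prime 3) := ⟨Nat.prime_three⟩
  set S : Set G := {x | ∃ a ∈ D, ∃ b ∈ D, Rel D a b ∧ x = a * b} with hS
  set M := Subgroup.closure S with hM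
  have hMn : M.Normal := by
    apply Cfsg.Agent.Lib.Helper4_Syl.closure_normal
    rintro x ⟨a, ha, b, hb, hab, rfl⟩ g
    exact ⟨g * a * g⁻¹, hc g a ha, g * b * g⁻¹, hc g b hb, hab.conj hc g, by group⟩
  obtain ⟨Q, hQ⟩ := sylSet_nonempty 3 M
  have hle : M ≤ Q := by
    rw [hM, Subgroup.closure_le]
    rintro x ⟨a, ha, b, hb, hab, rfl⟩
    set E : Set G := {x | ∃ b ∈ D, ∃ c ∈ D, Rel D b a ∧ Rel D c a ∧ x = b * c} with hE
    have hP : IsPGroup 3 (Subgroup.closure E) := class_pgroup hT hc ha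
    have hEM : Subgroup.closure E ≤ M := by
      rw [Subgroup.closure_le]
      rintro x ⟨b, hb, c, hcD, h1, h2, rfl⟩
      exact Subgroup.subset_closure ⟨b, hb, c, hcD, h1.trans h2.symm, rfl⟩
    have hnorm : M ≤ Subgroup.normalizer ((Subgroup.closure E : Subgroup G) : Set G) := by
      rw [hM, Subgroup.closure_le]
      rintro t ⟨a', ha', b', hb', hab', rfl⟩
      apply Subgroup.mem_normalizer_fintype
      have h3 : Subgroup.closure E ≤
          (Subgroup.closure E).comap (MulAut.conj (a' * b')).toMonoidHom := by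
        rw [Subgroup.closure_le]
        rintro x ⟨b, hb, c, hcD, h1, h2, rfl⟩
        apply Subgroup.subset_closure
        refine ⟨(a' * b') * b * (a' * b')⁻¹, hc _ b hb, (a' * b') * c * (a' * b')⁻¹, hc _ c hcD,
          (key hT hc ha' hb' hab' hb).trans h1, (key hT hc ha' hb' hab' hcD).trans h2, ?_⟩
        simp only [MulEquiv.toMonoidHom_eq_coe, MonoidHom.coe_coe, MulAut.conj_apply]
        group
      intro n hn
      exact h3 hn
    have h4 := le_of_mem_sylSet_of_le_normalizer hEM hP hnorm hQ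
    exact h4 (Subgroup.subset_closure ⟨a, ha, b, hb, Rel.refl D a, hab.symm, rfl⟩)
  have hMP : IsPGroup 3 M := (isPGroup_of_mem_sylSet hQ).to_le hle
  have hMO : M ≤ Cfsg.pCore 3 G := Cfsg.Agent.Lib.Helper4_Core.le_pCore hMn hMP
  exact hMO (Subgroup.subset_closure ⟨a, ha, b, hb, hab, rfl⟩)

include hT in
theorem eq_of_mul_mem {x e : G} (hx : x ∈ D) (he : e ∈ D) (h : Commute x e)
    (hm : x * e ∈ Cfsg.pCore 3 G) : e = x := by
  haveI : Fact (Nat.Prime 3) := ⟨Nat.prime_three⟩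
  have h2 : (x * e) ^ 2 = 1 := (commute_iff_sq (mul_self hT hx) (mul_self hT he)).mp h
  obtain ⟨k, hk⟩ := (Cfsg.Agent.Lib.Helper4_Core.pCore_isPGroup 3 G) ⟨x * e, hm⟩
  have h4 : (x * e) ^ (3 ^ k) = 1 := by simpa using congrArg Subtype.val hk
  have h5 : x * e = 1 := eq_one_of_pow_coprime (Nat.Coprime.pow_left k (by norm_num)) h4 h2
  have h6 : x⁻¹ = e := inv_eq_of_mul_eq_one_right h5
  rw [← h6, inv_eq hT hx]

include hT in
theorem coset3 {x y e : G} (hx : x ∈ D) (hy : y ∈ D) (he : e ∈ D)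
    (hxy : x⁻¹ * y ∈ Cfsg.pCore 3 G) (hne : e ≠ x) (h : Commute x e) :
    e ≠ y ∧ Commute y e := by
  haveI : Fact (Nat.Prime 3) := ⟨Nat.prime_three⟩
  haveI hn : (Cfsg.pCore 3 G).Normal := Cfsg.pCore_normal 3 G
  have hxi := inv_eq hT hx
  constructor
  · rintro rfl
    apply hne
    apply eq_of_mul_mem hT hx he h
    rwa [hxi] at hxy
  · by_contra hcm
    apply hne
    apply eq_of_mul_mem hT hx he h
    have h3 := cube_of_not_commute hT hy he hcm
    have h2 : (x * e) ^ 2 = 1 := (commute_iff_sq (mul_self hT hx) (mul_self hT he)).mp h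
    have q1 : ((x * e : G) : G ⧸ Cfsg.pCore 3 G) = ((y * e : G) : G ⧸ Cfsg.pCore 3 G) := by
      rw [QuotientGroup.eq]
      have : (x * e)⁻¹ * (y * e) = e⁻¹ * (x⁻¹ * y) * e⁻¹⁻¹ := by group
      rw [this]
      exact hn.conj_mem _ hxy _
    have q2 : (((x * e) ^ 3 : G) : G ⧸ Cfsg.pCore 3 G) = 1 := by
      rw [QuotientGroup.mk_pow, q1, ← QuotientGroup.mk_pow, h3, QuotientGroup.mk_one]
    rw [QuotientGroup.eq_one_iff] at q2
    have : (x * e) ^ 3 = x * e := by
      calc (x * e) ^ 3 = (x * e) ^ 2 * (x * e) := pow_succ _ 2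
        _ = x * e := by rw [h2, one_mul]
    rwa [this] at q2

end

/-- Let D be a conjugacy class of 3-transpositions generating the finite group G, with at least two members, and d a member of D. Then the set of members w of D whose commuting partners in D (other than w) are exactly those of d (other than d) coincides with the set of members of D lying in the coset of d modulo the largest normal 3-subgroup of G, and also with the orbit of d under conjugation by that normal 3-subgroup. -/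
theorem result {G : Type*} [Group G] [Finite G] {D : Set G} (hD : Cfsg.IsThreeTranspositionClass D) (hD2 : ∃ a ∈ D, ∃ b ∈ D, a ≠ b) {d : G} (hd : d ∈ D) : {w : G | w ∈ D ∧ {y : G | y ∈ D ∧ y ≠ d ∧ Commute d y} = {y : G | y ∈ D ∧ y ≠ w ∧ Commute w y}} = {w : G | w ∈ D ∧ d⁻¹ * w ∈ Cfsg.pCore 3 G} ∧ {w : G | w ∈ D ∧ {y : G | y ∈ D ∧ y ≠ d ∧ Commute d y} = {y : G | y ∈ D ∧ y ≠ w ∧ Commute w y}} = {w : G | ∃ g ∈ Cfsg.pCore 3 G, w = g * d * g⁻¹} := by
  obtain ⟨hT, ⟨d₀, hd₀, hDc⟩, hgen⟩ := hD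
  have hmem : ∀ x, x ∈ D ↔ IsConj d₀ x := by
    intro x; rw [hDc]; exact Iff.rfl
  have hc : ∀ g : G, ∀ d ∈ D, g * d * g⁻¹ ∈ D := by
    intro g x hx
    rw [hmem] at hx ⊢
    exact hx.trans (isConj_iff.mpr ⟨g, rfl⟩)
  have hdi := inv_eq hT hd
  have hdd := mul_self hT hd
  have hn : (Cfsg.pCore 3 G).Normal := Cfsg.pCore_normal 3 G
  have hAC : {w : G | w ∈ D ∧ {y : G | y ∈ D ∧ y ≠ d ∧ Commute d y} = {y : G | y ∈ D ∧ y ≠ w ∧ Commute w y}} ⊆
      {w : G | ∃ g ∈ Cfsg.pCore 3 G, w = g * d * g⁻¹} := by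
    rintro w ⟨hw, hwd⟩
    have hrel : Rel D d w := rel_iff.mpr hwd
    refine ⟨d * w, prod_mem_pCore hT hc hd hw hrel, ?_⟩
    have hwi := inv_eq hT hw
    rw [mul_inv_rev, hdi, hwi]
    by_cases hcm : Commute d w
    · have := Rel.eq_of_commute hw hrel hcm
      rw [← this, hdd, one_mul, mul_one]
    · have hb := braid hT hd hw hcm
      symm
      calc d * w * d * (w * d) = (w * d * w) * (w * d) := by rw [hb]
        _ = w * d * (w * w) * d := by group
        _ = w := by rw [mul_self hT hw, mul_one, mul_assoc, hdd, mul_one]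
  have hCB : {w : G | ∃ g ∈ Cfsg.pCore 3 G, w = g * d * g⁻¹} ⊆
      {w : G | w ∈ D ∧ d⁻¹ * w ∈ Cfsg.pCore 3 G} := by
    rintro v ⟨g, hg, rfl⟩
    refine ⟨hc g d hd, ?_⟩
    have : d⁻¹ * (g * d * g⁻¹) = (d⁻¹ * g * d⁻¹⁻¹) * g⁻¹ := by group
    rw [this]
    exact Subgroup.mul_mem _ (hn.conj_mem g hg d⁻¹) (Subgroup.inv_mem _ hg)
  have hBA : {w : G | w ∈ D ∧ d⁻¹ * w ∈ Cfsg.pCore 3 G} ⊆
      {w : G | w ∈ D ∧ {y : G | y ∈ D ∧ y ≠ d ∧ Commute d y} = {y : G | y ∈ D ∧ y ≠ w ∧ Commute w y}} := by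
    rintro w ⟨hw, hwd⟩
    refine ⟨hw, rel_iff.mp ?_⟩
    intro e he
    have hwd' : w⁻¹ * d ∈ Cfsg.pCore 3 G := by
      have : w⁻¹ * d = (d⁻¹ * w)⁻¹ := by group
      rw [this]; exact Subgroup.inv_mem _ hwd
    exact ⟨fun h => coset3 hT hd hw he hwd h.1 h.2, fun h => coset3 hT hw hd he hwd' h.1 h.2⟩
  exact ⟨Set.Subset.antisymm (hAC.trans hCB) hBA, Set.Subset.antisymm hAC (hCB.trans hBA)⟩

end Cfsg.Agent.S5350
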