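import Cfsg.Statements.S5351
import Cfsg.Agent.S5346
import Cfsg.Agent.S5347
import Cfsg.Agent.S0009
import Cfsg.Agent.S1265
import Cfsg.Agent.Lib.Helper9_TT
import Cfsg.Agent.Lib.Helper4_Core
import Cfsg.Agent.Lib.Helper3_Comp
import Cfsg.Agent.Lib.Helper3_Local
import Cfsg.Agent.Lib.Helper3_Core

set_option autoImplicit false
open Cfsg

namespace Cfsg.Agent.S5351

open Cfsg.Agent.Lib.Helper9_TT Cfsg.Agent.Lib.Helper7_Transfer Cfsg.Agent.Lib.Helper3_Comp

variable {G : Type*} [Group G] {D : Set G}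

theorem le_center (hgen : Subgroup.closure D = ⊤) {X : Subgroup G}
    (h : ∀ d ∈ D, ∀ x ∈ X, Commute d x) : X ≤ Subgroup.center G := by
  intro x hx
  rw [Subgroup.mem_center_iff]
  intro g
  have hg : g ∈ Subgroup.closure D := by rw [hgen]; exact Subgroup.mem_top g
  have hle : Subgroup.closure D ≤ Subgroup.centralizer ({x} : Set G) := by
    rw [Subgroup.closure_le]
    intro e he
    rw [SetLike.mem_coe, Subgroup.mem_centralizer_singleton_iff]
    exact (h e he x hx).eq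
  have := hle hg
  rw [Subgroup.mem_centralizer_singleton_iff] at this
  exact this

theorem all_commute (hconj : ∀ a ∈ D, ∀ b ∈ D, ∃ g : G, b = g * a * g⁻¹) {X : Subgroup G}
    (hX : X.Normal) {d : G} (hd : d ∈ D) (h : ∀ x ∈ X, Commute d x) :
    ∀ e ∈ D, ∀ x ∈ X, Commute e x := by
  intro e he x hx
  obtain ⟨g, rfl⟩ := hconj d hd e he
  have h1 := h (g⁻¹ * x * g⁻¹⁻¹) (hX.conj_mem x hx g⁻¹)
  have e1 : x = g * (g⁻¹ * x * g⁻¹⁻¹) * g⁻¹ := by group
  rw [e1, Commute.conj_iff]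
  exact h1

theorem memX (hT : Cfsg.IsThreeTranspositionSet D) {X : Subgroup G} (hX : X.Normal) {d x : G}
    (hd : d ∈ D) (hx : x ∈ X) : d * (x * d * x⁻¹) ∈ X := by
  have hdi := inv_eq hT hd
  have : d * (x * d * x⁻¹) = (d * x * d⁻¹) * x⁻¹ := by rw [hdi]; group
  rw [this]; exact X.mul_mem (hX.conj_mem x hx d) (X.inv_mem hx)

theorem prod_eq (hT : Cfsg.IsThreeTranspositionSet D) {X Y : Subgroup G} (hY : Y.Normal)
    (hXY : ∀ x ∈ X, ∀ y ∈ Y, Commute x y) {d x y : G} (hd : d ∈ D) (hx : x ∈ X) (hy : y ∈ Y) :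
    d * (x * d * x⁻¹) * (d * (y * d * y⁻¹)) = d * ((x * y) * d * (x * y)⁻¹) := by
  have hb := memX hT hY hd hy
  have hcomm : Commute x⁻¹ (d * (y * d * y⁻¹)) := hXY x⁻¹ (X.inv_mem hx) _ hb
  calc d * (x * d * x⁻¹) * (d * (y * d * y⁻¹))
      = d * x * d * (x⁻¹ * (d * (y * d * y⁻¹))) := by group
    _ = d * x * d * ((d * (y * d * y⁻¹)) * x⁻¹) := by rw [hcomm.eq]
    _ = d * x * (d * d) * y * d * y⁻¹ * x⁻¹ := by group
    _ = d * ((x * y) * d * (x * y)⁻¹) := by rw [mul_self hT hd]; group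

theorem pow_of_mem_pCore [Finite G] {p q : ℕ} [Fact p.Prime] (hpq : Nat.Coprime p q) {a : G}
    (ha : a ∈ Cfsg.pCore p G) (h : a ^ q = 1) : a = 1 := by
  obtain ⟨k, hk⟩ := (Cfsg.Agent.Lib.Helper4_Core.pCore_isPGroup p G) ⟨a, ha⟩
  have h4 : a ^ (p ^ k) = 1 := by simpa using congrArg Subtype.val hk
  exact eq_one_of_pow_coprime (Nat.Coprime.pow_left k hpq) h4 h

theorem commute_of_eq_one (hT : Cfsg.IsThreeTranspositionSet D) {d x : G} (hd : d ∈ D)
    (h : d * (x * d * x⁻¹) = 1) : Commute d x := by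
  have hdd := mul_self hT hd
  have h1 : x * d * x⁻¹ = d := by
    calc x * d * x⁻¹ = (d * d) * (x * d * x⁻¹) := by rw [hdd, one_mul]
      _ = d * (d * (x * d * x⁻¹)) := by group
      _ = d := by rw [h, mul_one]
  exact (mul_inv_eq_iff_eq_mul.mp h1).symm

theorem order_transfer {a b : G} (hab : Commute a b) {m n : ℕ} (hmn : Nat.Coprime m n)
    (ha : a ^ m = 1) (ha1 : a ≠ 1) (hb : b ^ m = 1 ∨ b ^ n = 1)
    (hp : (a * b) ^ m = 1 ∨ (a * b) ^ n = 1) : b ^ m = 1 := by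
  rcases hb with hb | hb
  · exact hb
  · rcases hp with hp | hp
    · rw [hab.mul_pow, ha, one_mul] at hp; exact hp
    · rw [hab.mul_pow, hb, mul_one] at hp
      exact absurd (eq_one_of_pow_coprime hmn ha hp) ha1

theorem transfer_pow [Finite G] (hT : Cfsg.IsThreeTranspositionSet D)
    (hc : ∀ g : G, ∀ d ∈ D, g * d * g⁻¹ ∈ D) {p m n : ℕ} [Fact p.Prime]
    (hmn : Nat.Coprime m n) (hpn : Nat.Coprime p n)
    (h23 : ∀ a ∈ D, ∀ b ∈ D, (a * b) ^ m = 1 ∨ (a * b) ^ n = 1)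
    {Y : Subgroup G} (hY : Y.Normal) (hXY : ∀ x ∈ Cfsg.pCore p G, ∀ y ∈ Y, Commute x y)
    {d x : G} (hd : d ∈ D) (hx : x ∈ Cfsg.pCore p G) (hnc : ¬ Commute d x) :
    ∀ y ∈ Y, (d * (y * d * y⁻¹)) ^ m = 1 := by
  intro y hy
  have hXn := Cfsg.pCore_normal p G
  have ha := memX hT hXn hd hx
  have hb := memX hT hY hd hy
  have ha1 : d * (x * d * x⁻¹) ≠ 1 := fun h => hnc (commute_of_eq_one hT hd h)
  have ham : (d * (x * d * x⁻¹)) ^ m = 1 := by
    rcases h23 d hd _ (hc x d hd) with h | h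
    · exact h
    · exact absurd (pow_of_mem_pCore hpn ha h) ha1
  apply order_transfer (hXY _ ha _ hb) hmn ham ha1 (h23 d hd _ (hc y d hd))
  rw [prod_eq hT hY hXY hd hx hy]
  exact h23 d hd _ (hc (x * y) d hd)

theorem commute_layer [Finite G] {d : G}
    (hs : Group.IsSolvable (Subgroup.closure {w : G | ∃ y ∈ Cfsg.layer G, w = y * d * y⁻¹})) :
    ∀ y ∈ Cfsg.layer G, Commute d y := by
  set W : Set G := {w : G | ∃ y ∈ Cfsg.layer G, w = y * d * y⁻¹} with hW
  have hnorm : Cfsg.layer G ≤ Subgroup.normalizer ((Subgroup.closure W : Subgroup G) : Set G) := by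
    intro t ht
    apply Subgroup.mem_normalizer_fintype
    have h3 : Subgroup.closure W ≤ (Subgroup.closure W).comap (MulAut.conj t).toMonoidHom := by
      rw [Subgroup.closure_le]
      rintro w ⟨y, hy, rfl⟩
      apply Subgroup.subset_closure
      refine ⟨t * y, Subgroup.mul_mem _ ht hy, ?_⟩
      simp only [MulEquiv.toMonoidHom_eq_coe, MonoidHom.coe_coe, MulAut.conj_apply]
      group
    intro n hn
    exact h3 hn
  have hcomm : ⁅Cfsg.layer G, Subgroup.closure W⁆ = ⊥ := layer_le_centralizer (fun L hL =>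
    IsComponent.commutator_eq_bot_of_isSolvable_of_le_normalizer hL hs
      ((IsComponent.le_layer hL).trans hnorm))
  rw [Subgroup.commutator_eq_bot_iff_le_centralizer] at hcomm
  intro y hy
  have hdH : d ∈ Subgroup.closure W := Subgroup.subset_closure ⟨1, Subgroup.one_mem _, by simp⟩
  have := hcomm hy
  rw [Subgroup.mem_centralizer_iff] at this
  exact this d hdH

theorem layer_eq_bot [Finite G] (hgen : Subgroup.closure D = ⊤)
    (hconj : ∀ a ∈ D, ∀ b ∈ D, ∃ g : G, b = g * a * g⁻¹) {d : G} (hd : d ∈ D)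
    (h : ∀ y ∈ Cfsg.layer G, Commute d y) : Cfsg.layer G = ⊥ := by
  have h1 := le_center hgen (all_commute hconj (layer_normal G) hd h)
  apply layer_eq_bot_of_isSolvable
  exact isSolvable_of_le h1 (Group.isSolvable_of_comm (fun a b => Subtype.ext (Subgroup.mem_center_iff.mp b.2 a.1)))

theorem solv2 [Finite G] (hT : Cfsg.IsThreeTranspositionSet D)
    (hc : ∀ g : G, ∀ d ∈ D, g * d * g⁻¹ ∈ D) {d : G} (hd : d ∈ D)
    (h : ∀ y ∈ Cfsg.layer G, (d * (y * d * y⁻¹)) ^ 2 = 1) :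
    Group.IsSolvable (Subgroup.closure {w : G | ∃ y ∈ Cfsg.layer G, w = y * d * y⁻¹}) := by
  haveI : Fact (Nat.Prime 2) := ⟨Nat.prime_two⟩
  apply Cfsg.Agent.Lib.Helper3_Local.isSolvable_of_isPGroup (p := 2)
  apply isPGroup_closure_of_commuting
  · rintro w ⟨y, hy, rfl⟩
    exact mul_self hT (hc y d hd)
  · rintro w ⟨y, hy, rfl⟩ w' ⟨y', hy', rfl⟩
    have h1 := h (y⁻¹ * y') (Subgroup.mul_mem _ (Subgroup.inv_mem _ hy) hy')
    have h2 : Commute d ((y⁻¹ * y') * d * (y⁻¹ * y')⁻¹) :=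
      (commute_iff_sq (mul_self hT hd) (mul_self hT (hc _ d hd))).mpr h1
    have e1 : y' * d * y'⁻¹ = y * ((y⁻¹ * y') * d * (y⁻¹ * y')⁻¹) * y⁻¹ := by group
    rw [e1, Commute.conj_iff]
    exact h2

theorem solv3 [Finite G] (hT : Cfsg.IsThreeTranspositionSet D)
    (hc : ∀ g : G, ∀ d ∈ D, g * d * g⁻¹ ∈ D) {d : G} (hd : d ∈ D)
    (h : ∀ y ∈ Cfsg.layer G, (d * (y * d * y⁻¹)) ^ 3 = 1) :
    Group.IsSolvable (Subgroup.closure {w : G | ∃ y ∈ Cfsg.layer G, w = y * d * y⁻¹}) := by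
  haveI : Fact (Nat.Prime 3) := ⟨Nat.prime_three⟩
  have hEn := layer_normal G
  set W : Set G := {w : G | ∃ y ∈ Cfsg.layer G, w = y * d * y⁻¹} with hW
  set H := Subgroup.closure W with hH
  set D' : Set H := {x | (x : G) ∈ W} with hD'
  have hWD : ∀ w ∈ W, w ∈ D := by rintro w ⟨y, hy, rfl⟩; exact hc y d hd
  have hgenW : ∀ v ∈ W, ∀ w ∈ W, v * w * v⁻¹ ∈ W := by
    rintro v ⟨y, hy, rfl⟩ w ⟨y', hy', rfl⟩
    refine ⟨y * (d * (y⁻¹ * y') * d⁻¹), Subgroup.mul_mem _ hy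
      (hEn.conj_mem _ (Subgroup.mul_mem _ (Subgroup.inv_mem _ hy) hy') d), ?_⟩
    group
  have hWc : ∀ h ∈ H, ∀ w ∈ W, h * w * h⁻¹ ∈ W ∧ h⁻¹ * w * h ∈ W := by
    intro h hh
    induction hh using Subgroup.closure_induction with
    | mem v hv =>
      intro w hw
      have hvi := inv_eq hT (hWD v hv)
      have h1 := hgenW v hv w hw
      refine ⟨h1, ?_⟩
      rw [hvi] at h1 ⊢
      exact h1
    | one => intro w hw; simpa using hw
    | mul x y _ _ hx hy =>
      intro w hw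
      constructor
      · have e : x * y * w * (x * y)⁻¹ = x * (y * w * y⁻¹) * x⁻¹ := by group
        rw [e]; exact (hx _ (hy w hw).1).1
      · have e : (x * y)⁻¹ * w * (x * y) = y⁻¹ * (x⁻¹ * w * x) * y := by group
        rw [e]; exact (hy _ (hx w hw).2).2
    | inv x _ hx =>
      intro w hw
      rw [inv_inv]
      exact ⟨(hx w hw).2, (hx w hw).1⟩
  have hTG : Cfsg.IsThreeTranspositionGroup D' := by
    refine ⟨⟨?_, ?_⟩, ?_, ?_⟩
    · intro x hx
      rw [← Subgroup.orderOf_coe]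
      exact hT.1 _ (hWD _ hx)
    · intro x hx y hy
      rcases hT.2 _ (hWD _ hx) _ (hWD _ hy) with h | h
      · left; apply Subtype.ext; simpa using h
      · right; apply Subtype.ext; simpa using h
    · intro g x hx
      exact (hWc g g.2 x hx).1
    · exact Subgroup.closure_closure_coe_preimage
  have hdW : d ∈ W := ⟨1, Subgroup.one_mem _, by simp⟩
  have hdH : d ∈ H := Subgroup.subset_closure hdW
  have hnc : ∀ x ∈ D', ∀ y ∈ D', Commute x y → x = y := by
    intro x hx x' hx' hxy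
    have hxD := hWD _ hx
    have hxD' := hWD _ hx'
    obtain ⟨y, hy, hxe⟩ := hx
    obtain ⟨y', hy', hxe'⟩ := hx'
    apply Subtype.ext
    have hcm : Commute (x : G) (x' : G) := congrArg Subtype.val hxy.eq
    have h2 : ((x : G) * x') ^ 2 = 1 :=
      (commute_iff_sq (mul_self hT hxD) (mul_self hT hxD')).mp hcm
    have h3 : ((x : G) * x') ^ 3 = 1 := by
      have h1 := h (y⁻¹ * y') (Subgroup.mul_mem _ (Subgroup.inv_mem _ hy) hy')
      have e1 : (x : G) * x' = y * (d * ((y⁻¹ * y') * d * (y⁻¹ * y')⁻¹)) * y⁻¹ := by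
        rw [hxe, hxe']; group
      rw [e1, conj_pow, h1]; group
    have h5 : (x : G) * x' = 1 := eq_one_of_pow_coprime (by norm_num) h2 h3
    calc (x : G) = (x' : G)⁻¹ := eq_inv_of_mul_eq_one_left h5
      _ = x' := inv_eq hT hxD'
  have htop := Cfsg.Agent.S5346.forward hTG (d := ⟨d, hdH⟩) hdW hnc
  have hNn : (Cfsg.pCore 3 H).Normal := Cfsg.pCore_normal 3 H
  have h1 : Group.IsSolvable (Subgroup.zpowers (⟨d, hdH⟩ : H) ⊔ Cfsg.pCore 3 H : Subgroup H) :=
    Cfsg.Agent.Lib.Helper3_Core.isSolvable_sup_of_normal _ _ hNn inferInstance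
      (Cfsg.Agent.Lib.Helper3_Local.isSolvable_of_isPGroup
        (Cfsg.Agent.Lib.Helper4_Core.pCore_isPGroup 3 H))
  rw [htop] at h1
  haveI := h1
  exact Group.isSolvable_of_isSolvable_injective
    (f := (Subgroup.topEquiv (G := H)).symm.toMonoidHom) (Subgroup.topEquiv.symm.injective)

/-- Let D be a conjugacy class of 3-transpositions generating the finite group G, with at least two members. Then for every prime p > 3 the largest normal p-subgroup of G is central, and exactly one of the following holds: the largest normal 2-subgroup of G is not central; the largest normal 3-subgroup of G is not central; the layer of G (the product of its components) is non-trivial. -/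
theorem result {G : Type*} [Group G] [Finite G] {D : Set G} (hD : Cfsg.IsThreeTranspositionClass D) (hD2 : ∃ a ∈ D, ∃ b ∈ D, a ≠ b) : (∀ p : ℕ, p.Prime → 3 < p → Cfsg.pCore p G ≤ Subgroup.center G) ∧ ((¬ Cfsg.pCore 2 G ≤ Subgroup.center G ∧ Cfsg.pCore 3 G ≤ Subgroup.center G ∧ Cfsg.layer G = ⊥) ∨ (Cfsg.pCore 2 G ≤ Subgroup.center G ∧ ¬ Cfsg.pCore 3 G ≤ Subgroup.center G ∧ Cfsg.layer G = ⊥) ∨ (Cfsg.pCore 2 G ≤ Subgroup.center G ∧ Cfsg.pCore 3 G ≤ Subgroup.center G ∧ Cfsg.layer G ≠ ⊥)) := by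
  obtain ⟨hT, ⟨d₀, hd₀, hDc⟩, hgen⟩ := hD
  have hmem : ∀ x, x ∈ D ↔ IsConj d₀ x := by
    intro x; rw [hDc]; exact Iff.rfl
  have hc : ∀ g : G, ∀ d ∈ D, g * d * g⁻¹ ∈ D := by
    intro g x hx
    rw [hmem] at hx ⊢
    exact hx.trans (isConj_iff.mpr ⟨g, rfl⟩)
  have hconj : ∀ a ∈ D, ∀ b ∈ D, ∃ g : G, b = g * a * g⁻¹ := by
    intro a ha b hb
    have h1 : IsConj a b := ((hmem a).mp ha).symm.trans ((hmem b).mp hb)
    obtain ⟨g, hg⟩ := isConj_iff.mp h1
    exact ⟨g, hg.symm⟩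
  haveI f2 : Fact (Nat.Prime 2) := ⟨Nat.prime_two⟩
  haveI f3 : Fact (Nat.Prime 3) := ⟨Nat.prime_three⟩
  have hTG : Cfsg.IsThreeTranspositionGroup D := ⟨hT, hc, hgen⟩
  have hn2 := Cfsg.pCore_normal 2 G
  have hn3 := Cfsg.pCore_normal 3 G
  have hEn := layer_normal G
  have hP2 := Cfsg.Agent.Lib.Helper4_Core.pCore_isPGroup 2 G
  have hP3 := Cfsg.Agent.Lib.Helper4_Core.pCore_isPGroup 3 G
  have part0 : ∀ p : ℕ, p.Prime → 3 < p → Cfsg.pCore p G ≤ Subgroup.center G := by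
    intro p hp hp3
    haveI : Fact p.Prime := ⟨hp⟩
    apply le_center hgen
    intro d hd
    apply Cfsg.Agent.S5347.result hTG hp hp3 _ (Cfsg.Agent.Lib.Helper4_Core.pCore_isPGroup p G) hd
    haveI := Cfsg.pCore_normal p G
    rw [Subgroup.normalizer_eq_top]; exact Subgroup.mem_top d
  have hnon : ∀ X : Subgroup G, X.Normal → ¬ X ≤ Subgroup.center G →
      ∃ x ∈ X, ¬ Commute d₀ x := by
    intro X hX hXZ
    by_contra hcon
    push Not at hcon
    exact hXZ (le_center hgen (all_commute hconj hX hd₀ hcon))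
  have h23' : ∀ a ∈ D, ∀ b ∈ D, (a * b) ^ 3 = 1 ∨ (a * b) ^ 2 = 1 :=
    fun a ha b hb => (hT.2 a ha b hb).symm
  have c23 : ∀ x ∈ Cfsg.pCore 2 G, ∀ y ∈ Cfsg.pCore 3 G, Commute x y := fun x hx y hy =>
    Subgroup.commute_of_normal_of_disjoint _ _ hn2 hn3
      (IsPGroup.disjoint_of_ne 2 3 (by norm_num) _ _ hP2 hP3) x y hx hy
  have cE : ∀ p : ℕ, [Fact p.Prime] → ∀ x ∈ Cfsg.pCore p G, ∀ y ∈ Cfsg.layer G,
      Commute x y := by
    intro p _ x hx y hy
    have h1 : ⁅Cfsg.layer G, Cfsg.pCore p G⁆ = ⊥ :=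
      commutator_layer_of_isSolvable (Cfsg.pCore_normal p G).isSubnormal
        (Cfsg.Agent.Lib.Helper3_Local.isSolvable_of_isPGroup
          (Cfsg.Agent.Lib.Helper4_Core.pCore_isPGroup p G))
    rw [Subgroup.commutator_eq_bot_iff_le_centralizer] at h1
    have := h1 hy
    rw [Subgroup.mem_centralizer_iff] at this
    exact this x hx
  have e23 : ¬ Cfsg.pCore 2 G ≤ Subgroup.center G → Cfsg.pCore 3 G ≤ Subgroup.center G := by
    intro h2
    obtain ⟨x, hx, hnc⟩ := hnon _ hn2 h2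
    apply le_center hgen
    apply all_commute hconj hn3 hd₀
    intro y hy
    have h1 := transfer_pow hT hc (p := 2) (m := 2) (n := 3) (by norm_num) (by norm_num) hT.2
      hn3 c23 hd₀ hx hnc y hy
    exact commute_of_eq_one hT hd₀
      (pow_of_mem_pCore (p := 3) (q := 2) (by norm_num) (memX hT hn3 hd₀ hy) h1)
  have e2E : ¬ Cfsg.pCore 2 G ≤ Subgroup.center G → Cfsg.layer G = ⊥ := by
    intro h2
    obtain ⟨x, hx, hnc⟩ := hnon _ hn2 h2
    have h1 := transfer_pow hT hc (p := 2) (m := 2) (n := 3) (by norm_num) (by norm_num) hT.2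
      hEn (cE 2) hd₀ hx hnc
    exact layer_eq_bot hgen hconj hd₀ (commute_layer (solv2 hT hc hd₀ h1))
  have e3E : ¬ Cfsg.pCore 3 G ≤ Subgroup.center G → Cfsg.layer G = ⊥ := by
    intro h3
    obtain ⟨x, hx, hnc⟩ := hnon _ hn3 h3
    have h1 := transfer_pow hT hc (p := 3) (m := 3) (n := 2) (by norm_num) (by norm_num) h23'
      hEn (cE 3) hd₀ hx hnc
    exact layer_eq_bot hgen hconj hd₀ (commute_layer (solv3 hT hc hd₀ h1))
  have hone : Cfsg.pCore 2 G ≤ Subgroup.center G → Cfsg.pCore 3 G ≤ Subgroup.center G →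
      Cfsg.layer G ≠ ⊥ := by
    intro h2 h3 hE
    have hF : Cfsg.fittingSubgroup G ≤ Subgroup.center G := by
      rw [Cfsg.Agent.S0009.result]
      apply iSup_le
      intro p
      have hp := p.2
      by_cases e2 : (p : ℕ) = 2
      · rw [e2]; exact h2
      · by_cases e3 : (p : ℕ) = 3
        · rw [e3]; exact h3
        · apply part0 _ hp
          have := hp.two_le
          omega
    have hgfs : Cfsg.generalizedFittingSubgroup G ≤ Subgroup.center G := by
      unfold Cfsg.generalizedFittingSubgroup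
      rw [hE, bot_sup_eq]; exact hF
    have hcent : Subgroup.centralizer (Cfsg.generalizedFittingSubgroup G : Set G) = ⊤ := by
      rw [eq_top_iff]
      intro g _
      rw [Subgroup.mem_centralizer_iff]
      intro z hz
      exact (Subgroup.mem_center_iff.mp (hgfs hz) g).symm
    have htopc : (⊤ : Subgroup G) ≤ Subgroup.center G := by
      rw [← hcent]; exact (Cfsg.Agent.S1265.result).trans hgfs
    obtain ⟨a, ha, b, hb, hab⟩ := hD2
    obtain ⟨g, hg⟩ := hconj a ha b hb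
    apply hab
    have := Subgroup.mem_center_iff.mp (htopc (Subgroup.mem_top a)) g
    rw [hg, this]; group
  refine ⟨part0, ?_⟩
  by_cases h2 : Cfsg.pCore 2 G ≤ Subgroup.center G
  · by_cases h3 : Cfsg.pCore 3 G ≤ Subgroup.center G
    · right; right; exact ⟨h2, h3, hone h2 h3⟩
    · right; left; exact ⟨h2, h3, e3E h3⟩
  · left; exact ⟨h2, e23 h2, e2E h2⟩

end Cfsg.Agent.S5351
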