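import Cfsg.Statements.S5352
import Cfsg.Agent.S5351
import Cfsg.Agent.S0144

set_option autoImplicit false
open Cfsg

namespace Cfsg.Agent.S5352

open Cfsg.Agent.Lib.Helper9_TT Cfsg.Agent.Lib.Helper7_Transfer Cfsg.Agent.Lib.Helper3_Comp
open Cfsg.Agent.S5351
open scoped commutatorElement

variable {G : Type*} [Group G] {D : Set G}

theorem solv2' [Finite G] {Y : Subgroup G} (hEn : Y.Normal) (hT : Cfsg.IsThreeTranspositionSet D)
    (hc : ∀ g : G, ∀ d ∈ D, g * d * g⁻¹ ∈ D) {d : G} (hd : d ∈ D)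
    (h : ∀ y ∈ Y, (d * (y * d * y⁻¹)) ^ 2 = 1) :
    Group.IsSolvable (Subgroup.closure {w : G | ∃ y ∈ Y, w = y * d * y⁻¹}) := by
  haveI : Fact (Nat.Prime 2) := ⟨Nat.prime_two⟩
  apply Cfsg.Agent.Lib.Helper3_Local.isSolvable_of_isPGroup (p := 2)
  apply isPGroup_closure_of_commuting
  · rintro w ⟨y, hy, rfl⟩
    exact mul_self hT (hc y d hd)
  · rintro w ⟨y, hy, rfl⟩ w' ⟨y', hy', rfl⟩
    have h1 := h (y⁻¹ * y') (Subgroup.mul_mem _ (Subgroup.inv_mem _ hy) hy')
    have h2 : Commute d ((y⁻¹ * y') * d * (y⁻¹ * y')⁻¹) :=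
      (commute_iff_sq (mul_self hT hd) (mul_self hT (hc _ d hd))).mpr h1
    have e1 : y' * d * y'⁻¹ = y * ((y⁻¹ * y') * d * (y⁻¹ * y')⁻¹) * y⁻¹ := by group
    rw [e1, Commute.conj_iff]
    exact h2

theorem solv3' [Finite G] {Y : Subgroup G} (hEn : Y.Normal) (hT : Cfsg.IsThreeTranspositionSet D)
    (hc : ∀ g : G, ∀ d ∈ D, g * d * g⁻¹ ∈ D) {d : G} (hd : d ∈ D)
    (h : ∀ y ∈ Y, (d * (y * d * y⁻¹)) ^ 3 = 1) :
    Group.IsSolvable (Subgroup.closure {w : G | ∃ y ∈ Y, w = y * d * y⁻¹}) := by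
  haveI : Fact (Nat.Prime 3) := ⟨Nat.prime_three⟩
  set W : Set G := {w : G | ∃ y ∈ Y, w = y * d * y⁻¹} with hW
  set H := Subgroup.closure W with hH
  set D' : Set H := {x | (x : G) ∈ W} with hD'
  have hWD : ∀ w ∈ W, w ∈ D := by rintro w ⟨y, hy, rfl⟩; exact hc y d hd
  have hgenW : ∀ v ∈ W, ∀ w ∈ W, v * w * v⁻¹ ∈ W := by
    rintro v ⟨y, hy, rfl⟩ w ⟨y', hy', rfl⟩
    refine ⟨y * (d * (y⁻¹ * y') * d⁻¹), Subgroup.mul_mem _ hy
      (hEn.conj_mem _ (Subgroup.mul_mem _ (Subgroup.inv_mem _ hy) hy') d), ?_⟩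
    group
  have hWc : ∀ h ∈ H, ∀ w ∈ W, h * w * h⁻¹ ∈ W ∧ h⁻¹ * w * h ∈ W := by
    intro h hh
    induction hh using Subgroup.closure_induction with
    | mem v hv =>
      intro w hw
      have hvi := inv_eq hT (hWD v hv)
      have h1 := hgenW v hv w hw
      refine ⟨h1, ?_⟩
      rw [hvi] at h1 ⊢
      exact h1
    | one => intro w hw; simpa using hw
    | mul x y _ _ hx hy =>
      intro w hw
      constructor
      · have e : x * y * w * (x * y)⁻¹ = x * (y * w * y⁻¹) * x⁻¹ := by group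
        rw [e]; exact (hx _ (hy w hw).1).1
      · have e : (x * y)⁻¹ * w * (x * y) = y⁻¹ * (x⁻¹ * w * x) * y := by group
        rw [e]; exact (hy _ (hx w hw).2).2
    | inv x _ hx =>
      intro w hw
      rw [inv_inv]
      exact ⟨(hx w hw).2, (hx w hw).1⟩
  have hTG : Cfsg.IsThreeTranspositionGroup D' := by
    refine ⟨⟨?_, ?_⟩, ?_, ?_⟩
    · intro x hx
      rw [← Subgroup.orderOf_coe]
      exact hT.1 _ (hWD _ hx)
    · intro x hx y hy
      rcases hT.2 _ (hWD _ hx) _ (hWD _ hy) with h | h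
      · left; apply Subtype.ext; simpa using h
      · right; apply Subtype.ext; simpa using h
    · intro g x hx
      exact (hWc g g.2 x hx).1
    · exact Subgroup.closure_closure_coe_preimage
  have hdW : d ∈ W := ⟨1, Subgroup.one_mem _, by simp⟩
  have hdH : d ∈ H := Subgroup.subset_closure hdW
  have hnc : ∀ x ∈ D', ∀ y ∈ D', Commute x y → x = y := by
    intro x hx x' hx' hxy
    have hxD := hWD _ hx
    have hxD' := hWD _ hx'
    obtain ⟨y, hy, hxe⟩ := hx
    obtain ⟨y', hy', hxe'⟩ := hx'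
    apply Subtype.ext
    have hcm : Commute (x : G) (x' : G) := congrArg Subtype.val hxy.eq
    have h2 : ((x : G) * x') ^ 2 = 1 :=
      (commute_iff_sq (mul_self hT hxD) (mul_self hT hxD')).mp hcm
    have h3 : ((x : G) * x') ^ 3 = 1 := by
      have h1 := h (y⁻¹ * y') (Subgroup.mul_mem _ (Subgroup.inv_mem _ hy) hy')
      have e1 : (x : G) * x' = y * (d * ((y⁻¹ * y') * d * (y⁻¹ * y')⁻¹)) * y⁻¹ := by
        rw [hxe, hxe']; group
      rw [e1, conj_pow, h1]; group
    have h5 : (x : G) * x' = 1 := eq_one_of_pow_coprime (by norm_num) h2 h3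
    calc (x : G) = (x' : G)⁻¹ := eq_inv_of_mul_eq_one_left h5
      _ = x' := inv_eq hT hxD'
  have htop := Cfsg.Agent.S5346.forward hTG (d := ⟨d, hdH⟩) hdW hnc
  have hNn : (Cfsg.pCore 3 H).Normal := Cfsg.pCore_normal 3 H
  have h1 : Group.IsSolvable (Subgroup.zpowers (⟨d, hdH⟩ : H) ⊔ Cfsg.pCore 3 H : Subgroup H) :=
    Cfsg.Agent.Lib.Helper3_Core.isSolvable_sup_of_normal _ _ hNn inferInstance
      (Cfsg.Agent.Lib.Helper3_Local.isSolvable_of_isPGroup
        (Cfsg.Agent.Lib.Helper4_Core.pCore_isPGroup 3 H))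
  rw [htop] at h1
  haveI := h1
  exact Group.isSolvable_of_isSolvable_injective
    (f := (Subgroup.topEquiv (G := H)).symm.toMonoidHom) (Subgroup.topEquiv.symm.injective)

theorem commute' [Finite G] {Y : Subgroup G} (hY : Cfsg.IsComponent Y) {d : G}
    (hs : Group.IsSolvable (Subgroup.closure {w : G | ∃ y ∈ Y, w = y * d * y⁻¹})) :
    ∀ y ∈ Y, Commute d y := by
  set W : Set G := {w : G | ∃ y ∈ Y, w = y * d * y⁻¹} with hW
  have hnorm : Y ≤ Subgroup.normalizer ((Subgroup.closure W : Subgroup G) : Set G) := by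
    intro t ht
    apply Subgroup.mem_normalizer_fintype
    have h3 : Subgroup.closure W ≤ (Subgroup.closure W).comap (MulAut.conj t).toMonoidHom := by
      rw [Subgroup.closure_le]
      rintro w ⟨y, hy, rfl⟩
      apply Subgroup.subset_closure
      refine ⟨t * y, Subgroup.mul_mem _ ht hy, ?_⟩
      simp only [MulEquiv.toMonoidHom_eq_coe, MonoidHom.coe_coe, MulAut.conj_apply]
      group
    intro n hn
    exact h3 hn
  have hcomm : ⁅Y, Subgroup.closure W⁆ = ⊥ :=
    IsComponent.commutator_eq_bot_of_isSolvable_of_le_normalizer hY hs hnorm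
  rw [Subgroup.commutator_eq_bot_iff_le_centralizer] at hcomm
  intro y hy
  have hdH : d ∈ Subgroup.closure W := Subgroup.subset_closure ⟨1, Subgroup.one_mem _, by simp⟩
  have := hcomm hy
  rw [Subgroup.mem_centralizer_iff] at this
  exact this d hdH

theorem card_two_three {n : ℕ} (hn : n ≠ 0) (h : ∀ p : ℕ, p.Prime → p ∣ n → p = 2 ∨ p = 3) :
    ∃ a b : ℕ, n = 2 ^ a * 3 ^ b := by
  obtain ⟨a, m, hm, rfl⟩ := Nat.exists_eq_pow_mul_and_not_dvd hn 2 (by norm_num)
  have hm0 : m ≠ 0 := by rintro rfl; simp at hn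
  obtain ⟨b, m', hm', rfl⟩ := Nat.exists_eq_pow_mul_and_not_dvd hm0 3 (by norm_num)
  refine ⟨a, b, ?_⟩
  have : m' = 1 := by
    by_contra h1
    obtain ⟨p, hp, hpm⟩ := Nat.exists_prime_and_dvd h1
    rcases h p hp (Dvd.dvd.mul_left (Dvd.dvd.mul_left hpm _) _) with rfl | rfl
    · exact hm (Dvd.dvd.mul_left hpm _)
    · exact hm' hpm
  rw [this, mul_one]

theorem norm_comp [Finite G] (hT : Cfsg.IsThreeTranspositionSet D)
    (hc : ∀ g : G, ∀ d ∈ D, g * d * g⁻¹ ∈ D) {L : Subgroup G} (hL : Cfsg.IsComponent L) {d : G}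
    (hd : d ∈ D) : L.map (MulAut.conj d).toMonoidHom = L := by
  by_contra hne
  have hL' := IsComponent.map_equiv (MulAut.conj d) hL
  have hcm : ⁅L, L.map (MulAut.conj d).toMonoidHom⁆ = ⊥ := by
    rcases IsComponent.eq_or_commutator_eq_bot hL hL' with h | h
    · exact absurd h.symm hne
    · exact h
  rw [Subgroup.commutator_eq_bot_iff_le_centralizer] at hcm
  have hel : ∀ x ∈ L, ∀ z ∈ L, Commute (d * x * d⁻¹) z := by
    intro x hx z hz
    have h1 := hcm hz
    rw [Subgroup.mem_centralizer_iff] at h1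
    exact h1 (d * x * d⁻¹) ⟨x, hx, rfl⟩
  have hdi := inv_eq hT hd
  have hpow : ∀ x ∈ L, (∀ z ∈ L, Commute (x ^ 2) z) ∨ (∀ z ∈ L, Commute (x ^ 3) z) := by
    intro x hx
    have hux : Commute (d * x * d⁻¹) x⁻¹ := hel x hx _ (L.inv_mem hx)
    have e1 : d * (x * d * x⁻¹) = (d * x * d⁻¹) * x⁻¹ := by rw [hdi]; group
    have key : ∀ k : ℕ, (d * (x * d * x⁻¹)) ^ k = 1 → ∀ z ∈ L, Commute (x ^ k) z := by
      intro k hk z hz
      rw [e1, hux.mul_pow, inv_pow, mul_inv_eq_one] at hk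
      rw [← hk, conj_pow]
      exact hel (x ^ k) (L.pow_mem hx k) z hz
    rcases hT.2 d hd _ (hc x d hd) with h | h
    · exact Or.inl (key 2 h)
    · exact Or.inr (key 3 h)
  have hQ : ∀ q : ↥L ⧸ Subgroup.center ↥L, q ^ 2 = 1 ∨ q ^ 3 = 1 := by
    intro q
    obtain ⟨x, rfl⟩ := QuotientGroup.mk_surjective q
    have hcen : ∀ k : ℕ, (∀ z ∈ L, Commute ((x : G) ^ k) z) →
        ((x : ↥L ⧸ Subgroup.center ↥L)) ^ k = 1 := by
      intro k hk
      rw [← QuotientGroup.mk_pow, QuotientGroup.eq_one_iff, Subgroup.mem_center_iff]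
      intro z
      apply Subtype.ext
      show (z : G) * (x : G) ^ k = (x : G) ^ k * z
      exact (hk z z.2).eq.symm
    rcases hpow x x.2 with h | h
    · exact Or.inl (hcen 2 h)
    · exact Or.inr (hcen 3 h)
  have hcard : ∃ a b : ℕ, Nat.card (↥L ⧸ Subgroup.center ↥L) = 2 ^ a * 3 ^ b := by
    apply card_two_three Nat.card_pos.ne'
    intro p hp hpd
    haveI : Fact p.Prime := ⟨hp⟩
    obtain ⟨q, hq⟩ := exists_prime_orderOf_dvd_card' p hpd
    rcases hQ q with h | h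
    · left
      have := orderOf_dvd_of_pow_eq_one h
      rw [hq] at this
      exact (Nat.prime_dvd_prime_iff_eq hp Nat.prime_two).mp this
    · right
      have := orderOf_dvd_of_pow_eq_one h
      rw [hq] at this
      exact (Nat.prime_dvd_prime_iff_eq hp Nat.prime_three).mp this
  obtain ⟨a, b, hab⟩ := hcard
  haveI hsQ : Group.IsSolvable (↥L ⧸ Subgroup.center ↥L) :=
    Cfsg.Agent.S0144.result 2 3 a b Nat.prime_two Nat.prime_three hab
  apply IsComponent.not_isSolvable hL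
  haveI : Group.IsSolvable (Subgroup.center ↥L) :=
    Group.isSolvable_of_comm (fun a b => Subtype.ext (Subgroup.mem_center_iff.mp b.2 a.1))
  exact Group.isSolvable_of_ker_le_range (Subgroup.center ↥L).subtype
    (QuotientGroup.mk' (Subgroup.center ↥L)) (by simp)

theorem comp_normal [Finite G] (hT : Cfsg.IsThreeTranspositionSet D)
    (hc : ∀ g : G, ∀ d ∈ D, g * d * g⁻¹ ∈ D) (hgen : Subgroup.closure D = ⊤)
    {L : Subgroup G} (hL : Cfsg.IsComponent L) : L.Normal := by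
  rw [← Subgroup.normalizer_eq_top_iff, eq_top_iff, ← hgen, Subgroup.closure_le]
  intro d hd
  apply Subgroup.mem_normalizer_fintype
  intro n hn
  have h1 : d * n * d⁻¹ ∈ L.map (MulAut.conj d).toMonoidHom := ⟨n, hn, rfl⟩
  rw [norm_comp hT hc hL hd] at h1
  exact h1

theorem noncentral [Finite G] (hgen : Subgroup.closure D = ⊤)
    (hconj : ∀ a ∈ D, ∀ b ∈ D, ∃ g : G, b = g * a * g⁻¹) {L : Subgroup G}
    (hL : Cfsg.IsComponent L) (hLn : L.Normal) {d : G} (hd : d ∈ D) :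
    ∃ x ∈ L, ¬ Commute d x := by
  by_contra hcon
  push Not at hcon
  have h1 := le_center hgen (all_commute hconj hLn hd hcon)
  exact IsComponent.not_isSolvable hL (isSolvable_of_le h1
    (Group.isSolvable_of_comm (fun a b => Subtype.ext (Subgroup.mem_center_iff.mp b.2 a.1))))

theorem comp_unique [Finite G] (hT : Cfsg.IsThreeTranspositionSet D)
    (hc : ∀ g : G, ∀ d ∈ D, g * d * g⁻¹ ∈ D) (hgen : Subgroup.closure D = ⊤)
    (hconj : ∀ a ∈ D, ∀ b ∈ D, ∃ g : G, b = g * a * g⁻¹) {L K : Subgroup G}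
    (hL : Cfsg.IsComponent L) (hK : Cfsg.IsComponent K) {d : G} (hd : d ∈ D) : L = K := by
  rcases IsComponent.eq_or_commutator_eq_bot hL hK with h | hcm
  · exact h
  exfalso
  have hLn := comp_normal hT hc hgen hL
  have hKn := comp_normal hT hc hgen hK
  rw [Subgroup.commutator_eq_bot_iff_le_centralizer] at hcm
  have hXY : ∀ x ∈ L, ∀ y ∈ K, Commute x y := by
    intro x hx y hy
    have h1 := hcm hx
    rw [Subgroup.mem_centralizer_iff] at h1
    exact (h1 y hy).symm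
  obtain ⟨x, hx, hnc⟩ := noncentral hgen hconj hL hLn hd
  obtain ⟨y₀, hy₀, hnc'⟩ := noncentral hgen hconj hK hKn hd
  have ha1 : d * (x * d * x⁻¹) ≠ 1 := fun h => hnc (commute_of_eq_one hT hd h)
  have ha := memX hT hLn hd hx
  have tr : ∀ m n : ℕ, Nat.Coprime m n →
      (∀ a ∈ D, ∀ b ∈ D, (a * b) ^ m = 1 ∨ (a * b) ^ n = 1) →
      (d * (x * d * x⁻¹)) ^ m = 1 → ∀ y ∈ K, (d * (y * d * y⁻¹)) ^ m = 1 := by
    intro m n hmn h23 ham y hy
    apply order_transfer (hXY _ ha _ (memX hT hKn hd hy)) hmn ham ha1 (h23 d hd _ (hc y d hd))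
    rw [prod_eq hT hKn hXY hd hx hy]
    exact h23 d hd _ (hc (x * y) d hd)
  rcases hT.2 d hd _ (hc x d hd) with h | h
  · exact hnc' (commute' hK (solv2' hKn hT hc hd (tr 2 3 (by norm_num) hT.2 h)) y₀ hy₀)
  · exact hnc' (commute' hK (solv3' hKn hT hc hd (tr 3 2 (by norm_num)
      (fun a ha b hb => (hT.2 a ha b hb).symm) h)) y₀ hy₀)

theorem final [Finite G] (hT : Cfsg.IsThreeTranspositionSet D)
    (hc : ∀ g : G, ∀ d ∈ D, g * d * g⁻¹ ∈ D) (hgen : Subgroup.closure D = ⊤)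
    (hconj : ∀ a ∈ D, ∀ b ∈ D, ∃ g : G, b = g * a * g⁻¹) {L : Subgroup G}
    (hL : Cfsg.IsComponent L) (hLn : L.Normal) {a b : G} (ha : a ∈ D) (hb : b ∈ D)
    (hab : a * b * a⁻¹ * b⁻¹ ∈ L) : a⁻¹ * b ∈ L := by
  by_contra hn
  have hai := inv_eq hT ha
  have hbi := inv_eq hT hb
  haveI := hLn
  have h1 : ∀ x ∈ L, Commute b (x * a * x⁻¹) := by
    intro x hx
    by_contra hnc
    have h3 := cube_of_not_commute hT hb (hc x a ha) hnc
    have q1 : ((b * (x * a * x⁻¹) : G) : G ⧸ L) = ((b * a : G) : G ⧸ L) := by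
      rw [QuotientGroup.eq]
      have : (b * (x * a * x⁻¹))⁻¹ * (b * a) = x * (a⁻¹ * x⁻¹ * a⁻¹⁻¹) := by group
      rw [this]
      exact L.mul_mem hx (hLn.conj_mem _ (L.inv_mem hx) _)
    have q3 : ((b * a : G) : G ⧸ L) ^ 3 = 1 := by
      rw [← q1, ← QuotientGroup.mk_pow, h3, QuotientGroup.mk_one]
    have q2 : ((b * a : G) : G ⧸ L) ^ 2 = 1 := by
      rw [← QuotientGroup.mk_pow, QuotientGroup.eq_one_iff]
      have : (b * a) ^ 2 = (a * b * a⁻¹ * b⁻¹)⁻¹ := by
        have e : (a * b * a⁻¹ * b⁻¹)⁻¹ = b * a * b⁻¹ * a⁻¹ := by group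
        rw [e, hai, hbi, pow_two]; group
      rw [this]; exact L.inv_mem hab
    have q0 : ((b * a : G) : G ⧸ L) = 1 := eq_one_of_pow_coprime (by norm_num) q2 q3
    rw [QuotientGroup.eq_one_iff] at q0
    apply hn
    have : a⁻¹ * b = (b * a)⁻¹ := by rw [mul_inv_rev, hbi]
    rw [this]; exact L.inv_mem q0
  set Wb : Set G := {w | ∃ y ∈ L, w = y * b * y⁻¹} with hWb
  set C := L ⊓ Subgroup.centralizer Wb with hC
  have hcx : ∀ x ∈ L, a * (x * a * x⁻¹) ∈ C := by
    intro x hx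
    refine Subgroup.mem_inf.mpr ⟨memX hT hLn ha hx, ?_⟩
    rw [Subgroup.mem_centralizer_iff]
    rintro w ⟨y, hy, rfl⟩
    have g1 : ∀ z ∈ L, Commute (y * b * y⁻¹) (z * a * z⁻¹) := by
      intro z hz
      have h5 := h1 (y⁻¹ * z) (L.mul_mem (L.inv_mem hy) hz)
      have e : z * a * z⁻¹ = y * ((y⁻¹ * z) * a * (y⁻¹ * z)⁻¹) * y⁻¹ := by group
      rw [e, Commute.conj_iff]; exact h5
    have g2 : Commute (y * b * y⁻¹) a := by simpa using g1 1 L.one_mem
    exact (g2.mul_right (g1 x hx)).eq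
  have hCn : (C.subgroupOf L).Normal := by
    constructor
    intro n hn g
    rw [Subgroup.mem_subgroupOf] at hn ⊢
    refine Subgroup.mem_inf.mpr ⟨(g * n * g⁻¹).2, ?_⟩
    rw [Subgroup.mem_centralizer_iff]
    rintro w ⟨y, hy, rfl⟩
    have h5 := (Subgroup.mem_centralizer_iff.mp (Subgroup.mem_inf.mp hn).2)
      ((g : G)⁻¹ * y * b * ((g : G)⁻¹ * y)⁻¹) ⟨(g : G)⁻¹ * y, L.mul_mem (L.inv_mem g.2) hy, rfl⟩
    show y * b * y⁻¹ * ((g : G) * n * (g : G)⁻¹) = (g : G) * n * (g : G)⁻¹ * (y * b * y⁻¹)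
    calc y * b * y⁻¹ * ((g : G) * n * (g : G)⁻¹)
        = g * (((g : G)⁻¹ * y * b * ((g : G)⁻¹ * y)⁻¹) * n) * (g : G)⁻¹ := by group
      _ = g * (n * ((g : G)⁻¹ * y * b * ((g : G)⁻¹ * y)⁻¹)) * (g : G)⁻¹ := by rw [h5]
      _ = (g : G) * n * (g : G)⁻¹ * (y * b * y⁻¹) := by group
  rcases IsQuasisimple.normal_eq_top_or_le_center hL.2 _ hCn with h | h
  · rw [Subgroup.subgroupOf_eq_top] at h
    obtain ⟨y₀, hy₀, hnc⟩ := noncentral hgen hconj hL hLn hb
    apply hnc
    have h6 := (Subgroup.mem_inf.mp (h hy₀)).2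
    rw [Subgroup.mem_centralizer_iff] at h6
    exact h6 b ⟨1, L.one_mem, by simp⟩
  · have hz : ∀ g ∈ Subgroup.zpowers a, g = 1 ∨ g = a := by
      intro g hg
      obtain ⟨k, rfl⟩ := Subgroup.mem_zpowers_iff.mp hg
      rcases Int.even_or_odd' k with ⟨m, rfl | rfl⟩
      · left; rw [zpow_mul, zpow_two, mul_self hT ha, one_zpow]
      · right; rw [zpow_add, zpow_mul, zpow_two, mul_self hT ha, one_zpow, one_mul, zpow_one]
    have h6 : ⁅⁅Subgroup.zpowers a, L⁆, L⁆ = ⊥ := by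
      rw [Subgroup.commutator_eq_bot_iff_le_centralizer, Subgroup.commutator_le]
      intro g hg x hx
      rcases hz g hg with rfl | rfl
      · rw [commutatorElement_one_left]; exact Subgroup.one_mem _
      · have e : ⁅g, x⁆ = g * (x * g * x⁻¹) := by rw [commutatorElement_def, hai]; group
        rw [e, Subgroup.mem_centralizer_iff]
        intro z hz'
        have h7 := h (show (⟨g * (x * g * x⁻¹), memX hT hLn ha hx⟩ : L) ∈ C.subgroupOf L from
          (by rw [Subgroup.mem_subgroupOf]; exact hcx x hx))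
        rw [Subgroup.mem_center_iff] at h7
        exact congrArg Subtype.val (h7 ⟨z, hz'⟩)
    have h8 := commutator_eq_bot_of_perfect (IsComponent.commutator_self hL) h6
    rw [Subgroup.commutator_eq_bot_iff_le_centralizer] at h8
    obtain ⟨x₀, hx₀, hnc⟩ := noncentral hgen hconj hL hLn ha
    apply hnc
    have h9 := h8 hx₀
    rw [Subgroup.mem_centralizer_iff] at h9
    exact h9 a (Subgroup.mem_zpowers a)

/-- Let D be a conjugacy class of 3-transpositions generating the finite group G, with at least two members, and suppose the largest normal 2-subgroup and the largest normal 3-subgroup of G are both central. Then G has a quasisimple normal subgroup L such that the generalized Fitting subgroup of G is the product of L and the centre; and either L = G or the image of D in G/L has width 1, in the sense that two members of D whose commutator lies in L have the same image modulo L. -/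
theorem result {G : Type*} [Group G] [Finite G] {D : Set G} (hD : Cfsg.IsThreeTranspositionClass D) (hD2 : ∃ a ∈ D, ∃ b ∈ D, a ≠ b) (h2 : Cfsg.pCore 2 G ≤ Subgroup.center G) (h3 : Cfsg.pCore 3 G ≤ Subgroup.center G) : ∃ L : Subgroup G, L.Normal ∧ Cfsg.IsQuasisimple L ∧ Cfsg.generalizedFittingSubgroup G = L ⊔ Subgroup.center G ∧ (L = ⊤ ∨ ∀ a ∈ D, ∀ b ∈ D, a * b * a⁻¹ * b⁻¹ ∈ L → a⁻¹ * b ∈ L) := by
  have hres := Cfsg.Agent.S5351.result hD hD2
  obtain ⟨hT, ⟨d₀, hd₀, hDc⟩, hgen⟩ := hD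
  have hmem : ∀ x, x ∈ D ↔ IsConj d₀ x := by
    intro x; rw [hDc]; exact Iff.rfl
  have hc : ∀ g : G, ∀ d ∈ D, g * d * g⁻¹ ∈ D := by
    intro g x hx
    rw [hmem] at hx ⊢
    exact hx.trans (isConj_iff.mpr ⟨g, rfl⟩)
  have hconj : ∀ a ∈ D, ∀ b ∈ D, ∃ g : G, b = g * a * g⁻¹ := by
    intro a ha b hb
    have h1 : IsConj a b := ((hmem a).mp ha).symm.trans ((hmem b).mp hb)
    obtain ⟨g, hg⟩ := isConj_iff.mp h1
    exact ⟨g, hg.symm⟩
  have hE : Cfsg.layer G ≠ ⊥ := by
    rcases hres.2 with h | h | h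
    · exact absurd h2 h.1
    · exact absurd h3 h.2.1
    · exact h.2.2
  have hex : ∃ L : Subgroup G, Cfsg.IsComponent L := by
    by_contra hcon
    push Not at hcon
    exact hE (layer_eq_bot_iff.mpr hcon)
  obtain ⟨L, hL⟩ := hex
  have hLn := comp_normal hT hc hgen hL
  have hlayer : Cfsg.layer G = L := by
    apply le_antisymm
    · apply sSup_le
      intro K hK
      exact (comp_unique hT hc hgen hconj hL hK hd₀).symm.le
    · exact IsComponent.le_layer hL
  have hF : Cfsg.fittingSubgroup G ≤ Subgroup.center G := by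
    rw [Cfsg.Agent.S0009.result]
    apply iSup_le
    intro p
    have hp := p.2
    by_cases e2 : (p : ℕ) = 2
    · rw [e2]; exact h2
    · by_cases e3 : (p : ℕ) = 3
      · rw [e3]; exact h3
      · apply hres.1 _ hp
        have := hp.two_le
        omega
  refine ⟨L, hLn, hL.2, ?_, Or.inr (fun a ha b hb hab => final hT hc hgen hconj hL hLn ha hb hab)⟩
  apply le_antisymm
  · unfold Cfsg.generalizedFittingSubgroup
    rw [hlayer]
    exact sup_le_sup_left hF L
  · apply sup_le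
    · rw [← hlayer]; exact layer_le_generalizedFittingSubgroup G
    · refine le_trans ?_ Cfsg.Agent.S1265.result
      intro z hz
      rw [Subgroup.mem_centralizer_iff]
      intro h _
      exact (Subgroup.mem_center_iff.mp hz h)

end Cfsg.Agent.S5352
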