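import Cfsg.Statements.S5353
import Cfsg.Agent.S5352

set_option autoImplicit false
open Cfsg

namespace Cfsg.Agent.S5353

open Cfsg.Agent.Lib.Helper9_TT Cfsg.Agent.Lib.Helper7_Transfer Cfsg.Agent.Lib.Helper3_Comp
open Cfsg.Agent.S5351 Cfsg.Agent.S5352

variable {G : Type*} [Group G] {D : Set G}

def Stab (B : Set G) : Subgroup G where
  carrier := {g | ∀ v, v ∈ B ↔ g * v * g⁻¹ ∈ B}
  one_mem' := by intro v; simp
  mul_mem' := by
    intro g h hg hh v
    have e : g * h * v * (g * h)⁻¹ = g * (h * v * h⁻¹) * g⁻¹ := by group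
    rw [e]; exact (hh v).trans (hg _)
  inv_mem' := by
    intro g hg v
    have h1 := hg (g⁻¹ * v * g⁻¹⁻¹)
    have e : g * (g⁻¹ * v * g⁻¹⁻¹) * g⁻¹ = v := by group
    rw [e] at h1
    exact h1.symm

theorem stab_iff {B : Set G} {g : G} : g ∈ Stab B ↔ ∀ v, v ∈ B ↔ g * v * g⁻¹ ∈ B := Iff.rfl

theorem mem_stab {B : Set G}
    (hB : ∀ g : G, (fun x => g * x * g⁻¹) '' B = B ∨ Disjoint ((fun x => g * x * g⁻¹) '' B) B)
    {g u : G} (hu : u ∈ B) (hgu : g * u * g⁻¹ ∈ B) : g ∈ Stab B := by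
  rw [stab_iff]
  rcases hB g with h | h
  · intro v
    constructor
    · intro hv
      have : g * v * g⁻¹ ∈ (fun x => g * x * g⁻¹) '' B := ⟨v, hv, rfl⟩
      rwa [h] at this
    · intro hv
      rw [← h] at hv
      obtain ⟨w, hw, hwe⟩ := hv
      have : w = v := by
        have h1 : g * w * g⁻¹ = g * v * g⁻¹ := hwe
        rwa [mul_left_inj, mul_right_inj] at h1
      rw [← this]; exact hw
  · exact absurd hgu (fun h' => (Set.disjoint_left.mp h) ⟨u, hu, rfl⟩ h')

theorem prod_stab (hT : Cfsg.IsThreeTranspositionSet D)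
    (hc : ∀ g : G, ∀ d ∈ D, g * d * g⁻¹ ∈ D) {B : Set G} (hBD : B ⊆ D)
    (hB : ∀ g : G, (fun x => g * x * g⁻¹) '' B = B ∨ Disjoint ((fun x => g * x * g⁻¹) '' B) B)
    {c : G} (hcB : c ∈ B) (k : G) {b₁ b₂ : G} (h1 : b₁ ∈ B) (h2 : b₂ ∈ B) :
    (k * b₁ * k⁻¹) * (k * b₂ * k⁻¹) ∈ Stab B := by
  have hcD := hBD hcB
  have hci := inv_eq hT hcD
  have hself : ∀ b ∈ B, b ∈ Stab B := fun b hb =>
    mem_stab hB hb (by rw [mul_inv_cancel_right]; exact hb)
  have hk : k ∈ Stab B → (k * b₁ * k⁻¹) * (k * b₂ * k⁻¹) ∈ Stab B := by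
    intro hk
    exact (Stab B).mul_mem (hself _ ((stab_iff.mp hk b₁).mp h1))
      (hself _ ((stab_iff.mp hk b₂).mp h2))
  have hmix : ∀ b ∈ B, ∀ b' ∈ B, Commute (k * b * k⁻¹) c → ¬ Commute (k * b' * k⁻¹) c →
      k ∈ Stab B := by
    intro b hb b' hb' hcm hncm
    have hD' := hc k b' (hBD hb')
    have s1 : k⁻¹ * c * k ∈ Stab B := by
      apply mem_stab hB hb
      have e1 : k⁻¹ * c * k * b * (k⁻¹ * c * k)⁻¹ = k⁻¹ * (c * (k * b * k⁻¹)) * c⁻¹ * k := by
        group
      rw [e1, ← hcm.eq]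
      have e2 : k⁻¹ * (k * b * k⁻¹ * c) * c⁻¹ * k = b := by group
      rw [e2]; exact hb
    have s2 := (stab_iff.mp s1 b').mp hb'
    have hbr := braid hT hD' hcD hncm
    have s3 : (k * b' * k⁻¹)⁻¹ * k ∈ Stab B := by
      apply mem_stab hB s2
      have e1 : (k * b' * k⁻¹)⁻¹ * k * (k⁻¹ * c * k * b' * (k⁻¹ * c * k)⁻¹) *
          ((k * b' * k⁻¹)⁻¹ * k)⁻¹
          = (k * b' * k⁻¹)⁻¹ * (c * (k * b' * k⁻¹) * c⁻¹) * (k * b' * k⁻¹) := by group
      rw [e1, hci, ← hbr, inv_eq hT hD']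
      have e2 : k * b' * k⁻¹ * (k * b' * k⁻¹ * c * (k * b' * k⁻¹)) * (k * b' * k⁻¹)
          = ((k * b' * k⁻¹) * (k * b' * k⁻¹)) * c * ((k * b' * k⁻¹) * (k * b' * k⁻¹)) := by
        group
      rw [e2, mul_self hT hD', one_mul, mul_one]; exact hcB
    have e3 : ((k * b' * k⁻¹)⁻¹ * k) * b' = k := by group
    rw [← e3]; exact (Stab B).mul_mem s3 (hself b' hb')
  by_cases c1 : Commute (k * b₁ * k⁻¹) c
  · by_cases c2 : Commute (k * b₂ * k⁻¹) c
    · have s1 : k * b₁ * k⁻¹ ∈ Stab B :=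
        mem_stab hB hcB (by rw [c1.eq, mul_inv_cancel_right]; exact hcB)
      have s2 : k * b₂ * k⁻¹ ∈ Stab B :=
        mem_stab hB hcB (by rw [c2.eq, mul_inv_cancel_right]; exact hcB)
      exact (Stab B).mul_mem s1 s2
    · exact hk (hmix b₁ h1 b₂ h2 c1 c2)
  · by_cases c2 : Commute (k * b₂ * k⁻¹) c
    · exact hk (hmix b₂ h2 b₁ h1 c2 c1)
    · obtain ⟨e, he⟩ : ∃ e, e = k * b₁ * k⁻¹ := ⟨_, rfl⟩
      obtain ⟨e', he'⟩ : ∃ e', e' = k * b₂ * k⁻¹ := ⟨_, rfl⟩
      rw [← he] at c1
      rw [← he'] at c2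
      rw [← he, ← he']
      have heD : e ∈ D := by rw [he]; exact hc k b₁ (hBD h1)
      have heD' : e' ∈ D := by rw [he']; exact hc k b₂ (hBD h2)
      have hei := inv_eq hT heD
      have hei' := inv_eq hT heD'
      have br1 := braid hT heD hcD c1
      have br2 := braid hT heD' hcD c2
      have s1 : e⁻¹ * c * k ∈ Stab B := by
        apply mem_stab hB h1
        have e1 : e⁻¹ * c * k * b₁ * (e⁻¹ * c * k)⁻¹ = e⁻¹ * (c * (k * b₁ * k⁻¹) * c⁻¹) * e := by
          group
        rw [e1, ← he, hci, ← br1, hei]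
        have e2 : e * (e * c * e) * e = (e * e) * c * (e * e) := by group
        rw [e2, mul_self hT heD, one_mul, mul_one]; exact hcB
      have s2 := (stab_iff.mp s1 b₂).mp h2
      apply mem_stab hB hcB
      have e3 : e⁻¹ * c * k * b₂ * (e⁻¹ * c * k)⁻¹ = e⁻¹ * (c * (k * b₂ * k⁻¹) * c⁻¹) * e := by
        group
      rw [e3, ← he', hci, ← br2, hei] at s2
      have e4 : e * e' * c * (e * e')⁻¹ = e * (e' * c * e') * e := by
        rw [mul_inv_rev, hei, hei']; group
      rw [e4]; exact s2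

theorem prim [Finite G] (hT : Cfsg.IsThreeTranspositionSet D)
    (hc : ∀ g : G, ∀ d ∈ D, g * d * g⁻¹ ∈ D) (hgen : Subgroup.closure D = ⊤)
    (hconj : ∀ a ∈ D, ∀ b ∈ D, ∃ g : G, b = g * a * g⁻¹) {L : Subgroup G}
    (hL : Cfsg.IsComponent L) (hLn : L.Normal)
    (hZL : L ⊓ Subgroup.centralizer (L : Set G) ≤ Subgroup.center G) (hidx : L.index ≤ 2)
    {B : Set G} (hBD : B ⊆ D)
    (hB : ∀ g : G, (fun x => g * x * g⁻¹) '' B = B ∨ Disjoint ((fun x => g * x * g⁻¹) '' B) B)
    {a a' : G} (ha : a ∈ B) (ha' : a' ∈ B) (hne : a ≠ a') : ∀ d ∈ D, d ∈ B := by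
  haveI := hLn
  obtain ⟨N, hN⟩ : ∃ N, N = (Stab B).normalCore := ⟨_, rfl⟩
  haveI hNn : N.Normal := by rw [hN]; infer_instance
  obtain ⟨s, hs⟩ : ∃ s, s = a' * a := ⟨_, rfl⟩
  have hsN : s ∈ N := by
    rw [hN, hs]
    intro k
    have e : k * (a' * a) * k⁻¹ = (k * a' * k⁻¹) * (k * a * k⁻¹) := by group
    rw [e]; exact prod_stab hT hc hBD hB ha k ha' ha
  have haD := hBD ha
  have ha'D := hBD ha'
  have h0 : L.index ≠ 0 := Subgroup.index_ne_zero_of_finite
  rcases IsQuasisimple.normal_eq_top_or_le_center hL.2 (N.subgroupOf L) inferInstance with h | h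
  · rw [Subgroup.subgroupOf_eq_top] at h
    have hLS : L ≤ Stab B := by
      rw [hN] at h; exact h.trans (Subgroup.normalCore_le _)
    have haS : a ∈ Stab B := mem_stab hB ha (by rw [mul_inv_cancel_right]; exact ha)
    have hall : ∀ g : G, g ∈ Stab B := by
      intro g
      by_cases hg : g ∈ L
      · exact hLS hg
      · have haL : a ∉ L := by
          intro haL
          apply hg
          have h5 : Subgroup.closure D ≤ L := by
            rw [Subgroup.closure_le]
            intro d hd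
            obtain ⟨g', rfl⟩ := hconj a haD d hd
            exact hLn.conj_mem a haL g'
          rw [hgen] at h5
          exact h5 (Subgroup.mem_top g)
        have hi2 : L.index = 2 := by
          have h1 : L.index ≠ 1 := by
            rw [Ne, Subgroup.index_eq_one]; intro ht; apply hg; rw [ht]; exact Subgroup.mem_top g
          omega
        have h5 : a * g ∈ L := (Subgroup.mul_mem_iff_of_index_two hi2).mpr
          ⟨fun h => absurd h haL, fun h => absurd h hg⟩
        have e : a⁻¹ * (a * g) = g := by group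
        rw [← e]; exact (Stab B).mul_mem ((Stab B).inv_mem haS) (hLS h5)
    intro d hd
    obtain ⟨g, rfl⟩ := hconj a haD d hd
    exact (stab_iff.mp (hall g) a).mp ha
  · exfalso
    have h6 : ⁅⁅N, L⁆, L⁆ = ⊥ := by
      rw [Subgroup.commutator_eq_bot_iff_le_centralizer]
      intro y hy
      have hy' := Subgroup.mem_inf.mp (Subgroup.commutator_le_inf N L hy)
      rw [Subgroup.mem_centralizer_iff]
      intro z hz
      have h7 := h (show (⟨y, hy'.2⟩ : L) ∈ N.subgroupOf L from
        (by rw [Subgroup.mem_subgroupOf]; exact hy'.1))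
      rw [Subgroup.mem_center_iff] at h7
      exact congrArg Subtype.val (h7 ⟨z, hz⟩)
    have h8 := commutator_eq_bot_of_perfect (IsComponent.commutator_self hL) h6
    rw [Subgroup.commutator_eq_bot_iff_le_centralizer] at h8
    have hsL : ∀ z ∈ L, Commute s z := by
      intro z hz
      have h9 := h8 hz
      rw [Subgroup.mem_centralizer_iff] at h9
      exact h9 s hsN
    have hs1 : s ≠ 1 := by
      intro h1
      apply hne
      rw [hs] at h1
      have h5 : a' = a⁻¹ := eq_inv_of_mul_eq_one_left h1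
      rw [h5, inv_eq hT haD]
    have hex : ∃ x ∈ L, ¬ Commute a (x * a * x⁻¹) := by
      by_contra hcon
      push Not at hcon
      obtain ⟨x₀, hx₀, hnc⟩ := noncentral hgen hconj hL hLn haD
      apply hnc
      apply commute' hL (solv2' hLn hT hc haD _) x₀ hx₀
      intro y hy
      exact (commute_iff_sq (mul_self hT haD) (mul_self hT (hc y a haD))).mp (hcon y hy)
    obtain ⟨x, hx, hnc⟩ := hex
    obtain ⟨l, hl⟩ : ∃ l, l = a * (x * a * x⁻¹) := ⟨_, rfl⟩
    have hlL : l ∈ L := by rw [hl]; exact memX hT hLn haD hx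
    have hl3 : l ^ 3 = 1 := by rw [hl]; exact cube_of_not_commute hT haD (hc x a haD) hnc
    have hl2 : l ^ 2 ≠ 1 := by
      rw [hl]
      exact fun h => hnc ((commute_iff_sq (mul_self hT haD) (mul_self hT (hc x a haD))).mpr h)
    have hsl : a' * (x * a * x⁻¹) = s * l := by
      rw [hs, hl]
      calc a' * (x * a * x⁻¹) = a' * (a * a) * (x * a * x⁻¹) := by rw [mul_self hT haD, mul_one]
        _ = a' * a * (a * (x * a * x⁻¹)) := by group
    have hcomm := hsL l hlL
    have h23 := hT.2 a' ha'D _ (hc x a haD)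
    rw [hsl, hcomm.mul_pow, hcomm.mul_pow, hl3, mul_one] at h23
    have hs23 : s ^ 2 = 1 ∨ s ^ 3 = 1 := by rw [hs]; exact hT.2 a' ha'D a haD
    rcases hs23 with hs2 | hs3
    · rcases h23 with h | h
      · rw [hs2, one_mul] at h; exact hl2 h
      · exact hs1 (eq_one_of_pow_coprime (by norm_num) hs2 h)
    · have hsLm : s ∈ L := by
        have h10 := Subgroup.pow_index_mem L s
        have h12 : L.index = 1 ∨ L.index = 2 := by omega
        rcases h12 with h | h
        · rwa [h, pow_one] at h10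
        · rw [h] at h10
          have h13 : (s ^ 2) ^ 2 = s := by
            calc (s ^ 2) ^ 2 = s ^ 3 * s := by rw [← pow_mul, ← pow_succ]
              _ = s := by rw [hs3, one_mul]
          rw [← h13]; exact L.pow_mem h10 2
      have hsZ : s ∈ Subgroup.center G := hZL (Subgroup.mem_inf.mpr ⟨hsLm,
        Subgroup.mem_centralizer_iff.mpr (fun z hz => (hsL z hz).eq.symm)⟩)
      have h11 : Commute a s := Subgroup.mem_center_iff.mp hsZ a
      have h14 : Commute a (s * a⁻¹) := h11.mul_right (Commute.refl a).inv_right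
      have h15 : s * a⁻¹ = a' := by rw [hs]; group
      rw [h15] at h14
      have hs2 : s ^ 2 = 1 := by
        rw [hs]
        exact (commute_iff_sq (mul_self hT ha'D) (mul_self hT haD)).mp h14.symm
      exact hs1 (eq_one_of_pow_coprime (by norm_num) hs2 hs3)

theorem conn [Finite G] (hT : Cfsg.IsThreeTranspositionSet D)
    (hc : ∀ g : G, ∀ d ∈ D, g * d * g⁻¹ ∈ D) (hgen : Subgroup.closure D = ⊤)
    (hconj : ∀ a ∈ D, ∀ b ∈ D, ∃ g : G, b = g * a * g⁻¹) {L : Subgroup G}
    (hL : Cfsg.IsComponent L) (hLn : L.Normal) {d₀ : G} (hd₀ : d₀ ∈ D)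
    (hcon : (Cfsg.commutingGraph D).Connected) : L.index ≤ 2 := by
  haveI := hLn
  have hstep : ∀ u v : D, (Cfsg.commutingGraph D).Adj u v → (u : G)⁻¹ * v ∈ L := by
    intro u v huv
    have h1 : Commute (u : G) (v : G) := by
      rw [Cfsg.commutingGraph, SimpleGraph.fromRel_adj] at huv
      rcases huv.2 with h | h
      · exact h
      · exact h.symm
    apply final hT hc hgen hconj hL hLn u.2 v.2
    have : (u : G) * v * (u : G)⁻¹ * (v : G)⁻¹ = 1 := by rw [h1.eq]; group
    rw [this]; exact L.one_mem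
  have hwalk : ∀ u v : D, (Cfsg.commutingGraph D).Walk u v → (u : G)⁻¹ * v ∈ L := by
    intro u v w
    induction w with
    | nil => simp
    | @cons u' v' w' h p ih =>
      have h1 := hstep _ _ h
      have e : (u' : G)⁻¹ * w' = ((u' : G)⁻¹ * v') * ((v' : G)⁻¹ * w') := by group
      rw [e]; exact L.mul_mem h1 ih
  have hDsub : D ⊆ ((L ⊔ Subgroup.zpowers d₀ : Subgroup G) : Set G) := by
    intro d hd
    obtain ⟨w⟩ := hcon.preconnected ⟨d₀, hd₀⟩ ⟨d, hd⟩
    have h1 : d₀⁻¹ * d ∈ L := hwalk _ _ w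
    have e : d₀ * (d₀⁻¹ * d) = d := by group
    rw [← e]
    exact Subgroup.mul_mem _ (Subgroup.mem_sup_right (Subgroup.mem_zpowers d₀))
      (Subgroup.mem_sup_left h1)
  have htop : L ⊔ Subgroup.zpowers d₀ = ⊤ := by
    rw [eq_top_iff, ← hgen, Subgroup.closure_le]; exact hDsub
  have h1 : L.relIndex (L ⊔ Subgroup.zpowers d₀) = L.relIndex (Subgroup.zpowers d₀) :=
    Subgroup.relIndex_sup_left _ _
  rw [htop, Subgroup.relIndex_top_right] at h1
  rw [h1]
  have h2 := Subgroup.relIndex_dvd_card L (Subgroup.zpowers d₀)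
  rw [Nat.card_zpowers, hT.1 d₀ hd₀] at h2
  exact Nat.le_of_dvd (by norm_num) h2

/-- Let D be a conjugacy class of 3-transpositions generating the finite group G, with at least two members, such that the largest normal 2-subgroup and the largest normal 3-subgroup of G are central, and let L be a quasisimple normal subgroup with generalized Fitting subgroup of G equal to L times the centre. If L has index at most 2 then G acts primitively on D by conjugation; and if the commuting graph of D is connected then L has index at most 2. -/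
theorem result {G : Type*} [Group G] [Finite G] {D : Set G} (hD : Cfsg.IsThreeTranspositionClass D) (hD2 : ∃ a ∈ D, ∃ b ∈ D, a ≠ b) (h2 : Cfsg.pCore 2 G ≤ Subgroup.center G) (h3 : Cfsg.pCore 3 G ≤ Subgroup.center G) (L : Subgroup G) [L.Normal] (hL : Cfsg.IsQuasisimple L) (hF : Cfsg.generalizedFittingSubgroup G = L ⊔ Subgroup.center G) : (L.index ≤ 2 → Cfsg.IsPrimitiveUnderConj D) ∧ ((Cfsg.commutingGraph D).Connected → L.index ≤ 2) := by
  have hres := Cfsg.Agent.S5351.result hD hD2
  obtain ⟨hT, ⟨d₀, hd₀, hDc⟩, hgen⟩ := hD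
  have hmem : ∀ x, x ∈ D ↔ IsConj d₀ x := by
    intro x; rw [hDc]; exact Iff.rfl
  have hc : ∀ g : G, ∀ d ∈ D, g * d * g⁻¹ ∈ D := by
    intro g x hx
    rw [hmem] at hx ⊢
    exact hx.trans (isConj_iff.mpr ⟨g, rfl⟩)
  have hconj : ∀ a ∈ D, ∀ b ∈ D, ∃ g : G, b = g * a * g⁻¹ := by
    intro a ha b hb
    have h1 : IsConj a b := ((hmem a).mp ha).symm.trans ((hmem b).mp hb)
    obtain ⟨g, hg⟩ := isConj_iff.mp h1
    exact ⟨g, hg.symm⟩
  have hLn : L.Normal := inferInstance
  have hLc : Cfsg.IsComponent L := ⟨hLn.isSubnormal, hL⟩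
  have hFit : Cfsg.fittingSubgroup G ≤ Subgroup.center G := by
    rw [Cfsg.Agent.S0009.result]
    apply iSup_le
    intro p
    have hp := p.2
    by_cases e2 : (p : ℕ) = 2
    · rw [e2]; exact h2
    · by_cases e3 : (p : ℕ) = 3
      · rw [e3]; exact h3
      · apply hres.1 _ hp
        have := hp.two_le
        omega
  have hZL : L ⊓ Subgroup.centralizer (L : Set G) ≤ Subgroup.center G := by
    rw [← center_map_subtype]
    have h1 : ((Subgroup.center ↥L).map L.subtype).Normal := inferInstance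
    refine le_trans (subnormal_le_fittingSubgroup h1.isSubnormal ?_) hFit
    apply isNilpotent_of_commutator_self_eq_bot
    rw [center_map_subtype, Subgroup.commutator_eq_bot_iff_le_centralizer]
    exact inf_le_right.trans (Subgroup.centralizer_le inf_le_left)
  constructor
  · intro hidx
    refine ⟨fun a ha b hb => ?_, hD2, ?_⟩
    · obtain ⟨g, hg⟩ := hconj a ha b hb
      exact ⟨g, hg.symm⟩
    · intro B hBD hB
      by_cases hsub : B.Subsingleton
      · exact Or.inl hsub
      · right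
        rw [Set.not_subsingleton_iff] at hsub
        obtain ⟨a, ha, a', ha', hne⟩ := hsub
        exact Set.Subset.antisymm hBD
          (fun d hd => prim hT hc hgen hconj hLc hLn hZL hidx hBD hB ha ha' hne d hd)
  · intro hcon
    exact conn hT hc hgen hconj hLc hLn hd₀ hcon

end Cfsg.Agent.S5353
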