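import Cfsg.Statements.S5358
import Cfsg.Agent.Lib.Helper2_Quad

set_option autoImplicit false
open Cfsg

namespace Cfsg.Agent.S5358

open Cfsg.Agent.Lib.Helper2_Quad Matrix

/-- Let Q be a non-degenerate quadratic form on the n-dimensional coordinate space over the field with three elements and u, v vectors of the same non-zero norm Q(u) = Q(v) spanning different lines (v ≠ u and v ≠ −u). Then the reflection matrices of u and v commute if and only if u and v are orthogonal for the polar form of Q. -/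
theorem result (n : ℕ) (Q : QuadraticForm (ZMod 3) (Fin n → ZMod 3)) (hQ : (QuadraticMap.polarBilin Q).Nondegenerate) (u v : Fin n → ZMod 3) (hu : Q u ≠ 0) (huv : Q u = Q v) (h1 : v ≠ u) (h2 : v ≠ -u) : Commute (Cfsg.reflectionMatrix (⇑Q) u) (Cfsg.reflectionMatrix (⇑Q) v) ↔ QuadraticMap.polar (⇑Q) u v = 0 := by
  set f := QuadraticMap.polar (⇑Q) u v with hf
  have hfs : QuadraticMap.polar (⇑Q) v u = f := QuadraticMap.polar_comm _ _ _
  have hv : Q v ≠ 0 := huv ▸ hu
  constructor
  · intro hcomm
    by_contra hne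
    set A := Cfsg.reflectionMatrix (⇑Q) u with hA
    set B := Cfsg.reflectionMatrix (⇑Q) v with hB
    have hAu : A *ᵥ u = -u := by
      rw [hA, reflection_mulVec, QuadraticMap.polar_self]
      have : (Q u)⁻¹ * (2 • Q u) = 2 := by
        rw [nsmul_eq_mul, mul_comm, mul_assoc, mul_inv_cancel₀ hu, mul_one]; rfl
      rw [this, two_smul]; abel
    have hAv : A *ᵥ v = v - ((Q u)⁻¹ * f) • u := by rw [hA, reflection_mulVec]
    have hBu : B *ᵥ u = u - ((Q v)⁻¹ * f) • v := by rw [hB, reflection_mulVec, hfs]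
    have h3 : A *ᵥ (B *ᵥ u) = B *ᵥ (A *ᵥ u) := by
      rw [Matrix.mulVec_mulVec, Matrix.mulVec_mulVec, hcomm.eq]
    rw [hBu, hAu, Matrix.mulVec_sub, Matrix.mulVec_smul, hAu, hAv, Matrix.mulVec_neg, hBu] at h3
    set α := (Q u)⁻¹ * f with hα
    set β := (Q v)⁻¹ * f with hβ
    have hα0 : α ≠ 0 := mul_ne_zero (inv_ne_zero hu) hne
    have hβ0 : β ≠ 0 := mul_ne_zero (inv_ne_zero hv) hne
    have h21 : (2 : ZMod 3) = -1 := by decide
    have h4 : ∀ i, v i = -(α * u i) := by
      intro i
      have h5 := congrFun h3 i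
      simp only [Pi.sub_apply, Pi.neg_apply, Pi.smul_apply, smul_eq_mul] at h5
      have h6 : β * (α * u i) = β * (2 * v i) := by linear_combination h5
      have h7 := mul_left_cancel₀ hβ0 h6
      rw [h21] at h7
      linear_combination h7
    have key : ∀ x : ZMod 3, x = 0 ∨ x = 1 ∨ x = -1 := by decide
    rcases key α with h | h | h
    · exact hα0 h
    · apply h2
      funext i
      rw [h4 i, h, one_mul]; rfl
    · apply h1
      funext i
      rw [h4 i, h]; ring
  · intro h0
    unfold Cfsg.reflectionMatrix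
    have hUV : vecMulVec u (polarVec (⇑Q) u) * vecMulVec v (polarVec (⇑Q) v) = 0 := by
      rw [vecMulVec_mul_vecMulVec, polarVec_dot, ← hf, h0, zero_smul]
      ext i j; simp [vecMulVec]
    have hVU : vecMulVec v (polarVec (⇑Q) v) * vecMulVec u (polarVec (⇑Q) u) = 0 := by
      rw [vecMulVec_mul_vecMulVec, polarVec_dot, hfs, h0, zero_smul]
      ext i j; simp [vecMulVec]
    have hc : Commute (vecMulVec u (polarVec (⇑Q) u)) (vecMulVec v (polarVec (⇑Q) v)) := by
      rw [Commute, SemiconjBy, hUV, hVU]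
    have hc1 := (hc.smul_left (Q u)⁻¹).smul_right (Q v)⁻¹
    exact Commute.sub_left (Commute.one_left _) (Commute.sub_right (Commute.one_right _) hc1)

end Cfsg.Agent.S5358
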