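import Cfsg.Statements.S5363
import Cfsg.Agent.Lib.Helper9_TT

set_option autoImplicit false
open Cfsg

namespace Cfsg.Agent.S5363

/-- Let D be a conjugation-invariant set of involutions of a finite group G. Then every product of two members of D has odd order or order 2 if and only if, for every a in D and every b in D different from a and commuting with a, the members of D commuting with a b are exactly those commuting with both a and b. -/
theorem result {G : Type*} [Group G] [Finite G] {D : Set G} (hinv : ∀ d ∈ D, orderOf d = 2) (hconj : ∀ g : G, ∀ d ∈ D, g * d * g⁻¹ ∈ D) : (∀ a ∈ D, ∀ b ∈ D, Odd (orderOf (a * b)) ∨ orderOf (a * b) = 2) ↔ ∀ a ∈ D, ∀ b ∈ D, b ≠ a → Commute a b → {y : G | y ∈ D ∧ Commute (a * b) y} = {y : G | y ∈ D ∧ Commute a y} ∩ {y : G | y ∈ D ∧ Commute b y} := by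
  have hsq : ∀ d ∈ D, d * d = 1 := fun d hd => Cfsg.Agent.Lib.Helper9_TT.mul_self_of_order (hinv d hd)
  have hin : ∀ d ∈ D, d⁻¹ = d := fun d hd => Cfsg.Agent.Lib.Helper9_TT.inv_of_order (hinv d hd)
  constructor
  · intro h a ha b hb hba hab
    ext y
    constructor
    · rintro ⟨hy, hzy⟩
      have hza : Commute (a * b) a := (Commute.refl a).mul_left hab.symm
      have hbz : b = a * (a * b) := by rw [← mul_assoc, hsq a ha, one_mul]
      have key : Commute a y := by
        rcases h a ha y hy with hodd | h2
        · have hz2 : orderOf (a * b) = 2 := by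
            apply orderOf_eq_prime
            · rw [hab.mul_pow, pow_two, pow_two, hsq a ha, hsq b hb, one_mul]
            · intro h1
              apply hba
              have := eq_inv_of_mul_eq_one_right h1
              rw [this, hin a ha]
          have hcomm : Commute (a * b) (a * y) := hza.mul_right hzy
          have hcop : Nat.Coprime (orderOf (a * b)) (orderOf (a * y)) := by
            rw [hz2]
            exact (Nat.coprime_two_left).2 hodd
          have hord := hcomm.orderOf_mul_eq_mul_orderOf_of_coprime hcop
          have hby : (a * b) * (a * y) = b * y := by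
            rw [← mul_assoc, hza.eq, ← mul_assoc, hsq a ha, one_mul]
          rw [hby, hz2] at hord
          rcases h b hb y hy with ho | h2
          · rw [hord] at ho
            exact absurd ho (by simp)
          · rw [hord] at h2
            have h1 : orderOf (a * y) = 1 := by omega
            rw [orderOf_eq_one_iff] at h1
            have : y = a := by
              have := eq_inv_of_mul_eq_one_right h1
              rw [this, hin a ha]
            rw [this]
        · apply (Cfsg.Agent.Lib.Helper9_TT.commute_iff_sq (hsq a ha) (hsq y hy)).2
          rw [← h2]; exact pow_orderOf_eq_one _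
      refine ⟨⟨hy, key⟩, hy, ?_⟩
      rw [hbz]
      exact key.mul_left hzy
    · rintro ⟨⟨hy, h1⟩, _, h2⟩
      exact ⟨hy, h1.mul_left h2⟩
  · intro h a ha b hb
    rcases Nat.even_or_odd (orderOf (a * b)) with he | ho
    · right
      obtain ⟨k, hk⟩ := he
      have hpos : 0 < orderOf (a * b) := orderOf_pos _
      have hk0 : 0 < k := by omega
      set x := a * b with hx
      have hax : ∀ j : ℕ, a * x ^ j = (x⁻¹) ^ j * a := by
        intro j
        induction j with
        | zero => simp
        | succ j ih =>
          rw [pow_succ, ← mul_assoc, ih, pow_succ, mul_assoc, mul_assoc]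
          congr 1
          rw [hx, mul_inv_rev, hin a ha, hin b hb, ← mul_assoc, hsq a ha, one_mul, mul_assoc, hsq a ha, mul_one]
      have hbx : ∀ j : ℕ, b * x ^ j = (x⁻¹) ^ j * b := by
        intro j
        induction j with
        | zero => simp
        | succ j ih =>
          rw [pow_succ, ← mul_assoc, ih, pow_succ, mul_assoc, mul_assoc]
          congr 1
          rw [hx, mul_inv_rev, hin a ha, hin b hb, mul_assoc]
      set z := x ^ k with hz
      have hzz : z * z = 1 := by
        rw [hz, ← pow_add, ← hk]; exact pow_orderOf_eq_one _
      have hz1 : z ≠ 1 := by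
        intro h1
        have := orderOf_le_of_pow_eq_one hk0 h1
        omega
      have hzinv : (x⁻¹) ^ k = z := by
        rw [inv_pow]; exact inv_eq_of_mul_eq_one_left hzz
      have haz : Commute a z := by
        show a * z = z * a
        rw [hz, hax k, hzinv]
      have hbz : Commute b z := by
        show b * z = z * b
        rw [hz, hbx k, hzinv]
      have hcD : a * z ∈ D := by
        rcases Nat.even_or_odd k with ⟨j, hj⟩ | ⟨j, hj⟩
        · have : a * z = (x⁻¹) ^ j * a * ((x⁻¹) ^ j)⁻¹ := by
            rw [hz, hj, pow_add, ← mul_assoc, hax j, inv_pow, inv_inv]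
          rw [this]
          exact hconj _ _ ha
        · have : a * z = (x⁻¹) ^ j * b * ((x⁻¹) ^ j)⁻¹ := by
            have h1 : x ^ k = x ^ j * x * x ^ j := by
              rw [hj, ← pow_succ, ← pow_add]; congr 1; omega
            rw [hz, h1, ← mul_assoc, ← mul_assoc, hax j, inv_pow, inv_inv]
            congr 1
            rw [mul_assoc]
            congr 1
            rw [hx, ← mul_assoc, hsq a ha, one_mul]
          rw [this]
          exact hconj _ _ hb
      have hca : a * z ≠ a := by
        intro h1
        exact hz1 (mul_eq_left.1 h1)
      have hcomm : Commute a (a * z) := (Commute.refl a).mul_right haz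
      have hset := h a ha (a * z) hcD hca hcomm
      have hb1 : b ∈ {y : G | y ∈ D ∧ Commute (a * (a * z)) y} := by
        refine ⟨hb, ?_⟩
        rw [← mul_assoc, hsq a ha, one_mul]
        exact hbz.symm
      rw [hset] at hb1
      have hab : Commute a b := hb1.1.2
      have h2 : x ^ 2 = 1 := (Cfsg.Agent.Lib.Helper9_TT.commute_iff_sq (hsq a ha) (hsq b hb)).1 hab
      have := orderOf_le_of_pow_eq_one (by norm_num) h2
      omega
    · left; exact ho

end Cfsg.Agent.S5363
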