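import Cfsg.Statements.S5364
import Cfsg.Agent.Lib.Helper9_TT

set_option autoImplicit false
open Cfsg

namespace Cfsg.Agent.S5364

/-- Let D be a conjugation-invariant set of involutions of a finite group G and t an involution in the centre of G such that d t does not lie in D for any d in D. If the images of the members of D in G modulo the subgroup generated by t satisfy the 3-transposition order conditions (each has order 2 and any two have product of order at most 3), then so do the members of D. -/
theorem result {G : Type*} [Group G] [Finite G] {D : Set G} (hinv : ∀ d ∈ D, orderOf d = 2) (hconj : ∀ g : G, ∀ d ∈ D, g * d * g⁻¹ ∈ D) (t : G) (ht : orderOf t = 2) (htZ : t ∈ Subgroup.center G) (hDt : ∀ d ∈ D, d * t ∉ D) [(Subgroup.zpowers t).Normal] (himg : Cfsg.IsThreeTranspositionSet ((QuotientGroup.mk : G → G ⧸ Subgroup.zpowers t) '' D)) : Cfsg.IsThreeTranspositionSet D := by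
  have hsq : ∀ d ∈ D, d * d = 1 := fun d hd => Cfsg.Agent.Lib.Helper9_TT.mul_self_of_order (hinv d hd)
  have hin : ∀ d ∈ D, d⁻¹ = d := fun d hd => Cfsg.Agent.Lib.Helper9_TT.inv_of_order (hinv d hd)
  have htt : t * t = 1 := Cfsg.Agent.Lib.Helper9_TT.mul_self_of_order ht
  have hmem : ∀ x : G, x ∈ Subgroup.zpowers t → x = 1 ∨ x = t := by
    intro x hx
    rw [← mem_powers_iff_mem_zpowers] at hx
    obtain ⟨n, rfl⟩ := hx
    rcases Nat.even_or_odd n with ⟨j, hj⟩ | ⟨j, hj⟩
    · left
      show t ^ n = 1
      rw [hj, ← two_mul, pow_mul, pow_two, htt, one_pow]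
    · right
      show t ^ n = t
      rw [hj, pow_succ, pow_mul, pow_two, htt, one_pow, one_mul]
  have htc : ∀ x : G, t * x = x * t := fun x => ((Subgroup.mem_center_iff.1 htZ) x).symm
  refine ⟨hinv, ?_⟩
  intro d hd e he
  rcases himg.2 _ ⟨d, hd, rfl⟩ _ ⟨e, he, rfl⟩ with h | h
  · have h1 : (((d * e) ^ 2 : G) : G ⧸ Subgroup.zpowers t) = 1 := h
    rw [QuotientGroup.eq_one_iff] at h1
    rcases hmem _ h1 with h2 | h2
    · left; exact h2
    · exfalso
      apply hDt e he
      have : e * t = d * e * d⁻¹ := by
        rw [← htc e, ← h2, hin d hd, pow_two]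
        rw [mul_assoc (d * e), mul_assoc d e e, hsq e he, mul_one]
      rw [this]
      exact hconj d e he
  · have h1 : (((d * e) ^ 3 : G) : G ⧸ Subgroup.zpowers t) = 1 := h
    rw [QuotientGroup.eq_one_iff] at h1
    rcases hmem _ h1 with h2 | h2
    · right; exact h2
    · exfalso
      apply hDt e he
      have : e * t = (d * e) * d * (d * e)⁻¹ := by
        rw [← htc e, ← h2, mul_inv_rev, hin d hd, hin e he]
        have : (d * e) ^ 3 * e = d * e * d * e * d * (e * e) := by
          simp only [pow_succ, pow_zero, one_mul, mul_assoc]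
        rw [this, hsq e he, mul_one]
        simp only [mul_assoc]
      rw [this]
      exact hconj _ d hd

end Cfsg.Agent.S5364
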