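import Cfsg.Statements.S5394
import Cfsg.Agent.Lib.Helper3_ConjB

set_option autoImplicit false
open Cfsg

namespace Cfsg.Agent.S5394

/-- The automorphism group of the length-24 code built from the squares modulo 23 has exactly two conjugacy classes of involutions: an involution either fixes exactly the eight points of an octad or has no fixed points, both kinds occur, and any two involutions of the same kind are conjugate in the group. -/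
theorem result : (∀ g ∈ Cfsg.M24, orderOf g = 2 → (Finset.univ.filter fun p => g p = p) ∈ Cfsg.octads ∨ ∀ p, g p ≠ p) ∧ (∃ g ∈ Cfsg.M24, orderOf g = 2 ∧ (Finset.univ.filter fun p => g p = p) ∈ Cfsg.octads) ∧ (∃ g ∈ Cfsg.M24, orderOf g = 2 ∧ ∀ p, g p ≠ p) ∧ ∀ g ∈ Cfsg.M24, ∀ h ∈ Cfsg.M24, orderOf g = 2 → orderOf h = 2 → ((∀ p, g p ≠ p) ↔ (∀ p, h p ≠ p)) → ∃ k ∈ Cfsg.M24, k * g * k⁻¹ = h := by
  refine ⟨?_, ⟨_, Cfsg.Agent.Lib.Helper3_ConjB.m2A, Cfsg.Agent.Lib.Helper3_ConjB.o2A,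
    Cfsg.Agent.Lib.Helper3_ConjB.fix2A⟩, ⟨_, Cfsg.Agent.Lib.Helper3_ConjB.m2B,
    Cfsg.Agent.Lib.Helper3_ConjB.o2B, Cfsg.Agent.Lib.Helper3_ConjB.free2B⟩, ?_⟩
  · intro g hg h2
    by_cases hx : ∃ p, g p = p
    · left
      obtain ⟨c, hc, hcc⟩ := Cfsg.Agent.Lib.Helper3_ConjB.inv_fixed_nf hg h2 hx
      rw [Cfsg.Agent.Lib.Helper3_ConjB.fix_conj hcc]
      exact Cfsg.Agent.Lib.Helper3_M24a.smul_mem_octads (Cfsg.M24.inv_mem hc)
        Cfsg.Agent.Lib.Helper3_ConjB.fix2A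
    · right
      push Not at hx
      exact hx
  · intro g hg h hh hg2 hh2 hiff
    have key : ∀ (c1 c2 t : Equiv.Perm Cfsg.GolayPt), c1 ∈ Cfsg.M24 → c2 ∈ Cfsg.M24 →
        c1 * g * c1⁻¹ = t → c2 * h * c2⁻¹ = t → ∃ k ∈ Cfsg.M24, k * g * k⁻¹ = h := by
      intro c1 c2 t h1 h2 e1 e2
      refine ⟨c2⁻¹ * c1, Cfsg.M24.mul_mem (Cfsg.M24.inv_mem h2) h1, ?_⟩
      have : c2⁻¹ * c1 * g * (c2⁻¹ * c1)⁻¹ = c2⁻¹ * (c1 * g * c1⁻¹) * c2 := by group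
      rw [this, e1, ← e2]
      group
    by_cases hf : ∀ p, g p ≠ p
    · obtain ⟨c1, h1, e1⟩ := Cfsg.Agent.Lib.Helper3_ConjB.inv_free_nf hg hg2 hf
      obtain ⟨c2, h2, e2⟩ := Cfsg.Agent.Lib.Helper3_ConjB.inv_free_nf hh hh2 (hiff.mp hf)
      exact key c1 c2 _ h1 h2 e1 e2
    · have hf' : ¬ ∀ p, h p ≠ p := fun hc => hf (hiff.mpr hc)
      push Not at hf hf'
      obtain ⟨c1, h1, e1⟩ := Cfsg.Agent.Lib.Helper3_ConjB.inv_fixed_nf hg hg2 hf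
      obtain ⟨c2, h2, e2⟩ := Cfsg.Agent.Lib.Helper3_ConjB.inv_fixed_nf hh hh2 hf'
      exact key c1 c2 _ h1 h2 e1 e2

end Cfsg.Agent.S5394
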