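import Cfsg.Statements.S5420


set_option autoImplicit false
open Cfsg

namespace Cfsg.Agent.S5420

/-- Let Q be an extraspecial 2-subgroup of the finite group G whose centralizer in G is its centre Z and which is normal in the centralizer of Z. If Z lies in the largest normal 2-subgroup of G, then Q is a large extraspecial 2-subgroup of G: it normalizes no non-trivial subgroup of G of odd order. -/
theorem result {G : Type*} [Group G] [Finite G] (Q : Subgroup G) (hL1 : Cfsg.IsExtraspecial 2 ↥Q) (hL2 : Subgroup.centralizer (Q : Set G) = ((Subgroup.center ↥Q).map Q.subtype)) (hL3 : Subgroup.centralizer (((Subgroup.center ↥Q).map Q.subtype) : Set G) ≤ Subgroup.normalizer (Q : Set G)) (hZ : ((Subgroup.center ↥Q).map Q.subtype) ≤ Cfsg.pCore 2 G) : Cfsg.IsLargeExtraspecial Q := by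
  refine ⟨hL1, hL2, hL3, ?_⟩
  intro K hK hQK
  have hO2n : (Cfsg.pCore 2 G).Normal := Subgroup.sSup_normal _ (fun _ h => h.1)
  have hO2p : IsPGroup 2 (Cfsg.pCore 2 G) := Sylow.sSup_of_normal _ (fun _ h => h.2) (fun _ h => h.1)
  have hQp : IsPGroup 2 Q := hL1.1.1
  -- an odd order subgroup meets a 2-subgroup trivially
  have htriv : ∀ T : Subgroup G, IsPGroup 2 T → ∀ x ∈ K, x ∈ T → x = 1 := by
    intro T hT x hxK hxT
    obtain ⟨n, hn⟩ := hT ⟨x, hxT⟩
    have hn' : x ^ (2 ^ n) = 1 := by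
      have := congrArg (fun t : T => (t : G)) hn
      simpa using this
    have h1 : orderOf x ∣ 2 ^ n := orderOf_dvd_of_pow_eq_one hn'
    have h2 : orderOf x ∣ Nat.card K := by
      have := orderOf_dvd_natCard (⟨x, hxK⟩ : K)
      rwa [Subgroup.orderOf_mk] at this
    have hcop : Nat.Coprime (2 ^ n) (Nat.card K) := by
      apply Nat.Coprime.pow_left
      exact (Nat.coprime_two_left).2 hK
    exact orderOf_eq_one_iff.1 (Nat.eq_one_of_dvd_coprimes hcop h1 h2)
  set Z := (Subgroup.center ↥Q).map Q.subtype with hZdef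
  have hZQ : Z ≤ Q := Subgroup.map_subtype_le _
  -- K centralizes Z
  have h1 : K ≤ Subgroup.centralizer (Z : Set G) := by
    intro k hk
    rw [Subgroup.mem_centralizer_iff]
    intro z hz
    have hzK : z * k * z⁻¹ ∈ K := (Subgroup.mem_normalizer_iff.1 (hQK (hZQ hz)) k).1 hk
    have e1 : z * k * z⁻¹ * k⁻¹ ∈ K := K.mul_mem hzK (K.inv_mem hk)
    have e2 : z * k * z⁻¹ * k⁻¹ ∈ Cfsg.pCore 2 G := by
      have h3 : k * z⁻¹ * k⁻¹ ∈ Cfsg.pCore 2 G := hO2n.conj_mem _ ((Cfsg.pCore 2 G).inv_mem (hZ hz)) k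
      have := (Cfsg.pCore 2 G).mul_mem (hZ hz) h3
      have e : z * (k * z⁻¹ * k⁻¹) = z * k * z⁻¹ * k⁻¹ := by group
      rwa [e] at this
    have := htriv _ hO2p _ e1 e2
    calc z * k = (z * k * z⁻¹ * k⁻¹) * (k * z) := by group
      _ = k * z := by rw [this, one_mul]
  have h2 : K ≤ Subgroup.normalizer (Q : Set G) := h1.trans hL3
  have h3 : K ≤ Subgroup.centralizer (Q : Set G) := by
    intro k hk
    rw [Subgroup.mem_centralizer_iff]
    intro q hq
    have hqK : q * k * q⁻¹ ∈ K := (Subgroup.mem_normalizer_iff.1 (hQK hq) k).1 hk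
    have e1 : q * k * q⁻¹ * k⁻¹ ∈ K := K.mul_mem hqK (K.inv_mem hk)
    have e2 : q * k * q⁻¹ * k⁻¹ ∈ Q := by
      have h3 : k * q⁻¹ * k⁻¹ ∈ Q := (Subgroup.mem_normalizer_iff.1 (h2 hk) q⁻¹).1 (Q.inv_mem hq)
      have := Q.mul_mem hq h3
      have e : q * (k * q⁻¹ * k⁻¹) = q * k * q⁻¹ * k⁻¹ := by group
      rwa [e] at this
    have := htriv _ hQp _ e1 e2
    calc q * k = (q * k * q⁻¹ * k⁻¹) * (k * q) := by group
      _ = k * q := by rw [this, one_mul]
  rw [eq_bot_iff]
  intro k hk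
  have h4 : k ∈ Q := by
    have := h3 hk
    rw [hL2] at this
    exact hZQ this
  exact htriv _ hQp k hk h4

end Cfsg.Agent.S5420
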