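import Cfsg.Statements.S5433


set_option autoImplicit false
open Cfsg

namespace Cfsg.Agent.S5433

/-- Let Q be a large extraspecial 2-subgroup of the finite group G (extraspecial; centralizer equal to its centre; normal in the centralizer of its centre; normalizing no non-trivial subgroup of odd order), and L a normal subgroup of G containing Q. Then G is the product of L and the normalizer of Q. -/
theorem result {G : Type*} [Group G] [Finite G] (Q : Subgroup G) (hQ : Cfsg.IsLargeExtraspecial Q) (L : Subgroup G) [L.Normal] (hQL : Q ≤ L) : L ⊔ Subgroup.normalizer (Q : Set G) = ⊤ := by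
  obtain ⟨hE, hC, hN, -⟩ := hQ
  have : Fact (Nat.Prime 2) := ⟨Nat.prime_two⟩
  have hQp : IsPGroup 2 Q := hE.1.1
  obtain ⟨P, hP⟩ := (hQp.comap_subtype (K := L)).exists_le_sylow
  set T := (P : Subgroup L).map L.subtype with hT
  have hQT : Q ≤ T := by
    intro q hq
    exact ⟨⟨q, hQL hq⟩, hP (by simpa [Subgroup.mem_subgroupOf] using hq), rfl⟩
  have hTp : IsPGroup 2 T := P.2.map _
  have hfr := Sylow.normalizer_sup_eq_top P
  obtain ⟨y, hy1, hyu⟩ := (Nat.card_eq_two_iff' (1 : Subgroup.center Q)).1 hE.2
  set Z := (Subgroup.center ↥Q).map Q.subtype with hZ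
  have hZy : ∀ c ∈ Z, c ≠ 1 → c = ((y : Q) : G) := by
    rintro _ ⟨w, hw, rfl⟩ hne
    have := hyu ⟨w, hw⟩ (by
      intro h
      apply hne
      have h' := congrArg (fun t : Subgroup.center Q => ((t : Q) : G)) h
      simpa using h')
    have h' := congrArg (fun t : Subgroup.center Q => ((t : Q) : G)) this
    simpa using h'
  have hyZ : ((y : Q) : G) ∈ Z := ⟨y, y.2, rfl⟩
  have hyne : ((y : Q) : G) ≠ 1 := by
    intro h
    apply hy1
    apply Subtype.ext
    apply Subtype.ext
    simpa using h
  have hTnt : Nontrivial T := by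
    refine ⟨⟨⟨_, hQT (y : Q).2⟩, 1, ?_⟩⟩
    intro h
    apply hyne
    have h' := congrArg (fun t : T => (t : G)) h
    simpa using h'
  have hcn := hTp.center_nontrivial
  obtain ⟨c, hc⟩ := exists_ne (1 : Subgroup.center T)
  have hcT : ((c : T) : G) ∈ T := (c : T).2
  have hcc : ∀ t ∈ T, t * ((c : T) : G) = ((c : T) : G) * t := by
    intro t ht
    have := Subgroup.mem_center_iff.1 c.2 ⟨t, ht⟩
    exact congrArg (fun t : T => (t : G)) this
  have hcne : ((c : T) : G) ≠ 1 := by
    intro h
    apply hc
    apply Subtype.ext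
    apply Subtype.ext
    simpa using h
  have hmemZ : ∀ w : G, (∀ t ∈ T, t * w = w * t) → w ∈ Z := by
    intro w hw
    rw [← hC, Subgroup.mem_centralizer_iff]
    intro q hq
    exact hw q (hQT hq)
  have hcy : ((c : T) : G) = ((y : Q) : G) := hZy _ (hmemZ _ hcc) hcne
  have hle : Subgroup.normalizer (T : Set G) ≤ Subgroup.normalizer (Q : Set G) := by
    intro g hg
    apply hN
    rw [Subgroup.mem_centralizer_iff]
    have hgy : g * ((y : Q) : G) * g⁻¹ = ((y : Q) : G) := by
      apply hZy
      · apply hmemZ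
        intro t ht
        have ht' : g⁻¹ * t * g ∈ T := by
          have := (Subgroup.mem_normalizer_iff.1 (Subgroup.inv_mem _ hg) t).1 ht
          rwa [inv_inv] at this
        have := hcc _ ht'
        rw [hcy] at this
        calc t * (g * ((y : Q) : G) * g⁻¹) = g * ((g⁻¹ * t * g) * ((y : Q) : G)) * g⁻¹ := by group
          _ = g * (((y : Q) : G) * (g⁻¹ * t * g)) * g⁻¹ := by rw [this]
          _ = g * ((y : Q) : G) * g⁻¹ * t := by group
      · intro h
        apply hyne
        have : ((y : Q) : G) = g⁻¹ * (g * ((y : Q) : G) * g⁻¹) * g := by group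
        rw [this, h]; group
    intro z hz
    by_cases hz1 : z = 1
    · rw [hz1]; simp
    · rw [hZy z hz hz1]
      calc ((y : Q) : G) * g = (g * ((y : Q) : G) * g⁻¹) * g := by rw [hgy]
        _ = g * ((y : Q) : G) := by group
  have h2 : Subgroup.normalizer (T : Set G) ⊔ L ≤ L ⊔ Subgroup.normalizer (Q : Set G) :=
    sup_le (hle.trans le_sup_right) le_sup_left
  rw [eq_top_iff]
  exact hfr.ge.trans h2

end Cfsg.Agent.S5433
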