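import Cfsg.Statements.S5437


set_option autoImplicit false
open Cfsg

namespace Cfsg.Agent.S5437

/-- Let I be a set of involutions of the finite group G closed under conjugation, and H a subgroup of G. The following are equivalent: (1) for every member x of I lying in H, the conjugates of x lying in H form a single H-class and the centralizer of x lies in H; (2) for every g outside H, no member of I lies in both H and g H g⁻¹; (3) every member of I lying in H fixes exactly one coset in the action of G on the cosets of H. -/
theorem result {G : Type*} [Group G] [Finite G] (I : Set G) (hI : ∀ x ∈ I, orderOf x = 2) (hIc : ∀ g : G, ∀ x ∈ I, g * x * g⁻¹ ∈ I) (H : Subgroup G) : ((∀ x ∈ I, x ∈ H → (∀ g : G, g * x * g⁻¹ ∈ H → ∃ h ∈ H, h * x * h⁻¹ = g * x * g⁻¹) ∧ Subgroup.centralizer ({x} : Set G) ≤ H) ↔ (∀ g : G, g ∉ H → ∀ x ∈ I, ¬ (x ∈ H ∧ x ∈ (H : Subgroup G).map (MulAut.conj g).toMonoidHom))) ∧ ((∀ g : G, g ∉ H → ∀ x ∈ I, ¬ (x ∈ H ∧ x ∈ (H : Subgroup G).map (MulAut.conj g).toMonoidHom)) ↔ ∀ x ∈ I, x ∈ H → ∃! c : G ⧸ H, x • c = c) := by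
  have hmap : ∀ g x : G, x ∈ (H : Subgroup G).map (MulAut.conj g).toMonoidHom ↔ g⁻¹ * x * g ∈ H := by
    intro g x
    constructor
    · rintro ⟨y, hy, rfl⟩
      have : g⁻¹ * ((MulAut.conj g).toMonoidHom y) * g = y := by
        simp [MulAut.conj_apply, mul_assoc]
      rw [this]; exact hy
    · intro h
      refine ⟨_, h, ?_⟩
      simp [MulAut.conj_apply, mul_assoc]
  have hfix : ∀ g x : G, x • (g : G ⧸ H) = (g : G ⧸ H) ↔ g⁻¹ * x * g ∈ H := by
    intro g x
    rw [MulAction.Quotient.smul_coe, eq_comm, QuotientGroup.eq, smul_eq_mul, mul_assoc]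
  simp only [hmap]
  constructor
  · constructor
    · intro h1 g hg x hx ⟨hxH, hxg⟩
      obtain ⟨hc, hcent⟩ := h1 x hx hxH
      obtain ⟨h, hh, he⟩ := hc g⁻¹ (by rwa [inv_inv])
      rw [inv_inv] at he
      have : g * h ∈ Subgroup.centralizer ({x} : Set G) := by
        rw [Subgroup.mem_centralizer_singleton_iff]
        calc g * h * x = g * (h * x * h⁻¹) * h := by group
          _ = g * (g⁻¹ * x * g) * h := by rw [he]
          _ = x * (g * h) := by group
      have h2 := hcent this
      apply hg
      have := H.mul_mem h2 (H.inv_mem hh)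
      simpa using this
    · intro h2 x hx hxH
      constructor
      · intro g hg
        by_cases hgH : g ∈ H
        · exact ⟨g, hgH, rfl⟩
        · exfalso
          apply h2 g hgH (g * x * g⁻¹) (hIc g x hx)
          refine ⟨hg, ?_⟩
          have : g⁻¹ * (g * x * g⁻¹) * g = x := by group
          rw [this]; exact hxH
      · intro c hc
        by_contra hcH
        apply h2 c hcH x hx
        refine ⟨hxH, ?_⟩
        rw [Subgroup.mem_centralizer_singleton_iff] at hc
        have : c⁻¹ * x * c = x := by
          rw [mul_assoc, ← hc]; group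
        rw [this]; exact hxH
  · constructor
    · intro h2 x hx hxH
      refine ⟨((1 : G) : G ⧸ H), ?_, ?_⟩
      · exact (hfix 1 x).2 (by simpa using hxH)
      · intro c hc
        induction c using QuotientGroup.induction_on with
        | H g =>
          replace hc := (hfix g x).1 hc
          by_contra hne
          have hgH : g ∉ H := by
            intro hg
            apply hne
            rw [QuotientGroup.eq]
            simpa using hg
          exact h2 g hgH x hx ⟨hxH, hc⟩
    · intro h3 g hg x hx ⟨hxH, hxg⟩
      obtain ⟨c, -, huniq⟩ := h3 x hx hxH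
      have e1 := huniq ((1 : G) : G ⧸ H) ((hfix 1 x).2 (by simpa using hxH))
      have e2 := huniq (g : G ⧸ H) ((hfix g x).2 hxg)
      apply hg
      have := e1.trans e2.symm
      rw [QuotientGroup.eq] at this
      simpa using this

end Cfsg.Agent.S5437
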