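import Cfsg.Statements.S5438
import Cfsg.Agent.Lib.Helper4_Syl

set_option autoImplicit false
open Cfsg

namespace Cfsg.Agent.S5438

/-- Let z be a 2-central involution of the finite group G (an involution central in some Sylow 2-subgroup) and H a subgroup containing z such that the coset H is the only coset of H fixed by z (in the action of G on the cosets of H). Then H has odd index in G, and for every 2-element x of H the conjugates of x lying in H form a single H-class. -/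
theorem result {G : Type*} [Group G] [Finite G] (z : G) (hz : Cfsg.IsTwoCentralInvolution z) (H : Subgroup G) (hzH : z ∈ H) (hfix : ∀ g : G, g⁻¹ * z * g ∈ H → g ∈ H) : Odd H.index ∧ ∀ x ∈ H, (∃ k : ℕ, orderOf x = 2 ^ k) → ∀ g : G, g * x * g⁻¹ ∈ H → ∃ h ∈ H, h * x * h⁻¹ = g * x * g⁻¹ := by
  open Cfsg.Agent.Lib.Helper4_Syl in
  open scoped Pointwise in
  obtain ⟨hz2, P, hzP, hPc⟩ := hz
  haveI : Fact (Nat.Prime 2) := ⟨Nat.prime_two⟩
  have hCH : ∀ g : G, g * z = z * g → g ∈ H := by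
    intro g hg
    apply hfix
    rw [mul_assoc, ← hg, ← mul_assoc, inv_mul_cancel, one_mul]
    exact hzH
  have hPH : (P : Subgroup G) ≤ H := fun x hx => hCH x (hPc x hx)
  have hA : ∀ T : Subgroup G, IsPGroup 2 T → ∀ u : G, u⁻¹ * z * u ∈ T → ∀ t ∈ T, u * t * u⁻¹ ∈ H := by
    intro T hT u hu t ht
    obtain ⟨Q, hQ⟩ := hT.exists_le_sylow
    obtain ⟨k, hk⟩ := MulAction.exists_smul_eq G P Q
    have hmem : ∀ s ∈ T, k⁻¹ * s * k ∈ H := by
      intro s hs
      have h1 : s ∈ (Q : Subgroup G) := hQ hs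
      rw [← hk, Sylow.smul_def, Sylow.pointwise_smul_def, mem_conj_smul] at h1
      exact hPH h1
    have huk : u * k ∈ H := by
      apply hfix
      have := hmem _ hu
      have e : (u * k)⁻¹ * z * (u * k) = k⁻¹ * (u⁻¹ * z * u) * k := by group
      rw [e]; exact this
    have e : u * t * u⁻¹ = (u * k) * (k⁻¹ * t * k) * (u * k)⁻¹ := by group
    rw [e]
    exact H.mul_mem (H.mul_mem huk (hmem t ht)) (H.inv_mem huk)
  have hPsyl : IsSylIn 2 (P : Subgroup G) H := (IsSylIn.of_sylow_top P).mono hPH le_top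
  have hB : ∀ x ∈ H, (∃ k : ℕ, orderOf x = 2 ^ k) → ∃ h ∈ H, Commute (h⁻¹ * z * h) x := by
    rintro x hx ⟨k, hk⟩
    have hp : IsPGroup 2 (Subgroup.zpowers x) := by
      apply IsPGroup.of_card (n := k)
      rw [Nat.card_zpowers, hk]
    obtain ⟨S, hS, hxS⟩ := exists_isSylIn_ge (M := H) (by rwa [Subgroup.zpowers_le]) hp
    obtain ⟨m, hm, hmS⟩ := hS.conj hPsyl
    refine ⟨m, hm, ?_⟩
    have h1 : m * x * m⁻¹ ∈ (P : Subgroup G) := by
      rw [← hmS]
      exact conj_mem_conj_smul (hxS (Subgroup.mem_zpowers x))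
    have h2 := hPc _ h1
    show m⁻¹ * z * m * x = x * (m⁻¹ * z * m)
    calc m⁻¹ * z * m * x = m⁻¹ * (z * (m * x * m⁻¹)) * m := by group
      _ = m⁻¹ * ((m * x * m⁻¹) * z) * m := by rw [h2]
      _ = x * (m⁻¹ * z * m) := by group
  constructor
  · have h1 : H.index ∣ (P : Subgroup G).index := Subgroup.index_dvd_of_le hPH
    have h2 : ¬ 2 ∣ (P : Subgroup G).index := P.not_dvd_index
    rw [← Nat.not_even_iff_odd, even_iff_two_dvd]
    exact fun h => h2 (h.trans h1)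
  · intro x hx hxo g hg
    obtain ⟨k, hk⟩ := hxo
    obtain ⟨h1, hh1, hc1⟩ := hB x hx ⟨k, hk⟩
    obtain ⟨h2, hh2, hc2⟩ := hB _ hg ⟨k, by rw [orderOf_conj_eq, hk]⟩
    set C := Subgroup.centralizer ({x} : Set G) with hC
    have hz1C : h1⁻¹ * z * h1 ∈ C := by
      rw [hC, Subgroup.mem_centralizer_singleton_iff]
      exact hc1.eq
    have hz3C : (h2 * g)⁻¹ * z * (h2 * g) ∈ C := by
      rw [hC, Subgroup.mem_centralizer_singleton_iff]
      have := hc2.eq
      calc (h2 * g)⁻¹ * z * (h2 * g) * x = g⁻¹ * ((h2⁻¹ * z * h2) * (g * x * g⁻¹)) * g := by group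
        _ = g⁻¹ * ((g * x * g⁻¹) * (h2⁻¹ * z * h2)) * g := by rw [this]
        _ = x * ((h2 * g)⁻¹ * z * (h2 * g)) := by group
    have ho : ∀ u : G, orderOf (u⁻¹ * z * u) = 2 := by
      intro u
      have := orderOf_conj_eq u⁻¹ z
      rw [inv_inv] at this
      rw [this, hz2]
    obtain ⟨S1, hS1, hzS1⟩ := exists_isSylIn_ge (M := C) (by rwa [Subgroup.zpowers_le]) (isPGroup_zpowers (ho h1))
    obtain ⟨S3, hS3, hzS3⟩ := exists_isSylIn_ge (M := C) (by rwa [Subgroup.zpowers_le]) (isPGroup_zpowers (ho (h2 * g)))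
    obtain ⟨c, hc, hcS⟩ := hS1.conj hS3
    have ht : c * (h1⁻¹ * z * h1) * c⁻¹ ∈ S3 := by
      rw [← hcS]
      exact conj_mem_conj_smul (hzS1 (Subgroup.mem_zpowers _))
    have h3 := hA S3 hS3.isPGroup (h2 * g) (hzS3 (Subgroup.mem_zpowers _)) _ ht
    have h4 : (h2 * g * c * h1⁻¹)⁻¹ ∈ H := by
      apply hfix
      have e : ((h2 * g * c * h1⁻¹)⁻¹)⁻¹ * z * (h2 * g * c * h1⁻¹)⁻¹ = h2 * g * (c * (h1⁻¹ * z * h1) * c⁻¹) * (h2 * g)⁻¹ := by group
      rw [e]; exact h3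
    have h5 : g * c ∈ H := by
      have := H.mul_mem (H.mul_mem (H.inv_mem hh2) (H.inv_mem h4)) hh1
      have e : h2⁻¹ * ((h2 * g * c * h1⁻¹)⁻¹)⁻¹ * h1 = g * c := by group
      rwa [e] at this
    refine ⟨g * c, h5, ?_⟩
    rw [hC, Subgroup.mem_centralizer_singleton_iff] at hc
    calc g * c * x * (g * c)⁻¹ = g * (c * x) * c⁻¹ * g⁻¹ := by group
      _ = g * (x * c) * c⁻¹ * g⁻¹ := by rw [hc]
      _ = g * x * g⁻¹ := by group

end Cfsg.Agent.S5438
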