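import Cfsg.Statements.S5439
import Cfsg.Agent.Lib.Helper9_Dih

set_option autoImplicit false
open Cfsg

namespace Cfsg.Agent.S5439

/-- Let I and J be two different conjugacy classes of involutions of the finite group G and H a subgroup such that every member of I ∪ J fixes exactly one coset in the action on the cosets of H, and such that for every a in I ∩ H and every b in (I ∪ J) ∩ H different from a and commuting with it, the centralizer of a b lies in H. Then H = G. -/
theorem result {G : Type*} [Group G] [Finite G] (I J : Set G) (a₀ b₀ : G) (ha₀ : orderOf a₀ = 2) (hb₀ : orderOf b₀ = 2) (hI : I = {x | IsConj a₀ x}) (hJ : J = {x | IsConj b₀ x}) (hIJ : I ≠ J) (H : Subgroup G) (hfix : ∀ x ∈ I ∪ J, ∃! c : G ⧸ H, x • c = c) (hcent : ∀ a ∈ I, a ∈ H → ∀ b ∈ I ∪ J, b ∈ H → a ≠ b → a * b = b * a → Subgroup.centralizer ({a * b} : Set G) ≤ H) : H = ⊤ := by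
  open Cfsg.Agent.Lib.Helper9_Dih in
  have hfixiff : ∀ g x : G, x • (g : G ⧸ H) = (g : G ⧸ H) ↔ g⁻¹ * x * g ∈ H := by
    intro g x
    rw [MulAction.Quotient.smul_coe, eq_comm, QuotientGroup.eq, smul_eq_mul, mul_assoc]
  have hsqI : ∀ x ∈ I, x * x = 1 := by
    intro x hx
    rw [hI] at hx
    obtain ⟨c, rfl⟩ := isConj_iff.1 (show IsConj a₀ x from hx)
    have h0 : a₀ * a₀ = 1 := by
      have := pow_orderOf_eq_one a₀
      rwa [ha₀, pow_two] at this
    calc c * a₀ * c⁻¹ * (c * a₀ * c⁻¹) = c * (a₀ * a₀) * c⁻¹ := by group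
      _ = 1 := by rw [h0]; group
  have hsqJ : ∀ x ∈ J, x * x = 1 := by
    intro x hx
    rw [hJ] at hx
    obtain ⟨c, rfl⟩ := isConj_iff.1 (show IsConj b₀ x from hx)
    have h0 : b₀ * b₀ = 1 := by
      have := pow_orderOf_eq_one b₀
      rwa [hb₀, pow_two] at this
    calc c * b₀ * c⁻¹ * (c * b₀ * c⁻¹) = c * (b₀ * b₀) * c⁻¹ := by group
      _ = 1 := by rw [h0]; group
  have hIc : ∀ x ∈ I, ∀ g : G, g * x * g⁻¹ ∈ I := by
    intro x hx g
    rw [hI] at hx ⊢
    exact (show IsConj a₀ x from hx).trans (isConj_iff.2 ⟨g, rfl⟩)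
  have hJc : ∀ x ∈ J, ∀ g : G, g * x * g⁻¹ ∈ J := by
    intro x hx g
    rw [hJ] at hx ⊢
    exact (show IsConj b₀ x from hx).trans (isConj_iff.2 ⟨g, rfl⟩)
  have ha₀I : a₀ ∈ I := by rw [hI]; exact IsConj.refl _
  have hb₀J : b₀ ∈ J := by rw [hJ]; exact IsConj.refl _
  -- a member of I in H
  obtain ⟨a, haI, haH⟩ : ∃ a ∈ I, a ∈ H := by
    obtain ⟨c, hc, -⟩ := hfix a₀ (Or.inl ha₀I)
    induction c using QuotientGroup.induction_on with
    | H g =>
      refine ⟨g⁻¹ * a₀ * g, ?_, (hfixiff g a₀).1 hc⟩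
      have := hIc a₀ ha₀I g⁻¹
      rwa [inv_inv] at this
  have haa := hsqI a haI
  have hJH : ∀ b ∈ J, b ∈ H := by
    intro b hbJ
    have hbb := hsqJ b hbJ
    rcases Nat.even_or_odd (orderOf (a * b)) with ⟨k, hk⟩ | ho
    · have hpos : 0 < orderOf (a * b) := orderOf_pos _
      obtain ⟨z, hz1, hzz, haz, hbz, hconj⟩ := dihedral_even haa hbb (by omega) hk
      have hazIJ : a * z ∈ I ∪ J := by
        rcases hconj with ⟨g, hg⟩ | ⟨g, hg⟩
        · left; rw [hg]; exact hIc a haI g
        · right; rw [hg]; exact hJc b hbJ g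
      have hazH : a * z ∈ H := by
        obtain ⟨c, -, huniq⟩ := hfix a (Or.inl haI)
        have e1 := huniq ((1 : G) : G ⧸ H) ((hfixiff 1 a).2 (by simpa using haH))
        have e2 := huniq ((a * z : G) : G ⧸ H) (by
          apply (hfixiff (a * z) a).2
          have : (a * z)⁻¹ * a * (a * z) = a := by
            rw [mul_assoc, ← mul_assoc a a z, haa, one_mul, mul_inv_rev, mul_assoc, inv_of_sq haa,
              haz.eq, ← mul_assoc, inv_mul_cancel, one_mul]
          rw [this]; exact haH)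
        have := e1.trans e2.symm
        rw [QuotientGroup.eq] at this
        simpa using this
      have hne : a ≠ a * z := by
        intro h
        exact hz1 (mul_eq_left.1 h.symm)
      have hcm : a * (a * z) = a * z * a := by
        rw [mul_assoc a z a, haz.eq]
      have := hcent a haI haH (a * z) hazIJ hazH hne hcm
      apply this
      rw [← mul_assoc, haa, one_mul, Subgroup.mem_centralizer_singleton_iff]
      exact hbz.eq
    · exfalso
      obtain ⟨g, hg⟩ := dihedral_odd haa hbb ho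
      apply hIJ
      have hab : IsConj a b := isConj_iff.2 ⟨g, hg.symm⟩
      have h1 : IsConj a₀ a := by rw [hI] at haI; exact haI
      have h2 : IsConj b₀ b := by rw [hJ] at hbJ; exact hbJ
      have h3 : IsConj a₀ b₀ := (h1.trans hab).trans h2.symm
      rw [hI, hJ]
      ext x
      exact ⟨fun h => h3.symm.trans h, fun h => h3.trans h⟩
  rw [eq_top_iff]
  intro g _
  obtain ⟨c, -, huniq⟩ := hfix b₀ (Or.inr hb₀J)
  have e1 := huniq ((1 : G) : G ⧸ H) ((hfixiff 1 b₀).2 (by simpa using hJH b₀ hb₀J))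
  have e2 := huniq ((g : G) : G ⧸ H) ((hfixiff g b₀).2 (by
    have := hJc b₀ hb₀J g⁻¹
    rw [inv_inv] at this
    exact hJH _ this))
  have := e1.trans e2.symm
  rw [QuotientGroup.eq] at this
  simpa using this

end Cfsg.Agent.S5439
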