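import Cfsg.Statements.S5459
import Cfsg.Agent.Lib.Helper9_CommLift

set_option autoImplicit false
open Cfsg

namespace Cfsg.Agent.S5459

/-- Let G be a finite group with a quasisimple normal subgroup L and an involution d such that G is generated by L and d, the centre of L has odd order, and d inverts every element of the centre of L. If the commuting graph on the conjugacy class of the image of d in G modulo the centre of L is connected, then the commuting graph on the conjugacy class of d is connected. -/
theorem result {G : Type*} [Group G] [Finite G] (L : Subgroup G) [L.Normal] (hL : Cfsg.IsQuasisimple ↥L) (d : G) (hd : orderOf d = 2) (hgen : L ⊔ Subgroup.zpowers d = ⊤) (hodd : Odd (Nat.card ↥(Subgroup.center ↥L))) (hinv : ∀ c ∈ (Subgroup.center ↥L).map L.subtype, d * c * d⁻¹ = c⁻¹) [hn : ((Subgroup.center ↥L).map L.subtype).Normal] (hconn : (Cfsg.commutingGraph (conjugatesOf (QuotientGroup.mk d : G ⧸ (Subgroup.center ↥L).map L.subtype))).Connected) : (Cfsg.commutingGraph (conjugatesOf d)).Connected := by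
  refine Cfsg.Agent.Lib.Helper9_CommLift.core L ((Subgroup.center ↥L).map L.subtype) d
    (Subgroup.map_subtype_le _) ?_ ?_ hgen ?_ hinv hconn
  · rintro c ⟨c', hc', rfl⟩ a ha
    have := Subgroup.mem_center_iff.1 hc' ⟨a, ha⟩
    exact (congrArg Subtype.val this).symm
  · intro H hH
    have hp : commutator ↥L = ⊤ := hL.1.commutator_eq_top
    have hle : commutator ↥L ≤ H.comap L.subtype := by
      rw [commutator_def, Subgroup.commutator_le]
      intro a _ b _
      rw [Subgroup.mem_comap, commutatorElement_def]
      exact hH a.1 a.2 b.1 b.2
    rw [hp] at hle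
    intro x hx
    exact hle (Subgroup.mem_top (⟨x, hx⟩ : ↥L))
  · rw [Nat.card_congr ((Subgroup.center ↥L).equivMapOfInjective L.subtype
      L.subtype_injective).symm.toEquiv]
    exact hodd

end Cfsg.Agent.S5459
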