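import Cfsg.Statements.S5599
import Cfsg.Agent.Lib.Helper3_Out22

set_option autoImplicit false
open scoped Pointwise
open Cfsg

namespace Cfsg.Agent.S5599

/-- In the automorphism group of the length-24 code, the two-point Mathieu group (permutations of the code's group fixing the extra point and the residue 0) has index 2 in the setwise stabiliser of that pair of points, and an element of the code's group interchanging the two points normalises the two-point group and induces on it, by conjugation, an automorphism that is not inner. -/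
theorem result (g : Equiv.Perm Cfsg.GolayPt) (hg : g ∈ Cfsg.M24) (h₁ : g none = some 0) (h₂ : g (some 0) = none) : Cfsg.Spor.M22.relIndex (Cfsg.M24 ⊓ MulAction.stabilizer (Equiv.Perm Cfsg.GolayPt) ({none, some 0} : Finset Cfsg.GolayPt)) = 2 ∧ (∀ x ∈ Cfsg.Spor.M22, g * x * g⁻¹ ∈ Cfsg.Spor.M22) ∧ ¬ ∃ h ∈ Cfsg.Spor.M22, ∀ x ∈ Cfsg.Spor.M22, g * x * g⁻¹ = h * x * h⁻¹ := by
  have e : Cfsg.Spor.M22 = Cfsg.Agent.Lib.Helper3_Out22.G22 := by
    ext g
    rw [Cfsg.Agent.Lib.Helper3_Out22.mem_G22]
    constructor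
    · rintro ⟨⟨h1, h2⟩, h3⟩
      exact ⟨h1, h3, h2⟩
    · rintro ⟨h1, h2, h3⟩
      exact ⟨⟨h1, h3⟩, h2⟩
  have p23 : Cfsg.Agent.Lib.Helper3_M24a.pt 23 = none := rfl
  have p0 : Cfsg.Agent.Lib.Helper3_M24a.pt 0 = some 0 := rfl
  have hsw : Cfsg.Agent.Lib.Helper3_Out22.IsSwap g := ⟨hg, by rw [p0, p23]; exact h₂, by rw [p0, p23]; exact h₁⟩
  rw [e]
  refine ⟨?_, fun x hx => hsw.conj hx, ?_⟩
  · have hgK : g ∈ Cfsg.M24 ⊓ MulAction.stabilizer (Equiv.Perm Cfsg.GolayPt)
        ({none, some 0} : Finset Cfsg.GolayPt) := by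
      refine ⟨hg, ?_⟩
      change g • ({none, some 0} : Finset Cfsg.GolayPt) = {none, some 0}
      ext y
      rw [← Finset.inv_smul_mem_iff, Equiv.Perm.smul_def]
      simp only [Finset.mem_insert, Finset.mem_singleton, Equiv.Perm.inv_eq_iff_eq, h₁, h₂]
      tauto
    rw [Subgroup.relIndex, Subgroup.index_eq_two_iff]
    refine ⟨⟨g, hgK⟩, ?_⟩
    rintro ⟨b, hb⟩
    simp only [Subgroup.mem_subgroupOf, Subgroup.coe_mul]
    have hbM : b ∈ Cfsg.M24 := hb.1
    have hbs : b • ({none, some 0} : Finset Cfsg.GolayPt) = {none, some 0} := hb.2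
    have h1 : b none ∈ ({none, some 0} : Finset Cfsg.GolayPt) := by
      have := Finset.smul_mem_smul_finset (a := b)
        (show (none : Cfsg.GolayPt) ∈ ({none, some 0} : Finset Cfsg.GolayPt) by simp)
      rwa [hbs] at this
    have h2 : b (some 0) ∈ ({none, some 0} : Finset Cfsg.GolayPt) := by
      have := Finset.smul_mem_smul_finset (a := b)
        (show (some 0 : Cfsg.GolayPt) ∈ ({none, some 0} : Finset Cfsg.GolayPt) by simp)
      rwa [hbs] at this
    have hne : b none ≠ b (some 0) :=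
      fun h => by simpa using b.injective h
    simp only [Finset.mem_insert, Finset.mem_singleton] at h1 h2
    have hcases : b ∈ Cfsg.Agent.Lib.Helper3_Out22.G22 ∨
        Cfsg.Agent.Lib.Helper3_Out22.IsSwap b := by
      rcases h1 with h1 | h1 <;> rcases h2 with h2 | h2
      · exact absurd (h1.trans h2.symm) hne
      · left
        rw [Cfsg.Agent.Lib.Helper3_Out22.mem_G22]
        exact ⟨hbM, h2, h1⟩
      · right
        exact ⟨hbM, h2, h1⟩
      · exact absurd (h1.trans h2.symm) hne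
    have hdis : ∀ x, Cfsg.Agent.Lib.Helper3_Out22.IsSwap x → x ∉ Cfsg.Agent.Lib.Helper3_Out22.G22 := by
      intro x hx hx2
      rw [Cfsg.Agent.Lib.Helper3_Out22.mem_G22] at hx2
      have := hx.2.1.symm.trans hx2.2.1
      rw [p0, p23] at this
      simp at this
    rcases hcases with hc | hc
    · right
      exact ⟨hc, hdis _ (Cfsg.Agent.Lib.Helper3_Out22.IsSwap.mul_left hc hsw)⟩
    · left
      exact ⟨hc.mul hsw, hdis _ hc⟩
  · exact Cfsg.Agent.Lib.Helper3_FpC.not_inner hg h₁ h₂

end Cfsg.Agent.S5599
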