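import Cfsg.Statements.S5612
import Cfsg.Agent.Lib.Helper3_Orb3

set_option autoImplicit false
open scoped Pointwise
open Cfsg

namespace Cfsg.Agent.S5612


open Cfsg.Agent.Lib.Helper3_Sext Cfsg.Agent.Lib.Helper3_Orb Cfsg.Agent.Lib.Helper3_Orb2
open Cfsg.Agent.Lib.Helper3_Bfs Cfsg.Agent.Lib.Helper3_Bfs2 Cfsg.Agent.Lib.Helper3_Orb3
open Cfsg.Agent.Lib.Helper3_Golay2 Cfsg.Agent.Lib.Helper3_Golay3 Cfsg.Agent.Lib.Helper3_M24a
open Cfsg.Agent.Lib.Helper3_M24d

def Ogens : List ℕ := [96895742070312837714328004976622321, 458318012775438930768177878210854153]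

def OY0 : ℕ := 1351424

def OC0 : List ℕ := [1, 2]

def Op0 : ℕ := 4096

def OY1 : ℕ := 52005

def OC1 : List ℕ := [3, 15, 127, 16190, 1907679, 850475510, 4865717482, 136585509, 2200, 4]

def Op1 : ℕ := 4096

def OY2 : ℕ := 5279

def OC2 : List ℕ := [3, 14, 31, 1015, 253887, 2130575230, 17873522499514335, 19180172394793741517206715383, 42829294106382490104779031787700064673062659, 271999517856804062289671473014090546994282590008463966062, 374453897929485812194579171020265338287327420521402818068022491893994131, 143922998598416303282210924985297940320789919827060230569291979278817733624629, 9418768852358425456977510266126010814895909064909478044561, 9518520082771616989440]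

def Op2 : ℕ := 4096

def OYL : Fin 3 → ℕ := ![OY0, OY1, OY2]

def OnL : Fin 3 → ℕ := ![3, 84, 672]

theorem Oc0 : chkM (inStS T0L) Ogens OY0 OC0 4 Op0 3 = true := by decide +kernel

theorem Oc1 : chkM (inStS T0L) Ogens OY1 OC1 4 Op1 84 = true := by decide +kernel

theorem Oc2 : chkM (inStS T0L) Ogens OY2 OC2 4 Op2 672 = true := by decide +kernel

theorem Ohm : ∀ i : Fin 3, isOct (OYL i) = true := by decide +kernel

theorem Ohvl : ∀ i : Fin 3, OYL i < 2 ^ 24 := by decide +kernel

theorem Ohinj : Function.Injective fun i => cInvL (fun k => k * k) T0L [OYL i] := by decide +kernel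

theorem Ohle : ∀ i, OnL i ≤ (MulAction.orbit (MulAction.stabilizer M24 (decS T0L)) (dec (OYL i))).ncard := by
  intro i
  fin_cases i
  · exact chkM_le (sound_inStS T0L) Oc0
  · exact chkM_le (sound_inStS T0L) Oc1
  · exact chkM_le (sound_inStS T0L) Oc2

theorem Odec0 : OrbDec M24 (decS T0L) octads OnL := by
  obtain ⟨h1, h2⟩ := orbDec_set' (decS T0L) T0L (by decide +kernel) (fun g hg => hg)
    octads (fun g z hz => smul_mem_octads g.2 hz) OYL OnL (fun k => k * k)
    (fun i => dec_mem_octads (Ohm i)) Ohvl Ohle Ohinj (by rw [ncard_octads]; decide +kernel)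
  exact ⟨fun i => dec (OYL i), fun i => dec_mem_octads (Ohm i), h1, h2⟩

def Sgens : List ℕ := [96895742070312837714328004976622321, 458318012775438930768177878210854153]

def SY0 : List ℕ := [43, 297984, 1053440, 2162768, 4726912, 8536068]

def SC0 : List ℕ := [1, 3, 9, 2]

def Sp0 : ℕ := 64

def SY1 : List ℕ := [15, 5264, 622848, 3416064, 4196928, 8536096]

def SC1 : List ℕ := [2, 3, 7, 63, 3966, 487383, 1035960054, 176017568171851, 555746816, 4]

def Sp1 : ℕ := 1041

def SY2 : List ℕ := [83, 272512, 1065220, 2162728, 4752384, 8524288]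

def SC2 : List ℕ := [3, 15, 127, 16254, 16183263, 545326496759, 145264694358792200127, 1586402682696432464279917001718908, 984941406812426173137334064851082305301, 340573717090658057211465268356564967813, 154743392698455740958576640, 134217728]

def Sp2 : ℕ := 14115

def SY3 : List ℕ := [23, 5256, 786976, 1065280, 2263040, 12656640]

def SC3 : List ℕ := [3, 15, 127, 16254, 16248799, 1906831129591, 1143661819943272308671, 1287484241538121371142971914715004798, 41167182225118812454956845153312555728779007801409704292319, 1462828218605071067077898101666332451569764688400562677144945966748980014155020039038303221, 65495854378717529805411197206548156038857714547459530494213796562892959238653814602645159848314021378179210502235389088780693365615, 1849926386445650055308563927989615048072221996026111423397023121725325313941847358619057699347966387994011228849155033114081272177412030484287599814639478, 28776473444229190035960630258720843354797744847048268861521296023034392988484938794928934446474056920683454007697322260422234021638477177375548298401,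 533997335894646395624090005024120959924626576193297714582542002812747670835078427517894448196421, 10465725850745080705627701844640128]

def Sp3 : ℕ := 225819

def SYL : Fin 4 → List ℕ := ![SY0, SY1, SY2, SY3]

def SnL : Fin 4 → ℕ := ![7, 84, 336, 1344]

theorem Sc0 : chkS (inStS T0L) Sgens SY0 SC0 4 Sp0 7 = true := by decide +kernel

theorem Sc1 : chkS (inStS T0L) Sgens SY1 SC1 4 Sp1 84 = true := by decide +kernel

theorem Sc2 : chkS (inStS T0L) Sgens SY2 SC2 4 Sp2 336 = true := by decide +kernel

theorem Sc3 : chkS (inStS T0L) Sgens SY3 SC3 4 Sp3 1344 = true := by decide +kernel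

theorem Shm : ∀ i : Fin 4, isSext (SYL i) = true := by decide +kernel

theorem Shvl : ∀ i : Fin 4, validL (SYL i) = true := by decide +kernel

theorem Shinj : Function.Injective fun i => cInvL (fun k => k * k) T0L (SYL i) := by decide +kernel

theorem Shle : ∀ i, SnL i ≤ (MulAction.orbit (MulAction.stabilizer M24 (decS T0L)) (decS (SYL i))).ncard := by
  intro i
  fin_cases i
  · exact chkS_le (sound_inStS T0L) Sc0
  · exact chkS_le (sound_inStS T0L) Sc1
  · exact chkS_le (sound_inStS T0L) Sc2
  · exact chkS_le (sound_inStS T0L) Sc3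

theorem Sdec0 : OrbDec M24 (decS T0L) sextets SnL := by
  obtain ⟨h1, h2⟩ := orbDec_sys' (decS T0L) T0L (by decide +kernel) (fun g hg => hg)
    sextets (fun g z hz => smul_mem_sextets g.2 hz) SYL SnL (fun k => k * k)
    (fun i => decS_mem_sextets (Shm i)) Shvl Shle Shinj (by rw [ncard_sextets]; decide +kernel)
  exact ⟨fun i => decS (SYL i), fun i => decS_mem_sextets (Shm i), h1, h2⟩

/-- The stabiliser of a trio in the group of the length-24 code has exactly three orbits on the 759 octads, of sizes 3, 84 and 672, and exactly four orbits on the 1771 sextets, of sizes 7, 84, 336 and 1344. -/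
theorem result (T : Finset (Finset Cfsg.GolayPt)) (hT : T ∈ Cfsg.trios) : (∃ X₁ ∈ Cfsg.octads, ∃ X₂ ∈ Cfsg.octads, ∃ X₃ ∈ Cfsg.octads, (MulAction.orbit ↥(MulAction.stabilizer Cfsg.M24 T) X₁).ncard = 3 ∧ (MulAction.orbit ↥(MulAction.stabilizer Cfsg.M24 T) X₂).ncard = 84 ∧ (MulAction.orbit ↥(MulAction.stabilizer Cfsg.M24 T) X₃).ncard = 672 ∧ Cfsg.octads = MulAction.orbit ↥(MulAction.stabilizer Cfsg.M24 T) X₁ ∪ MulAction.orbit ↥(MulAction.stabilizer Cfsg.M24 T) X₂ ∪ MulAction.orbit ↥(MulAction.stabilizer Cfsg.M24 T) X₃) ∧ (∃ Y₁ ∈ Cfsg.sextets, ∃ Y₂ ∈ Cfsg.sextets, ∃ Y₃ ∈ Cfsg.sextets, ∃ Y₄ ∈ Cfsg.sextets, (MulAction.orbit ↥(MulAction.stabilizer Cfsg.M24 T) Y₁).ncard = 7 ∧ (MulAction.orbit ↥(MulAction.stabilizer Cfsg.M24 T) Y₂).ncard = 84 ∧ (MulAction.orbit ↥(MulAction.stabilizer Cfsg.M24 T) Y₃).ncard = 336 ∧ (MulAction.orbit ↥(MulAction.stabilizer Cfsg.M24 T) Y₄).ncard = 1344 ∧ Cfsg.sextets = MulAction.orbit ↥(MulAction.stabilizer Cfsg.M24 T) Y₁ ∪ MulAction.orbit ↥(MulAction.stabilizer Cfsg.M24 T) Y₂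 ∪ MulAction.orbit ↥(MulAction.stabilizer Cfsg.M24 T) Y₃ ∪ MulAction.orbit ↥(MulAction.stabilizer Cfsg.M24 T) Y₄) := by
  obtain ⟨g, hg, rfl⟩ := trans_trios T0_mem hT
  obtain ⟨y, hy, hn, hU⟩ := Odec0.smul (fun g z hz => smul_mem_octads g.2 hz) ⟨g, hg⟩
  obtain ⟨z, hz, hm, hV⟩ := Sdec0.smul (fun g z hz => smul_mem_sextets g.2 hz) ⟨g, hg⟩
  refine ⟨⟨y 0, hy 0, y 1, hy 1, y 2, hy 2, hn 0, hn 1, hn 2, ?_⟩,
    ⟨z 0, hz 0, z 1, hz 1, z 2, hz 2, z 3, hz 3, hm 0, hm 1, hm 2, hm 3, ?_⟩⟩
  · rw [← iUnion_fin3 (fun i => MulAction.orbit _ (y i))]; exact hU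
  · rw [← iUnion_fin4 (fun i => MulAction.orbit _ (z i))]; exact hV

end Cfsg.Agent.S5612
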