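import Cfsg.Statements.S5616
import Cfsg.Agent.Lib.Helper3_Orb3

set_option autoImplicit false
open scoped Pointwise
open Cfsg

namespace Cfsg.Agent.S5616


open Cfsg.Agent.Lib.Helper3_Sext Cfsg.Agent.Lib.Helper3_Orb Cfsg.Agent.Lib.Helper3_Orb2
open Cfsg.Agent.Lib.Helper3_Bfs Cfsg.Agent.Lib.Helper3_Bfs2 Cfsg.Agent.Lib.Helper3_Orb3
open Cfsg.Agent.Lib.Helper3_Golay2 Cfsg.Agent.Lib.Helper3_Golay3 Cfsg.Agent.Lib.Helper3_M24a
open Cfsg.Agent.Lib.Helper3_M24d

def Sgens : List ℕ := [980147893097849723479351197906978817, 66459478896095285651666182652741344]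

def SY0 : List ℕ := [432, 84032, 925696, 1050116, 6295560, 8421379]

def SC0 : List ℕ := [1, 3, 15, 230, 460, 280]

def Sp0 : ℕ := 71

def SY1 : List ℕ := [15, 5264, 622848, 3416064, 4196928, 8536096]

def SC1 : List ℕ := [3, 15, 255, 65534, 1073741823, 576388184535662591, 1287811691706257310107670065020783, 20807033374856946178463203807669248206826790671088559, 313389303406177276568466510617099039641859007434144655302135479313947883147440116, 16708537008232528397328255106403257690788049719562076515349332688040879767652355606798139639854, 26052435888874191029861067297303084330817900679744539296, 137438954500]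

def Sp1 : ℕ := 49659

def SY2 : List ℕ := [29, 5250, 346112, 663616, 5275680, 10486528]

def SC2 : List ℕ := [3, 15, 255, 65534, 939524095, 141863388209741823, 70195532941901448775685646581759, 382919973584848906775838981509335735618320774543867629055, 1179582209369182998773115818657082788852596818041851148220646867651014811082670767914017977102237, 9264805393466228978900879961589332817235268060157972650213008587961401168055552229876585038750552144699515895588299954161517719272465430476, 449918906110474031591273025321993162424254479476998377587678724613527777514813228648378365322683350849273993269532225835817454189787988233626934623537001668084006, 157617644416033373460521827519450486314655955969323192012725473380006638453442937776256585715388455655520991001673884, 295147905179352825952]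

def Sp2 : ℕ := 156893

def SYL : Fin 3 → List ℕ := ![SY0, SY1, SY2]

def SnL : Fin 3 → ℕ := ![21, 630, 1120]

theorem Sc0 : chkS (inStM W3) Sgens SY0 SC0 4 Sp0 21 = true := by decide +kernel

theorem Sc1 : chkS (inStM W3) Sgens SY1 SC1 4 Sp1 630 = true := by decide +kernel

theorem Sc2 : chkS (inStM W3) Sgens SY2 SC2 4 Sp2 1120 = true := by decide +kernel

theorem Shm : ∀ i : Fin 3, isSext (SYL i) = true := by decide +kernel

theorem Shvl : ∀ i : Fin 3, validL (SYL i) = true := by decide +kernel

theorem Shinj : Function.Injective fun i => cInvL (fun k => if k = 0 then 0 else 1) [W3] (SYL i) := by decide +kernel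

theorem Shle : ∀ i, SnL i ≤ (MulAction.orbit (MulAction.stabilizer M24 (dec W3)) (decS (SYL i))).ncard := by
  intro i
  fin_cases i
  · exact chkS_le (sound_inStM W3) Sc0
  · exact chkS_le (sound_inStM W3) Sc1
  · exact chkS_le (sound_inStM W3) Sc2

theorem Sdec0 : OrbDec M24 (dec W3) sextets SnL := by
  obtain ⟨h1, h2⟩ := orbDec_sys' (dec W3) [W3] (by decide +kernel) (hX_mask W3)
    sextets (fun g z hz => smul_mem_sextets g.2 hz) SYL SnL (fun k => if k = 0 then 0 else 1)
    (fun i => decS_mem_sextets (Shm i)) Shvl Shle Shinj (by rw [ncard_sextets]; decide +kernel)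
  exact ⟨fun i => decS (SYL i), fun i => decS_mem_sextets (Shm i), h1, h2⟩


def ff : ℕ → ℕ := fun k => if k = 0 then 0 else 1

theorem cI_eq (Y : Finset GolayPt) (S : Finset (Finset GolayPt)) :
    (S.filter fun t => (t ∩ Y).Nonempty).card = cInv ff {Y} S := by
  rw [cInv, Finset.sum_singleton, Finset.card_filter]
  apply Finset.sum_congr rfl
  intro t _
  by_cases h : (t ∩ Y).Nonempty
  · have : (Y ∩ t).card ≠ 0 := by rw [Finset.inter_comm]; exact Finset.card_ne_zero.mpr h
    simp [h, this, ff]
  · have : (Y ∩ t).card = 0 := by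
      rw [Finset.inter_comm, Finset.card_eq_zero]; exact Finset.not_nonempty_iff_eq_empty.mp h
    simp [h, this, ff]

theorem hcv : ∀ i : Fin 3, cInvL ff [W3] (SYL i) = (i : ℕ) + 1 := by decide +kernel

theorem main0 : (∀ i : Fin 3, {S | S ∈ sextets ∧ cInv ff {dec W3} S = (i : ℕ) + 1}.ncard = SnL i) ∧
    ∀ S S' : Finset (Finset GolayPt), S ∈ sextets → S' ∈ sextets →
      cInv ff {dec W3} S = cInv ff {dec W3} S' → ∃ g ∈ M24, g • dec W3 = dec W3 ∧ g • S = S' := by
  obtain ⟨h1, h2⟩ := orbDec_sys' (dec W3) [W3] (by decide +kernel) (hX_mask W3)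
    sextets (fun g z hz => smul_mem_sextets g.2 hz) SYL SnL ff
    (fun i => decS_mem_sextets (Shm i)) Shvl Shle Shinj (by rw [ncard_sextets]; decide +kernel)
  have hc : ∀ (h : MulAction.stabilizer M24 (dec W3)) (z : Finset (Finset GolayPt)),
      cInv ff {dec W3} (h • z) = cInv ff {dec W3} z := by
    intro h z
    have := cInv_inv ff (hX_mask W3 h h.2) z
    rw [decS_singleton] at this
    exact this
  have hval : ∀ i : Fin 3, cInv ff {dec W3} (decS (SYL i)) = (i : ℕ) + 1 := by
    intro i
    rw [← decS_singleton, cInv_decS ff (by decide +kernel) (Shvl i), hcv]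
  have hinj : Function.Injective (fun i : Fin 3 => cInv ff {dec W3} (decS (SYL i))) := by
    intro i j hij
    simp only [hval] at hij
    exact Fin.ext (by omega)
  constructor
  · intro i
    rw [← hval i, class_eq_orbit h2 (fun z => cInv ff {dec W3} z) hc hinj i, h1]
  · intro S S' hS hS' hSS
    rw [h2] at hS hS'
    obtain ⟨i, a, rfl⟩ := Set.mem_iUnion.mp hS
    obtain ⟨j, b, rfl⟩ := Set.mem_iUnion.mp hS'
    simp only at hSS
    rw [hc, hc] at hSS
    have hij : i = j := hinj hSS
    subst hij
    refine ⟨((b * a⁻¹ : MulAction.stabilizer M24 (dec W3)) : M24), SetLike.coe_mem _,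
      (b * a⁻¹ : MulAction.stabilizer M24 (dec W3)).2, ?_⟩
    show ((b * a⁻¹ : MulAction.stabilizer M24 (dec W3)) : M24) • ((a : M24) • decS (SYL i)) = (b : M24) • decS (SYL i)
    rw [← mul_smul]
    congr 1
    simp

theorem transport (g : Equiv.Perm GolayPt) (hg : g ∈ M24) (j : ℕ) :
    {S | S ∈ sextets ∧ cInv ff {g • dec W3} S = j} =
      (fun S => g • S) '' {S | S ∈ sextets ∧ cInv ff {dec W3} S = j} := by
  ext S
  constructor
  · rintro ⟨hS, hc⟩
    refine ⟨g⁻¹ • S, ⟨smul_mem_sextets (M24.inv_mem hg) hS, ?_⟩, by simp⟩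
    rw [← hc, ← cInv_smul ff g {dec W3} (g⁻¹ • S), Finset.smul_finset_singleton, smul_inv_smul]
  · rintro ⟨S, ⟨hS, hc⟩, rfl⟩
    refine ⟨smul_mem_sextets hg hS, ?_⟩
    rw [← hc, ← cInv_smul ff g {dec W3} S, Finset.smul_finset_singleton]

/-- Let Y be a set of 3 of the 24 points. The sextets of the length-24 code whose tetrads meeting Y number 1, 2 or 3 are respectively 21, 630 and 1120 in number, and two sextets with the same number of tetrads meeting Y are conjugate under the setwise stabiliser of Y in the code's group. -/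
theorem result (Y : Finset Cfsg.GolayPt) (hY : Y.card = 3) : {S : Finset (Finset Cfsg.GolayPt) | S ∈ Cfsg.sextets ∧ (S.filter fun t => (t ∩ Y).Nonempty).card = 1}.ncard = 21 ∧ {S : Finset (Finset Cfsg.GolayPt) | S ∈ Cfsg.sextets ∧ (S.filter fun t => (t ∩ Y).Nonempty).card = 2}.ncard = 630 ∧ {S : Finset (Finset Cfsg.GolayPt) | S ∈ Cfsg.sextets ∧ (S.filter fun t => (t ∩ Y).Nonempty).card = 3}.ncard = 1120 ∧ ∀ S S' : Finset (Finset Cfsg.GolayPt), S ∈ Cfsg.sextets → S' ∈ Cfsg.sextets → (S.filter fun t => (t ∩ Y).Nonempty).card = (S'.filter fun t => (t ∩ Y).Nonempty).card → ∃ g ∈ Cfsg.M24, g • Y = Y ∧ g • S = S' := by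
  obtain ⟨g, hg, rfl⟩ := exists_smul_eq_of_card (s := dec W3) (t := Y) (by rw [card_W3, hY])
    (by rw [card_W3]; norm_num)
  simp only [cI_eq]
  obtain ⟨m1, m2⟩ := main0
  have hcount : ∀ i : Fin 3, {S | S ∈ sextets ∧ cInv ff {g • dec W3} S = (i : ℕ) + 1}.ncard = SnL i := by
    intro i
    rw [transport g hg, Set.ncard_image_of_injective _ (MulAction.injective g), m1]
  refine ⟨hcount 0, hcount 1, hcount 2, ?_⟩
  intro S S' hS hS' hSS
  obtain ⟨k, hk, hk1, hk2⟩ := m2 (g⁻¹ • S) (g⁻¹ • S') (smul_mem_sextets (M24.inv_mem hg) hS)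
    (smul_mem_sextets (M24.inv_mem hg) hS') (by
      rw [← cInv_smul ff g {dec W3} (g⁻¹ • S), ← cInv_smul ff g {dec W3} (g⁻¹ • S'),
        Finset.smul_finset_singleton, smul_inv_smul, smul_inv_smul]
      exact hSS)
  refine ⟨g * k * g⁻¹, M24.mul_mem (M24.mul_mem hg hk) (M24.inv_mem hg), ?_, ?_⟩
  · rw [mul_smul, mul_smul, inv_smul_smul, hk1]
  · rw [mul_smul, mul_smul, hk2, smul_inv_smul]

end Cfsg.Agent.S5616
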