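import Cfsg.Statements.S5617
import Cfsg.Agent.Lib.Helper3_Orb3

set_option autoImplicit false
open scoped Pointwise
open Cfsg

namespace Cfsg.Agent.S5617


open Cfsg.Agent.Lib.Helper3_Sext Cfsg.Agent.Lib.Helper3_Orb Cfsg.Agent.Lib.Helper3_Orb2
open Cfsg.Agent.Lib.Helper3_Bfs Cfsg.Agent.Lib.Helper3_Bfs2 Cfsg.Agent.Lib.Helper3_Orb3
open Cfsg.Agent.Lib.Helper3_Golay2 Cfsg.Agent.Lib.Helper3_Golay3 Cfsg.Agent.Lib.Helper3_M24a
open Cfsg.Agent.Lib.Helper3_M24d

def Sgens : List ℕ := [898316809852169109582328589790600338, 543168344716943708140199384129705255]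

def SY0 : List ℕ := [101, 45058, 262536, 3277312, 4800512, 8391696]

def SC0 : List ℕ := [3, 15, 255, 65535, 3489660927, 972491506902367995, 19644870424940058156954055605759, 68255268369055846711668773202458943399000458972517, 1769266499518596573436417989718459892019397662995143933399, 25180986017502927207918642079844303699980, 134238208]

def Sp0 : ℕ := 19765

def SY1 : List ℕ := [15, 5264, 622848, 3416064, 4196928, 8536096]

def SC1 : List ℕ := [3, 15, 255, 65535, 4294967295, 18296975522992685055, 3109086408591444174540137037791, 1143290541118793679908557896509249769808955948300995545, 1425682555484827359122173394582305650560506941439857915948100641000464593, 77134693480657328260755517001069369338160866252655761216393351, 309485028268159545542459396]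

def Sp1 : ℕ := 31053

def SY2 : List ℕ := [39, 45120, 786960, 1116288, 6292736, 8536072]

def SC2 : List ℕ := [3, 15, 255, 65535, 4278189055, 1152919305583591423, 321597710886799297149967721262219263, 176745125718418703314568202627830292852067718885238150214384121, 759488300153620305808837806044166470147501326278752902647143522893151790509947473022568729793391211304, 7106805467106422502281518676478764017597989067893818880257309169968499525491266694328665791072717086558229064510274163013107296489691, 40038106606969563822484194287696379942402805176354451923592522042508885077240194077641274752275337794444491827200132, 136]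

def Sp2 : ℕ := 96913

def SYL : Fin 3 → List ℕ := ![SY0, SY1, SY2]

def SnL : Fin 3 → ℕ := ![396, 495, 880]

theorem Sc0 : chkS (inStS [D0, D0c]) Sgens SY0 SC0 4 Sp0 396 = true := by decide +kernel

theorem Sc1 : chkS (inStS [D0, D0c]) Sgens SY1 SC1 4 Sp1 495 = true := by decide +kernel

theorem Sc2 : chkS (inStS [D0, D0c]) Sgens SY2 SC2 4 Sp2 880 = true := by decide +kernel

theorem Shm : ∀ i : Fin 3, isSext (SYL i) = true := by decide +kernel

theorem Shvl : ∀ i : Fin 3, validL (SYL i) = true := by decide +kernel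

theorem Shinj : Function.Injective fun i => cInvL (fun k => k * k) [D0, D0c] (SYL i) := by decide +kernel

theorem Shle : ∀ i, SnL i ≤ (MulAction.orbit (MulAction.stabilizer M24 (decS [D0, D0c])) (decS (SYL i))).ncard := by
  intro i
  fin_cases i
  · exact chkS_le (sound_inStS [D0, D0c]) Sc0
  · exact chkS_le (sound_inStS [D0, D0c]) Sc1
  · exact chkS_le (sound_inStS [D0, D0c]) Sc2

theorem Sdec0 : OrbDec M24 (decS [D0, D0c]) sextets SnL := by
  obtain ⟨h1, h2⟩ := orbDec_sys' (decS [D0, D0c]) [D0, D0c] (by decide +kernel) (fun g hg => hg)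
    sextets (fun g z hz => smul_mem_sextets g.2 hz) SYL SnL (fun k => k * k)
    (fun i => decS_mem_sextets (Shm i)) Shvl Shle Shinj (by rw [ncard_sextets]; decide +kernel)
  exact ⟨fun i => decS (SYL i), fun i => decS_mem_sextets (Shm i), h1, h2⟩

/-- The setwise stabiliser, in the group of the length-24 code, of a complementary pair of dodecads has exactly three orbits on the 1771 sextets, of sizes 396, 495 and 880. -/
theorem result (d : Finset Cfsg.GolayPt) (hd : d ∈ Cfsg.dodecads) : ∃ X₁ ∈ Cfsg.sextets, ∃ X₂ ∈ Cfsg.sextets, ∃ X₃ ∈ Cfsg.sextets, (MulAction.orbit ↥(MulAction.stabilizer Cfsg.M24 ({d, Finset.univ \ d} : Finset (Finset Cfsg.GolayPt))) X₁).ncard = 396 ∧ (MulAction.orbit ↥(MulAction.stabilizer Cfsg.M24 ({d, Finset.univ \ d} : Finset (Finset Cfsg.GolayPt))) X₂).ncard = 495 ∧ (MulAction.orbit ↥(MulAction.stabilizer Cfsg.M24 ({d, Finset.univ \ d} : Finset (Finset Cfsg.GolayPt))) X₃).ncard = 880 ∧ Cfsg.sextets = MulAction.orbit ↥(MulAction.stabilizer Cfsg.M24 ({d, Finset.univ \ d} : Finset (Finset Cfsg.GolayPt)))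 X₁ ∪ MulAction.orbit ↥(MulAction.stabilizer Cfsg.M24 ({d, Finset.univ \ d} : Finset (Finset Cfsg.GolayPt))) X₂ ∪ MulAction.orbit ↥(MulAction.stabilizer Cfsg.M24 ({d, Finset.univ \ d} : Finset (Finset Cfsg.GolayPt))) X₃ := by
  obtain ⟨g, hg, rfl⟩ := trans_dodecads D0_mem hd
  rw [cpair_eq]
  obtain ⟨z, hz, hm, hV⟩ := Sdec0.smul (fun g z hz => smul_mem_sextets g.2 hz) ⟨g, hg⟩
  refine ⟨z 0, hz 0, z 1, hz 1, z 2, hz 2, hm 0, hm 1, hm 2, ?_⟩
  rw [← iUnion_fin3 (fun i => MulAction.orbit _ (z i))]; exact hV

end Cfsg.Agent.S5617
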