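import Cfsg.Statements.S5618
import Cfsg.Agent.Lib.Helper3_Hex

set_option autoImplicit false
open scoped Pointwise
open Cfsg

namespace Cfsg.Agent.S5618

/-- For a dodecad d of the length-24 code and a hexad C on it (a 6-point intersection of d with an octad): the joint stabiliser of d and C in the code's group is isomorphic to the symmetric group of degree 6, and it acts faithfully both on the six points of C and on the six points of d outside C. -/
theorem result (d : Finset Cfsg.GolayPt) (hd : d ∈ Cfsg.dodecads) (C : Finset Cfsg.GolayPt) (hC : C ∈ Cfsg.hexadsOn d) : Nonempty (↥(MulAction.stabilizer Cfsg.M24 d ⊓ MulAction.stabilizer Cfsg.M24 C) ≃* Equiv.Perm (Fin 6)) ∧ (∀ g ∈ MulAction.stabilizer Cfsg.M24 d ⊓ MulAction.stabilizer Cfsg.M24 C, (∀ p ∈ C, ((g : ↥Cfsg.M24) : Equiv.Perm Cfsg.GolayPt) p = p) → g = 1) ∧ ∀ g ∈ MulAction.stabilizer Cfsg.M24 d ⊓ MulAction.stabilizer Cfsg.M24 C, (∀ p ∈ d \ C, ((g : ↥Cfsg.M24) : Equiv.Perm Cfsg.GolayPt) p =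 p) → g = 1 := by
  obtain ⟨h6, o, ho, rfl⟩ := hC
  obtain ⟨ho', h2, heq⟩ := Cfsg.Agent.Lib.Helper3_Hex.stab_dod_hex hd ho h6
  refine ⟨?_, ?_, ?_⟩
  · rw [heq]
    exact Cfsg.Agent.Lib.Helper3_Hex.stab_oct_oct_iso ho ho' h2
  · intro g hg hfix
    have hgd : g • d = d := (Subgroup.mem_inf.mp hg).1
    exact Subtype.ext (Cfsg.Agent.Lib.Helper3_Hex.eq_one_of_fix5_dod hd g.2 hgd
      (S := o ∩ d) Finset.inter_subset_right (by omega) hfix)
  · intro g hg hfix
    have hgd : g • d = d := (Subgroup.mem_inf.mp hg).1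
    have hc : (d \ (o ∩ d)).card = 6 := by
      rw [Finset.card_sdiff_of_subset Finset.inter_subset_right, h6, hd.2]
    exact Subtype.ext (Cfsg.Agent.Lib.Helper3_Hex.eq_one_of_fix5_dod hd g.2 hgd
      (S := d \ (o ∩ d)) Finset.sdiff_subset (by omega) hfix)

end Cfsg.Agent.S5618
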