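import Cfsg.Statements.S5620
import Cfsg.Agent.Lib.Helper3_Hex

set_option autoImplicit false
open scoped Pointwise
open Cfsg

namespace Cfsg.Agent.S5620

/-- Inside the stabiliser of the dodecad of squares (a Mathieu group of degree 12), the stabiliser of the residue 0 (a point of the dodecad) and the stabiliser of the extra point (a point outside the dodecad) are isomorphic but not conjugate; conjugation by a suitable element of the code's group that maps the dodecad of squares onto its complement carries the first onto the second. -/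
theorem result : Nonempty (↥(Cfsg.Spor.M12 ⊓ MulAction.stabilizer (Equiv.Perm Cfsg.GolayPt) (none : Cfsg.GolayPt)) ≃* ↥Cfsg.Spor.M11) ∧ (¬ ∃ k ∈ Cfsg.Spor.M12, MulAut.conj k • Cfsg.Spor.M11 = Cfsg.Spor.M12 ⊓ MulAction.stabilizer (Equiv.Perm Cfsg.GolayPt) (none : Cfsg.GolayPt)) ∧ ∃ g ∈ Cfsg.M24, g • Cfsg.Spor.squareDodecad = Finset.univ \ Cfsg.Spor.squareDodecad ∧ MulAut.conj g • Cfsg.Spor.M11 = Cfsg.Spor.M12 ⊓ MulAction.stabilizer (Equiv.Perm Cfsg.GolayPt) (none : Cfsg.GolayPt) := by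
  have hd : Cfsg.Spor.squareDodecad ∈ Cfsg.dodecads := by
    refine ⟨⟨Cfsg.qrWord 0, Submodule.subset_span (Or.inl ⟨0, rfl⟩), rfl⟩, ?_⟩
    decide +kernel
  have h0 : (some 0 : Cfsg.GolayPt) ∈ Cfsg.Spor.squareDodecad := by decide +kernel
  have hn : (none : Cfsg.GolayPt) ∉ Cfsg.Spor.squareDodecad := by decide +kernel
  have hconj : ∀ g ∈ Cfsg.M24, ∀ (d : Finset Cfsg.GolayPt) (p : Cfsg.GolayPt),
      MulAut.conj g • (Cfsg.M24 ⊓ MulAction.stabilizer (Equiv.Perm Cfsg.GolayPt) d ⊓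
        MulAction.stabilizer (Equiv.Perm Cfsg.GolayPt) p) =
      Cfsg.M24 ⊓ MulAction.stabilizer (Equiv.Perm Cfsg.GolayPt) (g • d) ⊓
        MulAction.stabilizer (Equiv.Perm Cfsg.GolayPt) (g p) := by
    intro g hg d p
    ext h
    rw [Subgroup.mem_pointwise_smul_iff_inv_smul_mem, MulAut.smul_def, MulAut.conj_inv_apply]
    simp only [Subgroup.mem_inf]
    have e1 : g⁻¹ * h * g ∈ Cfsg.M24 ↔ h ∈ Cfsg.M24 := by
      constructor
      · intro hh
        have := Cfsg.M24.mul_mem (Cfsg.M24.mul_mem hg hh) (Cfsg.M24.inv_mem hg)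
        have e : g * (g⁻¹ * h * g) * g⁻¹ = h := by group
        rwa [e] at this
      · intro hh
        exact Cfsg.M24.mul_mem (Cfsg.M24.mul_mem (Cfsg.M24.inv_mem hg) hh) hg
    have e2 : g⁻¹ * h * g ∈ MulAction.stabilizer (Equiv.Perm Cfsg.GolayPt) d ↔
        h ∈ MulAction.stabilizer (Equiv.Perm Cfsg.GolayPt) (g • d) := by
      change (g⁻¹ * h * g) • d = d ↔ h • g • d = g • d
      rw [mul_smul, mul_smul, inv_smul_eq_iff]
    have e3 : g⁻¹ * h * g ∈ MulAction.stabilizer (Equiv.Perm Cfsg.GolayPt) p ↔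
        h ∈ MulAction.stabilizer (Equiv.Perm Cfsg.GolayPt) (g p) := by
      change (g⁻¹ * h * g) • p = p ↔ h • g • p = g • p
      rw [mul_smul, mul_smul, inv_smul_eq_iff]
    rw [e1, e2, e3]
  have h3 : ∃ g ∈ Cfsg.M24, g • Cfsg.Spor.squareDodecad = Finset.univ \ Cfsg.Spor.squareDodecad ∧ MulAut.conj g • Cfsg.Spor.M11 = Cfsg.Spor.M12 ⊓ MulAction.stabilizer (Equiv.Perm Cfsg.GolayPt) (none : Cfsg.GolayPt) := by
    obtain ⟨k1, hk1, hk1p, hk1d⟩ := Cfsg.Agent.Lib.Helper3_M24e.dodecad_flag_nf hd h0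
    obtain ⟨k2, hk2, hk2p, hk2d⟩ := Cfsg.Agent.Lib.Helper3_M24e.dodecad_flag_nf
      (Cfsg.Agent.Lib.Helper3_M24g.compl_mem_dodecads hd) (Finset.mem_compl.mpr hn)
    have hgd : (k2 * k1⁻¹) • Cfsg.Spor.squareDodecad = Cfsg.Spor.squareDodecadᶜ := by
      rw [mul_smul, ← hk1d, inv_smul_smul, hk2d, hk1d]
    have hgp : (k2 * k1⁻¹) (some 0) = none := by
      rw [Equiv.Perm.mul_apply, ← hk1p, ← hk2p]
      simp
    refine ⟨k2 * k1⁻¹, Cfsg.M24.mul_mem hk2 (Cfsg.M24.inv_mem hk1), ?_, ?_⟩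
    · rw [hgd, Finset.compl_eq_univ_sdiff]
    · change MulAut.conj (k2 * k1⁻¹) • (Cfsg.M24 ⊓ MulAction.stabilizer (Equiv.Perm Cfsg.GolayPt) Cfsg.Spor.squareDodecad ⊓
        MulAction.stabilizer (Equiv.Perm Cfsg.GolayPt) (some 0 : Cfsg.GolayPt)) = _
      rw [hconj _ (Cfsg.M24.mul_mem hk2 (Cfsg.M24.inv_mem hk1)), hgd, hgp]
      have : MulAction.stabilizer (Equiv.Perm Cfsg.GolayPt) Cfsg.Spor.squareDodecadᶜ =
          MulAction.stabilizer (Equiv.Perm Cfsg.GolayPt) Cfsg.Spor.squareDodecad := by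
        ext h
        change h • Cfsg.Spor.squareDodecadᶜ = Cfsg.Spor.squareDodecadᶜ ↔
          h • Cfsg.Spor.squareDodecad = Cfsg.Spor.squareDodecad
        rw [Finset.compl_eq_univ_sdiff, Finset.smul_finset_sdiff, Finset.smul_finset_univ,
          ← Finset.compl_eq_univ_sdiff, ← Finset.compl_eq_univ_sdiff, compl_inj_iff]
      rw [this]
      rfl
  refine ⟨?_, ?_, h3⟩
  · obtain ⟨g, _, _, hg⟩ := h3
    rw [← hg]
    exact ⟨(Subgroup.equivSMul (MulAut.conj g) Cfsg.Spor.M11).symm⟩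
  · rintro ⟨k, hk, hkk⟩
    have hk' : k ∈ Cfsg.M24 ∧ k • Cfsg.Spor.squareDodecad = Cfsg.Spor.squareDodecad :=
      Subgroup.mem_inf.mp hk
    change MulAut.conj k • (Cfsg.M24 ⊓ MulAction.stabilizer (Equiv.Perm Cfsg.GolayPt) Cfsg.Spor.squareDodecad ⊓
        MulAction.stabilizer (Equiv.Perm Cfsg.GolayPt) (some 0 : Cfsg.GolayPt)) = _ at hkk
    rw [hconj _ hk'.1, hk'.2] at hkk
    have hq : k (some 0) ∈ Cfsg.Spor.squareDodecad := by
      have := Finset.smul_mem_smul_finset (a := k) h0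
      rwa [hk'.2] at this
    obtain ⟨g, hg, hgx⟩ := Cfsg.Agent.Lib.Helper3_M24e.threeTrans_outside hd hq
      ⟨![none, some 5, some 7], by decide⟩ ⟨![some 5, some 7, none], by decide⟩
      (by decide +kernel) (by decide +kernel)
    have hg' : g • Cfsg.Spor.squareDodecad = Cfsg.Spor.squareDodecad ∧ g • (k (some 0)) = k (some 0) :=
      Subgroup.mem_inf.mp hg
    have hmem : g.1 ∈ Cfsg.M24 ⊓ MulAction.stabilizer (Equiv.Perm Cfsg.GolayPt) Cfsg.Spor.squareDodecad ⊓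
        MulAction.stabilizer (Equiv.Perm Cfsg.GolayPt) (k (some 0)) :=
      Subgroup.mem_inf.mpr ⟨Subgroup.mem_inf.mpr ⟨g.2, hg'.1⟩, hg'.2⟩
    rw [hkk] at hmem
    have h5 : g.1 none = none := (Subgroup.mem_inf.mp hmem).2
    have h6 : g.1 none = some 5 := hgx 0
    rw [h5] at h6
    exact absurd h6 (by decide)

end Cfsg.Agent.S5620
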