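import Cfsg.Statements.S5625
import Mathlib
import Cfsg.Agent.Lib.Helper3_Steiner2

set_option autoImplicit false
open Cfsg

namespace Cfsg.Agent.S5625

open Cfsg.Agent.Lib.Helper3_Steiner Cfsg.Agent.Lib.Helper3_Steiner2 Finset

theorem card_of_sum {ι : Type*} (S : Finset ι) (g : ι → ℤ) (P : ι → Prop) [DecidablePred P]
    (hg : ∀ c ∈ S, g c = if P c then 1 else 0) : ((S.filter P).card : ℤ) = ∑ c ∈ S, g c := by
  rw [sum_congr rfl hg, ← sum_filter, sum_const, nsmul_eq_mul, mul_one]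


/-- In any Steiner system S(5, 8, 24) and for any set Y of three points, the blocks meeting Y in exactly 3, 2, 1 and 0 points number 21, 168, 360 and 210 respectively (so there are 759 blocks in all). -/
theorem result (α : Type*) [Fintype α] [DecidableEq α] (hα : Fintype.card α = 24) (B : Set (Finset α)) (hB : Cfsg.IsSteinerSystem 5 8 B) (Y : Finset α) (hY : Y.card = 3) : {b : Finset α | b ∈ B ∧ (b ∩ Y).card = 3}.ncard = 21 ∧ {b : Finset α | b ∈ B ∧ (b ∩ Y).card = 2}.ncard = 168 ∧ {b : Finset α | b ∈ B ∧ (b ∩ Y).card = 1}.ncard = 360 ∧ {b : Finset α | b ∈ B ∧ (b ∩ Y).card = 0}.ncard = 210 := by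
  have e0 := sum_chooseZ' hB (by norm_num) Y 0 (by norm_num)
  have e1 := sum_chooseZ' hB (by norm_num) Y 1 (by norm_num)
  have e2 := sum_chooseZ' hB (by norm_num) Y 2 (by norm_num)
  have e3 := sum_chooseZ' hB (by norm_num) Y 3 (by norm_num)
  rw [hα, hY] at e0 e1 e2 e3
  have hle : ∀ c : Finset α, (Y ∩ c).card < 4 := by
    intro c
    have := card_le_card (inter_subset_left : Y ∩ c ⊆ Y)
    omega
  simp only [ncard_eq_card_filter, inter_comm _ Y]
  refine ⟨?_, ?_, ?_, ?_⟩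
  · have h := card_of_sum (blocks B) (fun c => (Nat.choose (Y ∩ c).card 3 : ℤ)) (fun c => (Y ∩ c).card = 3) (by
      intro c _
      have := hle c
      beta_reduce
      interval_cases (Y ∩ c).card <;> simp [Nat.choose])
    rw [e3] at h
    have h' : (Nat.choose 3 3 * lam 24 8 5 3) = 21 := by decide +kernel
    rw [h'] at h
    exact_mod_cast h
  · have h := card_of_sum (blocks B) (fun c => (Nat.choose (Y ∩ c).card 2 : ℤ) - 3 * (Nat.choose (Y ∩ c).card 3 : ℤ)) (fun c => (Y ∩ c).card = 2) (by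
      intro c _
      have := hle c
      beta_reduce
      interval_cases (Y ∩ c).card <;> simp [Nat.choose])
    rw [sum_sub_distrib, ← mul_sum, e2, e3] at h
    have h' : ((Nat.choose 3 2 * lam 24 8 5 2 : ℕ) : ℤ) - 3 * ((Nat.choose 3 3 * lam 24 8 5 3 : ℕ) : ℤ) = 168 := by decide +kernel
    rw [h'] at h
    exact_mod_cast h
  · have h := card_of_sum (blocks B) (fun c => (Nat.choose (Y ∩ c).card 1 : ℤ) - 2 * (Nat.choose (Y ∩ c).card 2 : ℤ) + 3 * (Nat.choose (Y ∩ c).card 3 : ℤ)) (fun c => (Y ∩ c).card = 1) (by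
      intro c _
      have := hle c
      beta_reduce
      interval_cases (Y ∩ c).card <;> simp [Nat.choose])
    rw [sum_add_distrib, sum_sub_distrib, ← mul_sum, ← mul_sum, e1, e2, e3] at h
    have h' : ((Nat.choose 3 1 * lam 24 8 5 1 : ℕ) : ℤ) - 2 * ((Nat.choose 3 2 * lam 24 8 5 2 : ℕ) : ℤ) + 3 * ((Nat.choose 3 3 * lam 24 8 5 3 : ℕ) : ℤ) = 360 := by decide +kernel
    rw [h'] at h
    exact_mod_cast h
  · have h := card_of_sum (blocks B) (fun c => (Nat.choose (Y ∩ c).card 0 : ℤ) - (Nat.choose (Y ∩ c).card 1 : ℤ) + (Nat.choose (Y ∩ c).card 2 : ℤ) - (Nat.choose (Y ∩ c).card 3 : ℤ)) (fun c => (Y ∩ c).card = 0) (by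
      intro c _
      have := hle c
      beta_reduce
      interval_cases (Y ∩ c).card <;> simp [Nat.choose])
    rw [sum_sub_distrib, sum_add_distrib, sum_sub_distrib, e0, e1, e2, e3] at h
    have h' : ((Nat.choose 3 0 * lam 24 8 5 0 : ℕ) : ℤ) - ((Nat.choose 3 1 * lam 24 8 5 1 : ℕ) : ℤ) + ((Nat.choose 3 2 * lam 24 8 5 2 : ℕ) : ℤ) - ((Nat.choose 3 3 * lam 24 8 5 3 : ℕ) : ℤ) = 210 := by decide +kernel
    rw [h'] at h
    exact_mod_cast h

end Cfsg.Agent.S5625
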