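import Cfsg.Statements.S5631
import Cfsg.Agent.Lib.Helper5_GLTv

set_option autoImplicit false

open Cfsg

namespace Cfsg.Agent.S5631

open Matrix Cfsg.Agent.Lib.Helper5_GLPar Cfsg.Agent.Lib.Helper5_GLTv

variable {F : Type*} [Field F] {ι : Type} [Fintype ι] [DecidableEq ι]

/-- a transvection in `SL` not stabilising a proper nonzero subspace -/
theorem exists_tv_not_stab (W : Submodule F (ι → F)) (hW0 : W ≠ ⊥) (hW1 : W ≠ ⊤) :
    ∃ (x φ : ι → F) (h : φ ⬝ᵥ x = 0), tv x φ h ∉ Cfsg.Geo.subspaceStabilizer W := by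
  obtain ⟨u, huW, hu0⟩ := Submodule.exists_mem_ne_zero_of_ne_bot hW0
  obtain ⟨x, -, hx⟩ := SetLike.exists_of_lt (lt_top_iff_ne_top.2 hW1)
  have hux : u ∉ Submodule.span F {x} := by
    intro h
    obtain ⟨c, rfl⟩ := Submodule.mem_span_singleton.1 h
    have hc : c ≠ 0 := by
      rintro rfl
      exact hu0 (zero_smul _ _)
    exact hx ((W.smul_mem_iff hc).1 huW)
  obtain ⟨ψ, hψ1, hψ2⟩ := exists_dual _ u hux
  refine ⟨x, ψ, hψ1 x (Submodule.mem_span_singleton_self x), ?_⟩
  apply tv_not_mem_stab W x ψ _ hx u huW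
  rw [hψ2]; exact one_ne_zero

theorem maximal [Finite F] (W : Submodule F (ι → F)) (hW0 : W ≠ ⊥) (hW1 : W ≠ ⊤) :
    Cfsg.Geo.IsMaximalIn (Cfsg.Geo.specialLinear ι F)
      (Cfsg.Geo.subspaceStabilizer W ⊓ Cfsg.Geo.specialLinear ι F) := by
  classical
  constructor
  · rw [SetLike.lt_iff_le_and_exists]
    obtain ⟨x, φ, h, hn⟩ := exists_tv_not_stab W hW0 hW1
    exact ⟨inf_le_right, tv x φ h, tv_mem_SL x φ h, fun hh => hn hh.1⟩
  · intro M hPM hMS
    by_cases hMP : M ≤ Cfsg.Geo.subspaceStabilizer W ⊓ Cfsg.Geo.specialLinear ι F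
    · exact Or.inl (le_antisymm hMP hPM)
    right
    obtain ⟨h, hhM, hhP⟩ := SetLike.not_le_iff_exists.1 hMP
    have hhS : h ∉ Cfsg.Geo.subspaceStabilizer W := fun hh => hhP ⟨hh, hMS hhM⟩
    have h1 : ¬ ∀ v ∈ (W : Set (ι → F)), (h : Matrix ι ι F) *ᵥ v ∈ (W : Set (ι → F)) :=
      fun hh => hhS (mem_stab_of_maps h _ hh)
    push Not at h1
    obtain ⟨w, hw, hy⟩ := h1
    have hw' : w ∈ W := hw
    have hy' : (h : Matrix ι ι F) *ᵥ w ∉ W := hy
    set y := (h : Matrix ι ι F) *ᵥ w with hydef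
    -- every vector is the image of a vector of W under an element of M
    have key : ∀ x : ι → F, x ∉ W → ∃ g ∈ M, ∃ w' ∈ W, (g : Matrix ι ι F) *ᵥ w' = x := by
      intro x hx
      by_cases hcase : x ∈ W ⊔ Submodule.span F {y}
      · obtain ⟨w0, hw0, z, hz, rfl⟩ := Submodule.mem_sup.1 hcase
        obtain ⟨c, rfl⟩ := Submodule.mem_span_singleton.1 hz
        have hc : c ≠ 0 := by
          rintro rfl
          apply hx
          rw [zero_smul, add_zero]; exact hw0
        have hcy : c • y ∉ Submodule.span F {w0} := by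
          intro hh
          have h2 : Submodule.span F {w0} ≤ W := (Submodule.span_singleton_le_iff_mem w0 W).2 hw0
          exact hy' ((W.smul_mem_iff hc).1 (h2 hh))
        obtain ⟨ψ, hψ1, hψ2⟩ := exists_dual _ _ hcy
        have h0 := hψ1 w0 (Submodule.mem_span_singleton_self w0)
        refine ⟨tv w0 ψ h0 * h, M.mul_mem (hPM ⟨tv_mem_stab_of_mem W w0 ψ h0 hw0, tv_mem_SL _ _ _⟩) hhM,
          c • w, W.smul_mem c hw', ?_⟩
        rw [Units.val_mul, ← mulVec_mulVec, mulVec_smul, ← hydef, tv_mulVec, hψ2, one_smul, add_comm]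
      · have hyS : y ∉ W ⊔ Submodule.span F {x - y} := by
          intro hh
          obtain ⟨w0, hw0, z, hz, hsum⟩ := Submodule.mem_sup.1 hh
          obtain ⟨c, rfl⟩ := Submodule.mem_span_singleton.1 hz
          by_cases hc : c = 0
          · subst hc
            rw [zero_smul, add_zero] at hsum
            exact hy' (hsum ▸ hw0)
          · apply hcase
            have hx' : x = (-c⁻¹) • w0 + (c⁻¹ * (1 + c)) • y := by
              have h3 : c • x = (1 + c) • y - w0 := by
                rw [add_smul, one_smul]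
                nth_rewrite 1 [← hsum]
                rw [smul_sub]
                abel
              have h4 : x = c⁻¹ • (c • x) := by rw [smul_smul, inv_mul_cancel₀ hc, one_smul]
              rw [h4, h3, smul_sub, smul_smul, neg_smul]
              abel
            rw [hx']
            exact Submodule.add_mem _ (Submodule.mem_sup_left (W.smul_mem _ hw0))
              (Submodule.mem_sup_right (Submodule.smul_mem _ _ (Submodule.mem_span_singleton_self y)))
        obtain ⟨ψ, hψ1, hψ2⟩ := exists_dual _ _ hyS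
        have h0 := hψ1 (x - y) (Submodule.mem_sup_right (Submodule.mem_span_singleton_self _))
        refine ⟨tv (x - y) ψ h0 * h, M.mul_mem (hPM ⟨tv_mem_stab_of_perp W _ ψ h0
          (fun w1 hw1 => hψ1 w1 (Submodule.mem_sup_left hw1)), tv_mem_SL _ _ _⟩) hhM, w, hw', ?_⟩
        rw [Units.val_mul, ← mulVec_mulVec, ← hydef, tv_mulVec, hψ2, one_smul, add_sub_cancel]
    apply eq_SL_of_tv M hMS
    intro x φ hx
    by_cases hxW : x ∈ W
    · exact hPM ⟨tv_mem_stab_of_mem W x φ hx hxW, tv_mem_SL _ _ _⟩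
    · obtain ⟨g, hg, w', hw'', hgw⟩ := key x hxW
      have h2 : g⁻¹ * tv x φ hx * g ∈ Cfsg.Geo.subspaceStabilizer W ⊓ Cfsg.Geo.specialLinear ι F := by
        constructor
        · apply mem_stab_of_maps
          intro v hv
          rw [Units.val_mul, Units.val_mul, ← mulVec_mulVec, ← mulVec_mulVec, tv_mulVec, mulVec_add,
            mulVec_smul, gl_inv_mulVec, ← hgw, gl_inv_mulVec]
          exact W.add_mem hv (W.smul_mem _ hw'')
        · exact Subgroup.mul_mem _ (Subgroup.mul_mem _ (Subgroup.inv_mem _ (hMS hg)) (tv_mem_SL _ _ _))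
            (hMS hg)
      have h3 : tv x φ hx = g * (g⁻¹ * tv x φ hx * g) * g⁻¹ := by group
      rw [h3]
      exact M.mul_mem (M.mul_mem hg (hPM h2)) (M.inv_mem hg)

theorem result {F : Type*} [Field F] [Fintype F] (n : ℕ) (hn : 13 ≤ n) (W : Submodule F (Fin n → F)) (hW0 : W ≠ ⊥) (hW1 : W ≠ ⊤) : Cfsg.Geo.IsMaximalIn (Cfsg.Geo.specialLinear (Fin n) F) (Cfsg.Geo.subspaceStabilizer W ⊓ Cfsg.Geo.specialLinear (Fin n) F) :=
  maximal W hW0 hW1

end Cfsg.Agent.S5631
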