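import Cfsg.Statements.S5632
import Cfsg.Agent.S5631

set_option autoImplicit false

open Cfsg

namespace Cfsg.Agent.S5632

open Matrix Cfsg.Agent.Lib.Helper5_GLPar Cfsg.Agent.Lib.Helper5_GLTv

theorem result {F : Type*} [Field F] [Fintype F] (n : ℕ) (W U : Submodule F (Fin n → F)) (hW0 : W ≠ ⊥) (hWU : W < U) (hdim : Module.finrank F W + Module.finrank F U = n) : ∃ K : Subgroup (Matrix.GeneralLinearGroup (Fin n) F), Cfsg.Geo.subspaceStabilizer W ⊓ Cfsg.Geo.subspaceStabilizer U ⊓ Cfsg.Geo.specialLinear (Fin n) F < K ∧ K < Cfsg.Geo.specialLinear (Fin n) F := by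
  classical
  have hW1 : W ≠ ⊤ := by
    rintro rfl
    exact not_top_lt hWU
  have hU1 : U ≠ ⊤ := by
    rintro rfl
    rw [finrank_top, Module.finrank_fintype_fun_eq_card, Fintype.card_fin] at hdim
    have : Module.finrank F W = 0 := by omega
    exact hW0 (Submodule.finrank_eq_zero.1 this)
  refine ⟨Cfsg.Geo.subspaceStabilizer W ⊓ Cfsg.Geo.specialLinear (Fin n) F, ?_,
    (Cfsg.Agent.S5631.maximal W hW0 hW1).1⟩
  obtain ⟨u, huU, huW⟩ := SetLike.exists_of_lt hWU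
  obtain ⟨x, -, hx⟩ := SetLike.exists_of_lt (lt_top_iff_ne_top.2 hU1)
  have hu : u ∉ W ⊔ Submodule.span F {x} := by
    intro hh
    obtain ⟨w0, hw0, z, hz, hsum⟩ := Submodule.mem_sup.1 hh
    obtain ⟨c, rfl⟩ := Submodule.mem_span_singleton.1 hz
    by_cases hc : c = 0
    · subst hc
      rw [zero_smul, add_zero] at hsum
      exact huW (hsum ▸ hw0)
    · have h1 : c • x ∈ U := by
        have : c • x = u - w0 := by rw [← hsum]; abel
        rw [this]
        exact U.sub_mem huU (hWU.le hw0)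
      exact hx ((U.smul_mem_iff hc).1 h1)
  obtain ⟨ψ, hψ1, hψ2⟩ := exists_dual _ _ hu
  have h0 := hψ1 x (Submodule.mem_sup_right (Submodule.mem_span_singleton_self _))
  rw [SetLike.lt_iff_le_and_exists]
  refine ⟨fun g hg => ⟨hg.1.1, hg.2⟩, tv x ψ h0,
    ⟨tv_mem_stab_of_perp W _ ψ h0 (fun w1 hw1 => hψ1 w1 (Submodule.mem_sup_left hw1)), tv_mem_SL _ _ _⟩,
    fun hh => ?_⟩
  refine tv_not_mem_stab U x ψ h0 hx u huU ?_ hh.1.2
  rw [hψ2]; exact one_ne_zero

end Cfsg.Agent.S5632
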