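import Cfsg.Statements.S5633
import Cfsg.Agent.S5631

set_option autoImplicit false

open Cfsg

namespace Cfsg.Agent.S5633

open Matrix Cfsg.Agent.Lib.Helper5_GLPar Cfsg.Agent.Lib.Helper5_GLTv

theorem result {F : Type*} [Field F] [Fintype F] (n : ℕ) (W U : Submodule F (Fin n → F)) (hW0 : W ≠ ⊥) (hWU : W ⊓ U = ⊥) (hWU' : W ⊔ U = ⊤) (hdim : Module.finrank F W < Module.finrank F U) : ∃ K : Subgroup (Matrix.GeneralLinearGroup (Fin n) F), Cfsg.Geo.subspaceStabilizer W ⊓ Cfsg.Geo.subspaceStabilizer U ⊓ Cfsg.Geo.specialLinear (Fin n) F < K ∧ K < Cfsg.Geo.specialLinear (Fin n) F := by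
  classical
  have hU0 : U ≠ ⊥ := by
    rintro rfl
    rw [finrank_bot] at hdim
    omega
  have hW1 : W ≠ ⊤ := by
    rintro rfl
    rw [top_inf_eq] at hWU
    exact hU0 hWU
  refine ⟨Cfsg.Geo.subspaceStabilizer W ⊓ Cfsg.Geo.specialLinear (Fin n) F, ?_,
    (Cfsg.Agent.S5631.maximal W hW0 hW1).1⟩
  obtain ⟨u, huU, hu0⟩ := Submodule.exists_mem_ne_zero_of_ne_bot hU0
  obtain ⟨x, hxW, hx0⟩ := Submodule.exists_mem_ne_zero_of_ne_bot hW0
  have hxU : x ∉ U := by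
    intro h
    have : x ∈ W ⊓ U := ⟨hxW, h⟩
    rw [hWU] at this
    exact hx0 ((Submodule.mem_bot F).1 this)
  have hu : u ∉ Submodule.span F {x} := by
    intro hh
    have h2 : Submodule.span F {x} ≤ W := (Submodule.span_singleton_le_iff_mem x W).2 hxW
    have : u ∈ W ⊓ U := ⟨h2 hh, huU⟩
    rw [hWU] at this
    exact hu0 ((Submodule.mem_bot F).1 this)
  obtain ⟨ψ, hψ1, hψ2⟩ := exists_dual _ _ hu
  have h0 := hψ1 x (Submodule.mem_span_singleton_self _)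
  rw [SetLike.lt_iff_le_and_exists]
  refine ⟨fun g hg => ⟨hg.1.1, hg.2⟩, tv x ψ h0,
    ⟨tv_mem_stab_of_mem W _ ψ h0 hxW, tv_mem_SL _ _ _⟩, fun hh => ?_⟩
  refine tv_not_mem_stab U x ψ h0 hxU u huU ?_ hh.1.2
  rw [hψ2]; exact one_ne_zero

end Cfsg.Agent.S5633
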