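import Cfsg.Statements.S5642
import Cfsg.Agent.Lib.Helper5_AltOver

set_option autoImplicit false

open Cfsg

namespace Cfsg.Agent.S5642

open Matrix Cfsg.Agent.Lib.Helper5_GLTv Cfsg.Agent.Lib.Helper5_GLPar Cfsg.Agent.Lib.Helper5_AltOver

theorem result {F : Type*} [Field F] [Fintype F] (n : ℕ) (hn : 13 ≤ n) (f : (Fin n → F) → (Fin n → F) → F) (hf : Cfsg.Geo.IsSymplecticForm f) : Cfsg.Geo.IsMaximalIn (Cfsg.Geo.specialLinear (Fin n) F) (Cfsg.Geo.similarityGroup f ⊓ Cfsg.Geo.specialLinear (Fin n) F) := by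
  classical
  let B : (Fin n → F) →ₗ[F] (Fin n → F) →ₗ[F] F :=
    LinearMap.mk₂ F f hf.bilinear.add_left hf.bilinear.smul_left hf.bilinear.add_right
      hf.bilinear.smul_right
  have hB : ∀ u v, B u v = f u v := fun _ _ => rfl
  have halt : ∀ v, B v v = 0 := hf.alternating
  have hnd : ∀ v, (∀ x, B x v = 0) → v = 0 := by
    intro v hv
    by_contra h0
    obtain ⟨⟨x, hx⟩, _⟩ := hf.nondegenerate v h0
    exact hx (hv x)
  have hH0 : ∀ d (c : F), P B (Cfsg.Geo.similarityGroup f ⊓ Cfsg.Geo.specialLinear (Fin n) F) d (c • d) := by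
    intro d c
    obtain ⟨g, hg, hgv⟩ := exists_tv B d (c • d) (by rw [map_smul, halt, smul_zero])
    refine ⟨g, ⟨⟨1, fun u v => ?_⟩, hg⟩, hgv⟩
    rw [Units.val_one, one_mul]
    exact st_iso B halt _ d c hgv u v
  let a : Fin n → F := Pi.single ⟨0, by omega⟩ 1
  have ha : a ≠ 0 := by
    intro h
    have := congrFun h ⟨0, by omega⟩
    simp [a] at this
  constructor
  · refine lt_of_le_of_ne inf_le_right ?_
    intro heq
    -- a vector `b ⊥ a` outside the span of `a`
    obtain ⟨b, hab, hb⟩ : ∃ b, B a b = 0 ∧ ∀ l : F, b ≠ l • a := by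
      by_contra hcon
      push Not at hcon
      have hle : LinearMap.ker (B a) ≤ Submodule.span F {a} := by
        intro b hb
        obtain ⟨l, hl⟩ := hcon b hb
        rw [hl]
        exact Submodule.smul_mem _ _ (Submodule.mem_span_singleton_self a)
      have h1 := LinearMap.finrank_range_add_finrank_ker (B a)
      have h2 : Module.finrank F (LinearMap.range (B a)) ≤ 1 := by
        have := Submodule.finrank_le (LinearMap.range (B a))
        simpa using this
      have h3 := Submodule.finrank_mono hle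
      rw [finrank_span_singleton ha] at h3
      rw [Module.finrank_fin_fun] at h1
      omega
    have hab' : ∀ l : F, a ≠ l • b := by
      intro l hl
      have hl0 : l ≠ 0 := by
        rintro rfl
        exact ha (by rw [hl, zero_smul])
      apply hb l⁻¹
      rw [hl, smul_smul, inv_mul_cancel₀ hl0, one_smul]
    obtain ⟨u, hub, hua⟩ := sep B hnd a b hab'
    have hbu : ∀ l : F, b ≠ l • u := by
      intro l hl
      have h1 : B b a = 0 := by rw [skew B halt, hab, neg_zero]
      rw [hl, map_smul, LinearMap.smul_apply, hua, smul_eq_mul, mul_one] at h1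
      apply hb 0
      rw [hl, h1, zero_smul, zero_smul]
    obtain ⟨v, hvu, hvb⟩ := sep B hnd b u hbu
    obtain ⟨g, hg, hgv⟩ := exists_tv B a b hab
    rw [← heq] at hg
    obtain ⟨c, hc⟩ := hg.1
    have h1 := hc u v
    rw [← hB, ← hB, hgv, hgv, hub, hvb, zero_smul, add_zero, one_smul, map_add, hua,
      skew B halt u v, hvu, neg_zero, mul_zero, zero_add] at h1
    exact one_ne_zero h1
  · intro M hle hM
    by_cases hMH : M ≤ Cfsg.Geo.similarityGroup f ⊓ Cfsg.Geo.specialLinear (Fin n) F
    · exact Or.inl (le_antisymm hMH hle)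
    · right
      obtain ⟨g, hgM, hg⟩ := SetLike.not_le_iff_exists.1 hMH
      have hM0 : ∀ d (c : F), P B M d (c • d) := by
        intro d c
        obtain ⟨t, ht, htv⟩ := hH0 d c
        exact ⟨t, hle ht, htv⟩
      apply eq_SL B hnd M hM
      apply overgroup B halt hnd a ha M hM0 g hgM
      intro hsim
      exact hg ⟨hsim, hM hgM⟩

end Cfsg.Agent.S5642
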