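import Cfsg.Statements.S5643
import Cfsg.Agent.Lib.Helper5_HermOver

set_option autoImplicit false

open Cfsg

namespace Cfsg.Agent.S5643

open Matrix Cfsg.Agent.Lib.Helper5_GLTv Cfsg.Agent.Lib.Helper5_GLPar Cfsg.Agent.Lib.Helper5_HermOver

variable {F : Type*} [Field F] {ι : Type} [Fintype ι] [DecidableEq ι] {σ : F →+* F}

/-- `M` contains the transvection `v ↦ v + B(b,v) a` -/
def R (B : (ι → F) →ₛₗ[σ] (ι → F) →ₗ[F] F) (M : Subgroup (Matrix.GeneralLinearGroup ι F))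
    (a b : ι → F) : Prop :=
  B b a = 0 ∧ ∃ g ∈ M, ∀ v, (g : Matrix ι ι F) *ᵥ v = v + B b v • a

theorem inv_apply (B : (ι → F) →ₛₗ[σ] (ι → F) →ₗ[F] F) (g : Matrix.GeneralLinearGroup ι F)
    (a b : ι → F) (hba : B b a = 0) (hg : ∀ v, (g : Matrix ι ι F) *ᵥ v = v + B b v • a) (v : ι → F) :
    ((g⁻¹ : Matrix.GeneralLinearGroup ι F) : Matrix ι ι F) *ᵥ v = v - B b v • a := by
  have h1 : (g : Matrix ι ι F) *ᵥ (v - B b v • a) = v := by
    rw [hg, map_sub, map_smul, hba, smul_zero, sub_zero, sub_add_cancel]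
  conv_lhs => rw [← h1]
  rw [gl_inv_mulVec]

theorem ut_exists (B : (ι → F) →ₛₗ[σ] (ι → F) →ₗ[F] F) (x : ι → F) (k : F) (hx : B x x = 0) :
    ∃ t : Matrix.GeneralLinearGroup ι F, t ∈ Cfsg.Geo.specialLinear ι F ∧
      ∀ v, (t : Matrix ι ι F) *ᵥ v = v + (k * B x v) • x :=
  ⟨tv x (k • fun i => B x (Pi.single i 1)) (by rw [smul_dotProduct, dot_eq, hx, smul_zero]),
    tv_mem_SL _ _ _, fun v => by rw [tv_mulVec, smul_dotProduct, dot_eq, smul_eq_mul]⟩

theorem ut_iso (B : (ι → F) →ₛₗ[σ] (ι → F) →ₗ[F] F) (hS : B.IsSymm) (t : Matrix ι ι F)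
    (x : ι → F) (k : F) (hx : B x x = 0) (hk : k + σ k = 0)
    (ht : ∀ v, t *ᵥ v = v + (k * B x v) • x) (u v : ι → F) : B (t *ᵥ u) (t *ᵥ v) = B u v := by
  rw [ht, ht]
  simp only [map_add, LinearMap.add_apply, map_smul, LinearMap.map_smulₛₗ, LinearMap.smul_apply,
    smul_eq_mul, map_mul, hx, hS.eq x u]
  linear_combination (B u x * B x v) * hk

theorem sys (B : (ι → F) →ₛₗ[σ] (ι → F) →ₗ[F] F) (hS : B.IsSymm)
    (M : Subgroup (Matrix.GeneralLinearGroup ι F))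
    (hM : ∀ (x : ι → F) (k : F), B x x = 0 → k + σ k = 0 →
      ∃ t ∈ M, ∀ v, (t : Matrix ι ι F) *ᵥ v = v + (k * B x v) • x) :
    Sys B (R B M) ∧ Sys B (fun a b => R B M b a) := by
  have htv : ∀ (x : ι → F) (k : F), B x x = 0 → k + σ k = 0 → ∀ a b, R B M a b →
      R B M (a + (k * B x a) • x) (b + (k * B x b) • x) := by
    rintro x k hx hk a b ⟨h1, g, hg, hgv⟩
    obtain ⟨t, htM, ht⟩ := hM x k hx hk
    rw [← ht a, ← ht b]
    refine ⟨by rw [ut_iso B hS _ x k hx hk ht]; exact h1, t * g * t⁻¹,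
      M.mul_mem (M.mul_mem htM hg) (M.inv_mem htM), fun v => ?_⟩
    rw [Units.val_mul, Units.val_mul, ← mulVec_mulVec, ← mulVec_mulVec, hgv, mulVec_add, mulVec_smul,
      gl_mulVec_inv]
    congr 2
    rw [← ut_iso B hS _ x k hx hk ht b, gl_mulVec_inv]
  constructor
  · constructor
    · rintro a b b' ⟨h1, g, hg, hgv⟩ ⟨h2, g', hg', hgv'⟩
      refine ⟨by rw [map_sub, LinearMap.sub_apply, h1, h2, sub_zero], g * g'⁻¹,
        M.mul_mem hg (M.inv_mem hg'), fun v => ?_⟩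
      rw [Units.val_mul, ← mulVec_mulVec, inv_apply B g' a b' h2 hgv', hgv, map_sub, map_smul, h1,
        smul_zero, sub_zero, map_sub, LinearMap.sub_apply, sub_smul]
      abel
    · exact htv
  · constructor
    · rintro a b b' ⟨h1, g, hg, hgv⟩ ⟨h2, g', hg', hgv'⟩
      refine ⟨by rw [map_sub, h1, h2, sub_zero], g * g'⁻¹,
        M.mul_mem hg (M.inv_mem hg'), fun v => ?_⟩
      rw [Units.val_mul, ← mulVec_mulVec, inv_apply B g' b' a h2 hgv', hgv, map_sub, map_smul, h2,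
        smul_zero, sub_zero, smul_sub]
      abel
    · intro x k hx hk a b h
      exact htv x k hx hk b a h

theorem sim_of_iso [Finite F] (hσ : σ ≠ RingHom.id F) (hσ2 : ∀ a : F, σ (σ a) = a)
    (B : (ι → F) →ₛₗ[σ] (ι → F) →ₗ[F] F) (hS : B.IsSymm) (hB : B.Nondegenerate)
    (hn : 8 < Fintype.card ι) (g : Matrix.GeneralLinearGroup ι F)
    (h : ∀ x, B x x = 0 → x ≠ 0 → ∃ c : F, ∀ u,
      B ((g : Matrix ι ι F) *ᵥ x) ((g : Matrix ι ι F) *ᵥ u) = c * B x u) :
    ∃ c : Fˣ, ∀ u v, B ((g : Matrix ι ι F) *ᵥ u) ((g : Matrix ι ι F) *ᵥ v) = (c : F) * B u v := by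
  obtain ⟨z1, -, -, -, -, hz1⟩ := exN4 hσ hσ2 B hS hB hn 0 0 0 0 1 (map_one σ)
  obtain ⟨z2, hz12, -, -, -, hz2⟩ := exN4 hσ hσ2 B hS hB hn z1 0 0 0 (-1) (by rw [map_neg, map_one])
  obtain ⟨x0, hx0def⟩ : ∃ x0, x0 = z1 + z2 := ⟨_, rfl⟩
  have hx0 : B x0 x0 = 0 := by
    rw [hx0def]
    simp only [map_add, LinearMap.add_apply, hz1, hz2, hz12, flip0 B hS hz12]
    ring
  have hx00 : x0 ≠ 0 := by
    intro h0
    have : B z1 x0 = 1 := by rw [hx0def, map_add, hz1, hz12, add_zero]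
    rw [h0, map_zero] at this
    exact zero_ne_one this
  obtain ⟨c0, hc0⟩ := h x0 hx0 hx00
  have hcmp : ∀ (x w : ι → F) (cx cw : F),
      (∀ u, B ((g : Matrix ι ι F) *ᵥ x) ((g : Matrix ι ι F) *ᵥ u) = cx * B x u) →
      (∀ u, B ((g : Matrix ι ι F) *ᵥ w) ((g : Matrix ι ι F) *ᵥ u) = cw * B w u) →
      B x w ≠ 0 → cx = σ cw := by
    intro x w cx cw hx hw hxw
    have h1 := hx w
    have h2 := hw x
    have h3 := congrArg σ h2
    rw [hS.eq, map_mul, hS.eq, h1] at h3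
    exact mul_right_cancel₀ hxw h3
  have hconst : ∀ x, B x x = 0 → ∀ u,
      B ((g : Matrix ι ι F) *ᵥ x) ((g : Matrix ι ι F) *ᵥ u) = c0 * B x u := by
    intro x hx u
    by_cases hx0' : x = 0
    · subst hx0'
      simp
    · obtain ⟨cx, hcx⟩ := h x hx hx0'
      obtain ⟨w, hww, -, hw1, hw2⟩ := both_iso hσ hσ2 B hS hB hn 0 x0 x (by simpa using hx00)
        (by simpa using hx0')
      have hw0 : w ≠ 0 := by
        rintro rfl
        simp at hw1
      obtain ⟨cw, hcw⟩ := h w hww hw0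
      rw [hcx, hcmp x w cx cw hcx hcw hw2, ← hcmp x0 w c0 cw hc0 hcw hw1]
  have hall : ∀ u v, B ((g : Matrix ι ι F) *ᵥ u) ((g : Matrix ι ι F) *ᵥ v) = c0 * B u v := by
    intro u v
    by_cases hu : B u u = 0
    · exact hconst u hu v
    · obtain ⟨x1, x2, h1, h2, -, -, -, h6⟩ := decomp hσ hσ2 B hS hB hn 0 u hu
      rw [h6, mulVec_add, map_add, map_add, LinearMap.add_apply, LinearMap.add_apply, hconst x1 h1,
        hconst x2 h2]
      ring
  have hc00 : c0 ≠ 0 := by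
    rintro rfl
    apply hx00
    have h0 : (g : Matrix ι ι F) *ᵥ x0 = 0 := by
      apply hB.1
      intro y
      rw [← gl_mulVec_inv g y, hall, zero_mul]
    rw [← gl_inv_mulVec g x0, h0, mulVec_zero]
  exact ⟨Units.mk0 c0 hc00, hall⟩

theorem overgroup [Finite F] (hσ : σ ≠ RingHom.id F) (hσ2 : ∀ a : F, σ (σ a) = a)
    (B : (ι → F) →ₛₗ[σ] (ι → F) →ₗ[F] F) (hS : B.IsSymm) (hB : B.Nondegenerate)
    (hn : 8 < Fintype.card ι) (M : Subgroup (Matrix.GeneralLinearGroup ι F))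
    (hM : ∀ (x : ι → F) (k : F), B x x = 0 → k + σ k = 0 →
      ∃ t ∈ M, ∀ v, (t : Matrix ι ι F) *ᵥ v = v + (k * B x v) • x)
    (g : Matrix.GeneralLinearGroup ι F) (hgM : g ∈ M)
    (hg : ¬ ∃ c : Fˣ, ∀ u v,
      B ((g : Matrix ι ι F) *ᵥ u) ((g : Matrix ι ι F) *ᵥ v) = (c : F) * B u v) :
    ∀ a v, a ≠ 0 → B a v = 0 → R B M a v := by
  obtain ⟨x, hx, hx0, hno⟩ : ∃ x, B x x = 0 ∧ x ≠ 0 ∧ ∀ c : F, ¬ ∀ u,
      B ((g : Matrix ι ι F) *ᵥ x) ((g : Matrix ι ι F) *ᵥ u) = c * B x u := by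
    by_contra hcon
    push Not at hcon
    exact hg (sim_of_iso hσ hσ2 B hS hB hn g hcon)
  obtain ⟨k0, hk0, hk0s⟩ := ex_skew hσ hσ2
  obtain ⟨t, htM, ht⟩ := hM x k0 hx hk0s
  obtain ⟨b, hb⟩ := rep B hB ((k0 • fun i => B x (Pi.single i 1)) ᵥ*
    ((g⁻¹ : Matrix.GeneralLinearGroup ι F) : Matrix ι ι F))
  have hb' : ∀ v, B b v = k0 * B x (((g⁻¹ : Matrix.GeneralLinearGroup ι F) : Matrix ι ι F) *ᵥ v) := by
    intro v
    rw [hb, ← dotProduct_mulVec, smul_dotProduct, dot_eq, smul_eq_mul]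
  have hR : R B M ((g : Matrix ι ι F) *ᵥ x) b := by
    refine ⟨by rw [hb', gl_inv_mulVec, hx, mul_zero], g * t * g⁻¹,
      M.mul_mem (M.mul_mem hgM htM) (M.inv_mem hgM), fun v => ?_⟩
    rw [Units.val_mul, Units.val_mul, ← mulVec_mulVec, ← mulVec_mulVec, ht, mulVec_add, mulVec_smul,
      gl_mulVec_inv, hb']
  have hgx0 : (g : Matrix ι ι F) *ᵥ x ≠ 0 := by
    intro h0
    apply hx0
    rw [← gl_inv_mulVec g x, h0, mulVec_zero]
  have hbl : ∀ l : F, b ≠ l • ((g : Matrix ι ι F) *ᵥ x) := by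
    intro l hl
    have h1 : ∀ u, σ l * B ((g : Matrix ι ι F) *ᵥ x) ((g : Matrix ι ι F) *ᵥ u) = k0 * B x u := by
      intro u
      have := hb' ((g : Matrix ι ι F) *ᵥ u)
      rw [gl_inv_mulVec, hl, LinearMap.map_smulₛₗ, LinearMap.smul_apply, smul_eq_mul] at this
      exact this
    have hl0 : σ l ≠ 0 := by
      intro h0
      apply hx0
      apply hB.1
      intro u
      have := h1 u
      rw [h0, zero_mul] at this
      exact (mul_eq_zero.1 this.symm).resolve_left hk0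
    apply hno (k0 / σ l)
    intro u
    rw [div_mul_eq_mul_div, ← h1 u]
    field_simp
  obtain ⟨s1, s2⟩ := sys B hS M hM
  intro a v ha hav
  exact spread hσ hσ2 B hS hB hn s1 s2 _ b hgx0 hR (flip0 B hS hR.1) hbl a v ha hav

theorem result {F : Type*} [Field F] [Fintype F] (n : ℕ) (hn : 13 ≤ n) (σ : F ≃+* F) (f : (Fin n → F) → (Fin n → F) → F) (hf : Cfsg.Geo.IsUnitaryForm σ f) : Cfsg.Geo.IsMaximalIn (Cfsg.Geo.specialLinear (Fin n) F) (Cfsg.Geo.similarityGroup f ⊓ Cfsg.Geo.specialLinear (Fin n) F) := by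
  classical
  have hσ : (σ : F →+* F) ≠ RingHom.id F := by
    intro h
    apply hf.ne_refl
    ext a
    exact RingHom.congr_fun h a
  have hσ2 : ∀ a : F, (σ : F →+* F) ((σ : F →+* F) a) = a := hf.involutive
  let B : (Fin n → F) →ₛₗ[(σ : F →+* F)] (Fin n → F) →ₗ[F] F :=
    LinearMap.mk₂'ₛₗ (σ : F →+* F) (RingHom.id F) (fun u v => f v u)
      (fun m₁ m₂ k => by
        rw [hf.herm k (m₁ + m₂), hf.add_left, map_add, ← hf.herm, ← hf.herm])
      (fun c m k => by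
        rw [hf.herm k (c • m), hf.smul_left, map_mul, ← hf.herm]
        rfl)
      (fun m n₁ n₂ => hf.add_left n₁ n₂ m)
      (fun c m k => hf.smul_left c k m)
  have hBf : ∀ u v, B u v = f v u := fun _ _ => rfl
  have hS : B.IsSymm := ⟨fun x y => (hf.herm x y).symm⟩
  have hB : B.Nondegenerate := by
    constructor
    · intro x hx
      by_contra h0
      obtain ⟨⟨y, hy⟩, _⟩ := hf.nondegenerate x h0
      exact hy (hx y)
    · intro y hy
      by_contra h0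
      obtain ⟨_, ⟨x, hx⟩⟩ := hf.nondegenerate y h0
      exact hx (hy x)
  have hcard : 8 < Fintype.card (Fin n) := by
    rw [Fintype.card_fin]; omega
  have hH0 : ∀ (x : Fin n → F) (k : F), B x x = 0 → k + (σ : F →+* F) k = 0 →
      ∃ t ∈ Cfsg.Geo.similarityGroup f ⊓ Cfsg.Geo.specialLinear (Fin n) F,
        ∀ v, (t : Matrix (Fin n) (Fin n) F) *ᵥ v = v + (k * B x v) • x := by
    intro x k hx hk
    obtain ⟨t, ht, htv⟩ := ut_exists B x k hx
    refine ⟨t, ⟨⟨1, fun u v => ?_⟩, ht⟩, htv⟩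
    rw [Units.val_one, one_mul]
    exact ut_iso B hS _ x k hx hk htv v u
  constructor
  · refine lt_of_le_of_ne inf_le_right ?_
    intro heq
    obtain ⟨a, -, -, -, -, haa⟩ := exN4 hσ hσ2 B hS hB hcard 0 0 0 0 1 (map_one _)
    obtain ⟨b, hab, -, -, -, hbb⟩ := exN4 hσ hσ2 B hS hB hcard a 0 0 0 1 (map_one _)
    have hba := flip0 B hS hab
    have hmem : tv a (fun i => B b (Pi.single i 1)) (by rw [dot_eq]; exact hba) ∈
        Cfsg.Geo.similarityGroup f ⊓ Cfsg.Geo.specialLinear (Fin n) F := by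
      rw [heq]
      exact tv_mem_SL _ _ _
    obtain ⟨c, hc⟩ := hmem.1
    have e1 := hc a a
    rw [tv_mulVec, dot_eq, hba, zero_smul, add_zero, ← hBf, haa, mul_one] at e1
    have e2 := hc b b
    rw [tv_mulVec, dot_eq, hbb, one_smul, ← hBf, ← hBf, hbb, ← e1] at e2
    simp only [map_add, LinearMap.add_apply, hab, hba, haa, hbb] at e2
    have : (1 : F) = 0 := by linear_combination e2
    exact one_ne_zero this
  · intro M hle hM
    by_cases hMH : M ≤ Cfsg.Geo.similarityGroup f ⊓ Cfsg.Geo.specialLinear (Fin n) F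
    · exact Or.inl (le_antisymm hMH hle)
    · right
      obtain ⟨g, hgM, hg⟩ := SetLike.not_le_iff_exists.1 hMH
      have hM0 : ∀ (x : Fin n → F) (k : F), B x x = 0 → k + (σ : F →+* F) k = 0 →
          ∃ t ∈ M, ∀ v, (t : Matrix (Fin n) (Fin n) F) *ᵥ v = v + (k * B x v) • x := by
        intro x k hx hk
        obtain ⟨t, ht, htv⟩ := hH0 x k hx hk
        exact ⟨t, hle ht, htv⟩
      have hov := overgroup hσ hσ2 B hS hB hcard M hM0 g hgM (by
        rintro ⟨c, hc⟩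
        exact hg ⟨⟨c, fun u v => hc v u⟩, hM hgM⟩)
      apply eq_SL_of_tv M hM
      intro x φ hx
      by_cases hx0 : x = 0
      · subst hx0
        have : tv (0 : Fin n → F) φ hx = 1 := by
          apply Units.ext
          apply Matrix.toLin'.injective
          apply LinearMap.ext
          intro v
          rw [Matrix.toLin'_apply, tv_mulVec, smul_zero, add_zero]
          simp
        rw [this]
        exact M.one_mem
      · obtain ⟨b, hb⟩ := rep B hB φ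
        obtain ⟨-, t, ht, htv⟩ := hov x b hx0 (flip0 B hS (by rw [hb, hx]))
        have : t = tv x φ hx := by
          apply Units.ext
          apply Matrix.toLin'.injective
          apply LinearMap.ext
          intro v
          rw [Matrix.toLin'_apply, Matrix.toLin'_apply, htv, tv_mulVec, hb]
        rw [← this]
        exact ht

end Cfsg.Agent.S5643
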