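import Cfsg.Statements.S5644
import Cfsg.Agent.Lib.Helper5_OrthOver

set_option autoImplicit false

open Cfsg

namespace Cfsg.Agent.S5644

open Matrix Cfsg.Agent.Lib.Helper5_GLTv Cfsg.Agent.Lib.Helper5_GLPar Cfsg.Agent.Lib.Helper5_OrthOver

variable {F : Type*} [Field F] {ι : Type} [Fintype ι] [DecidableEq ι]

theorem dotB (B : (ι → F) →ₗ[F] (ι → F) →ₗ[F] F) (b v : ι → F) :
    (fun i => B (Pi.single i 1) b) ⬝ᵥ v = B v b := by
  have h1 := LinearMap.pi_apply_eq_sum_univ (B.flip b) v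
  rw [LinearMap.flip_apply] at h1
  rw [h1, dotProduct]
  apply Finset.sum_congr rfl
  intro i _
  have : (fun j => if i = j then (1 : F) else 0) = Pi.single i 1 := by
    funext j
    rw [Pi.single_apply]
    simp only [eq_comm]
  rw [this, smul_eq_mul, LinearMap.flip_apply, mul_comm]

theorem det_tvM' (x φ : ι → F) : (tvM x φ).det = 1 + φ ⬝ᵥ x := by
  rw [tvM, vecMulVec_eq Unit, det_one_add_replicateCol_mul_replicateRow]

theorem refl_aux (B : (ι → F) →ₗ[F] (ι → F) →ₗ[F] F) (u : ι → F) (hu : B u u ≠ 0) :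
    (tvM u ((-2 / B u u) • fun i => B (Pi.single i 1) u)).det = -1 := by
  rw [det_tvM', smul_dotProduct, dotB, smul_eq_mul, div_mul_cancel₀ _ hu]
  ring

/-- the reflection in `u` -/
noncomputable def refl (B : (ι → F) →ₗ[F] (ι → F) →ₗ[F] F) (u : ι → F) (hu : B u u ≠ 0) :
    Matrix.GeneralLinearGroup ι F :=
  Matrix.GeneralLinearGroup.mkOfDetNeZero (tvM u ((-2 / B u u) • fun i => B (Pi.single i 1) u))
    (by rw [refl_aux B u hu]; exact neg_ne_zero.2 one_ne_zero)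

theorem refl_mulVec (B : (ι → F) →ₗ[F] (ι → F) →ₗ[F] F) (u : ι → F) (hu : B u u ≠ 0) (y : ι → F) :
    (refl B u hu : Matrix ι ι F) *ᵥ y = y + ((-2 / B u u) * B y u) • u := by
  change tvM _ _ *ᵥ y = _
  rw [tvM_mulVec, smul_dotProduct, dotB, smul_eq_mul]

theorem refl_det (B : (ι → F) →ₗ[F] (ι → F) →ₗ[F] F) (u : ι → F) (hu : B u u ≠ 0) :
    (refl B u hu : Matrix ι ι F).det = -1 := refl_aux B u hu

theorem refl_iso (B : (ι → F) →ₗ[F] (ι → F) →ₗ[F] F) (hsym : ∀ u v, B u v = B v u)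
    (u : ι → F) (hu : B u u ≠ 0) (y y' : ι → F) :
    B ((refl B u hu : Matrix ι ι F) *ᵥ y) ((refl B u hu : Matrix ι ι F) *ᵥ y') = B y y' := by
  rw [refl_mulVec, refl_mulVec]
  simp only [map_add, map_smul, LinearMap.add_apply, LinearMap.smul_apply, smul_eq_mul, hsym u y']
  field_simp
  ring

/-- `M` contains the transvection `v ↦ v + B(v,b) a` -/
def R (B : (ι → F) →ₗ[F] (ι → F) →ₗ[F] F) (M : Subgroup (Matrix.GeneralLinearGroup ι F))
    (a b : ι → F) : Prop :=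
  B a b = 0 ∧ ∃ g ∈ M, ∀ v, (g : Matrix ι ι F) *ᵥ v = v + B v b • a

theorem inv_apply (B : (ι → F) →ₗ[F] (ι → F) →ₗ[F] F) (g : Matrix.GeneralLinearGroup ι F)
    (a b : ι → F) (hab : B a b = 0) (hg : ∀ v, (g : Matrix ι ι F) *ᵥ v = v + B v b • a) (v : ι → F) :
    ((g⁻¹ : Matrix.GeneralLinearGroup ι F) : Matrix ι ι F) *ᵥ v = v - B v b • a := by
  have h1 : (g : Matrix ι ι F) *ᵥ (v - B v b • a) = v := by
    rw [hg, map_sub, LinearMap.sub_apply, map_smul, LinearMap.smul_apply, hab, smul_zero, sub_zero,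
      sub_add_cancel]
  conv_lhs => rw [← h1]
  rw [gl_inv_mulVec]

theorem sieg_iso (B : (ι → F) →ₗ[F] (ι → F) →ₗ[F] F) (hsym : ∀ u v, B u v = B v u)
    (t : Matrix ι ι F) (x w : ι → F) (hx : B x x = 0) (hw : B w w = 0) (hxw : B x w = 0)
    (ht : ∀ v, t *ᵥ v = v + B v w • x - B v x • w) (u v : ι → F) : B (t *ᵥ u) (t *ᵥ v) = B u v := by
  rw [ht, ht]
  simp only [map_add, map_sub, map_smul, LinearMap.add_apply, LinearMap.sub_apply,
    LinearMap.smul_apply, smul_eq_mul, hx, hw, hxw, hsym w x, hsym x v, hsym w v]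
  ring

theorem sys (B : (ι → F) →ₗ[F] (ι → F) →ₗ[F] F) (hsym : ∀ u v, B u v = B v u)
    (M : Subgroup (Matrix.GeneralLinearGroup ι F))
    (hM : ∀ (x w : ι → F), B x x = 0 → B w w = 0 → B x w = 0 →
      ∃ t ∈ M, ∀ v, (t : Matrix ι ι F) *ᵥ v = v + B v w • x - B v x • w) :
    Sys B (R B M) ∧ Sys B (fun a b => R B M b a) := by
  have htv : ∀ (x w : ι → F), B x x = 0 → B w w = 0 → B x w = 0 → ∀ a b, R B M a b →
      R B M (a + B a w • x - B a x • w) (b + B b w • x - B b x • w) := by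
    rintro x w hx hw hxw a b ⟨h1, g, hg, hgv⟩
    obtain ⟨t, htM, ht⟩ := hM x w hx hw hxw
    rw [← ht a, ← ht b]
    refine ⟨by rw [sieg_iso B hsym _ x w hx hw hxw ht]; exact h1, t * g * t⁻¹,
      M.mul_mem (M.mul_mem htM hg) (M.inv_mem htM), fun v => ?_⟩
    rw [Units.val_mul, Units.val_mul, ← mulVec_mulVec, ← mulVec_mulVec, hgv, mulVec_add, mulVec_smul,
      gl_mulVec_inv]
    congr 2
    rw [← sieg_iso B hsym _ x w hx hw hxw ht _ b, gl_mulVec_inv]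
  constructor
  · constructor
    · rintro a b b' ⟨h1, g, hg, hgv⟩ ⟨h2, g', hg', hgv'⟩
      refine ⟨by rw [map_sub, h1, h2, sub_zero], g * g'⁻¹,
        M.mul_mem hg (M.inv_mem hg'), fun v => ?_⟩
      rw [Units.val_mul, ← mulVec_mulVec, inv_apply B g' a b' h2 hgv', hgv, map_sub,
        LinearMap.sub_apply, map_smul, LinearMap.smul_apply, h1, smul_zero, sub_zero, map_sub, sub_smul]
      abel
    · exact htv
  · constructor
    · rintro a b b' ⟨h1, g, hg, hgv⟩ ⟨h2, g', hg', hgv'⟩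
      refine ⟨by rw [map_sub, LinearMap.sub_apply, h1, h2, sub_zero], g * g'⁻¹,
        M.mul_mem hg (M.inv_mem hg'), fun v => ?_⟩
      rw [Units.val_mul, ← mulVec_mulVec, inv_apply B g' b' a h2 hgv', hgv, map_sub,
        LinearMap.sub_apply, map_smul, LinearMap.smul_apply, h2, smul_zero, sub_zero, smul_sub]
      abel
    · intro x w hx hw hxw a b h
      exact htv x w hx hw hxw b a h

theorem sim_of_aniso [Fintype F] (hodd : Odd (Fintype.card F)) (h2 : (2 : F) ≠ 0)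
    (B : (ι → F) →ₗ[F] (ι → F) →ₗ[F] F) (hsym : ∀ u v, B u v = B v u)
    (hnd : ∀ v, (∀ x, B x v = 0) → v = 0) (hn : 12 < Fintype.card ι)
    (g : Matrix.GeneralLinearGroup ι F)
    (h : ∀ u, B u u ≠ 0 → ∃ l : F, ∀ y,
      B ((g : Matrix ι ι F) *ᵥ u) ((g : Matrix ι ι F) *ᵥ y) = l * B u y) :
    ∃ c : Fˣ, ∀ u v, B ((g : Matrix ι ι F) *ᵥ u) ((g : Matrix ι ι F) *ᵥ v) = (c : F) * B u v := by
  obtain ⟨u0, -, -, -, -, -, hu0⟩ := exN5 hodd h2 B hsym hnd hn 0 0 0 0 0 1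
  have hu00 : u0 ≠ 0 := by
    rintro rfl
    simp at hu0
  obtain ⟨l0, hl0⟩ := h u0 (by rw [hu0]; exact one_ne_zero)
  have hcmp : ∀ (u w : ι → F) (lu lw : F),
      (∀ y, B ((g : Matrix ι ι F) *ᵥ u) ((g : Matrix ι ι F) *ᵥ y) = lu * B u y) →
      (∀ y, B ((g : Matrix ι ι F) *ᵥ w) ((g : Matrix ι ι F) *ᵥ y) = lw * B w y) →
      B u w ≠ 0 → lu = lw := by
    intro u w lu lw hu hw huw
    have h1 := hu w
    have h3 := hw u
    rw [hsym, h1, hsym w u] at h3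
    exact mul_right_cancel₀ huw h3
  have hconst : ∀ u, B u u ≠ 0 → ∀ y,
      B ((g : Matrix ι ι F) *ᵥ u) ((g : Matrix ι ι F) *ᵥ y) = l0 * B u y := by
    intro u hu y
    have hu0' : u ≠ 0 := by
      rintro rfl
      simp at hu
    obtain ⟨lu, hlu⟩ := h u hu
    obtain ⟨w0, -, hw1, hw2⟩ := Cfsg.Agent.Lib.Helper5_AltOver.both B hnd 0 u0 u
      (by simpa using hu00) (by simpa using hu0')
    obtain ⟨z, hz1, hz2, hz3, -, -, hzz⟩ := exN5 hodd h2 B hsym hnd hn u0 u w0 0 0 (1 - B w0 w0)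
    have hww : B (w0 + z) (w0 + z) ≠ 0 := by
      simp only [map_add, LinearMap.add_apply, hz3, hsym z w0, hzz]
      simp
    obtain ⟨lw, hlw⟩ := h _ hww
    have e1 := hcmp u0 (w0 + z) l0 lw hl0 hlw (by rw [map_add, hz1, add_zero, hsym]; exact hw1)
    have e2 := hcmp u (w0 + z) lu lw hlu hlw (by rw [map_add, hz2, add_zero, hsym]; exact hw2)
    rw [hlu, e2, ← e1]
  have hall : ∀ u v, B ((g : Matrix ι ι F) *ᵥ u) ((g : Matrix ι ι F) *ᵥ v) = l0 * B u v := by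
    intro u v
    by_cases hu : B u u = 0
    · obtain ⟨z, hz1, -, -, -, -, hzz⟩ := exN5 hodd h2 B hsym hnd hn u 0 0 0 0 1
      have e1 := hconst (u + z) (by
        simp only [map_add, LinearMap.add_apply, hu, hz1, hsym z u, hzz]
        simp) v
      have e2 := hconst z (by rw [hzz]; exact one_ne_zero) v
      rw [mulVec_add, map_add, LinearMap.add_apply, e2, map_add, LinearMap.add_apply] at e1
      linear_combination e1
    · exact hconst u hu v
  have hl00 : l0 ≠ 0 := by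
    rintro rfl
    apply hu00
    have h0 : (g : Matrix ι ι F) *ᵥ u0 = 0 := by
      apply hnd
      intro y
      rw [hsym, ← gl_mulVec_inv g y, hall, zero_mul]
    rw [← gl_inv_mulVec g u0, h0, mulVec_zero]
  exact ⟨Units.mk0 l0 hl00, hall⟩

theorem part1 [Fintype F] (hodd : Odd (Fintype.card F)) (h2 : (2 : F) ≠ 0)
    (B : (ι → F) →ₗ[F] (ι → F) →ₗ[F] F) (hsym : ∀ u v, B u v = B v u)
    (hnd : ∀ v, (∀ x, B x v = 0) → v = 0) (hn : 12 < Fintype.card ι)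
    (M : Subgroup (Matrix.GeneralLinearGroup ι F))
    (hM1 : ∀ (x w : ι → F), B x x = 0 → B w w = 0 → B x w = 0 →
      ∃ t ∈ M, ∀ v, (t : Matrix ι ι F) *ᵥ v = v + B v w • x - B v x • w)
    (hM2 : ∀ (u v : ι → F) (hu : B u u ≠ 0) (hv : B v v ≠ 0), refl B u hu * refl B v hv ∈ M)
    (g : Matrix.GeneralLinearGroup ι F) (hgM : g ∈ M)
    (hg : ¬ ∃ c : Fˣ, ∀ u v,
      B ((g : Matrix ι ι F) *ᵥ u) ((g : Matrix ι ι F) *ᵥ v) = (c : F) * B u v) :
    ∃ a b, a ≠ 0 ∧ R B M a b ∧ ∀ l : F, b ≠ l • a := by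
  obtain ⟨u, hu, hno⟩ : ∃ u, B u u ≠ 0 ∧ ∀ l : F, ¬ ∀ y,
      B ((g : Matrix ι ι F) *ᵥ u) ((g : Matrix ι ι F) *ᵥ y) = l * B u y := by
    by_contra hcon
    push Not at hcon
    exact hg (sim_of_aniso hodd h2 B hsym hnd hn g hcon)
  obtain ⟨b, hb⟩ := Cfsg.Agent.Lib.Helper5_AltOver.rep B hnd ((B.flip u).comp
    (Matrix.mulVecLin ((g⁻¹ : Matrix.GeneralLinearGroup ι F) : Matrix ι ι F)))
  have hb' : ∀ y, B y b = B (((g⁻¹ : Matrix.GeneralLinearGroup ι F) : Matrix ι ι F) *ᵥ y) u :=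
    fun y => by rw [hb]; rfl
  have hgub : ∀ l : F, (g : Matrix ι ι F) *ᵥ u ≠ l • b := by
    intro l hl
    apply hno l
    intro y
    rw [hsym, hl, map_smul, smul_eq_mul, hb', gl_inv_mulVec, hsym]
  obtain ⟨y', hy'b, hy'gu⟩ := Cfsg.Agent.Lib.Helper5_AltOver.sep B hnd _ b hgub
  obtain ⟨p, hp⟩ := Cfsg.Agent.Lib.Helper5_AltOver.rep B hnd ((B.flip y').comp
    (Matrix.mulVecLin (g : Matrix ι ι F)))
  have hp' : ∀ v, B v p = B ((g : Matrix ι ι F) *ᵥ v) y' := fun v => by rw [hp]; rfl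
  obtain ⟨v, hv1, hv2, -, -, -, hvv⟩ := exN5 hodd h2 B hsym hnd hn p
    (((g⁻¹ : Matrix.GeneralLinearGroup ι F) : Matrix ι ι F) *ᵥ y') 0 0 0 1
  have hv : B v v ≠ 0 := by rw [hvv]; exact one_ne_zero
  obtain ⟨d, hd⟩ := Cfsg.Agent.Lib.Helper5_AltOver.rep B hnd ((B.flip v).comp
    (Matrix.mulVecLin ((g⁻¹ : Matrix.GeneralLinearGroup ι F) : Matrix ι ι F)))
  have hd' : ∀ y, B y d = B (((g⁻¹ : Matrix.GeneralLinearGroup ι F) : Matrix ι ι F) *ᵥ y) v :=
    fun y => by rw [hd]; rfl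
  obtain ⟨a, hadef⟩ : ∃ a, a = (2 / B u u) • ((g : Matrix ι ι F) *ᵥ u) := ⟨_, rfl⟩
  obtain ⟨c, hcdef⟩ : ∃ c, c = (2 / B v v) • ((g : Matrix ι ι F) *ᵥ v) := ⟨_, rfl⟩
  have hab2 : B a b = 2 := by
    rw [hadef, map_smul, LinearMap.smul_apply, hb', gl_inv_mulVec, smul_eq_mul, div_mul_cancel₀ _ hu]
  have hay' : B a y' ≠ 0 := by
    rw [hadef, map_smul, LinearMap.smul_apply, hsym _ y', hy'gu, smul_eq_mul, mul_one]
    exact div_ne_zero h2 hu
  have hcy' : B c y' = 0 := by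
    rw [hcdef, map_smul, LinearMap.smul_apply, ← hp', hsym v p, hv1, smul_zero]
  have hdy' : B d y' = 0 := by rw [hsym, hd', hv2]
  have hby' : B b y' = 0 := by rw [hsym, hy'b]
  obtain ⟨z, hz1, hz2, hz3, hz4, hz5, hzz⟩ := exN5 hodd h2 B hsym hnd hn a b c d y' (-B y' y')
  obtain ⟨x', hx'def⟩ : ∃ x', x' = y' + z := ⟨_, rfl⟩
  have hx'x' : B x' x' = 0 := by
    rw [hx'def]
    simp only [map_add, LinearMap.add_apply, hz5, hsym z y', hzz]
    ring
  have hax' : B a x' ≠ 0 := by rw [hx'def, map_add, hz1, add_zero]; exact hay'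
  have hbx' : B b x' = 0 := by rw [hx'def, map_add, hz2, add_zero, hby']
  have hcx' : B c x' = 0 := by rw [hx'def, map_add, hz3, add_zero, hcy']
  have hdx' : B d x' = 0 := by rw [hx'def, map_add, hz4, add_zero, hdy']
  obtain ⟨z1, h11, h12, h13, h14, -, h1z⟩ := exN5 hodd h2 B hsym hnd hn b c d x' 0 1
  obtain ⟨z2, h21, h22, h23, h24, h25, h2z⟩ := exN5 hodd h2 B hsym hnd hn b c d x' z1 (-1)
  obtain ⟨w', hw'def⟩ : ∃ w', w' = z1 + z2 := ⟨_, rfl⟩
  have hw'w' : B w' w' = 0 := by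
    rw [hw'def]
    simp only [map_add, LinearMap.add_apply, h25, hsym z2 z1, h1z, h2z]
    ring
  have hbw' : B b w' = 0 := by rw [hw'def, map_add, h11, h21, add_zero]
  have hcw' : B c w' = 0 := by rw [hw'def, map_add, h12, h22, add_zero]
  have hdw' : B d w' = 0 := by rw [hw'def, map_add, h13, h23, add_zero]
  have hx'w' : B x' w' = 0 := by rw [hw'def, map_add, h14, h24, add_zero]
  obtain ⟨E, hEM, hE⟩ := hM1 x' w' hx'x' hw'w' hx'w'
  obtain ⟨ρ₁, hρ₁def⟩ : ∃ ρ₁, ρ₁ = g * refl B u hu * g⁻¹ := ⟨_, rfl⟩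
  obtain ⟨ρ₂, hρ₂def⟩ : ∃ ρ₂, ρ₂ = g * refl B v hv * g⁻¹ := ⟨_, rfl⟩
  have hρ₁ : ∀ y, (ρ₁ : Matrix ι ι F) *ᵥ y = y - B y b • a := by
    intro y
    rw [hρ₁def, Units.val_mul, Units.val_mul, ← mulVec_mulVec, ← mulVec_mulVec, refl_mulVec,
      mulVec_add, mulVec_smul, gl_mulVec_inv, ← hb', hadef, sub_eq_add_neg, ← neg_smul, smul_smul]
    congr 2
    ring
  have hρ₂ : ∀ y, (ρ₂ : Matrix ι ι F) *ᵥ y = y - B y d • c := by
    intro y
    rw [hρ₂def, Units.val_mul, Units.val_mul, ← mulVec_mulVec, ← mulVec_mulVec, refl_mulVec,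
      mulVec_add, mulVec_smul, gl_mulVec_inv, ← hd', hcdef, sub_eq_add_neg, ← neg_smul, smul_smul]
    congr 2
    ring
  have hprod : ρ₁ * ρ₂ ∈ M := by
    have : ρ₁ * ρ₂ = g * (refl B u hu * refl B v hv) * g⁻¹ := by
      rw [hρ₁def, hρ₂def]
      group
    rw [this]
    exact M.mul_mem (M.mul_mem hgM (hM2 u v hu hv)) (M.inv_mem hgM)
  have hEfix : ∀ e, B e w' = 0 → B e x' = 0 → (E : Matrix ι ι F) *ᵥ e = e := by
    intro e h1 h3
    rw [hE, h1, h3, zero_smul, zero_smul, add_zero, sub_zero]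
  have hEB : ∀ e, B e w' = 0 → B e x' = 0 → ∀ y, B ((E : Matrix ι ι F) *ᵥ y) e = B y e := by
    intro e h1 h3 y
    rw [hE]
    simp only [map_add, map_sub, map_smul, LinearMap.add_apply, LinearMap.sub_apply,
      LinearMap.smul_apply, smul_eq_mul, hsym x' e, hsym w' e, h1, h3]
    ring
  have hcomm : Commute E ρ₂ := by
    apply Units.ext
    apply Matrix.toLin'.injective
    apply LinearMap.ext
    intro y
    rw [Matrix.toLin'_apply, Matrix.toLin'_apply, Units.val_mul, Units.val_mul, ← mulVec_mulVec,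
      ← mulVec_mulVec, hρ₂, hρ₂, mulVec_sub, mulVec_smul, hEfix c hcw' hcx', hEB d hdw' hdx']
  have hX : E * ρ₁ * E⁻¹ * ρ₁⁻¹ ∈ M := by
    have h3 : E⁻¹ * ρ₂ = ρ₂ * E⁻¹ := hcomm.inv_left.eq
    have : E * ρ₁ * E⁻¹ * ρ₁⁻¹ = E * (ρ₁ * ρ₂) * E⁻¹ * (ρ₁ * ρ₂)⁻¹ := by
      have e1 : E * (ρ₁ * ρ₂) * E⁻¹ * (ρ₁ * ρ₂)⁻¹ = E * ρ₁ * (ρ₂ * E⁻¹) * ρ₂⁻¹ * ρ₁⁻¹ := by group
      rw [e1, ← h3]
      group
    rw [this]
    exact M.mul_mem (M.mul_mem (M.mul_mem hEM hprod) (M.inv_mem hEM)) (M.inv_mem hprod)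
  obtain ⟨δ, hδdef⟩ : ∃ δ, δ = B a w' • x' - B a x' • w' := ⟨_, rfl⟩
  have hEa : (E : Matrix ι ι F) *ᵥ a = a + δ := by
    rw [hE, hδdef]
    abel
  have key : ∀ y, (E : Matrix ι ι F) *ᵥ ((ρ₁ : Matrix ι ι F) *ᵥ y) =
      (ρ₁ : Matrix ι ι F) *ᵥ ((E : Matrix ι ι F) *ᵥ y) +
        B ((ρ₁ : Matrix ι ι F) *ᵥ ((E : Matrix ι ι F) *ᵥ y)) b • δ := by
    intro y
    rw [hρ₁ y, mulVec_sub, mulVec_smul, hEa, hρ₁, hEB b hbw' hbx', map_sub, LinearMap.sub_apply,
      hEB b hbw' hbx', map_smul, LinearMap.smul_apply, hab2, smul_eq_mul]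
    module
  have hδz1 : B δ z1 ≠ 0 := by
    have e1 : B w' z1 = 1 := by
      rw [hw'def, map_add, LinearMap.add_apply, h1z, hsym z2 z1, h25, add_zero]
    rw [hδdef, map_sub, LinearMap.sub_apply, map_smul, map_smul, LinearMap.smul_apply,
      LinearMap.smul_apply, h14, e1]
    simpa using hax'
  refine ⟨δ, b, ?_, ⟨?_, E * ρ₁ * E⁻¹ * ρ₁⁻¹, hX, fun y => ?_⟩, ?_⟩
  · rintro rfl
    simp at hδz1
  · rw [hδdef, map_sub, LinearMap.sub_apply, map_smul, map_smul, LinearMap.smul_apply,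
      LinearMap.smul_apply, hsym x' b, hsym w' b, hbx', hbw', smul_zero, smul_zero, sub_zero]
  · rw [Units.val_mul, Units.val_mul, Units.val_mul, ← mulVec_mulVec, ← mulVec_mulVec,
      ← mulVec_mulVec, key, gl_mulVec_inv, gl_mulVec_inv]
  · intro l hl
    have h3 := h11
    rw [hl, map_smul, LinearMap.smul_apply, smul_eq_mul] at h3
    have hl0 : l = 0 := (mul_eq_zero.1 h3).resolve_right hδz1
    rw [hl, hl0, zero_smul, map_zero] at hab2
    exact h2 hab2.symm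

theorem result {F : Type*} [Field F] [Fintype F] (n : ℕ) (hn : 13 ≤ n) (hodd : Odd (Fintype.card F)) (Q : (Fin n → F) → F) (hQ : Cfsg.Geo.IsNondegenerateQuadraticForm Q) : Cfsg.Geo.IsMaximalIn (Cfsg.Geo.specialLinear (Fin n) F) (Cfsg.Geo.quadSimilarityGroup Q ⊓ Cfsg.Geo.specialLinear (Fin n) F) := by
  classical
  have h2 : (2 : F) ≠ 0 := by
    apply Ring.two_ne_zero
    intro hch
    have := FiniteField.even_card_of_char_two hch
    rw [Nat.odd_iff] at hodd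
    omega
  let B : (Fin n → F) →ₗ[F] (Fin n → F) →ₗ[F] F :=
    LinearMap.mk₂ F (QuadraticMap.polar Q) hQ.polar_bilinear.add_left hQ.polar_bilinear.smul_left
      hQ.polar_bilinear.add_right hQ.polar_bilinear.smul_right
  have hBdef : ∀ u v, B u v = QuadraticMap.polar Q u v := fun _ _ => rfl
  have hsym : ∀ u v, B u v = B v u := fun u v => QuadraticMap.polar_comm Q u v
  have hnd : ∀ v, (∀ x, B x v = 0) → v = 0 := by
    intro v hv
    by_contra h0
    obtain ⟨⟨x, hx⟩, _⟩ := hQ.nondegenerate v h0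
    exact hx (hv x)
  have hBQ : ∀ v, B v v = 2 * Q v := by
    intro v
    rw [hBdef, QuadraticMap.polar, ← two_smul F v, hQ.smul]
    ring
  have hcard : 12 < Fintype.card (Fin n) := by
    rw [Fintype.card_fin]; omega
  have hiso : ∀ t : Matrix.GeneralLinearGroup (Fin n) F,
      (∀ u v, B ((t : Matrix (Fin n) (Fin n) F) *ᵥ u) ((t : Matrix (Fin n) (Fin n) F) *ᵥ v) = B u v) →
      t ∈ Cfsg.Geo.quadSimilarityGroup Q := by
    intro t ht
    refine ⟨1, fun v => ?_⟩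
    rw [Units.val_one, one_mul]
    apply mul_left_cancel₀ h2
    rw [← hBQ, ← hBQ, ht]
  have hH1 : ∀ (x w : Fin n → F), B x x = 0 → B w w = 0 → B x w = 0 →
      ∃ t ∈ Cfsg.Geo.quadSimilarityGroup Q ⊓ Cfsg.Geo.specialLinear (Fin n) F,
        ∀ v, (t : Matrix (Fin n) (Fin n) F) *ᵥ v = v + B v w • x - B v x • w := by
    intro x w hx hw hxw
    have hf : ∀ v, ((tv x (fun i => B (Pi.single i 1) w) (by rw [dotB]; exact hxw) *
        tv w (-fun i => B (Pi.single i 1) x) (by rw [neg_dotProduct, dotB, hsym, hxw, neg_zero]) :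
        Matrix.GeneralLinearGroup (Fin n) F) : Matrix (Fin n) (Fin n) F) *ᵥ v =
        v + B v w • x - B v x • w := by
      intro v
      rw [Units.val_mul, ← mulVec_mulVec, tv_mulVec, tv_mulVec, neg_dotProduct, dotB, dotB, map_add,
        LinearMap.add_apply, map_smul, LinearMap.smul_apply, hw, smul_zero, add_zero]
      module
    refine ⟨_, ⟨hiso _ (sieg_iso B hsym _ x w hx hw hxw hf), ?_⟩, hf⟩
    exact Subgroup.mul_mem _ (tv_mem_SL _ _ _) (tv_mem_SL _ _ _)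
  have hH2 : ∀ (u v : Fin n → F) (hu : B u u ≠ 0) (hv : B v v ≠ 0), refl B u hu * refl B v hv ∈
      Cfsg.Geo.quadSimilarityGroup Q ⊓ Cfsg.Geo.specialLinear (Fin n) F := by
    intro u v hu hv
    refine ⟨hiso _ (fun y y' => ?_), (mem_SL_iff _).2 ?_⟩
    · rw [Units.val_mul, ← mulVec_mulVec, ← mulVec_mulVec, refl_iso B hsym, refl_iso B hsym]
    · rw [Units.val_mul, det_mul, refl_det, refl_det]
      ring
  constructor
  · refine lt_of_le_of_ne inf_le_right ?_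
    intro heq
    obtain ⟨a, -, -, -, -, -, haa⟩ := exN5 hodd h2 B hsym hnd hcard 0 0 0 0 0 1
    obtain ⟨b, hab, -, -, -, -, hbb⟩ := exN5 hodd h2 B hsym hnd hcard a 0 0 0 0 1
    have hmem : tv a (fun i => B (Pi.single i 1) b) (by rw [dotB]; exact hab) ∈
        Cfsg.Geo.quadSimilarityGroup Q ⊓ Cfsg.Geo.specialLinear (Fin n) F := by
      rw [heq]
      exact tv_mem_SL _ _ _
    obtain ⟨c, hc⟩ := hmem.1
    have e1 := hc a
    rw [tv_mulVec, dotB, hab, zero_smul, add_zero] at e1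
    have e2 := hc b
    rw [tv_mulVec, dotB, hbb, one_smul] at e2
    have q1 : 2 * Q a = 1 := by rw [← hBQ, haa]
    have q2 : 2 * Q b = 1 := by rw [← hBQ, hbb]
    have q3 : 2 * Q (b + a) = 2 := by
      rw [← hBQ]
      simp only [map_add, LinearMap.add_apply, hab, hsym b a, haa, hbb]
      ring
    have hc1 : (c : F) = 1 := by
      have : (c : F) * (2 * Q a) = 2 * Q a := by linear_combination (-2 : F) * e1
      rw [q1, mul_one] at this
      exact this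
    rw [hc1, one_mul] at e2
    have : (1 : F) = 0 := by linear_combination q2 - q3 + 2 * e2
    exact one_ne_zero this
  · intro M hle hM
    by_cases hMH : M ≤ Cfsg.Geo.quadSimilarityGroup Q ⊓ Cfsg.Geo.specialLinear (Fin n) F
    · exact Or.inl (le_antisymm hMH hle)
    · right
      obtain ⟨g, hgM, hg⟩ := SetLike.not_le_iff_exists.1 hMH
      have hM1 : ∀ (x w : Fin n → F), B x x = 0 → B w w = 0 → B x w = 0 →
          ∃ t ∈ M, ∀ v, (t : Matrix (Fin n) (Fin n) F) *ᵥ v = v + B v w • x - B v x • w := by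
        intro x w hx hw hxw
        obtain ⟨t, ht, htv⟩ := hH1 x w hx hw hxw
        exact ⟨t, hle ht, htv⟩
      obtain ⟨a, b, ha, hR, hbl⟩ := part1 hodd h2 B hsym hnd hcard M hM1
        (fun u v hu hv => hle (hH2 u v hu hv)) g hgM (by
          rintro ⟨c, hc⟩
          apply hg
          refine ⟨⟨c, fun v => ?_⟩, hM hgM⟩
          apply mul_left_cancel₀ h2
          rw [← hBQ, hc, hBQ]
          ring)
      obtain ⟨s1, s2⟩ := sys B hsym M hM1
      apply Cfsg.Agent.Lib.Helper5_AltOver.eq_SL B hnd M hM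
      intro a' v hav
      obtain ⟨-, t, ht, htv⟩ := spread hodd h2 B hsym hnd hcard s1 s2 a b ha hR hbl a' v hav
      exact ⟨t, ht, htv⟩

end Cfsg.Agent.S5644
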