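import Cfsg.Statements.S5645
import Cfsg.Agent.Lib.Helper5_SympMax

set_option autoImplicit false

open Cfsg

namespace Cfsg.Agent.S5645

open Module Matrix Cfsg.Agent.Lib.Helper5_Symp Cfsg.Agent.Lib.Helper5_SympCard
  Cfsg.Agent.Lib.Helper5_SympTv Cfsg.Agent.Lib.Helper5_SympGen Cfsg.Agent.S0768
  Cfsg.Agent.Lib.Helper5_SympMax

variable {F : Type*} [Field F] {m : ℕ}

theorem coatom [Finite F] (W : Submodule F (Fin m ⊕ Fin m → F)) (hW0 : W ≠ ⊥)
    (hW : ∀ u ∈ W, ∀ v ∈ W, sB m F u v = 0) :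
    IsCoatom (Cfsg.stabilizing (Cfsg.spToMat m F) (W : Set (Fin m ⊕ Fin m → F))) := by
  classical
  constructor
  · intro htop
    obtain ⟨u, huW, hu0⟩ := Submodule.exists_mem_ne_zero_of_ne_bot hW0
    obtain ⟨z, hz⟩ := exists_ne_right u hu0
    have hzW : z ∉ W := fun h => hz (hW u huW z h)
    have h1 : tv z (1 : F) ∈ Cfsg.stabilizing (Cfsg.spToMat m F) (W : Set (Fin m ⊕ Fin m → F)) := by
      rw [htop]; trivial
    have h2 : (tv z (1 : F) : Matrix (Fin m ⊕ Fin m) (Fin m ⊕ Fin m) F) *ᵥ u ∈ W := (h1 u).1 huW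
    rw [tv_mulVec, one_mul] at h2
    have h3 : sB m F u z • z ∈ W := by
      have := W.sub_mem h2 huW
      rwa [add_sub_cancel_left] at this
    exact hzW ((W.smul_mem_iff hz).1 h3)
  · intro H hPH
    have hA : ∀ (v : Fin m ⊕ Fin m → F) (c : F), (∀ w ∈ W, sB m F w v = 0) → tv v c ∈ H := by
      intro v c hv
      apply hPH.le
      apply mem_stab_of_maps
      intro w hw
      rw [tv_mulVec, hv w hw, mul_zero, zero_smul, add_zero]
      exact hw
    have hB : ∀ a ∈ W, ∀ b, sB m F a b = 0 → sieg a b ∈ H := by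
      intro a ha b hab
      apply hPH.le
      apply mem_stab_of_maps
      intro w hw
      rw [sieg_mulVec a b hab, hW w hw a ha, zero_smul, add_zero]
      exact W.add_mem hw (W.smul_mem _ ha)
    obtain ⟨h, hhH, hhP⟩ := SetLike.exists_of_lt hPH
    have hhP' : h⁻¹ ∉ Cfsg.stabilizing (Cfsg.spToMat m F) (W : Set (Fin m ⊕ Fin m → F)) := by
      intro hh
      apply hhP
      have := Subgroup.inv_mem _ hh
      rwa [inv_inv] at this
    have h1 : ¬ ∀ v ∈ (W : Set (Fin m ⊕ Fin m → F)),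
        ((h⁻¹ : Matrix.symplecticGroup (Fin m) F) : Matrix (Fin m ⊕ Fin m) (Fin m ⊕ Fin m) F) *ᵥ v ∈
          (W : Set (Fin m ⊕ Fin m → F)) :=
      fun hh => hhP' (mem_stab_of_maps _ _ hh)
    push Not at h1
    obtain ⟨w1, hw1, hx1⟩ := h1
    have hw1' : w1 ∈ W := hw1
    obtain ⟨v', hv'1, hv'2⟩ := exists_rep W _ hx1
    set y := (h : Matrix (Fin m ⊕ Fin m) (Fin m ⊕ Fin m) F) *ᵥ v' with hy
    have hw1y : sB m F w1 y = 1 := by
      rw [← hv'2, hy]
      conv_lhs => rw [← mulVec_inv h w1]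
      rw [sB_mulVec]
    have key : ∀ x, (∃ w ∈ W, sB m F w x ≠ 0) → ∃ g ∈ H, ∃ v'', (∀ s ∈ W, sB m F s v'' = 0) ∧
        (g : Matrix (Fin m ⊕ Fin m) (Fin m ⊕ Fin m) F) *ᵥ v'' = x := by
      rintro x ⟨w2, hw2, hw2x⟩
      obtain ⟨a, haW, hax, hay⟩ : ∃ a ∈ W, sB m F a x ≠ 0 ∧ sB m F a y ≠ 0 := by
        by_cases h3 : sB m F w1 x = 0
        · by_cases h4 : sB m F w2 y = 0
          · refine ⟨w1 + w2, W.add_mem hw1' hw2, ?_, ?_⟩
            · rw [map_add, LinearMap.add_apply, h3, zero_add]; exact hw2x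
            · rw [map_add, LinearMap.add_apply, h4, add_zero, hw1y]; exact one_ne_zero
          · exact ⟨w2, hw2, hw2x, h4⟩
        · exact ⟨w1, hw1', h3, by rw [hw1y]; exact one_ne_zero⟩
      have hya : sB m F y a ≠ 0 := by rw [sB_swap]; exact neg_ne_zero.2 hay
      have hxa : sB m F x a ≠ 0 := by rw [sB_swap]; exact neg_ne_zero.2 hax
      obtain ⟨a', ha'W, hya', hxa'⟩ : ∃ a' ∈ W, sB m F y a' = 1 ∧ sB m F x a' ≠ 0 := by
        refine ⟨(sB m F y a)⁻¹ • a, W.smul_mem _ haW, ?_, ?_⟩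
        · rw [map_smul, smul_eq_mul, inv_mul_cancel₀ hya]
        · rw [map_smul, smul_eq_mul]
          exact mul_ne_zero (inv_ne_zero hya) hxa
      obtain ⟨l, hl0, x', hx', hx'a'⟩ : ∃ l : F, l ≠ 0 ∧ ∃ x', x' = l • x ∧ sB m F x' a' = 1 := by
        refine ⟨(sB m F x a')⁻¹, inv_ne_zero hxa', _, rfl, ?_⟩
        rw [map_smul, LinearMap.smul_apply, smul_eq_mul, inv_mul_cancel₀ hxa']
      have hab : sB m F a' (x' - y) = 0 := by
        rw [map_sub, sB_swap m F a' x', sB_swap m F a' y, hx'a', hya', sub_self]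
      refine ⟨tv a' (- sB m F y (x' - y)) * sieg a' (x' - y) * h,
        H.mul_mem (H.mul_mem (hA a' _ (fun w hw => hW w hw a' ha'W)) (hB a' ha'W _ hab)) hhH,
        l⁻¹ • v', fun s hs => by rw [map_smul, hv'1 s hs, smul_zero], ?_⟩
      rw [mul_mulVec, mul_mulVec, Matrix.mulVec_smul, ← hy, Matrix.mulVec_smul, Matrix.mulVec_smul,
        sieg_mulVec a' _ hab, hya', one_smul, tv_mulVec]
      have e1 : y + (x' - y) + sB m F y (x' - y) • a' = x' + sB m F y (x' - y) • a' := by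
        rw [add_sub_cancel]
      rw [e1, map_add, LinearMap.add_apply, hx'a', map_smul, LinearMap.smul_apply, sB_self, smul_zero,
        add_zero, mul_one, neg_smul, add_neg_cancel_right, hx', smul_smul, inv_mul_cancel₀ hl0, one_smul]
    apply eq_top_of_tv
    intro v c
    by_cases hv : ∀ w ∈ W, sB m F w v = 0
    · exact hA v c hv
    · push Not at hv
      obtain ⟨g, hg, v'', hv'', hgv⟩ := key v hv
      rw [← hgv]
      exact tv_mem_of_conj H g hg v'' c (hA v'' c hv'')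

theorem result {F : Type*} [Field F] [Fintype F] (m : ℕ) (hm : 7 ≤ m) (W : Submodule F (Fin m ⊕ Fin m → F)) (hW0 : W ≠ ⊥) (hW : Cfsg.Geo.IsTotallySingularFor (Cfsg.sympForm m F) W) : Cfsg.Geo.IsMaximalIn (Cfsg.spGL m F) (Cfsg.Geo.subspaceStabilizer W ⊓ Cfsg.spGL m F) := by
  apply maximal_of_coatom
  exact coatom W hW0 (fun u hu v hv => by rw [sB_apply]; exact hW u hu v hv)

end Cfsg.Agent.S5645
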