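import Cfsg.Statements.S5647
import Cfsg.Agent.Lib.Helper5_SpDec

set_option autoImplicit false

open Cfsg

namespace Cfsg.Agent.S5647

theorem result {F : Type*} [Field F] [Fintype F] (m : ℕ) (hm : 7 ≤ m) {t : ℕ} (k : ℕ) (D : Fin t → Submodule F (Fin m ⊕ Fin m → F)) (hD : Cfsg.Geo.IsNondegenerateMDecomposition (Cfsg.sympForm m F) k D) (hex : ¬ (k = 2 ∧ Fintype.card F = 2)) : Cfsg.Geo.IsMaximalIn (Cfsg.spGL m F) (Cfsg.Geo.decompositionStabilizer D ⊓ Cfsg.spGL m F) := by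
  apply Cfsg.Agent.Lib.Helper5_SympMax.maximal_of_coatom
  exact (Cfsg.Agent.Lib.Helper5_SpDec.dec_of k hD).coatom k hD.decomp.pos hD.decomp.two_le
    hD.decomp.finrank_eq hD.decomp.indep hD.decomp.iSup_eq_top hex

end Cfsg.Agent.S5647
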