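import Cfsg.Statements.S5648
import Cfsg.Agent.Lib.Helper5_SpDec

set_option autoImplicit false

open Cfsg

namespace Cfsg.Agent.S5648

open Module Matrix Cfsg.Agent.Lib.Helper5_Symp Cfsg.Agent.Lib.Helper5_SympCard
  Cfsg.Agent.Lib.Helper5_SympTv Cfsg.Agent.Lib.Helper5_SympGen Cfsg.Agent.S0768
  Cfsg.Agent.Lib.Helper5_SympMax Cfsg.Agent.Lib.Helper5_SpPair Cfsg.Agent.Lib.Helper5_SpDec

variable {F : Type*} [Field F] {m : ℕ} {t : ℕ} {D : Fin t → Submodule F (Fin m ⊕ Fin m → F)}

open Classical in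
/-- indicator of a nonzero component in block `i` -/
noncomputable def chi (D : Fin t → Submodule F (Fin m ⊕ Fin m → F)) (i : Fin t)
    (v : Fin m ⊕ Fin m → F) : F :=
  if ∀ u ∈ D i, sB m F u v = 0 then 0 else 1

/-- the quadratic form: number of nonzero components -/
noncomputable def N (D : Fin t → Submodule F (Fin m ⊕ Fin m → F)) (v : Fin m ⊕ Fin m → F) : F :=
  ∑ i, chi D i v

open Classical in
noncomputable def ind (x : Fin m ⊕ Fin m → F) : F := if x = 0 then 0 else 1

theorem chi_sum (h : Dec D) (f : Fin t → (Fin m ⊕ Fin m → F)) (hf : ∀ i, f i ∈ D i) (i : Fin t) :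
    chi D i (∑ j, f j) = ind (f i) := by
  have key : ∀ u ∈ D i, sB m F u (∑ j, f j) = sB m F u (f i) := by
    intro u hu
    rw [map_sum, Finset.sum_eq_single i]
    · intro j _ hji
      exact h.orth i j (Ne.symm hji) u hu _ (hf j)
    · intro hj
      exact absurd (Finset.mem_univ i) hj
  unfold chi ind
  by_cases h0 : f i = 0
  · rw [if_pos h0, if_pos]
    intro u hu
    rw [key u hu, h0, map_zero]
  · rw [if_neg h0, if_neg]
    intro hall
    obtain ⟨u, hu, hne⟩ := h.nd i _ (hf i) h0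
    exact hne (by rw [← key u hu]; exact hall u hu)

theorem block (h : Dec D) (hfr : ∀ i, finrank F (D i) = 2) (h01 : ∀ c : F, c = 0 ∨ c = 1)
    (h2 : (1 : F) + 1 = 0) (i : Fin t) (x y : Fin m ⊕ Fin m → F) (hx : x ∈ D i) (hy : y ∈ D i) :
    ind (x + y) = ind x + ind y + sB m F x y := by
  unfold ind
  by_cases hx0 : x = 0
  · subst hx0
    rw [zero_add, if_pos rfl, zero_add, map_zero, LinearMap.zero_apply, add_zero]
  by_cases hy0 : y = 0
  · subst hy0
    rw [add_zero, if_pos rfl, add_zero, map_zero, add_zero]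
  rw [if_neg hx0, if_neg hy0, h2, zero_add]
  by_cases hxy : x + y = 0
  · rw [if_pos hxy]
    have : y = -x := eq_neg_of_add_eq_zero_right hxy
    rw [this, map_neg, sB_self, neg_zero]
  · rw [if_neg hxy]
    rcases h01 (sB m F x y) with h0 | h1
    · exfalso
      have hli : LinearIndependent F ![x, y] := by
        rw [LinearIndependent.pair_iff]
        intro s r hsr
        rcases h01 s with rfl | rfl <;> rcases h01 r with rfl | rfl
        · exact ⟨rfl, rfl⟩
        · rw [zero_smul, one_smul, zero_add] at hsr; exact absurd hsr hy0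
        · rw [zero_smul, one_smul, add_zero] at hsr; exact absurd hsr hx0
        · rw [one_smul, one_smul] at hsr; exact absurd hsr hxy
      have hspan : Submodule.span F {x, y} = D i := by
        apply Submodule.eq_of_le_of_finrank_eq
        · rw [Submodule.span_le]
          intro z hz
          rcases hz with rfl | rfl
          · exact hx
          · exact hy
        · rw [hfr]
          have := finrank_span_eq_card hli
          rw [Matrix.range_cons, Matrix.range_cons, Matrix.range_empty, Set.union_empty,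
            Set.singleton_union, Fintype.card_fin] at this
          exact this
      obtain ⟨z, hz, hzx⟩ := h.nd i x hx hx0
      rw [← hspan, Submodule.mem_span_pair] at hz
      obtain ⟨a, b, rfl⟩ := hz
      apply hzx
      rw [map_add, LinearMap.add_apply, map_smul, map_smul, LinearMap.smul_apply,
        LinearMap.smul_apply, sB_self, sB_swap m F y x, h0]
      simp
    · exact h1.symm

theorem polar (h : Dec D) (hfr : ∀ i, finrank F (D i) = 2) (h01 : ∀ c : F, c = 0 ∨ c = 1)
    (h2 : (1 : F) + 1 = 0) (v w : Fin m ⊕ Fin m → F) :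
    N D (v + w) = N D v + N D w + sB m F v w := by
  obtain ⟨f, hf, rfl⟩ := h.sup v
  obtain ⟨g, hg, rfl⟩ := h.sup w
  have e : ∑ i, f i + ∑ i, g i = ∑ i, (f i + g i) := Finset.sum_add_distrib.symm
  have e1 : ∀ i, chi D i (∑ j, (f j + g j)) = ind (f i + g i) := fun i =>
    chi_sum h (fun i => f i + g i) (fun i => (D i).add_mem (hf i) (hg i)) i
  have hB : sB m F (∑ i, f i) (∑ i, g i) = ∑ i, sB m F (f i) (g i) := by
    rw [map_sum]
    apply Finset.sum_congr rfl
    intro i _
    rw [map_sum, LinearMap.sum_apply, Finset.sum_eq_single i]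
    · intro j _ hji
      exact h.orth j i hji _ (hf j) _ (hg i)
    · intro hj
      exact absurd (Finset.mem_univ i) hj
  rw [hB]
  unfold N
  rw [e]
  simp only [e1, chi_sum h f hf, chi_sum h g hg]
  rw [← Finset.sum_add_distrib, ← Finset.sum_add_distrib]
  exact Finset.sum_congr rfl (fun i _ => block h hfr h01 h2 i _ _ (hf i) (hg i))

theorem N_block (h : Dec D) (a : Fin t) (x : Fin m ⊕ Fin m → F) (hx : x ∈ D a) (hx0 : x ≠ 0) :
    N D x = 1 := by
  unfold N
  rw [Finset.sum_eq_single a]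
  · unfold chi
    rw [if_neg]
    intro hall
    obtain ⟨u, hu, hne⟩ := h.nd a x hx hx0
    exact hne (hall u hu)
  · intro j _ hja
    unfold chi
    rw [if_pos]
    intro u hu
    exact h.orth j a hja u hu x hx
  · intro hj
    exact absurd (Finset.mem_univ a) hj

/-- the orthogonal group of the quadratic form -/
noncomputable def K (D : Fin t → Submodule F (Fin m ⊕ Fin m → F)) :
    Subgroup (Matrix.symplecticGroup (Fin m) F) where
  carrier := {g | ∀ v, N D ((g : Matrix (Fin m ⊕ Fin m) (Fin m ⊕ Fin m) F) *ᵥ v) = N D v}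
  mul_mem' := by
    intro a b ha hb v
    rw [mul_mulVec, ha, hb]
  one_mem' := by
    intro v
    rw [one_mulVec']
  inv_mem' := by
    intro a ha v
    rw [← ha, mulVec_inv]

theorem stab_le :
    (Cfsg.Geo.decompositionStabilizer D).comap (toGL (F := F) (m := m)) ≤ K D := by
  rintro g ⟨σ, hσ⟩ v
  have key : ∀ i, chi D (σ i) ((g : Matrix (Fin m ⊕ Fin m) (Fin m ⊕ Fin m) F) *ᵥ v)
      = chi D i v := by
    intro i
    have hiff : (∀ u ∈ D (σ i), sB m F u
        ((g : Matrix (Fin m ⊕ Fin m) (Fin m ⊕ Fin m) F) *ᵥ v) = 0) ↔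
        (∀ u ∈ D i, sB m F u v = 0) := by
      constructor
      · intro hall u hu
        rw [← sB_mulVec g]
        apply hall
        rw [← hσ i]
        exact ⟨u, hu, rfl⟩
      · intro hall u hu
        rw [← hσ i] at hu
        obtain ⟨u', hu', rfl⟩ := hu
        have := sB_mulVec g u' v
        rw [hall u' hu'] at this
        exact this
    unfold chi
    classical
    exact if_congr hiff rfl rfl
  unfold N
  rw [← Equiv.sum_comp σ]
  exact Finset.sum_congr rfl (fun i _ => key i)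

theorem tv_mem_K (h : Dec D) (hfr : ∀ i, finrank F (D i) = 2) (h01 : ∀ c : F, c = 0 ∨ c = 1)
    (h2 : (1 : F) + 1 = 0) (w : Fin m ⊕ Fin m → F) (hw : N D w = 1) : tv w (1 : F) ∈ K D := by
  intro v
  rw [tv_mulVec, one_mul]
  rcases h01 (sB m F v w) with h0 | h1
  · rw [h0, zero_smul, add_zero]
  · rw [h1, one_smul, polar h hfr h01 h2, hw, h1, add_assoc, h2, add_zero]

theorem tv_not_mem_K (h : Dec D) (hfr : ∀ i, finrank F (D i) = 2)
    (h01 : ∀ c : F, c = 0 ∨ c = 1)
    (h2 : (1 : F) + 1 = 0) (w : Fin m ⊕ Fin m → F) (hw : N D w = 0) (hw0 : w ≠ 0) :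
    tv w (1 : F) ∉ K D := by
  intro hmem
  obtain ⟨v, hv⟩ : ∃ v, sB m F v w ≠ 0 := by
    by_contra hc
    push Not at hc
    exact hw0 (sB_nondeg m F w hc)
  have h1 : sB m F v w = 1 := (h01 _).resolve_left hv
  have := hmem v
  rw [tv_mulVec, one_mul, h1, one_smul, polar h hfr h01 h2, hw, h1, add_zero] at this
  exact one_ne_zero (add_left_cancel (this.trans (add_zero _).symm))

theorem off_aux (h : Dec D) (a b c p : Fin t) (hab : a ≠ b) (hcb : c ≠ b) (hpb : p ≠ b)
    (y0 xa xb xc : Fin m ⊕ Fin m → F) (hy0 : y0 ∈ D a) (hxa : xa ∈ D a) (hxb : xb ∈ D b)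
    (hxc : xc ∈ D c) (hxb0 : xb ≠ 0) (hz : y0 + (xa + xb + xc) ∈ D p) : False := by
  obtain ⟨u, hu, hne⟩ := h.nd b xb hxb hxb0
  have e := h.orth b p (Ne.symm hpb) u hu _ hz
  rw [map_add, map_add, map_add, h.orth b a hab.symm u hu y0 hy0,
    h.orth b a hab.symm u hu xa hxa, h.orth b c hcb.symm u hu xc hxc] at e
  simp only [zero_add, add_zero] at e
  exact hne e

theorem main (h : Dec D) (hfr : ∀ i, finrank F (D i) = 2) (h01 : ∀ c : F, c = 0 ∨ c = 1)
    (h2 : (1 : F) + 1 = 0) (ht : 3 ≤ t) :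
    (Cfsg.Geo.decompositionStabilizer D).comap (toGL (F := F) (m := m)) < K D ∧ K D < ⊤ := by
  obtain ⟨a, b, c, hab, hac, hbc⟩ : ∃ a b c : Fin t, a ≠ b ∧ a ≠ c ∧ b ≠ c :=
    ⟨⟨0, by omega⟩, ⟨1, by omega⟩, ⟨2, by omega⟩, by simp [Fin.ext_iff], by simp [Fin.ext_iff],
      by simp [Fin.ext_iff]⟩
  obtain ⟨xa, hxa, hxa0⟩ := Dec.ex_ne 2 (by norm_num) hfr a
  obtain ⟨xb, hxb, hxb0⟩ := Dec.ex_ne 2 (by norm_num) hfr b
  obtain ⟨xc, hxc, hxc0⟩ := Dec.ex_ne 2 (by norm_num) hfr c
  have hN2 : N D (xa + xb) = 0 := by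
    rw [polar h hfr h01 h2, N_block h a xa hxa hxa0, N_block h b xb hxb hxb0,
      h.orth a b hab xa hxa xb hxb, add_zero, h2]
  have hN3 : N D (xa + xb + xc) = 1 := by
    rw [polar h hfr h01 h2, hN2, N_block h c xc hxc hxc0, map_add, LinearMap.add_apply,
      h.orth a c hac xa hxa xc hxc, h.orth b c hbc xb hxb xc hxc, add_zero, add_zero, zero_add]
  obtain ⟨y0, hy0, hy0x⟩ := h.nd a xa hxa hxa0
  constructor
  · rw [SetLike.lt_iff_le_and_exists]
    refine ⟨stab_le, tv (xa + xb + xc) (1 : F), tv_mem_K h hfr h01 h2 _ hN3, ?_⟩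
    rintro ⟨σ, hσ⟩
    have h3 : (tv (xa + xb + xc) (1 : F) : Matrix (Fin m ⊕ Fin m) (Fin m ⊕ Fin m) F) *ᵥ y0
        ∈ D (σ a) := by
      rw [← hσ a]
      exact ⟨y0, hy0, rfl⟩
    rw [tv_mulVec, one_mul, map_add, map_add, h.orth a b hab y0 hy0 xb hxb,
      h.orth a c hac y0 hy0 xc hxc, add_zero, add_zero, (h01 _).resolve_left hy0x, one_smul] at h3
    by_cases hp : σ a = b
    · have hpc : σ a ≠ c := by rw [hp]; exact hbc
      rw [add_right_comm xa xb xc] at h3
      exact off_aux h a c b (σ a) hac hbc hpc y0 xa xc xb hy0 hxa hxc hxb hxc0 h3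
    · exact off_aux h a b c (σ a) hab hbc.symm hp y0 xa xb xc hy0 hxa hxb hxc hxb0 h3
  · rw [lt_top_iff_ne_top]
    intro htop
    apply tv_not_mem_K h hfr h01 h2 (xa + xb) hN2
    · intro hh
      apply hy0x
      have e : sB m F y0 (xa + xb) = sB m F y0 xa := by
        rw [map_add, h.orth a b hab y0 hy0 xb hxb, add_zero]
      rw [← e, hh, map_zero]
    · rw [htop]; trivial

theorem transport (S : Subgroup (Matrix.GeneralLinearGroup (Fin m ⊕ Fin m) F))
    (K' : Subgroup (Matrix.symplecticGroup (Fin m) F))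
    (h1 : S.comap (toGL (F := F) (m := m)) < K') (h2 : K' < ⊤) :
    S ⊓ Cfsg.spGL m F < K'.map toGL ∧ K'.map toGL < Cfsg.spGL m F := by
  constructor
  · rw [SetLike.lt_iff_le_and_exists]
    refine ⟨?_, ?_⟩
    · rintro g ⟨hgS, hg⟩
      have hg' : g ∈ Cfsg.spGL m F := hg
      rw [← range_toGL] at hg'
      obtain ⟨s, rfl⟩ := hg'
      exact ⟨s, h1.le hgS, rfl⟩
    · obtain ⟨s, hsK, hsS⟩ := SetLike.exists_of_lt h1
      exact ⟨toGL s, ⟨s, hsK, rfl⟩, fun hh => hsS hh.1⟩
  · rw [SetLike.lt_iff_le_and_exists]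
    refine ⟨?_, ?_⟩
    · rintro _ ⟨s, -, rfl⟩
      exact toGL_mem s
    · obtain ⟨s, -, hsK⟩ := SetLike.exists_of_lt h2
      refine ⟨toGL s, toGL_mem s, ?_⟩
      rintro ⟨s', hs', he⟩
      rw [toGL_inj he] at hs'
      exact hsK hs'

theorem f01 [Fintype F] (hq : Fintype.card F = 2) (c : F) : c = 0 ∨ c = 1 := by
  classical
  by_contra hc
  push Not at hc
  have : ({0, 1, c} : Finset F).card ≤ Fintype.card F := Finset.card_le_univ _
  rw [Finset.card_insert_of_notMem, Finset.card_insert_of_notMem, Finset.card_singleton, hq]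
    at this
  · omega
  · rw [Finset.mem_singleton]; exact hc.2.symm
  · simp only [Finset.mem_insert, Finset.mem_singleton, not_or]
    exact ⟨zero_ne_one, hc.1.symm⟩

theorem t_eq (hind : iSupIndep D) (htop : iSup D = ⊤) (hfr : ∀ i, finrank F (D i) = 2) :
    t = m := by
  classical
  have hint := DirectSum.isInternal_submodule_of_iSupIndep_of_iSup_eq_top hind htop
  have e := LinearEquiv.ofBijective (DirectSum.coeLinearMap D) hint
  have h1 := e.finrank_eq
  rw [Module.finrank_directSum, finrank_V] at h1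
  simp only [hfr, Finset.sum_const, Finset.card_univ, Fintype.card_fin, smul_eq_mul] at h1
  omega

theorem result {F : Type*} [Field F] [Fintype F] (m : ℕ) (hm : 7 ≤ m) (hq : Fintype.card F = 2) {t : ℕ} (D : Fin t → Submodule F (Fin m ⊕ Fin m → F)) (hD : Cfsg.Geo.IsNondegenerateMDecomposition (Cfsg.sympForm m F) 2 D) : ∃ K : Subgroup (Matrix.GeneralLinearGroup (Fin m ⊕ Fin m) F), Cfsg.Geo.decompositionStabilizer D ⊓ Cfsg.spGL m F < K ∧ K < Cfsg.spGL m F := by
  have h01 := f01 hq
  have h2 : (1 : F) + 1 = 0 := by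
    rcases h01 (1 + 1) with h | h
    · exact h
    · exfalso
      exact one_ne_zero (add_left_cancel (h.trans (add_zero _).symm))
  have ht : t = m := t_eq hD.decomp.indep hD.decomp.iSup_eq_top hD.decomp.finrank_eq
  obtain ⟨k1, k2⟩ := main (dec_of 2 hD) hD.decomp.finrank_eq h01 h2 (by omega)
  exact ⟨_, transport _ _ k1 k2⟩

end Cfsg.Agent.S5648
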