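import Cfsg.Statements.S5652
import Cfsg.Agent.Lib.Helper5_SympMax
import Cfsg.Agent.Lib.Helper5_AltOver

set_option autoImplicit false

open Cfsg

namespace Cfsg.Agent.S5652

open Module Matrix Cfsg.Agent.Lib.Helper5_Symp Cfsg.Agent.Lib.Helper5_SympCard
  Cfsg.Agent.Lib.Helper5_SympTv Cfsg.Agent.Lib.Helper5_SympGen Cfsg.Agent.S0768
  Cfsg.Agent.Lib.Helper5_SympMax

variable {F : Type*} [Field F] {m : ℕ}

theorem exN (Q : (Fin m ⊕ Fin m → F) → F)
    (ha : ∀ u v, Q (u + v) = Q u + Q v + sB m F u v)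
    (U : Submodule F (Fin m ⊕ Fin m → F)) (hU : 2 * finrank F U < 2 * m) :
    ∃ z, (∀ s ∈ U, sB m F s z = 0) ∧ Q z ≠ 0 := by
  have hfr := LinearMap.BilinForm.finrank_orthogonal (sB_nondegenerate m F) U
  have hV : finrank F (Fin m ⊕ Fin m → F) = 2 * m := by
    rw [Module.finrank_fintype_fun_eq_card, Fintype.card_sum, Fintype.card_fin]
    ring
  obtain ⟨a, haO, haU⟩ : ∃ a ∈ (sB m F).orthogonal U, a ∉ U := by
    by_contra hcon
    push Not at hcon
    have hle : (sB m F).orthogonal U ≤ U := hcon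
    have := Submodule.finrank_mono hle
    omega
  obtain ⟨b, hb1, hb2⟩ := exists_rep U a haU
  by_contra hcon
  push Not at hcon
  have haO' : ∀ s ∈ U, sB m F s a = 0 := fun s hs => haO s hs
  have h1 := hcon a haO'
  have h2 := hcon b hb1
  have h3 := hcon (a + b) (fun s hs => by rw [map_add, haO' s hs, hb1 s hs, add_zero])
  rw [ha, h1, h2, hb2] at h3
  simp at h3

theorem exQ (hm : 7 ≤ m) (hsq : ∀ a : F, IsSquare a) (Q : (Fin m ⊕ Fin m → F) → F)
    (hs : ∀ (c : F) v, Q (c • v) = c ^ 2 * Q v)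
    (ha : ∀ u v, Q (u + v) = Q u + Q v + sB m F u v) (u1 u2 u3 : Fin m ⊕ Fin m → F) (ν : F) :
    ∃ z, sB m F u1 z = 0 ∧ sB m F u2 z = 0 ∧ sB m F u3 z = 0 ∧ Q z = ν := by
  have hfr : finrank F (Submodule.span F (Set.range ![u1, u2, u3])) ≤ 3 := by
    have := finrank_range_le_card (R := F) ![u1, u2, u3]
    simpa [Set.finrank] using this
  obtain ⟨z, hz, hzQ⟩ := exN Q ha (Submodule.span F (Set.range ![u1, u2, u3])) (by omega)
  obtain ⟨l, hl⟩ := hsq (ν / Q z)
  refine ⟨l • z, ?_, ?_, ?_, ?_⟩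
  · rw [map_smul, hz u1 (Submodule.subset_span ⟨0, rfl⟩), smul_zero]
  · rw [map_smul, hz u2 (Submodule.subset_span ⟨1, rfl⟩), smul_zero]
  · rw [map_smul, hz u3 (Submodule.subset_span ⟨2, rfl⟩), smul_zero]
  · rw [hs, sq, ← hl, div_mul_cancel₀ _ hzQ]

theorem coatom (hm : 7 ≤ m) (h2 : (2 : F) = 0) (hsq : ∀ a : F, IsSquare a)
    (Q : (Fin m ⊕ Fin m → F) → F)
    (hs : ∀ (c : F) v, Q (c • v) = c ^ 2 * Q v)
    (ha : ∀ u v, Q (u + v) = Q u + Q v + sB m F u v) :
    IsCoatom ((Cfsg.Geo.quadSimilarityGroup Q).comap (toGL (F := F) (m := m))) := by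
  classical
  have hsym : ∀ u v, sB m F u v = sB m F v u := by
    intro u v
    rw [sB_swap]
    linear_combination (-sB m F v u) * h2
  have hQ0 : Q 0 = 0 := by
    have := hs 0 0
    rw [zero_smul] at this
    rw [this]; simp
  have hexQ := exQ hm hsq Q hs ha
  have hinj : ∀ (g : Matrix.symplecticGroup (Fin m) F) x,
      (g : Matrix (Fin m ⊕ Fin m) (Fin m ⊕ Fin m) F) *ᵥ x = 0 → x = 0 := by
    intro g x h
    apply sB_nondeg m F
    intro u
    rw [← sB_mulVec g, h, map_zero]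
  have hrefl : ∀ d, Q d ≠ 0 →
      tv d (Q d)⁻¹ ∈ (Cfsg.Geo.quadSimilarityGroup Q).comap (toGL (F := F) (m := m)) := by
    intro d hd
    refine ⟨1, fun v => ?_⟩
    rw [toGL_val, tv_mulVec, ha, hs, map_smul, smul_eq_mul, Units.val_one]
    have hc : (Q d)⁻¹ * Q d = 1 := inv_mul_cancel₀ hd
    linear_combination ((Q d)⁻¹ * (sB m F v d) ^ 2) * hc + ((Q d)⁻¹ * (sB m F v d) ^ 2) * h2
  constructor
  · intro htop
    obtain ⟨x, -, -, -, hx⟩ := hexQ 0 0 0 1
    have hx0 : x ≠ 0 := by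
      rintro rfl
      rw [hQ0] at hx
      exact zero_ne_one hx
    obtain ⟨w0, hw0⟩ := exists_ne_right x hx0
    obtain ⟨z, hz1, hz2, -, hzQ⟩ := hexQ x w0 0 1
    have hmem : tv (x + z) (1 : F) ∈
        (Cfsg.Geo.quadSimilarityGroup Q).comap (toGL (F := F) (m := m)) := by
      rw [htop]; trivial
    obtain ⟨c, hc⟩ := hmem
    have e1 := hc x
    rw [toGL_val, tv_mulVec, map_add, sB_self, hz1, add_zero, mul_zero, zero_smul, add_zero, hx,
      mul_one] at e1
    have e2 := hc w0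
    have hy : Q (x + z) = 0 := by
      rw [ha, hx, hzQ, hz1]
      linear_combination h2
    rw [toGL_val, tv_mulVec, map_add, hz2, add_zero, one_mul, ha, hs, hy, ← e1, map_smul, map_add,
      hz2, add_zero, smul_eq_mul, hsym w0 x] at e2
    apply hw0
    have : sB m F x w0 * sB m F x w0 = 0 := by linear_combination e2
    exact mul_self_eq_zero.1 this
  · intro H hlt
    have hS1 : ∀ y, Q y = 1 → tv y (1 : F) ∈ H := by
      intro y hy
      have := hrefl y (by rw [hy]; exact one_ne_zero)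
      rw [hy, inv_one] at this
      exact hlt.le this
    have hTL1 : ∀ y y', tv y (1 : F) ∈ H → Q y = Q y' → sB m F y y' ≠ 0 → tv y' (1 : F) ∈ H := by
      intro y y' hy hQ hB
      have hd : Q (y + y') = sB m F y y' := by
        rw [ha, hQ]
        linear_combination (Q y') * h2
      have hr := hlt.le (hrefl (y + y') (by rw [hd]; exact hB))
      have h3 := tv_mem_of_conj H _ hr y 1 hy
      have h4 : (tv (y + y') (Q (y + y'))⁻¹ : Matrix (Fin m ⊕ Fin m) (Fin m ⊕ Fin m) F) *ᵥ y = y' := by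
        rw [tv_mulVec, hd, map_add, sB_self, zero_add, inv_mul_cancel₀ hB, one_smul, ← add_assoc]
        have : y + y = 0 := by rw [← two_smul F y, h2, zero_smul]
        rw [this, zero_add]
      rwa [h4] at h3
    have hTL : ∀ y y', tv y (1 : F) ∈ H → y ≠ 0 → y' ≠ 0 → Q y = Q y' → tv y' (1 : F) ∈ H := by
      intro y y' hy hy0 hy0' hQ
      by_cases hB : sB m F y y' = 0
      · obtain ⟨u, -, hu1, hu2⟩ := Cfsg.Agent.Lib.Helper5_AltOver.both (sB m F) (sB_nondeg m F) 0 y y'
          (by simpa using hy0) (by simpa using hy0')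
        obtain ⟨z, hz1, hz2, hz3, hzQ⟩ := hexQ y y' u (Q y + Q u)
        have hw : Q (u + z) = Q y := by
          rw [ha, hzQ, hz3]
          linear_combination (Q u) * h2
        have h1 : sB m F y (u + z) ≠ 0 := by
          rw [map_add, hz1, add_zero, hsym]; exact hu1
        have h2' : sB m F (u + z) y' ≠ 0 := by
          rw [map_add, LinearMap.add_apply, hsym z y', hz2, add_zero]; exact hu2
        exact hTL1 (u + z) y' (hTL1 y (u + z) hy hw.symm h1) (hw.trans hQ) h2'
      · exact hTL1 y y' hy hQ hB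
    obtain ⟨g, hgH, hgO⟩ := SetLike.exists_of_lt hlt
    obtain ⟨x, hx1, hgx⟩ : ∃ x, Q x = 1 ∧
        Q ((g : Matrix (Fin m ⊕ Fin m) (Fin m ⊕ Fin m) F) *ᵥ x) ≠ 1 := by
      by_contra hcon
      push Not at hcon
      apply hgO
      refine ⟨1, fun v => ?_⟩
      rw [Units.val_one, one_mul, toGL_val]
      have hns : ∀ v, Q v ≠ 0 →
          Q ((g : Matrix (Fin m ⊕ Fin m) (Fin m ⊕ Fin m) F) *ᵥ v) = Q v := by
        intro v hv
        obtain ⟨s, hs'⟩ := hsq (Q v)
        have hs0 : s ≠ 0 := by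
          rintro rfl
          apply hv
          rw [hs', mul_zero]
        have h3 := hcon (s⁻¹ • v) (by rw [hs, hs']; field_simp)
        rw [mulVec_smul, hs] at h3
        rw [hs']
        field_simp at h3
        linear_combination h3
      by_cases hv : Q v = 0
      · obtain ⟨w, hw1, -, -, hwQ⟩ := hexQ v 0 0 1
        have e1 := hns w (by rw [hwQ]; exact one_ne_zero)
        have e2 := hns (v + w) (by rw [ha, hv, hwQ, hw1]; simp)
        rw [mulVec_add, ha, ha, e1, sB_mulVec] at e2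
        exact add_right_cancel (add_right_cancel e2)
      · exact hns v hv
    obtain ⟨y0, hy0def⟩ : ∃ y0, y0 = (g : Matrix (Fin m ⊕ Fin m) (Fin m ⊕ Fin m) F) *ᵥ x := ⟨_, rfl⟩
    rw [← hy0def] at hgx
    have hy0S : tv y0 (1 : F) ∈ H := by
      rw [hy0def]
      exact tv_mem_of_conj H g hgH x 1 (hS1 x hx1)
    have hy0 : y0 ≠ 0 := by
      intro h
      rw [hy0def] at h
      have := hinj g x h
      rw [this, hQ0] at hx1
      exact zero_ne_one hx1
    have hall : ∀ ν : F, ∃ y, y ≠ 0 ∧ Q y = ν ∧ tv y (1 : F) ∈ H := by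
      intro ν
      have hμ : Q y0 + 1 ≠ 0 := by
        intro h
        apply hgx
        linear_combination h - h2
      obtain ⟨β, hβ⟩ := hsq ((ν + 1) / (Q y0 + 1))
      obtain ⟨u, hu⟩ : ∃ u, sB m F u y0 = β := by
        obtain ⟨u0, hu0⟩ := exists_ne_left y0 hy0
        refine ⟨(β / sB m F u0 y0) • u0, ?_⟩
        rw [map_smul, LinearMap.smul_apply, smul_eq_mul, div_mul_cancel₀ _ hu0]
      obtain ⟨z, hz1, hz2, -, hzQ⟩ := hexQ y0 u 0 (1 + Q u)
      have hx' : Q (u + z) = 1 := by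
        rw [ha, hzQ, hz2]
        linear_combination (Q u) * h2
      have hb : sB m F (u + z) y0 = β := by
        rw [map_add, LinearMap.add_apply, hsym z y0, hz1, add_zero, hu]
      refine ⟨(tv y0 (1 : F) : Matrix (Fin m ⊕ Fin m) (Fin m ⊕ Fin m) F) *ᵥ (u + z), ?_, ?_,
        tv_mem_of_conj H _ hy0S _ 1 (hS1 _ hx')⟩
      · intro h
        have := hinj _ _ h
        rw [this, hQ0] at hx'
        exact zero_ne_one hx'
      · rw [tv_mulVec, one_mul, hb, ha, hs, hx', map_smul, smul_eq_mul, hb]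
        have h5 : β * β * (Q y0 + 1) = ν + 1 := by
          rw [← hβ, div_mul_cancel₀ _ hμ]
        linear_combination h5 + h2
    apply eq_top_of_tv
    intro v c
    obtain ⟨s, hs'⟩ := hsq c
    have htv : tv v c = tv (s • v) 1 := by
      apply sp_ext
      intro x
      rw [tv_mulVec, tv_mulVec, map_smul, smul_eq_mul, smul_smul, hs']
      congr 2
      ring
    rw [htv]
    by_cases hv0 : s • v = 0
    · rw [hv0]
      have : tv (0 : Fin m ⊕ Fin m → F) (1 : F) = 1 := by
        apply sp_ext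
        intro x
        rw [tv_mulVec, smul_zero, add_zero, one_mulVec']
      rw [this]
      exact H.one_mem
    · obtain ⟨y, hy0', hyQ, hyS⟩ := hall (Q (s • v))
      exact hTL y _ hyS hy0' hv0 hyQ

theorem result {F : Type*} [Field F] [Fintype F] (m : ℕ) (hm : 7 ≤ m) (heven : ¬ Odd (Fintype.card F)) (Q : (Fin m ⊕ Fin m → F) → F) (hQ : Cfsg.Geo.IsNondegenerateQuadraticForm Q) (hpol : ∀ u v, QuadraticMap.polar Q u v = Cfsg.sympForm m F u v) : Cfsg.Geo.IsMaximalIn (Cfsg.spGL m F) (Cfsg.Geo.quadSimilarityGroup Q ⊓ Cfsg.spGL m F) := by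
  apply maximal_of_coatom
  have hch : ringChar F = 2 := by
    rw [FiniteField.even_card_iff_char_two]
    rw [Nat.not_odd_iff_even, Nat.even_iff] at heven
    exact heven
  have : CharP F 2 := ringChar.of_eq hch
  apply coatom hm (CharTwo.two_eq_zero) (FiniteField.isSquare_of_char_two hch) Q hQ.smul
  intro u v
  rw [sB_apply, ← hpol, QuadraticMap.polar]
  ring

end Cfsg.Agent.S5652
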