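import Cfsg.Statements.S5653
import Cfsg.Agent.Lib.Helper5_USieg

set_option autoImplicit false

open Cfsg

namespace Cfsg.Agent.S5653

open Matrix Cfsg.Agent.Lib.Helper5_UField Cfsg.Agent.Lib.Helper5_UForm
  Cfsg.Agent.Lib.Helper5_UGroup Cfsg.Agent.Lib.Helper5_ULin Cfsg.Agent.Lib.Helper5_UTrace
  Cfsg.Agent.Lib.Helper5_GLPar Cfsg.Agent.Lib.Helper5_UGen Cfsg.Agent.Lib.Helper5_USub
  Cfsg.Agent.Lib.Helper5_USieg

theorem result {F : Type*} [Field F] [Fintype F] (n q : ℕ) (hF : Fintype.card F = q ^ 2) (hn : 13 ≤ n) (W : Submodule F (Fin n → F)) (hW0 : W ≠ ⊥) (hW : Cfsg.Geo.IsTotallySingularFor (Cfsg.hermForm n F q) W) : Cfsg.Geo.IsMaximalIn (Cfsg.GU n F q ⊓ Cfsg.Geo.specialLinear (Fin n) F) (Cfsg.Geo.subspaceStabilizer W ⊓ (Cfsg.GU n F q ⊓ Cfsg.Geo.specialLinear (Fin n) F)) := by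
  classical
  obtain ⟨ε, hε0, hε⟩ := exists_skew hF
  have hεt : ε + ε ^ q = 0 := by rw [hε]; ring
  -- transvections with centre orthogonal to `W`
  have hH : ∀ v, (∀ w ∈ W, hermForm n F q w v = 0) → Sm q (Cfsg.Geo.subspaceStabilizer W ⊓
      (Cfsg.GU n F q ⊓ Cfsg.Geo.specialLinear (Fin n) F)) v := by
    intro v hv t c ht
    refine ⟨mem_stab_of_maps t _ (fun w hw => ?_), ht.isPr.mem_GU hF, ht.mem_SL⟩
    rw [ht.2.2, hv w hw, mul_zero, zero_smul, add_zero]
    exact hw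
  constructor
  · refine lt_of_le_of_ne inf_le_right ?_
    intro heq
    obtain ⟨u, huW, hu0⟩ := Submodule.exists_mem_ne_zero_of_ne_bot hW0
    obtain ⟨z0, -, hz0u⟩ := sepU hF ⊥ u (by
      intro hh
      exact hu0 ((Submodule.mem_bot F).1 hh))
    obtain ⟨β, hβ⟩ := make_iso hF z0 u (hW u huW u huW) hz0u
    obtain ⟨t, ht⟩ := exists_tv hF (z0 + β • u) ε hβ hεt
    have htH : t ∈ Cfsg.Geo.subspaceStabilizer W ⊓
        (Cfsg.GU n F q ⊓ Cfsg.Geo.specialLinear (Fin n) F) := by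
      rw [heq]
      exact ⟨ht.isPr.mem_GU hF, ht.mem_SL⟩
    have h2 : (t : Matrix (Fin n) (Fin n) F) *ᵥ u ∈ W := (htH.1 u).1 huW
    have huz : hermForm n F q u (z0 + β • u) = 1 := by
      rw [add_right hF, smul_right, hW u huW u huW, mul_zero, add_zero, ← conj hF, hz0u, one_pow]
    rw [ht.2.2, huz, mul_one] at h2
    have h3 : ε • (z0 + β • u) ∈ W := by
      have := W.sub_mem h2 huW
      rwa [add_sub_cancel_left] at this
    have h4 : z0 + β • u ∈ W := (W.smul_mem_iff hε0).1 h3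
    have := hW u huW _ h4
    rw [huz] at this
    exact one_ne_zero this
  · intro M hle hM
    by_cases hMH : M ≤ Cfsg.Geo.subspaceStabilizer W ⊓
        (Cfsg.GU n F q ⊓ Cfsg.Geo.specialLinear (Fin n) F)
    · exact Or.inl (le_antisymm hMH hle)
    · right
      obtain ⟨g, hgM, hg⟩ := SetLike.not_le_iff_exists.1 hMH
      have hgG : g ∈ Cfsg.GU n F q := (hM hgM).1
      have hMV : ∀ v, (∀ w ∈ W, hermForm n F q w v = 0) → Sm q M v :=
        fun v hv t a ht => hle (hH v hv t a ht)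
      have hginv : ¬ ∀ v ∈ (W : Set (Fin n → F)),
          ((g⁻¹ : Matrix.GeneralLinearGroup (Fin n) F) : Matrix (Fin n) (Fin n) F) *ᵥ v ∈
            (W : Set (Fin n → F)) := by
        intro hh
        apply hg
        have h1 : g⁻¹ ∈ Cfsg.Geo.subspaceStabilizer W := mem_stab_of_maps _ _ hh
        have h2 := Subgroup.inv_mem _ h1
        rw [inv_inv] at h2
        exact ⟨h2, hM hgM⟩
      push Not at hginv
      obtain ⟨w1, hw1, hx1⟩ := hginv
      have hw1' : w1 ∈ W := hw1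
      obtain ⟨x1, hx1def⟩ : ∃ x1, x1 = ((g⁻¹ : Matrix.GeneralLinearGroup (Fin n) F) :
        Matrix (Fin n) (Fin n) F) *ᵥ w1 := ⟨_, rfl⟩
      rw [← hx1def] at hx1
      have hx1W : x1 ∉ W := hx1
      have hx1iso : hermForm n F q x1 x1 = 0 := by
        rw [hx1def, gu_form (Subgroup.inv_mem _ hgG), hW w1 hw1' w1 hw1']
      -- an isotropic vector of `W^⊥` not orthogonal to `x1`
      obtain ⟨v', hv'W, hv'iso, hv'x⟩ : ∃ v', (∀ w ∈ W, hermForm n F q w v' = 0) ∧
          hermForm n F q v' v' = 0 ∧ hermForm n F q v' x1 ≠ 0 := by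
        by_cases hc : ∀ w ∈ W, hermForm n F q w x1 = 0
        · obtain ⟨v0, hv0, hv0x⟩ := sepU hF W x1 hx1W
          obtain ⟨β, hβ⟩ := make_iso hF v0 x1 hx1iso hv0x
          refine ⟨v0 + β • x1, fun w hw => ?_, hβ, ?_⟩
          · rw [add_right hF, smul_right, hc w hw, mul_zero, add_zero]
            exact zero_swap hF (hv0 w hw)
          · rw [add_left, smul_left, hx1iso, mul_zero, add_zero, hv0x]
            exact one_ne_zero
        · push Not at hc
          obtain ⟨w, hw, hwx⟩ := hc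
          exact ⟨w, fun w' hw' => hW w' hw' w hw, hW w hw w hw, hwx⟩
      obtain ⟨y, hydef⟩ : ∃ y, y = (g : Matrix (Fin n) (Fin n) F) *ᵥ v' := ⟨_, rfl⟩
      have hyS : Sm q M y := by rw [hydef]; exact (hMV v' hv'W).map g hgM hgG
      have hyiso : hermForm n F q y y = 0 := by rw [hydef, gu_form hgG, hv'iso]
      have hyw1 : hermForm n F q y w1 ≠ 0 := by
        have : w1 = (g : Matrix (Fin n) (Fin n) F) *ᵥ x1 := by rw [hx1def, gl_mulVec_inv]
        rw [hydef, this, gu_form hgG]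
        exact hv'x
      apply le_antisymm hM
      apply SU_le_of_tv hF (by omega) M
      intro t x c ht
      by_cases hxW : ∀ w ∈ W, hermForm n F q w x = 0
      · exact hMV x hxW t c ht
      · push Not at hxW
        obtain ⟨w, hw, hwx⟩ := hxW
        obtain ⟨p, hpG, hpS, hpW, l, hl0, hpy⟩ := par_move hF W hW x y ht.1 hyiso
          ⟨w, hw, ne_swap hF hwx⟩ ⟨w1, hw1', hyw1⟩
        have hpM : p ∈ M := hle ⟨mem_stab_of_maps p _ hpW, hpG, hpS⟩
        have h1 := ((hyS.map p hpM hpG)).smul hF l⁻¹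
        rw [hpy, smul_smul, inv_mul_cancel₀ hl0, one_smul] at h1
        exact h1 t c ht

end Cfsg.Agent.S5653
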