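import Cfsg.Statements.S5656
import Cfsg.Agent.Lib.Helper5_UGen
import Cfsg.Agent.Lib.Helper5_UPair

set_option autoImplicit false

open Cfsg

namespace Cfsg.Agent.S5656

open Module Matrix Cfsg.Agent.Lib.Helper5_UField Cfsg.Agent.Lib.Helper5_UForm
  Cfsg.Agent.Lib.Helper5_UGroup Cfsg.Agent.Lib.Helper5_ULin Cfsg.Agent.Lib.Helper5_UTrace
  Cfsg.Agent.Lib.Helper5_GLPar Cfsg.Agent.Lib.Helper5_UGen Cfsg.Agent.Lib.Helper5_UPair

variable {F : Type*} [Field F] [Fintype F] {n t : ℕ} {D : Fin t → Submodule F (Fin n → F)}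

theorem char2 (hF : Fintype.card F = 2 ^ 2) : (1 : F) + 1 = 0 := by
  have h4 : ((Fintype.card F : ℕ) : F) = 0 := Nat.cast_card_eq_zero F
  rw [hF] at h4
  have : ((1 : F) + 1) * (1 + 1) = 0 := by
    have e : ((2 ^ 2 : ℕ) : F) = (1 + 1) * (1 + 1) := by push_cast; ring
    rw [← e]; exact h4
  exact mul_self_eq_zero.1 this

omit [Fintype F] in
theorem fix01 (a : F) (ha : a ^ 2 = a) : a = 0 ∨ a = 1 := by
  have : a * (a - 1) = 0 := by linear_combination ha
  rcases mul_eq_zero.1 this with h | h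
  · left; exact h
  · right; exact sub_eq_zero.1 h

theorem norm1 (hF : Fintype.card F = 2 ^ 2) (c : F) (hc : c ≠ 0) : c ^ 3 = 1 := by
  have := FiniteField.pow_card_sub_one_eq_one c hc
  rw [hF] at this
  exact this

/-- the hypotheses on the decomposition -/
structure UD (D : Fin t → Submodule F (Fin n → F)) : Prop where
  nd : ∀ i, ∀ w ∈ D i, w ≠ 0 → ∃ x ∈ D i, hermForm n F 2 x w ≠ 0
  orth : ∀ i j, i ≠ j → ∀ u ∈ D i, ∀ v ∈ D j, hermForm n F 2 u v = 0
  fr : ∀ i, finrank F (D i) = 2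

theorem UD.exists_one (hF : Fintype.card F = 2 ^ 2) (h : UD D) (i : Fin t) :
    ∃ x ∈ D i, hermForm n F 2 x x = 1 := by
  suffices hs : ∃ x ∈ D i, hermForm n F 2 x x ≠ 0 by
    obtain ⟨x, hx, hne⟩ := hs
    exact ⟨x, hx, (fix01 _ (self_fixed hF x)).resolve_left hne⟩
  by_contra hc
  push Not at hc
  obtain ⟨w, hw, -, hw0⟩ := exKU (q := 2) (D i) ⊥ (k := 0) Fin.elim0
    (by rw [finrank_bot, h.fr]; omega)
  have hw0' : w ≠ 0 := fun hh => hw0 (by rw [hh]; exact Submodule.zero_mem _)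
  obtain ⟨x, hx, hxw⟩ := h.nd i w hw hw0'
  obtain ⟨ω, hω, hω1⟩ := exists_norm_one_ne_one hF
  obtain ⟨a, ha⟩ : ∃ a, a = hermForm n F 2 x w := ⟨_, rfl⟩
  have hwx : hermForm n F 2 w x = a ^ 2 := by rw [ha, conj hF]
  have e := hc (x + (a * ω) • w) ((D i).add_mem hx ((D i).smul_mem _ hw))
  simp only [add_left, add_right hF, smul_left, smul_right] at e
  rw [hc x hx, hc w hw, ← ha, hwx] at e
  have e2 : a ^ 3 * (ω * (ω + 1)) = 0 := by linear_combination e
  have ha0 : a ≠ 0 := by rw [ha]; exact hxw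
  have hω0 : ω ≠ 0 := by
    intro hh
    rw [hh] at hω
    norm_num at hω
  have hω2 : ω + 1 ≠ 0 := fun hh => hω1 (by linear_combination hh - char2 hF)
  exact mul_ne_zero (pow_ne_zero 3 ha0) (mul_ne_zero hω0 hω2) e2

theorem UD.prop (hF : Fintype.card F = 2 ^ 2) (h : UD D) (i : Fin t) (x v : Fin n → F)
    (hx : x ∈ D i) (hv : v ∈ D i)
    (hxx : hermForm n F 2 x x = 1) (hvv : hermForm n F 2 v v ≠ 0)
    (hvx : hermForm n F 2 v x ≠ 0) :
    v = hermForm n F 2 v x • x := by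
  obtain ⟨a, ha⟩ : ∃ a, a = hermForm n F 2 v x := ⟨_, rfl⟩
  rw [← ha]
  have ha0 : a ≠ 0 := by rw [ha]; exact hvx
  have hvv1 : hermForm n F 2 v v = 1 := (fix01 _ (self_fixed hF v)).resolve_left hvv
  have hxv : hermForm n F 2 x v = a ^ 2 := by rw [ha, conj hF]
  by_contra hne
  have hv'0 : v - a • x ≠ 0 := fun hh => hne (sub_eq_zero.1 hh)
  have hv' : v - a • x ∈ D i := (D i).sub_mem hv ((D i).smul_mem _ hx)
  have e1 : hermForm n F 2 (v - a • x) x = 0 := by
    rw [sub_left, smul_left, hxx, ← ha, mul_one, sub_self]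
  have e2 : hermForm n F 2 x (v - a • x) = 0 := by
    rw [← conj hF, e1]; norm_num
  have e3 : hermForm n F 2 (v - a • x) (v - a • x) = 0 := by
    rw [sub_right hF, smul_right, e1, mul_zero, sub_zero, sub_left, smul_left, hvv1, hxv]
    have := norm1 hF a ha0
    linear_combination -this
  have hli : LinearIndependent F ![x, v - a • x] := by
    rw [LinearIndependent.pair_iff]
    intro s r hsr
    have hs : s = 0 := by
      have := congrArg (fun z => hermForm n F 2 z x) hsr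
      simp only [add_left, smul_left, hxx, e1, zero_left, mul_one, mul_zero, add_zero] at this
      exact this
    refine ⟨hs, ?_⟩
    rw [hs, zero_smul, zero_add] at hsr
    exact (smul_eq_zero.1 hsr).resolve_right hv'0
  have hspan : Submodule.span F {x, v - a • x} = D i := by
    apply Submodule.eq_of_le_of_finrank_eq
    · rw [Submodule.span_le]
      intro z hz
      rcases hz with rfl | hz
      · exact hx
      · rw [Set.mem_singleton_iff] at hz
        rw [hz]; exact hv'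
    · rw [h.fr]
      have := finrank_span_eq_card hli
      rw [Matrix.range_cons, Matrix.range_cons, Matrix.range_empty, Set.union_empty,
        Set.singleton_union, Fintype.card_fin] at this
      exact this
  obtain ⟨z, hz, hzv⟩ := h.nd i _ hv' hv'0
  rw [← hspan, Submodule.mem_span_pair] at hz
  obtain ⟨s, r, rfl⟩ := hz
  apply hzv
  rw [add_left, smul_left, smul_left, e2, e3, mul_zero, mul_zero, add_zero]

/-- the anisotropic vectors of the blocks -/
def X (D : Fin t → Submodule F (Fin n → F)) (v : Fin n → F) : Prop :=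
  ∃ i, v ∈ D i ∧ hermForm n F 2 v v ≠ 0

/-- the stabilizer of the set of anisotropic block vectors -/
def K (D : Fin t → Submodule F (Fin n → F)) : Subgroup (Matrix.GeneralLinearGroup (Fin n) F) where
  carrier := {g | g ∈ GU n F 2 ⊓ Cfsg.Geo.specialLinear (Fin n) F ∧
    ∀ v, X D ((g : Matrix (Fin n) (Fin n) F) *ᵥ v) ↔ X D v}
  mul_mem' := by
    intro a b ha hb
    exact ⟨Subgroup.mul_mem _ ha.1 hb.1, fun v => by rw [gl_mul_mulVec, ha.2, hb.2]⟩
  one_mem' := ⟨Subgroup.one_mem _, fun v => by rw [Units.val_one, Matrix.one_mulVec]⟩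
  inv_mem' := by
    intro a ha
    exact ⟨Subgroup.inv_mem _ ha.1, fun v => by rw [← ha.2, gl_mulVec_inv]⟩

theorem stab_le : Cfsg.Geo.decompositionStabilizer D ⊓
    (GU n F 2 ⊓ Cfsg.Geo.specialLinear (Fin n) F) ≤ K D := by
  rintro g ⟨⟨σ, hσ⟩, hg⟩
  refine ⟨hg, fun v => ⟨?_, ?_⟩⟩
  · rintro ⟨j, hj, hne⟩
    rw [← σ.apply_symm_apply j, ← hσ] at hj
    obtain ⟨u, hu, hgu⟩ := hj
    have huv : u = v := by
      rw [Matrix.toLin'_apply] at hgu
      rw [← gl_inv_mulVec g u, hgu, gl_inv_mulVec]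
    rw [gu_form hg.1] at hne
    exact ⟨σ.symm j, huv ▸ hu, hne⟩
  · rintro ⟨i, hi, hne⟩
    refine ⟨σ i, ?_, by rw [gu_form hg.1]; exact hne⟩
    rw [← hσ i]
    exact ⟨v, hi, rfl⟩

theorem invol (hF : Fintype.card F = 2 ^ 2) (g : Matrix.GeneralLinearGroup (Fin n) F)
    (d : Fin n → F) (hd : hermForm n F 2 d d = 0)
    (hg : ∀ z, (g : Matrix (Fin n) (Fin n) F) *ᵥ z = z + hermForm n F 2 z d • d) (z : Fin n → F) :
    (g : Matrix (Fin n) (Fin n) F) *ᵥ ((g : Matrix (Fin n) (Fin n) F) *ᵥ z) = z := by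
  rw [hg z, hg, add_left, smul_left, hd, mul_zero, add_zero, add_assoc, ← add_smul]
  have : hermForm n F 2 z d + hermForm n F 2 z d = 0 := by
    linear_combination (hermForm n F 2 z d) * char2 hF
  rw [this, zero_smul, add_zero]

theorem mem_K_of (hF : Fintype.card F = 2 ^ 2) (g : Matrix.GeneralLinearGroup (Fin n) F)
    (d : Fin n → F) (ht : IsTv 2 g d 1)
    (hfw : ∀ v, X D v → X D ((g : Matrix (Fin n) (Fin n) F) *ᵥ v)) : g ∈ K D := by
  have hg : ∀ z, (g : Matrix (Fin n) (Fin n) F) *ᵥ z = z + hermForm n F 2 z d • d :=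
    fun z => by rw [ht.2.2 z, one_mul]
  refine ⟨⟨ht.isPr.mem_GU hF, ht.mem_SL⟩, fun v => ⟨fun hv => ?_, hfw v⟩⟩
  have := hfw _ hv
  rwa [invol hF g d ht.1 hg] at this

theorem UD.fwd (hF : Fintype.card F = 2 ^ 2) (h : UD D) (a b : Fin t) (hab : a ≠ b)
    (xa xb : Fin n → F) (hxa : xa ∈ D a) (hxb : xb ∈ D b)
    (ha1 : hermForm n F 2 xa xa = 1) (hb1 : hermForm n F 2 xb xb = 1) (v : Fin n → F)
    (hv : v ∈ D a) (hvv : hermForm n F 2 v v ≠ 0) :
    X D (v + hermForm n F 2 v (xa + xb) • (xa + xb)) := by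
  rw [add_right hF, h.orth a b hab v hv xb hxb, add_zero]
  by_cases h0 : hermForm n F 2 v xa = 0
  · rw [h0, zero_smul, add_zero]; exact ⟨a, hv, hvv⟩
  · have e := h.prop hF a xa v hxa hv ha1 hvv h0
    obtain ⟨c, hc⟩ : ∃ c, c = hermForm n F 2 v xa := ⟨_, rfl⟩
    rw [← hc] at e h0 ⊢
    have e2 : v + c • (xa + xb) = c • xb := by
      rw [e, smul_add, ← add_assoc, ← add_smul]
      have : c + c = 0 := by linear_combination c * char2 hF
      rw [this, zero_smul, zero_add]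
    rw [e2]
    refine ⟨b, (D b).smul_mem _ hxb, ?_⟩
    rw [self_smul, hb1, mul_one]
    exact pow_ne_zero _ h0

theorem UD.fwd_all (hF : Fintype.card F = 2 ^ 2) (h : UD D) (a b : Fin t) (hab : a ≠ b)
    (xa xb : Fin n → F) (hxa : xa ∈ D a) (hxb : xb ∈ D b)
    (ha1 : hermForm n F 2 xa xa = 1) (hb1 : hermForm n F 2 xb xb = 1) (v : Fin n → F)
    (hv : X D v) : X D (v + hermForm n F 2 v (xa + xb) • (xa + xb)) := by
  obtain ⟨i, hi, hvv⟩ := hv
  by_cases hia : i = a
  · subst hia; exact h.fwd hF i b hab xa xb hxa hxb ha1 hb1 v hi hvv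
  by_cases hib : i = b
  · subst hib
    rw [add_comm xa xb]
    exact h.fwd hF i a hab.symm xb xa hxb hxa hb1 ha1 v hi hvv
  · rw [add_right hF, h.orth i a hia v hi xa hxa, h.orth i b hib v hi xb hxb, add_zero, zero_smul,
      add_zero]
    exact ⟨i, hi, hvv⟩

theorem iso2 (hF : Fintype.card F = 2 ^ 2) (u v : Fin n → F) (huv : hermForm n F 2 u v = 0) :
    hermForm n F 2 (u + v) (u + v) = hermForm n F 2 u u + hermForm n F 2 v v := by
  have hvu : hermForm n F 2 v u = 0 := by rw [← conj hF, huv]; norm_num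
  rw [add_left, add_right hF, add_right hF, huv, hvu, add_zero, zero_add]

theorem UD.main (hF : Fintype.card F = 2 ^ 2) (h : UD D) (ht : 4 ≤ t) :
    Cfsg.Geo.decompositionStabilizer D ⊓ (GU n F 2 ⊓ Cfsg.Geo.specialLinear (Fin n) F) < K D ∧
      K D < GU n F 2 ⊓ Cfsg.Geo.specialLinear (Fin n) F := by
  obtain ⟨a, b, c, e, hab, hac, hae, hbc, hbe, hce⟩ : ∃ a b c e : Fin t,
      a ≠ b ∧ a ≠ c ∧ a ≠ e ∧ b ≠ c ∧ b ≠ e ∧ c ≠ e :=
    ⟨⟨0, by omega⟩, ⟨1, by omega⟩, ⟨2, by omega⟩, ⟨3, by omega⟩, by simp [Fin.ext_iff],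
      by simp [Fin.ext_iff], by simp [Fin.ext_iff], by simp [Fin.ext_iff], by simp [Fin.ext_iff],
      by simp [Fin.ext_iff]⟩
  obtain ⟨xa, hxa, ha1⟩ := h.exists_one hF a
  obtain ⟨xb, hxb, hb1⟩ := h.exists_one hF b
  obtain ⟨xc, hxc, hc1⟩ := h.exists_one hF c
  obtain ⟨xe, hxe, he1⟩ := h.exists_one hF e
  have h2 := char2 hF
  have oab := h.orth a b hab xa hxa xb hxb
  have oac := h.orth a c hac xa hxa xc hxc
  have oae := h.orth a e hae xa hxa xe hxe
  have obc := h.orth b c hbc xb hxb xc hxc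
  have obe := h.orth b e hbe xb hxb xe hxe
  have oce := h.orth c e hce xc hxc xe hxe
  have ocb := h.orth c b hbc.symm xc hxc xb hxb
  have oeb := h.orth e b hbe.symm xe hxe xb hxb
  have oec := h.orth e c hce.symm xe hxe xc hxc
  constructor
  · have hd : hermForm n F 2 (xa + xb) (xa + xb) = 0 := by
      rw [iso2 hF _ _ oab, ha1, hb1, h2]
    obtain ⟨g, hg⟩ := exists_tv hF (xa + xb) 1 hd (by rw [one_pow]; exact h2)
    have hgz : ∀ z, (g : Matrix (Fin n) (Fin n) F) *ᵥ z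
        = z + hermForm n F 2 z (xa + xb) • (xa + xb) := fun z => by rw [hg.2.2 z, one_mul]
    rw [SetLike.lt_iff_le_and_exists]
    refine ⟨stab_le, g, mem_K_of hF g _ hg (fun v hv => by
      rw [hgz]; exact h.fwd_all hF a b hab xa xb hxa hxb ha1 hb1 v hv), ?_⟩
    rintro ⟨⟨σ, hσ⟩, -⟩
    have e1 : (g : Matrix (Fin n) (Fin n) F) *ᵥ xa ∈ D (σ a) := by
      rw [← hσ a]; exact ⟨xa, hxa, rfl⟩
    obtain ⟨y, hy, hyx, hy0⟩ := exKU (q := 2) (D a) ⊥ (k := 1) (fun _ => xa)
      (by rw [finrank_bot, h.fr]; omega)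
    have hy0' : y ≠ 0 := fun hh => hy0 (by rw [hh]; exact Submodule.zero_mem _)
    have e2 : (g : Matrix (Fin n) (Fin n) F) *ᵥ y ∈ D (σ a) := by
      rw [← hσ a]; exact ⟨y, hy, rfl⟩
    rw [hgz, add_right hF, hyx 0, h.orth a b hab y hy xb hxb, add_zero, zero_smul, add_zero] at e2
    rw [hgz, add_right hF, ha1, oab, add_zero, one_smul] at e1
    by_cases hp : σ a = a
    · rw [hp] at e1
      have := h.orth a b hab _ e1 xb hxb
      rw [add_left, add_left, oab, hb1, zero_add, zero_add] at this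
      exact one_ne_zero this
    · obtain ⟨z, hz, hzy⟩ := h.nd a y hy hy0'
      exact hzy (h.orth a (σ a) (Ne.symm hp) z hz y e2)
  · have hcross : hermForm n F 2 (xa + xb) (xc + xe) = 0 := by
      rw [add_left, add_right hF, add_right hF, oac, oae, obc, obe, add_zero, add_zero]
    have hd : hermForm n F 2 (xa + xb + (xc + xe)) (xa + xb + (xc + xe)) = 0 := by
      rw [iso2 hF _ _ hcross, iso2 hF _ _ oab, iso2 hF _ _ oce, ha1, hb1, hc1, he1, h2, add_zero]
    obtain ⟨g, hg⟩ := exists_tv hF (xa + xb + (xc + xe)) 1 hd (by rw [one_pow]; exact h2)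
    rw [SetLike.lt_iff_le_and_exists]
    refine ⟨fun k hk => hk.1, g, ⟨hg.isPr.mem_GU hF, hg.mem_SL⟩, ?_⟩
    intro hK
    obtain ⟨j, hj, -⟩ := (hK.2 xa).2 ⟨a, hxa, by rw [ha1]; exact one_ne_zero⟩
    have hxd : hermForm n F 2 xa (xa + xb + (xc + xe)) = 1 := by
      rw [add_right hF, add_right hF, add_right hF, ha1, oab, oac, oae, add_zero, add_zero,
        add_zero]
    rw [hg.2.2, one_mul, hxd, one_smul] at hj
    by_cases hjb : j = b
    · have hjc : j ≠ c := by rw [hjb]; exact hbc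
      have := h.orth j c hjc _ hj xc hxc
      rw [add_left, add_left, add_left, add_left, oac, obc, hc1, oec] at this
      simp at this
    · have := h.orth j b hjb _ hj xb hxb
      rw [add_left, add_left, add_left, add_left, oab, hb1, ocb, oeb] at this
      simp at this

omit [Fintype F] in
theorem t_eq (hind : iSupIndep D) (htop : iSup D = ⊤) (hfr : ∀ i, finrank F (D i) = 2) :
    t * 2 = n := by
  classical
  have hint := DirectSum.isInternal_submodule_of_iSupIndep_of_iSup_eq_top hind htop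
  have e := LinearEquiv.ofBijective (DirectSum.coeLinearMap D) hint
  have h1 := e.finrank_eq
  rw [Module.finrank_directSum, Module.finrank_fin_fun] at h1
  simp only [hfr, Finset.sum_const, Finset.card_univ, Fintype.card_fin, smul_eq_mul] at h1
  exact h1

theorem result {F : Type*} [Field F] [Fintype F] (n : ℕ) (hF : Fintype.card F = 4) (hn : 13 ≤ n) {t : ℕ} (D : Fin t → Submodule F (Fin n → F)) (hD : Cfsg.Geo.IsNondegenerateMDecomposition (Cfsg.hermForm n F 2) 2 D) : ∃ K : Subgroup (Matrix.GeneralLinearGroup (Fin n) F), Cfsg.Geo.decompositionStabilizer D ⊓ (Cfsg.GU n F 2 ⊓ Cfsg.Geo.specialLinear (Fin n) F) < K ∧ K < (Cfsg.GU n F 2 ⊓ Cfsg.Geo.specialLinear (Fin n) F) := by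
  have hF' : Fintype.card F = 2 ^ 2 := by rw [hF]; norm_num
  have ht := t_eq hD.decomp.indep hD.decomp.iSup_eq_top hD.decomp.finrank_eq
  have hU : UD D := ⟨fun i w hw hw0 => (hD.nondegenerate i w hw hw0).1, hD.orthogonal,
    hD.decomp.finrank_eq⟩
  exact ⟨K D, hU.main hF' (by omega)⟩

end Cfsg.Agent.S5656
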