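import Cfsg.Statements.S5657
import Cfsg.Agent.Lib.Helper5_USwap

set_option autoImplicit false

open Cfsg

namespace Cfsg.Agent.S5657

open Module Matrix Cfsg.Agent.Lib.Helper5_UField Cfsg.Agent.Lib.Helper5_UForm
  Cfsg.Agent.Lib.Helper5_UGroup Cfsg.Agent.Lib.Helper5_ULin Cfsg.Agent.Lib.Helper5_UTrace
  Cfsg.Agent.Lib.Helper5_GLPar Cfsg.Agent.Lib.Helper5_UGen Cfsg.Agent.Lib.Helper5_USub
  Cfsg.Agent.Lib.Helper5_USieg Cfsg.Agent.Lib.Helper5_UPair Cfsg.Agent.Lib.Helper5_USwap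

variable {F : Type*} [Field F] {n : ℕ}

theorem map_eq (g : Matrix.GeneralLinearGroup (Fin n) F) (X Y : Submodule F (Fin n → F))
    (hfr : finrank F X = finrank F Y)
    (h : ∀ x ∈ X, (g : Matrix (Fin n) (Fin n) F) *ᵥ x ∈ Y) :
    X.map (Matrix.toLin' (g : Matrix (Fin n) (Fin n) F)) = Y := by
  have hinj : Function.Injective (Matrix.toLin' (g : Matrix (Fin n) (Fin n) F)) := by
    intro x y hxy
    rw [Matrix.toLin'_apply, Matrix.toLin'_apply] at hxy
    rw [← gl_inv_mulVec g x, hxy, gl_inv_mulVec]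
  apply Submodule.eq_of_le_of_finrank_eq
  · rintro _ ⟨x, hx, rfl⟩
    rw [Matrix.toLin'_apply]
    exact h x hx
  · rw [← hfr]
    exact (LinearEquiv.finrank_eq (Submodule.equivMapOfInjective _ hinj X)).symm

theorem mem_same (D : Fin 2 → Submodule F (Fin n → F)) (g : Matrix.GeneralLinearGroup (Fin n) F)
    (h0 : ∀ x ∈ D 0, (g : Matrix (Fin n) (Fin n) F) *ᵥ x ∈ D 0)
    (h1 : ∀ x ∈ D 1, (g : Matrix (Fin n) (Fin n) F) *ᵥ x ∈ D 1) :
    g ∈ Cfsg.Geo.decompositionStabilizer D := by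
  refine ⟨1, fun i => ?_⟩
  fin_cases i
  · exact map_eq g _ _ rfl h0
  · exact map_eq g _ _ rfl h1

theorem mem_swap (D : Fin 2 → Submodule F (Fin n → F))
    (hfr : finrank F (D 0) = finrank F (D 1)) (g : Matrix.GeneralLinearGroup (Fin n) F)
    (h0 : ∀ x ∈ D 0, (g : Matrix (Fin n) (Fin n) F) *ᵥ x ∈ D 1)
    (h1 : ∀ x ∈ D 1, (g : Matrix (Fin n) (Fin n) F) *ᵥ x ∈ D 0) :
    g ∈ Cfsg.Geo.decompositionStabilizer D := by
  refine ⟨Equiv.swap 0 1, fun i => ?_⟩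
  fin_cases i
  · exact map_eq g _ _ hfr h0
  · exact map_eq g _ _ hfr.symm h1

theorem dich {W W' : Submodule F (Fin n → F)} (g : Matrix.GeneralLinearGroup (Fin n) F)
    (Z : Submodule F (Fin n → F))
    (hZ : ∀ β, (g : Matrix (Fin n) (Fin n) F) *ᵥ β ∈ Z → β ∈ W ∨ β ∈ W') :
    (∀ β, (g : Matrix (Fin n) (Fin n) F) *ᵥ β ∈ Z → β ∈ W) ∨
    (∀ β, (g : Matrix (Fin n) (Fin n) F) *ᵥ β ∈ Z → β ∈ W') := by
  by_contra hc
  push Not at hc
  obtain ⟨⟨β₁, h1, h1'⟩, ⟨β₂, h2, h2'⟩⟩ := hc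
  have b1 : β₁ ∈ W' := (hZ β₁ h1).resolve_left h1'
  have b2 : β₂ ∈ W := (hZ β₂ h2).resolve_right h2'
  rcases hZ (β₁ + β₂) (by rw [mulVec_add]; exact Z.add_mem h1 h2) with h3 | h3
  · exact h1' (by have := W.sub_mem h3 b2; rwa [add_sub_cancel_right] at this)
  · exact h2' (by have := W'.sub_mem h3 b1; rwa [add_sub_cancel_left] at this)

theorem all_in [Fintype F] {q : ℕ} (hF : Fintype.card F = q ^ 2) {W W' : Submodule F (Fin n → F)}
    (h : UPair q W W') (hW' : 1 ≤ finrank F W') (g : Matrix.GeneralLinearGroup (Fin n) F)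
    (h1 : ∀ β, (g : Matrix (Fin n) (Fin n) F) *ᵥ β ∈ W → β ∈ W)
    (h2 : ∀ β, (g : Matrix (Fin n) (Fin n) F) *ᵥ β ∈ W' → β ∈ W) : False := by
  obtain ⟨r, hr, -, hr0⟩ := exKU (q := q) W' ⊥ (k := 0) Fin.elim0 (by rw [finrank_bot]; omega)
  apply hr0
  have hall : ∀ v, v ∈ W := by
    intro v
    obtain ⟨u, hu, u', hu', hsum⟩ := h.sup ((g : Matrix (Fin n) (Fin n) F) *ᵥ v)
    have e1 := h1 (((g⁻¹ : Matrix.GeneralLinearGroup (Fin n) F) :
      Matrix (Fin n) (Fin n) F) *ᵥ u) (by rw [gl_mulVec_inv]; exact hu)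
    have e2 := h2 (((g⁻¹ : Matrix.GeneralLinearGroup (Fin n) F) :
      Matrix (Fin n) (Fin n) F) *ᵥ u') (by rw [gl_mulVec_inv]; exact hu')
    have : v = ((g⁻¹ : Matrix.GeneralLinearGroup (Fin n) F) :
      Matrix (Fin n) (Fin n) F) *ᵥ u + ((g⁻¹ : Matrix.GeneralLinearGroup (Fin n) F) :
      Matrix (Fin n) (Fin n) F) *ᵥ u' := by
      rw [← mulVec_add, ← hsum, gl_inv_mulVec]
    rw [this]
    exact W.add_mem e1 e2
  rw [h.inf hF r (hall r) hr]
  exact Submodule.zero_mem _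

theorem main [Fintype F] {q : ℕ} (hF : Fintype.card F = q ^ 2) (hn : 13 ≤ n) (k : ℕ) (hk : 7 ≤ k)
    (D : Fin 2 → Submodule F (Fin n → F)) (h : UPair q (D 0) (D 1))
    (h0 : finrank F (D 0) = k) (h1 : finrank F (D 1) = k) :
    Cfsg.Geo.IsMaximalIn (Cfsg.GU n F q ⊓ Cfsg.Geo.specialLinear (Fin n) F)
      (Cfsg.Geo.decompositionStabilizer D ⊓
        (Cfsg.GU n F q ⊓ Cfsg.Geo.specialLinear (Fin n) F)) := by
  classical
  obtain ⟨ε, hε0, hε⟩ := exists_skew hF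
  have hεt : ε + ε ^ q = 0 := by rw [hε]; ring
  constructor
  · refine lt_of_le_of_ne inf_le_right ?_
    intro heq
    obtain ⟨w', hw', -, hw'0⟩ := exKU (q := q) (D 1) ⊥ (k := 0) Fin.elim0 (by
      rw [finrank_bot]; omega)
    have hw'0' : w' ≠ 0 := fun hh => hw'0 (by rw [hh]; exact Submodule.zero_mem _)
    have hw'W : w' ∉ D 0 := fun hh => hw'0' (h.inf hF w' hh hw')
    obtain ⟨w0, hw0, hw0w'⟩ := sepU hF (D 0) w' hw'W
    have hw0W : w0 ∈ D 0 := h.max hF w0 (fun s hs => zero_swap hF (hw0 s hs))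
    obtain ⟨t, ht⟩ := Cfsg.Agent.Lib.Helper5_UGen.exists_tv hF w' ε (h.ti' w' hw' w' hw') hεt
    have hmem : t ∈ Cfsg.Geo.decompositionStabilizer D ⊓
        (Cfsg.GU n F q ⊓ Cfsg.Geo.specialLinear (Fin n) F) := by
      rw [heq]
      exact ⟨ht.isPr.mem_GU hF, ht.mem_SL⟩
    obtain ⟨σ, hσ⟩ := hmem.1
    have h3 : (t : Matrix (Fin n) (Fin n) F) *ᵥ w0 ∈ D (σ 0) := by
      rw [← hσ 0]
      exact ⟨w0, hw0W, rfl⟩
    rw [ht.2.2, hw0w', mul_one] at h3
    have hcases : σ 0 = 0 ∨ σ 0 = 1 := by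
      generalize σ 0 = k
      fin_cases k <;> simp
    rcases hcases with hc | hc
    · rw [hc] at h3
      apply hw'W
      have := (D 0).sub_mem h3 hw0W
      rw [add_sub_cancel_left] at this
      exact ((D 0).smul_mem_iff hε0).1 this
    · rw [hc] at h3
      have h4 : w0 ∈ D 1 := by
        have := (D 1).sub_mem h3 ((D 1).smul_mem ε hw')
        rwa [add_sub_cancel_right] at this
      have := h.inf hF w0 hw0W h4
      rw [this, zero_left] at hw0w'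
      exact zero_ne_one hw0w'
  · intro M hle hMK
    by_cases hMH : M ≤ Cfsg.Geo.decompositionStabilizer D ⊓
        (Cfsg.GU n F q ⊓ Cfsg.Geo.specialLinear (Fin n) F)
    · exact Or.inl (le_antisymm hMH hle)
    right
    have hM : ∀ a ∈ D 0, ∀ b ∈ D 1, hermForm n F q b a = 0 → ∀ g, IsSg q g a b 0 → g ∈ M := by
      intro a ha b hb hba g hg
      obtain ⟨g', hg'G, hg'S, hg'⟩ := h.sg_mem hF a b ha hb hba
      have : g = g' := gl_ext _ _ (fun v => by rw [hg v, hg' v])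
      rw [this]
      apply hle
      refine ⟨mem_same D g' ?_ ?_, hg'G, hg'S⟩
      · intro z hz
        rw [hg' z, h.ti z hz a ha, zero_smul, add_zero, mul_zero, zero_smul, add_zero]
        exact (D 0).sub_mem hz ((D 0).smul_mem _ ha)
      · intro z hz
        rw [hg' z, h.ti' z hz b hb, zero_smul, sub_zero, zero_mul, zero_smul, add_zero]
        exact (D 1).add_mem hz ((D 1).smul_mem _ hb)
    have hM' : ∀ a ∈ D 1, ∀ b ∈ D 0, hermForm n F q b a = 0 → ∀ g, IsSg q g a b 0 → g ∈ M := by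
      intro a ha b hb hba g hg
      obtain ⟨g', hg'G, hg'S, hg'⟩ := h.symm.sg_mem hF a b ha hb hba
      have : g = g' := gl_ext _ _ (fun v => by rw [hg v, hg' v])
      rw [this]
      apply hle
      refine ⟨mem_same D g' ?_ ?_, hg'G, hg'S⟩
      · intro z hz
        rw [hg' z, h.ti z hz b hb, zero_smul, sub_zero, zero_mul, zero_smul, add_zero]
        exact (D 0).add_mem hz ((D 0).smul_mem _ hb)
      · intro z hz
        rw [hg' z, h.ti' z hz a ha, zero_smul, add_zero, mul_zero, zero_smul, add_zero]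
        exact (D 1).sub_mem hz ((D 1).smul_mem _ ha)
    obtain ⟨π, hπG, hπS, hπ0, hπ1⟩ := Cfsg.Agent.Lib.Helper5_USwap.UPair.exists_swap hF h k (by omega) h0 h1
    have hπM : π ∈ M := hle ⟨mem_swap D (by rw [h0, h1]) π hπ0 hπ1, hπG, hπS⟩
    have htrans : ∀ (X Y : Submodule F (Fin n → F)),
        (∀ x ∈ Y, (π : Matrix (Fin n) (Fin n) F) *ᵥ x ∈ X) →
        (∀ x ∈ X, Sm q M x) → ∀ x ∈ Y, Sm q M x := by
      intro X Y hXY hX x hx
      have := (hX _ (hXY x hx)).map π⁻¹ (M.inv_mem hπM) (Subgroup.inv_mem _ hπG)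
      rwa [gl_inv_mulVec] at this
    obtain ⟨g, hgM, hgO⟩ := SetLike.not_le_iff_exists.1 hMH
    have hgG : g ∈ Cfsg.GU n F q := (hMK hgM).1
    obtain ⟨β, hβ0, hβ1, hβ⟩ : ∃ β, β ∉ D 0 ∧ β ∉ D 1 ∧
        ((g : Matrix (Fin n) (Fin n) F) *ᵥ β ∈ D 1 ∨ (g : Matrix (Fin n) (Fin n) F) *ᵥ β ∈ D 0) := by
      by_contra hcon
      push Not at hcon
      have hZ0 : ∀ β, (g : Matrix (Fin n) (Fin n) F) *ᵥ β ∈ D 0 → β ∈ D 0 ∨ β ∈ D 1 := by
        intro β hβ
        by_contra hc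
        push Not at hc
        exact (hcon β hc.1 hc.2).2 hβ
      have hZ1 : ∀ β, (g : Matrix (Fin n) (Fin n) F) *ᵥ β ∈ D 1 → β ∈ D 0 ∨ β ∈ D 1 := by
        intro β hβ
        by_contra hc
        push Not at hc
        exact (hcon β hc.1 hc.2).1 hβ
      apply hgO
      have hinv : g⁻¹ ∈ Cfsg.Geo.decompositionStabilizer D := by
        rcases dich g (D 0) hZ0 with c0 | c0 <;> rcases dich g (D 1) hZ1 with c1 | c1
        · exact (all_in hF h (by omega) g c0 c1).elim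
        · exact mem_same D _ (fun x hx => c0 _ (by rw [gl_mulVec_inv]; exact hx))
            (fun x hx => c1 _ (by rw [gl_mulVec_inv]; exact hx))
        · exact mem_swap D (by rw [h0, h1]) _ (fun x hx => c0 _ (by rw [gl_mulVec_inv]; exact hx))
            (fun x hx => c1 _ (by rw [gl_mulVec_inv]; exact hx))
        · exact (all_in hF h.symm (by omega) g c1 c0).elim
      have := Subgroup.inv_mem _ hinv
      rw [inv_inv] at this
      exact ⟨this, hMK hgM⟩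
    apply le_antisymm hMK
    apply SU_le_of_tv hF (by omega) M
    intro t x c ht
    rcases hβ with hβ | hβ
    · obtain ⟨a, haW, ha0, κ, hκ, hκt, haM⟩ := h.exists_tv hF (by omega) M hM g hgM hgG β hβ0 hβ1 hβ
      have f0 := h.fill hF (by omega) M hM a haW ha0 κ hκ hκt haM
      exact h.closure hF M f0 (htrans _ _ hπ1 f0) x t c ht
    · obtain ⟨a, haW, ha0, κ, hκ, hκt, haM⟩ :=
        h.symm.exists_tv hF (by omega) M hM' g hgM hgG β hβ1 hβ0 hβ
      have f1 := h.symm.fill hF (by omega) M hM' a haW ha0 κ hκ hκt haM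
      exact h.closure hF M (htrans _ _ hπ0 f1) f1 x t c ht

theorem result {F : Type*} [Field F] [Fintype F] (n q : ℕ) (hF : Fintype.card F = q ^ 2) (hn : 13 ≤ n) (k : ℕ) (hk : 2 * k = n) (D : Fin 2 → Submodule F (Fin n → F)) (hD : Cfsg.Geo.IsMDecomposition k D) (hts : ∀ i, Cfsg.Geo.IsTotallySingularFor (Cfsg.hermForm n F q) (D i)) : Cfsg.Geo.IsMaximalIn (Cfsg.GU n F q ⊓ Cfsg.Geo.specialLinear (Fin n) F) (Cfsg.Geo.decompositionStabilizer D ⊓ (Cfsg.GU n F q ⊓ Cfsg.Geo.specialLinear (Fin n) F)) := by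
  apply main hF hn k (by omega) D _ (hD.finrank_eq 0) (hD.finrank_eq 1)
  refine ⟨hts 0, hts 1, fun v => ?_⟩
  have hle : iSup D ≤ D 0 ⊔ D 1 := by
    apply iSup_le
    intro i
    fin_cases i
    · exact le_sup_left
    · exact le_sup_right
  have hv : v ∈ D 0 ⊔ D 1 := hle (by rw [hD.iSup_eq_top]; trivial)
  obtain ⟨w, hw, w', hw', hsum⟩ := Submodule.mem_sup.1 hv
  exact ⟨w, hw, w', hw', hsum.symm⟩

end Cfsg.Agent.S5657
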