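import Cfsg.Statements.S5660
import Cfsg.Agent.Lib.Helper5_USub
import Cfsg.Agent.Lib.Helper5_SubfGL

set_option autoImplicit false

open Cfsg

namespace Cfsg.Agent.S5660

open Matrix Cfsg.Agent.Lib.Helper5_UField Cfsg.Agent.Lib.Helper5_UForm
  Cfsg.Agent.Lib.Helper5_UGroup Cfsg.Agent.Lib.Helper5_ULin Cfsg.Agent.Lib.Helper5_UTrace
  Cfsg.Agent.Lib.Helper5_GLPar Cfsg.Agent.Lib.Helper5_UGen Cfsg.Agent.Lib.Helper5_USub
  Cfsg.Agent.Lib.Helper5_SubfGL

variable {F : Type*} [Field F] [Fintype F] {q n : ℕ}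

theorem mem_iff (hF : Fintype.card F = q ^ 2) (F₀ : Subfield F)
    (hcard : Fintype.card F = Nat.card F₀ ^ 2) (x : F) : x ∈ F₀ ↔ x ^ q = x := by
  classical
  have hq : Nat.card F₀ = q := by
    rw [hF] at hcard
    exact (Nat.pow_left_injective (n := 2) (by omega) hcard).symm
  have h1 : ∀ x ∈ F₀, x ^ q = x := by
    intro x hx
    have : Fintype F₀ := Fintype.ofFinite _
    have h := FiniteField.pow_card (⟨x, hx⟩ : F₀)
    rw [← Nat.card_eq_fintype_card, hq] at h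
    exact congrArg Subtype.val h
  have hsub : (F₀ : Set F) ⊆ {c : F | c ^ q = c} := h1
  have heq : (F₀ : Set F) = {c : F | c ^ q = c} := by
    apply Set.eq_of_subset_of_ncard_le hsub _ (Set.toFinite _)
    rw [← Nat.card_coe_set_eq, ← Nat.card_coe_set_eq]
    have := card_fixed hF
    have h3 : Nat.card ↥({c : F | c ^ q = c}) = q := this
    have h4 : Nat.card ↥(F₀ : Set F) = q := hq
    rw [h3, h4]
  constructor
  · exact h1 x
  · intro hx
    have : x ∈ ({c : F | c ^ q = c} : Set F) := hx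
    rw [← heq] at this
    exact this

theorem exists_l (hF : Fintype.card F = q ^ 2) : ∃ l : F, l ^ q ≠ l := by
  by_contra hc
  push Not at hc
  apply sig_ne hF
  ext x
  rw [sig_apply, hc]
  rfl

theorem rat (hF : Fintype.card F = q ^ 2) (F₀ : Subfield F)
    (hcard : Fintype.card F = Nat.card F₀ ^ 2) (ζ : F) (hζ0 : ζ ≠ 0) (hζ : ζ + ζ ^ q = 0)
    (P : Matrix.GeneralLinearGroup (Fin n) F)
    (hP : Cfsg.Geo.IsFormRationalStructure (Cfsg.hermForm n F q) F₀ ζ P)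
    (halt : ∀ u : Fin n → F, (∀ i, u i ∈ F₀) → Cfsg.hermForm n F q
      (Matrix.mulVec (P : Matrix (Fin n) (Fin n) F) u)
      (Matrix.mulVec (P : Matrix (Fin n) (Fin n) F) u) = 0) (l : F) (hl : l ^ q ≠ l) :
    Rat q (V0 F₀ P) ζ l := by
  have hm := mem_iff hF F₀ hcard
  refine ⟨⟨0, fun i => F₀.zero_mem, by rw [mulVec_zero]⟩, ?_, ?_, ?_, ?_, ?_, hζ0, hζ, hl⟩
  · rintro x ⟨u, hu, rfl⟩ y ⟨v, hv, rfl⟩
    exact ⟨u + v, fun i => F₀.add_mem (hu i) (hv i), by rw [mulVec_add]⟩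
  · rintro c hc x ⟨u, hu, rfl⟩
    exact ⟨c • u, fun i => F₀.mul_mem ((hm c).2 hc) (hu i), by rw [mulVec_smul]⟩
  · rintro x ⟨u, hu, rfl⟩ y ⟨v, hv, rfl⟩
    exact (hm _).1 (hP u v hu hv)
  · rintro x ⟨u, hu, rfl⟩
    exact halt u hu
  · intro x
    obtain ⟨u, hu⟩ : ∃ u, u = ((P⁻¹ : Matrix.GeneralLinearGroup (Fin n) F) :
      Matrix (Fin n) (Fin n) F) *ᵥ x := ⟨_, rfl⟩
    have hd : l - l ^ q ≠ 0 := sub_ne_zero.2 (Ne.symm hl)
    have hdq : (l - l ^ q) ^ q = -(l - l ^ q) := by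
      rw [sub_pow hF, pow_pow hF]; ring
    have h2 : ∀ i, ((u i - u i ^ q) / (l - l ^ q)) ^ q = (u i - u i ^ q) / (l - l ^ q) := by
      intro i
      rw [div_pow, hdq, sub_pow hF, pow_pow hF, div_neg, ← neg_div]
      congr 1
      ring
    have h1 : ∀ i, (u i - l * ((u i - u i ^ q) / (l - l ^ q))) ^ q =
        u i - l * ((u i - u i ^ q) / (l - l ^ q)) := by
      intro i
      rw [sub_pow hF, mul_pow, h2]
      field_simp
      ring
    refine ⟨(P : Matrix (Fin n) (Fin n) F) *ᵥ (fun i => u i - l * ((u i - u i ^ q) / (l - l ^ q))),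
      ⟨_, fun i => (hm _).2 (h1 i), rfl⟩,
      (P : Matrix (Fin n) (Fin n) F) *ᵥ (fun i => (u i - u i ^ q) / (l - l ^ q)),
      ⟨_, fun i => (hm _).2 (h2 i), rfl⟩, ?_⟩
    rw [← mulVec_smul, ← mulVec_add]
    have : (fun i => u i - l * ((u i - u i ^ q) / (l - l ^ q))) +
        l • (fun i => (u i - u i ^ q) / (l - l ^ q)) = u := by
      funext i
      simp
    rw [this, hu, gl_mulVec_inv]

theorem result {F : Type*} [Field F] [Fintype F] (n q : ℕ) (hF : Fintype.card F = q ^ 2) (hn : 13 ≤ n) (heven : Even n) (F₀ : Subfield F) (hcard : Fintype.card F = Nat.card F₀ ^ 2) (ζ : F) (hζ0 : ζ ≠ 0) (hζ : ζ + ζ ^ q = 0) (P : Matrix.GeneralLinearGroup (Fin n) F) (hP : Cfsg.Geo.IsFormRationalStructure (Cfsg.hermForm n F q) F₀ ζ P) (halt : ∀ u : Fin n → F, (∀ i, u i ∈ F₀) → Cfsg.hermForm n F q (Matrix.mulVec (P : Matrix (Fin n) (Fin n) F) u) (Matrix.mulVec (P : Matrix (Fin n) (Fin n) F) u) = 0) : Cfsg.Geo.IsMaximalIn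 (Cfsg.GU n F q ⊓ Cfsg.Geo.specialLinear (Fin n) F) (Cfsg.Geo.subfieldSubgroup F₀ P ⊓ (Cfsg.GU n F q ⊓ Cfsg.Geo.specialLinear (Fin n) F)) := by
  classical
  obtain ⟨l, hl⟩ := exists_l hF
  have R := rat hF F₀ hcard ζ hζ0 hζ P hP halt l hl
  have hm := mem_iff hF F₀ hcard
  -- basis vectors
  have hPe : ∀ j : Fin n, (P : Matrix (Fin n) (Fin n) F) *ᵥ Pi.single j 1 ∈ V0 F₀ P := by
    intro j
    refine ⟨Pi.single j 1, fun i => ?_, rfl⟩
    rw [Pi.single_apply]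
    split_ifs
    · exact F₀.one_mem
    · exact F₀.zero_mem
  have hPinj : ∀ u v : Fin n → F, (P : Matrix (Fin n) (Fin n) F) *ᵥ u =
      (P : Matrix (Fin n) (Fin n) F) *ᵥ v → u = v := by
    intro u v huv
    rw [← gl_inv_mulVec P u, huv, gl_inv_mulVec]
  obtain ⟨j0, j1, j2, h01, h02, h12⟩ : ∃ j0 j1 j2 : Fin n, j0 ≠ j1 ∧ j0 ≠ j2 ∧ j1 ≠ j2 :=
    ⟨⟨0, by omega⟩, ⟨1, by omega⟩, ⟨2, by omega⟩, by simp [Fin.ext_iff], by simp [Fin.ext_iff],
      by simp [Fin.ext_iff]⟩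
  have hv00 : (P : Matrix (Fin n) (Fin n) F) *ᵥ Pi.single j0 1 ≠ 0 := by
    intro hh
    have := hPinj _ 0 (by rw [hh, mulVec_zero])
    have h2 := congrFun this j0
    rw [Pi.single_eq_same] at h2
    exact one_ne_zero h2
  -- rational transvections lie in the subgroup
  have hH : ∀ y ∈ V0 F₀ P, Sm q (Cfsg.Geo.subfieldSubgroup F₀ P ⊓
      (Cfsg.GU n F q ⊓ Cfsg.Geo.specialLinear (Fin n) F)) y := by
    intro y hy t a ht
    refine ⟨mem_of_maps F₀ P t 1 one_ne_zero ?_, ht.isPr.mem_GU hF, ht.mem_SL⟩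
    intro x hx
    refine ⟨_, ?_, (one_smul _ _).symm⟩
    rw [ht.2.2]
    apply R.add x hx
    apply R.smul _ _ y hy
    rw [mul_pow, conj hF, R.skew hF x y hx hy]
    have := ht.2.1
    have h3 : a ^ q = -a := by linear_combination this
    rw [h3]; ring
  constructor
  · refine lt_of_le_of_ne inf_le_right ?_
    intro heq
    obtain ⟨x1, hx1def⟩ : ∃ x1, x1 = (P : Matrix (Fin n) (Fin n) F) *ᵥ Pi.single j0 1 := ⟨_, rfl⟩
    have hx1 : x1 ∈ V0 F₀ P := by rw [hx1def]; exact hPe j0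
    have hx10 : x1 ≠ 0 := by rw [hx1def]; exact hv00
    obtain ⟨x2, hx2, hgood, hx12⟩ : ∃ x2 ∈ V0 F₀ P, (∀ c : F, c ^ q = c → x2 ≠ c • x1) ∧
        hermForm n F q x1 x2 = 0 := by
      by_cases hα : hermForm n F q x1 ((P : Matrix (Fin n) (Fin n) F) *ᵥ Pi.single j1 1) = 0
      · refine ⟨_, hPe j1, fun c _ hh => ?_, hα⟩
        rw [hx1def, ← mulVec_smul] at hh
        have h2 := congrFun (hPinj _ _ hh) j1
        rw [Pi.single_eq_same, Pi.smul_apply, Pi.single_eq_of_ne (Ne.symm h01), smul_zero] at h2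
        exact one_ne_zero h2
      · obtain ⟨α1, hα1⟩ : ∃ α1, α1 = ζ * hermForm n F q x1
          ((P : Matrix (Fin n) (Fin n) F) *ᵥ Pi.single j1 1) := ⟨_, rfl⟩
        obtain ⟨α2, hα2⟩ : ∃ α2, α2 = ζ * hermForm n F q x1
          ((P : Matrix (Fin n) (Fin n) F) *ᵥ Pi.single j2 1) := ⟨_, rfl⟩
        have hα1q : α1 ^ q = α1 := by rw [hα1]; exact R.form _ hx1 _ (hPe j1)
        have hα2q : α2 ^ q = α2 := by rw [hα2]; exact R.form _ hx1 _ (hPe j2)
        have hα10 : α1 ≠ 0 := by rw [hα1]; exact mul_ne_zero hζ0 hα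
        have hsq : (α2 / α1) ^ q = α2 / α1 := by rw [div_pow, hα1q, hα2q]
        refine ⟨(P : Matrix (Fin n) (Fin n) F) *ᵥ Pi.single j2 1 -
          (α2 / α1) • ((P : Matrix (Fin n) (Fin n) F) *ᵥ Pi.single j1 1),
          R.sub hF _ _ (hPe j2) (R.smul _ hsq _ (hPe j1)), fun c _ hh => ?_, ?_⟩
        · rw [hx1def, ← mulVec_smul, ← mulVec_smul, ← mulVec_sub] at hh
          have h2 := congrFun (hPinj _ _ hh) j2
          rw [Pi.sub_apply, Pi.single_eq_same, Pi.smul_apply, Pi.smul_apply,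
            Pi.single_eq_of_ne (Ne.symm h12), Pi.single_eq_of_ne (Ne.symm h02), smul_zero, smul_zero,
            sub_zero] at h2
          exact one_ne_zero h2
        · rw [sub_right hF, smul_right, hsq]
          have : ζ * (hermForm n F q x1 ((P : Matrix (Fin n) (Fin n) F) *ᵥ Pi.single j2 1) -
              α2 / α1 * hermForm n F q x1 ((P : Matrix (Fin n) (Fin n) F) *ᵥ Pi.single j1 1)) = 0 := by
            rw [mul_sub, ← hα2, mul_left_comm, ← hα1, div_mul_cancel₀ _ hα10, sub_self]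
          exact (mul_eq_zero.1 this).resolve_left hζ0
    have hiso : hermForm n F q (x1 + l • x2) (x1 + l • x2) = 0 := by
      rw [add_left, add_right hF, add_right hF, smul_left, smul_left, smul_right, smul_right,
        R.alt x1 hx1, R.alt x2 hx2, R.skew hF x1 x2 hx1 hx2, hx12]
      ring
    obtain ⟨t, ht⟩ := exists_tv hF (x1 + l • x2) ζ hiso hζ
    have htH : t ∈ Cfsg.Geo.subfieldSubgroup F₀ P ⊓
        (Cfsg.GU n F q ⊓ Cfsg.Geo.specialLinear (Fin n) F) := by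
      rw [heq]
      exact ⟨ht.isPr.mem_GU hF, ht.mem_SL⟩
    obtain ⟨μ, hμ⟩ := maps_of_mem F₀ P t htH.1
    exact R.not_all hF x1 x2 hx1 hx2 hx10 hgood hx12 t ht μ hμ
  · intro M hle hM
    by_cases hMH : M ≤ Cfsg.Geo.subfieldSubgroup F₀ P ⊓
        (Cfsg.GU n F q ⊓ Cfsg.Geo.specialLinear (Fin n) F)
    · exact Or.inl (le_antisymm hMH hle)
    · right
      obtain ⟨g, hgM, hg⟩ := SetLike.not_le_iff_exists.1 hMH
      have hgG : g ∈ Cfsg.GU n F q := (hM hgM).1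
      have hMV : ∀ y ∈ V0 F₀ P, Sm q M y := fun y hy t a ht => hle (hH y hy t a ht)
      obtain ⟨v, hv, hne⟩ : ∃ v ∈ V0 F₀ P, ∀ μ : F, ∀ y ∈ V0 F₀ P,
          (g : Matrix (Fin n) (Fin n) F) *ᵥ v ≠ μ • y := by
        by_contra hc
        push Not at hc
        obtain ⟨μ0, hμ0, hu⟩ := R.uniform hF g hgG _ (hPe j0) hv00 hc
        exact hg ⟨mem_of_maps F₀ P g μ0 hμ0 hu, hM hgM⟩
      have hS : Sm q M ((g : Matrix (Fin n) (Fin n) F) *ᵥ v) := (hMV v hv).map g hgM hgG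
      obtain ⟨z1, hz1, z2, hz2, hz⟩ := R.dec ((g : Matrix (Fin n) (Fin n) F) *ᵥ v)
      have hziso : hermForm n F q (z1 + l • z2) (z1 + l • z2) = 0 := by
        rw [← hz, gu_form hgG, R.alt v hv]
      apply le_antisymm hM
      apply SU_le_of_tv hF (by omega) M
      intro t d c ht
      refine R.all hF M hMV z1 z2 hz1 hz2 (hz ▸ hS) (R.iso_pair hF z1 z2 hz1 hz2 hziso) ?_ ?_ d t c ht
      · intro h0
        apply hne l z2 hz2
        rw [hz, h0, zero_add]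
      · intro c' _ hh
        apply hne (1 + l * c') z1 hz1
        rw [hz, hh]
        module

end Cfsg.Agent.S5660
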