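import Mathlib
import Cfsg.Statements.S5944

set_option autoImplicit false
open Cfsg

namespace Cfsg.Agent.S5944

/-- For n ≠ 4, every proper subgroup of the symmetric group S_n other than the alternating group A_n has index at least n. -/
theorem result (n : ℕ) (hn : n ≠ 4) (H : Subgroup (Equiv.Perm (Fin n))) (hH : H ≠ ⊤) (hA : H ≠ alternatingGroup (Fin n)) : n ≤ H.index := by
  classical
  by_contra hlt
  push Not at hlt
  have h0 : H.index ≠ 0 := Subgroup.index_ne_zero_of_finite
  have h1 : H.index ≠ 1 := fun h => hH (Subgroup.index_eq_one.mp h)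
  have h2 : H.index ≠ 2 := fun h => hA (Equiv.Perm.eq_alternatingGroup_of_index_eq_two h)
  have h5 : 5 ≤ n := by omega
  by_cases hN : Nontrivial H.normalCore
  · have hle : alternatingGroup (Fin n) ≤ H.normalCore :=
      Equiv.Perm.alternatingGroup_le_of_normal (by simpa using h5) hN
    have hle2 : alternatingGroup (Fin n) ≤ H := hle.trans (Subgroup.normalCore_le H)
    have hd : H.index ∣ (alternatingGroup (Fin n)).index := Subgroup.index_dvd_of_le hle2
    haveI : Nontrivial (Fin n) := Fin.nontrivial_iff_two_le.mpr (by omega)
    rw [alternatingGroup.index_eq_two] at hd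
    have := (Nat.dvd_prime Nat.prime_two).mp hd
    omega
  · have hbot : H.normalCore = ⊥ := by
      by_contra hne
      exact hN ((Subgroup.nontrivial_iff_ne_bot _).mpr hne)
    rw [Subgroup.normalCore_eq_ker] at hbot
    have hinj : Function.Injective
        (MulAction.toPermHom (Equiv.Perm (Fin n)) (Equiv.Perm (Fin n) ⧸ H)) :=
      (MonoidHom.ker_eq_bot_iff _).mp hbot
    have hcard := Nat.card_le_card_of_injective _ hinj
    have hc1 : Nat.card (Equiv.Perm (Fin n)) = n.factorial := by
      rw [Nat.card_eq_fintype_card, Fintype.card_perm, Fintype.card_fin]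
    have hc2 : Nat.card (Equiv.Perm (Equiv.Perm (Fin n) ⧸ H)) = H.index.factorial := by
      rw [Nat.card_perm]
      rfl
    rw [hc1, hc2] at hcard
    have := Nat.factorial_lt (n := H.index) (m := n) (by omega)
    omega

end Cfsg.Agent.S5944
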